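import Cfsg.Statements.S0824
import Cfsg.Agent.Base
import Cfsg.Agent.H55.PermO
import Cfsg.Agent.H55.Transport
import Cfsg.Agent.H55.SL2Link
import Cfsg.Agent.H58.QStd
import Cfsg.Agent.H56.ReflGen

set_option autoImplicit false
open Cfsg

namespace Cfsg.Agent.S0824

open H55 H56 H58

/-- Five vectors whose pairwise sums are the non-singular vectors. -/
def u : Fin 5 → (Fin 1 ⊕ Fin 1) ⊕ Fin 2 → ZMod 2 :=
  ![Sum.elim (Sum.elim ![0] ![0]) ![0, 1], Sum.elim (Sum.elim ![0] ![0]) ![1, 0],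
    Sum.elim (Sum.elim ![0] ![1]) ![1, 1], Sum.elim (Sum.elim ![1] ![0]) ![1, 1],
    Sum.elim (Sum.elim ![0] ![0]) ![0, 0]]

/-- The form, explicitly. -/
def q (v : (Fin 1 ⊕ Fin 1) ⊕ Fin 2 → ZMod 2) : ZMod 2 :=
  v (.inl (.inl 0)) * v (.inl (.inr 0)) + (v (.inr 0) ^ 2 + v (.inr 0) * v (.inr 1) + v (.inr 1) ^ 2)

theorem q_eq (v : (Fin 1 ⊕ Fin 1) ⊕ Fin 2 → ZMod 2) : qMinus 1 (ZMod 2) 1 1 v = q v := by
  rw [qMinus_apply, q]
  simp

theorem polar_eq (v w : (Fin 1 ⊕ Fin 1) ⊕ Fin 2 → ZMod 2) :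
    QuadraticMap.polar (qMinus 1 (ZMod 2) 1 1) v w = q (v + w) - q v - q w := by
  simp only [QuadraticMap.polar, q_eq]

theorem Q_u : ∀ a b : Fin 5, a ≠ b → q (u a + u b) = 1 := by
  decide +kernel

theorem refl_u : ∀ a b : Fin 5, a ≠ b → ∀ i j : Fin 5,
    (u i + u j) - (q ((u a + u b) + (u i + u j)) - q (u a + u b) - q (u i + u j)) • (u a + u b) =
      u (Equiv.swap a b i) + u (Equiv.swap a b j) := by
  decide +kernel

theorem inj_u : ∀ i j k l : Fin 5, i ≠ j → u i + u j = u k + u l → k = i ∨ k = j := by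
  decide +kernel

theorem surj_u : ∀ x, q x ≠ 0 → ∃ a b, a ≠ b ∧ x = u a + u b := by
  decide +kernel

theorem span_u : ∀ x, ∃ a b c d, x = (u a + u b) + (u c + u d) := by
  decide +kernel

set_option synthInstance.maxSize 1024 in
theorem notExc : ∀ x y, x ≠ 0 → y ≠ 0 → x ≠ y → q x = 0 → q y = 0 → q (x + y) - q x - q y ≠ 0 := by
  decide +kernel

theorem main : Nonempty (O (qMinus 1 (ZMod 2) 1 1) ≃* Equiv.Perm (Fin 5)) := by
  refine perm_equiv_O (qMinus_nondeg 1 (by decide)) ?_ (by norm_num)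
    (fun a b => u a + u b) (fun a b hab i j => ?_) ?_ inj_u fun x hx => ?_
  · rintro ⟨-, -, x, y, hx, hy, hxy, Qx, Qy, hp⟩
    rw [q_eq] at Qx Qy
    rw [polar_eq] at hp
    exact notExc x y hx hy hxy Qx Qy hp
  · rw [refl_apply, q_eq, Q_u a b hab, inv_one, one_mul, polar_eq]
    exact refl_u a b hab i j
  · refine eq_top_iff.2 fun x _ => ?_
    obtain ⟨a, b, c, d, rfl⟩ := span_u x
    exact add_mem (Submodule.subset_span ⟨(a, b), rfl⟩) (Submodule.subset_span ⟨(c, d), rfl⟩)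
  · rw [q_eq] at hx
    exact surj_u x hx

/-- O⁻_4(2) ≅ S_5: the isometry group of the form x y + z_1² + z_1 z_2 + z_2² over the field with 2 elements is isomorphic to the symmetric group on 5 letters. -/
theorem result {F : Type*} [Field F] [Fintype F] (hF : Fintype.card F = 2) : Nonempty (↥(Cfsg.isometryGroup F (Cfsg.quadFormMinus 1 F 1 1)) ≃* Equiv.Perm (Fin 5)) := by
  obtain ⟨e⟩ := main
  have f : F ≃+* ZMod 2 := FiniteField.ringEquivOfCardEq (by rw [hF, ZMod.card])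
  have h := quadFormMinus_comp f 1 1 1
  rw [map_one] at h
  exact ⟨((isometryCongr f h).trans (toO _ (coe_qMinus 1 _ 1 1))).trans e⟩

end Cfsg.Agent.S0824
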