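import Cfsg.Agent.Base
import Cfsg.Statements.S0236
import Cfsg.Agent.H85.InvBasic

set_option autoImplicit false
open Cfsg

namespace Cfsg.Agent.S0236

/-- If x is an involution, the number of ordered pairs (u, v) of involutions with uv = x, plus one, equals the number of involutions in the centralizer of x. -/
theorem result {G : Type*} [Group G] [Finite G] (x : G) (hx : orderOf x = 2) : Nat.card {p : G × G // orderOf p.1 = 2 ∧ orderOf p.2 = 2 ∧ p.1 * p.2 = x} + 1 = Nat.card {t : G // orderOf t = 2 ∧ Commute t x} := by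
  have e : {p : G × G // orderOf p.1 = 2 ∧ orderOf p.2 = 2 ∧ p.1 * p.2 = x} ≃
      {t : {t : G // orderOf t = 2 ∧ Commute t x} // t ≠ ⟨x, hx, Commute.refl x⟩} := by
    refine
      { toFun := fun p => ⟨⟨p.1.1, p.2.1, ?_⟩, ?_⟩
        invFun := fun t => ⟨(t.1.1, t.1.1 * x), t.1.2.1, ?_, ?_⟩
        left_inv := fun p => ?_
        right_inv := fun t => rfl }
    · obtain ⟨⟨u, v⟩, hu, hv, rfl⟩ := p
      have := H85.inv_of_mul_ord2 hu hv
      rw [H85.ord2_inv hx, mul_inv_eq_iff_eq_mul] at this
      exact this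
    · obtain ⟨⟨u, v⟩, hu, hv, rfl⟩ := p
      intro h
      have h' : u = u * v := congrArg Subtype.val h
      exact H85.ord2_ne_one hv (by simpa using h')
    · obtain ⟨⟨t, ht, htx⟩, hne⟩ := t
      refine H85.ord2_iff.2 ⟨?_, ?_⟩
      · calc t * x * (t * x) = t * (x * t) * x := by group
          _ = (t * t) * (x * x) := by rw [← htx.eq]; group
          _ = 1 := by rw [H85.ord2_mul_self ht, H85.ord2_mul_self hx, one_mul]
      · intro h
        apply hne
        have h' : x = t⁻¹ := eq_inv_of_mul_eq_one_right h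
        rw [H85.ord2_inv ht] at h'
        exact Subtype.ext h'.symm
    · obtain ⟨⟨t, ht, htx⟩, hne⟩ := t
      simp only
      rw [← mul_assoc, H85.ord2_mul_self ht, one_mul]
    · obtain ⟨⟨u, v⟩, hu, hv, rfl⟩ := p
      ext
      · rfl
      · simp only
        rw [← mul_assoc, H85.ord2_mul_self hu, one_mul]
  classical
  rw [Nat.card_congr e, ← Nat.card_congr (Equiv.optionSubtypeNe
    (⟨x, hx, Commute.refl x⟩ : {t : G // orderOf t = 2 ∧ Commute t x})), Finite.card_option]

end Cfsg.Agent.S0236
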