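import Cfsg.Agent.Base
import Cfsg.Statements.S0238
import Cfsg.Agent.H85.InvBasic
import Cfsg.Agent.S0236

set_option autoImplicit false
open Cfsg

namespace Cfsg.Agent.S0238

/-- For every x in a finite group G, the number c of ordered pairs (u, v) of involutions with uv = x is at most |C_G(x)|; c = 0 when x is not conjugate to x⁻¹; and c + 2 ≤ |C_G(x)| when x is an involution. -/
theorem result {G : Type*} [Group G] [Finite G] (x : G) : Nat.card {p : G × G // orderOf p.1 = 2 ∧ orderOf p.2 = 2 ∧ p.1 * p.2 = x} ≤ Nat.card (Subgroup.centralizer ({x} : Set G)) ∧ (¬ IsConj x x⁻¹ → Nat.card {p : G × G // orderOf p.1 = 2 ∧ orderOf p.2 = 2 ∧ p.1 * p.2 = x} = 0) ∧ (orderOf x = 2 → Nat.card {p : G × G // orderOf p.1 = 2 ∧ orderOf p.2 = 2 ∧ p.1 * p.2 = x} + 2 ≤ Nat.card (Subgroup.centralizer ({x} : Set G))) := by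
  have hreal : Nonempty {p : G × G // orderOf p.1 = 2 ∧ orderOf p.2 = 2 ∧ p.1 * p.2 = x} →
      IsConj x x⁻¹ := by
    rintro ⟨⟨u, v⟩, hu, hv, rfl⟩
    exact isConj_iff.2 ⟨u, H85.inv_of_mul_ord2 hu hv⟩
  have hzero : ¬ IsConj x x⁻¹ →
      Nat.card {p : G × G // orderOf p.1 = 2 ∧ orderOf p.2 = 2 ∧ p.1 * p.2 = x} = 0 := by
    intro h
    rw [Nat.card_eq_zero]
    left
    by_contra h'
    exact h (hreal (not_isEmpty_iff.1 h'))
  refine ⟨?_, hzero, ?_⟩
  · by_cases h : IsConj x x⁻¹
    · rw [← H85.card_conjugators h]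
      refine Nat.card_le_card_of_injective (fun p => ⟨p.1.1, ?_⟩) ?_
      · obtain ⟨⟨u, v⟩, hu, hv, rfl⟩ := p
        exact H85.inv_of_mul_ord2 hu hv
      · rintro ⟨⟨u, v⟩, hu, hv, h1⟩ ⟨⟨u', v'⟩, hu', hv', h2⟩ h
        have h3 : u = u' := congrArg Subtype.val h
        subst h3
        have h4 : v = v' := mul_left_cancel (h1.trans h2.symm)
        subst h4
        rfl
    · rw [hzero h]; exact Nat.zero_le _
  · intro hx
    have h1 := Cfsg.Agent.S0236.result x hx
    have h2 : Nat.card (Option {t : G // orderOf t = 2 ∧ Commute t x})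
        ≤ Nat.card (Subgroup.centralizer ({x} : Set G)) := by
      refine Nat.card_le_card_of_injective (fun o => match o with
        | none => 1
        | some t => ⟨t.1, Subgroup.mem_centralizer_singleton_iff.2 t.2.2.eq⟩) ?_
      rintro (_ | s) (_ | t) h
      · rfl
      · exact absurd (congrArg Subtype.val h).symm (H85.ord2_ne_one t.2.1)
      · exact absurd (congrArg Subtype.val h) (H85.ord2_ne_one s.2.1)
      · have h' : s.1 = t.1 := congrArg (fun z : Subgroup.centralizer ({x} : Set G) => z.1) h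
        exact congrArg some (Subtype.ext h')
    rw [Finite.card_option] at h2
    omega

end Cfsg.Agent.S0238
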