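import Cfsg.Statements.S1632
import Cfsg.Agent.H19.Theta

set_option autoImplicit false
open Matrix
open Cfsg

namespace Cfsg.Agent.S1632

/-- An even unimodular lattice of rank 24 without roots has 196560, 16773120 and 398034000 vectors of norms 4, 6 and 8. -/
theorem result (B : Matrix (Fin 24) (Fin 24) ℤ) (hsymm : B.IsSymm) (hpos : ∀ x : Fin 24 → ℤ, x ≠ 0 → 0 < x ⬝ᵥ (B *ᵥ x)) (heven : ∀ x : Fin 24 → ℤ, (2 : ℤ) ∣ x ⬝ᵥ (B *ᵥ x)) (hdet : B.det = 1) (h2 : ∀ x : Fin 24 → ℤ, x ⬝ᵥ (B *ᵥ x) ≠ 2) : {x : Fin 24 → ℤ | x ⬝ᵥ (B *ᵥ x) = 4}.ncard = 196560 ∧ {x : Fin 24 → ℤ | x ⬝ᵥ (B *ᵥ x) = 6}.ncard = 16773120 ∧ {x : Fin 24 → ℤ | x ⬝ᵥ (B *ᵥ x) = 8}.ncard = 398034000 := by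
  have hp := H19.Theta.pd_of_int hsymm hdet fun x => by
    rcases eq_or_ne x 0 with rfl | hx
    exacts [by simp, (hpos x hx).le]
  have h := H19.Theta.th_coeff hp heven hsymm hdet (by
    rw [show {x : Fin 24 → ℤ | x ⬝ᵥ B *ᵥ x = 0} = {0} from Set.eq_singleton_iff_unique_mem.2
      ⟨by simp, fun x hx => by_contra fun e => (hpos x e).ne' hx⟩, Set.ncard_singleton]) (by
    rw [show {x : Fin 24 → ℤ | x ⬝ᵥ B *ᵥ x = 2} = ∅ from Set.eq_empty_of_forall_notMem h2,
      Set.ncard_empty])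
  have e4 := fun m => EisensteinSeries.E_qExpansion_coeff (k := 4) (by norm_num) ⟨2, rfl⟩ m
  have e6 := fun m => EisensteinSeries.E_qExpansion_coeff (k := 6) (by norm_num) ⟨3, rfl⟩ m
  rw [show bernoulli 4 = -1 / 30 by decide +kernel] at e4
  rw [show bernoulli 6 = 1 / 42 by decide +kernel] at e6
  have s : ∀ k, ArithmeticFunction.sigma k 1 = 1 ∧ ArithmeticFunction.sigma k 2 = 1 + 2 ^ k ∧
      ArithmeticFunction.sigma k 3 = 1 + 3 ^ k ∧ ArithmeticFunction.sigma k 4 = 1 + 2 ^ k + 4 ^ k :=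
    fun k => by
      simp [ArithmeticFunction.sigma_apply, show Nat.divisors 2 = {1, 2} by decide,
        show Nat.divisors 3 = {1, 3} by decide, show Nat.divisors 4 = {1, 2, 4} by decide, add_assoc]
  have h2' := h 2
  have h3' := h 3
  have h4' := h 4
  simp only [map_add, ← map_ofNat (PowerSeries.C (R := ℂ)), PowerSeries.coeff_C_mul, pow_succ,
    pow_zero, one_mul, PowerSeries.coeff_mul, Finset.Nat.antidiagonal_succ,
    Finset.Nat.antidiagonal_zero, Finset.sum_cons, Finset.sum_map, Finset.sum_singleton,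
    Function.Embedding.prodMap, Function.Embedding.coeFn_mk, Prod.map, Function.Embedding.refl_apply,
    Nat.succ_eq_add_one, ModularForm.E₄, ModularForm.E₆, e4, e6] at h2' h3' h4'
  norm_num [s] at h2' h3' h4'
  refine ⟨?_, ?_, ?_⟩ <;> apply Nat.cast_injective (R := ℂ)
  · linear_combination h2' / 12
  · linear_combination h3' / 12
  · linear_combination h4' / 12

end Cfsg.Agent.S1632
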