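import Cfsg.Statements.S0250
import Cfsg.Agent.Base
import Cfsg.Agent.H55.Basic
import Cfsg.Agent.H57.SLCard

set_option autoImplicit false
open Cfsg

namespace Cfsg.Agent.S0250

/-- SL_2(2) is isomorphic to S_3. -/
theorem result {F : Type*} [Field F] [Fintype F] (hF : Fintype.card F = 2) : Nonempty (Matrix.SpecialLinearGroup (Fin 2) F ≃* Equiv.Perm (Fin 3)) := by
  have hc : Nat.card (Projectivization F (Fin 2 → F)) = 3 := by
    rw [Projectivization.card_of_finrank_two F _ (by simp), Nat.card_eq_fintype_card, hF]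
  have hz : Subgroup.center (Matrix.SpecialLinearGroup (Fin 2) F) = ⊥ := by
    rw [← Subgroup.card_eq_one, H57.card_center_sl, Nat.card_eq_fintype_card, hF]
    simp
  refine H55.equiv_perm_of_injective hc (MulAction.toPermHom _ _) ?_ ?_
  · rw [← MonoidHom.ker_eq_bot_iff, Projectivization.SL_mulAction_ker, hz]
  · rw [H57.card_sl_two, hF]; rfl

end Cfsg.Agent.S0250
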