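import Cfsg.Statements.S0940
import Cfsg.Agent.H37.Kernel
import Cfsg.Agent.H35.PReg

set_option autoImplicit false
open Cfsg

namespace Cfsg.Agent.S0940

open H28 H35 H37
open scoped ComplexConjugate

theorem P_sum_mul_char {G : Type*} [Group G] [Fintype G] {M : Ideal AlgInt} [M.IsMaximal]
    {c π : G → ℂ} (hc : IsClassFunction G c) (h : ∀ χ : IrrCharacter G, MemLocalIdeal M (om c χ))
    (hπ : IsCharacter G π) (g : G) : MemLocalIdeal M (∑ y, c y * π (y * g)) := by
  simp only [fun y => hπ.isClassFunction.apply_eq_sum_irr (y * g), Finset.mul_sum]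
  rw [Finset.sum_comm]
  refine P_sum _ _ fun χ _ => ?_
  obtain ⟨n, hn⟩ := hπ.classInner_nat χ.2.isCharacter
  simp only [hn, mul_left_comm _ (n : ℂ), ← Finset.mul_sum]
  rw [χ.2.sum_mul_apply_mul hc]
  exact P_mul_left (natCast_mem _ n) (P_mul_right (h χ) (char_mem_S χ.2.isCharacter g))

theorem card_pairs {G : Type*} [Group G] (p : ℕ) (g : G) : Nat.card {xy : G × G //
      (∃ k : ℕ, orderOf xy.1 = p ^ k) ∧ ¬ p ∣ orderOf xy.2 ∧ xy.1 * xy.2 = g} =
    Nat.card {y : G // ¬ p ∣ orderOf y ∧ ∃ k, orderOf (y * g⁻¹) = p ^ k} := by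
  refine Nat.card_congr ⟨fun x => ⟨x.1.2, x.2.2.1, ?_⟩,
    fun y => ⟨((y.1 * g⁻¹)⁻¹, y.1), ?_, y.2.1, ?_⟩, ?_, fun y => rfl⟩
  · obtain ⟨⟨a, b⟩, k1, k2, rfl⟩ := x
    simpa using k1
  · rw [orderOf_inv]; exact y.2.2
  · simp
  · rintro ⟨⟨a, b⟩, k1, k2, rfl⟩
    simp

open Classical in
theorem perm_congr {G : Type*} [Group G] [Finite G] {p : ℕ} [Fact p.Prime] {M : Ideal AlgInt}
    [M.IsMaximal] (hM : IsPModular p M) (P : Sylow p G) (x : G) :
    MemLocalIdeal M ((Nat.card (MulAction.fixedBy (G ⧸ (P : Subgroup G)) x) : ℂ) -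
      (P : Subgroup G).index * if ∃ k, orderOf x = p ^ k then 1 else 0) := by
  split_ifs with h
  · obtain ⟨k, hk⟩ := h
    have h1 : IsPGroup p (Subgroup.zpowers x) := IsPGroup.of_card (by rw [Nat.card_zpowers, hk])
    have h2 := h1.card_modEq_card_fixedPoints (G ⧸ (P : Subgroup G))
    have h3 : MulAction.fixedPoints (Subgroup.zpowers x) (G ⧸ (P : Subgroup G)) =
        MulAction.fixedBy (G ⧸ (P : Subgroup G)) x := by
      ext a
      refine ⟨fun h => h ⟨x, Subgroup.mem_zpowers x⟩, fun h => ?_⟩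
      rintro ⟨_, n, rfl⟩
      exact MulAction.mem_fixedBy_zpow h n
    rw [h3, ← Subgroup.index_eq_card] at h2
    have h4 := (P_intCast_iff hM).2 (Nat.modEq_iff_dvd.1 h2)
    simpa using h4
  · have : IsEmpty (MulAction.fixedBy (G ⧸ (P : Subgroup G)) x) := ⟨fun ⟨a, ha⟩ => h <| by
      induction a using QuotientGroup.induction_on with | _ a => ?_
      rw [MulAction.mem_fixedBy, MulAction.Quotient.smul_mk, eq_comm, QuotientGroup.eq] at ha
      obtain ⟨k, hk⟩ := IsPGroup.iff_orderOf.1 P.isPGroup' ⟨_, ha⟩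
      refine ⟨k, ?_⟩
      rw [← hk, ← Subgroup.orderOf_coe, ← orderOf_conj x a⁻¹]
      simp [mul_assoc]⟩
    simpa using P_zero

/-- Let G be a finite group and M a maximal ideal of the algebraic integers containing the prime p. For every p-regular g, the idempotent coefficient of the principal block at g (the inverse of the group order times the sum over χ in the principal block of χ 1 * conj (χ g)) is congruent modulo the local ideal at M to N / R, where N is the number of pairs (x, y) with x of p-power order, y of order prime to p and x * y = g, and R is the number of elements of G of order prime to p. -/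
theorem result {G : Type*} [Group G] [Finite G] (p : ℕ) [Fact p.Prime] (M : Ideal Cfsg.AlgInt) (hM : Cfsg.IsPModular p M) (g : G) (hg : ¬ p ∣ orderOf g) : Cfsg.MemLocalIdeal M (Cfsg.blockCoeff (Cfsg.principalBlock M G) g - (Nat.card {xy : G × G // (∃ k : ℕ, orderOf xy.1 = p ^ k) ∧ ¬ p ∣ orderOf xy.2 ∧ xy.1 * xy.2 = g} : ℂ) / (Nat.card {y : G // ¬ p ∣ orderOf y} : ℂ)) := by
  classical
  have hp := hM.1
  have := hM.2.1
  have := Fintype.ofFinite G
  set B := principalBlock M G
  have hB : IsPBlock M B := isPBlock_principalBlock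
  set R : ℕ := Nat.card {y : G // ¬ p ∣ orderOf y}
  let ind : G → ℂ := fun x => if ∃ k, orderOf x = p ^ k then 1 else 0
  let o : IrrCharacter G := ⟨fun _ => 1, isIrrCharacter_one⟩
  have ho : o ∈ B := one_mem_principalBlock
  have hR : rsum p (o : G → ℂ) o / (o : G → ℂ) 1 = R := by
    simp only [rsum, rc_eq, o, mul_one, div_one, R, Nat.card_eq_fintype_card,
      Fintype.card_subtype, Finset.card_filter]
    push_cast
    exact Finset.sum_congr rfl fun x _ => by split_ifs <;> rfl
  have hRu : ¬ MemLocalIdeal M (R : ℂ) := hR ▸ not_P_of_height_zero hM hB ho ho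
    (blockHeight_of_not_dvd _ (by rw [H37.charDegree_one]; simpa using hp.one_lt.ne'))
  let c : G → ℂ := rc p (o : G → ℂ) - (R : ℂ) • blockCoeff B
  have hc : IsClassFunction G c := (rc_isClassFunction p o.2.isClassFunction).sub
    ((H41.blockCoeff_isClassFunction B).smul _)
  have hcS : ∀ y, c y ∈ S M := fun y => sub_mem (rc_mem_S p (fun _ => one_mem _) y)
    (mul_mem (natCast_mem _ R) (osima hM hB y))
  have hom : ∀ χ : IrrCharacter G, MemLocalIdeal M (om c χ) := fun χ => by
    have h1 : om c χ = rsum p (o : G → ℂ) χ / (χ : G → ℂ) 1 - R * om (blockCoeff B) χ := by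
      simp only [om_def, c, rsum, Pi.sub_apply, Pi.smul_apply, smul_eq_mul, sub_mul, mul_assoc,
        Finset.sum_sub_distrib, ← Finset.mul_sum, sub_div, mul_div_assoc]
    rw [h1, om_blockCoeff]
    split_ifs with h
    · rw [mul_one, ← hR]
      exact rsum_div_congr o.2.isCharacter χ.2.isClassFunction o.2.isClassFunction
        (sameBlock_of_mem hB h ho)
    · rw [rsum_eq_zero_of_not_mem hM hB ho h]; simpa using P_zero
  obtain ⟨P⟩ : Nonempty (Sylow p G) := inferInstance
  have h1 := P_sum_mul_char hc hom (isCharacter_perm (G := G) (G ⧸ (P : Subgroup G))) g⁻¹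
  have h2 : MemLocalIdeal M (∑ y, c y * ind (y * g⁻¹)) := by
    have h3 := P_sub h1 (P_sum Finset.univ _ fun y _ =>
      P_mul_left (hcS y) (perm_congr hM P (y * g⁻¹)))
    rw [← Finset.sum_sub_distrib] at h3
    have h4 := P_mul_left (inv_natCast_mem_S hM P.not_dvd_index) h3
    have h5 : ((P : Subgroup G).index : ℂ) ≠ 0 := by exact_mod_cast Subgroup.index_ne_zero_of_finite
    convert h4 using 1
    rw [Finset.mul_sum]
    exact Finset.sum_congr rfl fun y _ => by simp only [ind]; field_simp; ring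
  have h3 : ∑ y, rc p (o : G → ℂ) y * ind (y * g⁻¹) = (Nat.card {xy : G × G //
      (∃ k : ℕ, orderOf xy.1 = p ^ k) ∧ ¬ p ∣ orderOf xy.2 ∧ xy.1 * xy.2 = g} : ℂ) := by
    rw [card_pairs p g,
      Nat.card_eq_fintype_card, Fintype.card_subtype, Finset.card_filter]
    push_cast
    refine Finset.sum_congr rfl fun x _ => ?_
    simp only [rc_eq, o, ind]
    by_cases h : p ∣ orderOf x <;> simp [h]
  have h4 : ∑ y, blockCoeff B y * ind (y * g⁻¹) = blockCoeff B g := by
    rw [← Equiv.sum_comp (Equiv.mulRight g)]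
    simp only [Equiv.coe_mulRight, mul_inv_cancel_right]
    let f : G → ℂ := fun x => if x = 1 then 0 else ind x
    have hf : IsClassFunction G f := fun a b => by
      simp only [f, ind, orderOf_conj, conj_eq_one_iff]
    have h5 : ∑ x, blockCoeff B (x * g) * f x = 0 := by
      have h6 : ∀ χ : IrrCharacter G, ∑ x, (χ : G → ℂ) 1 * conj ((χ : G → ℂ) (x * g)) * f x =
          ∑ x, f x * (conj ((χ : G → ℂ) x) * conj ((χ : G → ℂ) g)) := fun χ => by
        have h7 := χ.2.conj.sum_mul_apply_mul hf g
        simp only [χ.2.isCharacter.conj_apply_one] at h7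
        have h8 := χ.2.apply_one_ne_zero
        simp only [← mul_assoc, ← Finset.sum_mul]
        simp only [mul_assoc ((χ : G → ℂ) 1), ← Finset.mul_sum, mul_comm _ (f _), h7]
        field_simp
      simp only [H41.blockCoeff_eq_sum (Set.toFinite B), mul_assoc, ← Finset.mul_sum,
        Finset.sum_mul]
      rw [Finset.sum_comm]
      simp only [← mul_assoc ((_ : G → ℂ) 1), h6]
      rw [Finset.sum_comm, Finset.sum_eq_zero, mul_zero]
      intro x _
      rw [← Finset.mul_sum]
      by_cases hx : x = 1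
      · simp [f, hx]
      by_cases hx' : ∃ k, orderOf x = p ^ k
      · obtain ⟨k, hk⟩ := hx'
        have hd : p ∣ orderOf x⁻¹ := by
          rw [orderOf_inv, hk]
          refine dvd_pow_self p fun h => hx ?_
          rwa [h, pow_zero, orderOf_eq_one_iff] at hk
        have := weak_orthogonality' hM hB hd hg
        simp only [fun χ : IrrCharacter G => χ.2.isCharacter.apply_inv x] at this
        rw [this, mul_zero]
      · simp [f, ind, hx']
    rw [← sub_eq_zero, ← h5, ← Finset.sum_erase_add _ _ (Finset.mem_univ (1 : G)),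
      ← Finset.sum_erase_add _ _ (Finset.mem_univ (1 : G))]
    have : ind 1 = 1 := if_pos ⟨0, by simp⟩
    simp only [this, f, one_mul, mul_one, if_true, mul_zero, add_zero, add_sub_cancel_right]
    exact Finset.sum_congr rfl fun x hx => by rw [if_neg (Finset.ne_of_mem_erase hx)]
  simp only [c, Pi.sub_apply, Pi.smul_apply, smul_eq_mul, sub_mul, mul_assoc,
    Finset.sum_sub_distrib, ← Finset.mul_sum, h3, h4] at h2
  have h5 := P_neg (P_mul_left (inv_mem_S (natCast_mem _ R) hRu) h2)
  have h6 := ne_zero_of_not_P hRu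
  convert h5 using 1
  field_simp
  ring

end Cfsg.Agent.S0940
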