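import Cfsg.Statements.S2579
import Cfsg.Agent.H53.SS

set_option autoImplicit false
open Cfsg

namespace Cfsg.Agent.S2579

/-- In SL_n(F) with n ≥ 3, over a finite field F, any two transvections (matrices t with t − 1 of rank one and square zero) are conjugate by an element of SL_n(F). -/
theorem result {F : Type*} [Field F] [Finite F] {n : ℕ} (hn : 3 ≤ n) (s t : Matrix.SpecialLinearGroup (Fin n) F) (hs : Cfsg.IsTransvection (s : Matrix (Fin n) (Fin n) F)) (ht : Cfsg.IsTransvection (t : Matrix (Fin n) (Fin n) F)) : IsConj s t := by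
  have h1 : ((s : Matrix (Fin n) (Fin n) F) - 1) ^ 2 = 0 := by rw [sq, hs.2]
  have h2 : ((t : Matrix (Fin n) (Fin n) F) - 1) ^ 2 = 0 := by rw [sq, ht.2]
  refine H53.isConj_sl_of_detC_eq_top ?_ (H53.isConj_of_sq_eq_zero h1 h2 (hs.1.trans ht.1.symm))
  have h3 := H53.count_one_mjt_of_sq_eq_zero h1
  rw [hs.1, Fintype.card_fin] at h3
  have h4 : 1 ∈ H53.mjt (s : Matrix (Fin n) (Fin n) F) := Multiset.count_pos.1 (by omega)
  exact eq_top_iff.2 fun c _ => by simpa using H53.pow_mem_detC_of_mjt ⟨2, h1⟩ h4 c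

end Cfsg.Agent.S2579
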