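import Cfsg.Agent.Base
import Cfsg.Statements.S0031
import Cfsg.Agent.H5.FrobBasic

set_option autoImplicit false
open Cfsg

namespace Cfsg.Agent.S0031

open Pointwise

/-- A fixed-point-free automorphism of a finite group maps some Sylow p-subgroup to itself. -/
theorem result {G : Type*} [Group G] [Finite G] (φ : G ≃* G)
    (hφ : MonoidHom.FixedPointFree (φ : G →* G)) (p : ℕ) [Fact p.Prime] :
    ∃ P : Sylow p G, (P : Subgroup G).map (φ : G →* G) = P := by
  obtain ⟨P⟩ : Nonempty (Sylow p G) := inferInstance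
  obtain ⟨g, hg⟩ := MulAction.exists_smul_eq G P (P.mapSurjective (f := (φ : G →* G)) φ.surjective)
  obtain ⟨y, hy⟩ := hφ.commutatorMap_surjective g⁻¹
  have hy' : y * (φ y)⁻¹ = g⁻¹ := by rw [← div_eq_mul_inv]; exact hy
  have hg' : MulAut.conj g • (P : Subgroup G) = (P : Subgroup G).map (φ : G →* G) :=
    congrArg (fun Q : Sylow p G => (Q : Subgroup G)) hg
  refine ⟨y⁻¹ • P, ?_⟩
  apply Subgroup.eq_of_le_of_card_ge
  · rintro _ ⟨x, hx, rfl⟩
    change x ∈ MulAut.conj y⁻¹ • (P : Subgroup G) at hx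
    change φ x ∈ MulAut.conj y⁻¹ • (P : Subgroup G)
    rw [H5.mem_conj_smul_iff] at hx ⊢
    have h1 : φ (y⁻¹⁻¹ * x * y⁻¹) ∈ MulAut.conj g • (P : Subgroup G) := by
      rw [hg']; exact ⟨_, hx, rfl⟩
    rw [H5.mem_conj_smul_iff, ← inv_inv g, ← hy'] at h1
    simpa [mul_assoc] using h1
  · exact (Subgroup.card_map_of_injective φ.injective).ge

end Cfsg.Agent.S0031
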