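import Cfsg.Agent.Base
import Cfsg.Statements.S0037
import Cfsg.Agent.H5.FrobStruct

set_option autoImplicit false
open Pointwise
open Cfsg

namespace Cfsg.Agent.S0037

/-- Of two Frobenius complements in one finite group, the one of smaller (or equal) order is conjugate to a subgroup of the other. -/
theorem result {G : Type*} [Group G] [Finite G] (H H₀ : Subgroup G)
    (hH : Cfsg.IsFrobeniusComplement H) (hH₀ : Cfsg.IsFrobeniusComplement H₀) (hle : Nat.card H₀ ≤ Nat.card H) :
    ∃ g : G, MulAut.conj g • H₀ ≤ H := by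
  suffices h : (Nat.card H₀).Coprime H.index by
    obtain ⟨g, hg⟩ := H5.exists_le_conj_of_coprime_index hH H₀ h
    refine ⟨g⁻¹, ?_⟩
    rw [map_inv, Subgroup.pointwise_smul_subset_iff, inv_inv]
    exact hg
  have h1 : H5.frobKer hH ≤ H5.frobKer hH₀ := by
    rcases H5.frobKer_le_or_le hH (H5.frobKer hH₀) with h | h
    · exact h
    · refine (Subgroup.eq_of_le_of_card_ge h ?_).ge
      rw [H5.card_frobKer, H5.card_frobKer]
      have e := H.index_mul_card.trans H₀.index_mul_card.symm
      by_contra hlt
      push Not at hlt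
      have h0 : 0 < Nat.card H := Nat.card_pos
      have : H₀.index * Nat.card H₀ < H.index * Nat.card H :=
        lt_of_le_of_lt (Nat.mul_le_mul_left _ hle) (Nat.mul_lt_mul_of_pos_right hlt h0)
      omega
  rw [← H5.card_frobKer hH]
  exact (H5.frobKer_coprime hH₀).symm.coprime_dvd_right (Subgroup.card_dvd_of_le h1)

end Cfsg.Agent.S0037
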