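import Cfsg.Agent.Base
import Cfsg.Statements.S0038
import Cfsg.Agent.H5.FrobCompl
import Cfsg.Agent.S0037

set_option autoImplicit false
open Pointwise
open Cfsg

namespace Cfsg.Agent.S0038

theorem aux {G : Type*} [Group G] [Finite G] (H H₀ : Subgroup G)
    (hH : Cfsg.IsFrobeniusComplement H) (hH₀ : Cfsg.IsFrobeniusComplement H₀) (hle : H₀ ≤ H) :
    H₀ = H := by
  have h1 : H ⊓ H5.frobKer hH₀ = ⊥ :=
    H5.eq_bot_of_fpf_of_fpf (H5.frobKer_ne_bot hH) Subgroup.le_normalizer_of_normal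
      (H5.frobKer_inf_centralizer hH) inf_le_left hle
      (H1.le_normalizer_inf (hle.trans Subgroup.le_normalizer) Subgroup.le_normalizer_of_normal)
      (H5.fpf_mono (H5.frobKer_inf_centralizer hH₀) inf_le_right le_rfl) hH₀.1
  refine le_antisymm hle fun x hx => ?_
  obtain ⟨⟨⟨k, hk⟩, ⟨h, hh⟩⟩, rfl⟩ := (H5.frobKer_isComplement' hH₀).2 x
  have hk' : k ∈ H ⊓ H5.frobKer hH₀ := ⟨by simpa using H.mul_mem hx (H.inv_mem (hle hh)), hk⟩
  rw [h1, Subgroup.mem_bot] at hk'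
  subst hk'
  simpa using hh

/-- All Frobenius complements of a finite group are conjugate to one another. -/
theorem result {G : Type*} [Group G] [Finite G] (H H₀ : Subgroup G)
    (hH : Cfsg.IsFrobeniusComplement H) (hH₀ : Cfsg.IsFrobeniusComplement H₀) :
    ∃ g : G, MulAut.conj g • H₀ = H := by
  rcases le_total (Nat.card H₀) (Nat.card H) with h | h
  · obtain ⟨g, hg⟩ := Cfsg.Agent.S0037.result H H₀ hH hH₀ h
    exact ⟨g, aux _ _ hH (H5.frob_conj hH₀ g) hg⟩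
  · obtain ⟨g, hg⟩ := Cfsg.Agent.S0037.result H₀ H hH₀ hH h
    refine ⟨g⁻¹, ?_⟩
    rw [← aux _ _ hH₀ (H5.frob_conj hH g) hg, map_inv, inv_smul_smul]

end Cfsg.Agent.S0038
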