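import Cfsg.Statements.S0053
import Cfsg.Agent.Base
import Cfsg.Agent.H3.FrattiniFitting

set_option autoImplicit false
open Cfsg

namespace Cfsg.Agent.S0053

/-- An abelian minimal normal subgroup N of a finite group is complemented exactly when N is not inside the Frattini subgroup. -/
theorem result {G : Type*} [Group G] [Finite G]
    (N : Subgroup G) [N.Normal] [IsMulCommutative N] (hN : N ≠ ⊥)
    (hmin : ∀ M : Subgroup G, M.Normal → M ≤ N → M = ⊥ ∨ M = N) :
    (∃ H : Subgroup G, Subgroup.IsComplement' N H) ↔ ¬ N ≤ frattini G := by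
  refine ⟨fun ⟨H, hH⟩ => H3.not_le_frattini_of_isComplement' hN hH, fun h => ?_⟩
  rw [H3.le_frattini_iff] at h
  push Not at h
  obtain ⟨M, hM, hNM⟩ := h
  exact ⟨M, H3.isComplement'_of_isCoatom_of_not_le hmin hM hNM⟩

end Cfsg.Agent.S0053
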