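import Cfsg.Statements.S0059
import Cfsg.Agent.Base
import Cfsg.Agent.H1.Glauberman

set_option autoImplicit false
open Cfsg

namespace Cfsg.Agent.S0059

/-- Let a finite group act on a set on which a normal subgroup K of coprime order and index is transitive, with K or the quotient solvable. Then any complement H of K has a fixed point, and any two H-fixed points are interchanged by an element of K centralising H. -/
theorem result {G : Type*} [Group G] [Finite G] {X : Type*} [Nonempty X] [MulAction G X]
    (K H : Subgroup G) [K.Normal] (hc : Subgroup.IsComplement' K H) (hcop : (Nat.card K).Coprime K.index)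
    (hsolv : Group.IsSolvable K ∨ Group.IsSolvable (G ⧸ K)) (htrans : MulAction.IsPretransitive K X) :
    (∃ x : X, ∀ h ∈ H, h • x = x) ∧
    ∀ x y : X, (∀ h ∈ H, h • x = x) → (∀ h ∈ H, h • y = y) → ∃ k ∈ K ⊓ Subgroup.centralizer (H : Set G), k • x = y := by
  have h1 : Nat.card H = K.index := hc.symm.index_eq_card.symm
  have hsolv' : Group.IsSolvable H ∨ Group.IsSolvable K := by
    rcases hsolv with h | h
    · exact Or.inr h
    · exact Or.inl (Group.isSolvable_of_isSolvable_injective
        (f := hc.symm.QuotientMulEquiv.symm.toMonoidHom) hc.symm.QuotientMulEquiv.symm.injective)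
  have hHK : H ≤ Subgroup.normalizer (K : Set G) := by
    rw [Subgroup.normalizer_eq_top]; exact le_top
  have hcop' : (Nat.card H).Coprime (Nat.card K) := by rw [h1]; exact hcop.symm
  constructor
  · obtain ⟨x₀⟩ := ‹Nonempty X›
    obtain ⟨n, -, h⟩ := H1.glauberman_subgroup H K hHK hcop' hsolv' x₀ (fun a _ => by
      obtain ⟨k, hk⟩ := htrans.exists_smul_eq x₀ (a • x₀)
      exact ⟨k, k.2, hk.symm⟩)
    exact ⟨_, h⟩
  · intro x y hx hy
    obtain ⟨k, rfl⟩ := htrans.exists_smul_eq x y
    exact H1.glauberman_conj_subgroup H K hHK hcop' hsolv' x hx k k.2 hy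

end Cfsg.Agent.S0059
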