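import Cfsg.Statements.S0067
import Cfsg.Agent.H18.Subnormal
import Cfsg.Agent.H2.Misc1
import Cfsg.Agent.H2.Fitting

set_option autoImplicit false
open Pointwise
open Cfsg

namespace Cfsg.Agent.S0067

/-- If the join of a subgroup A with each of its conjugates is nilpotent, then A is subnormal in the finite group and contained in the Fitting subgroup. -/
theorem result {G : Type*} [Group G] [Finite G] (A : Subgroup G)
    (h : ∀ g : G, Group.IsNilpotent (A ⊔ MulAut.conj g • A : Subgroup G)) : A.IsSubnormal ∧ A ≤ Cfsg.fittingSubgroup G := by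
  have h1 : A.IsSubnormal := H98.subN_top_iff.1 (H18.subN_of_forall_cj le_top fun g _ =>
    H98.subN_of_isSubnormal_subgroupOf le_sup_left (by
      haveI := h g
      exact H2.isSubnormal_of_isNilpotent (G := (A ⊔ MulAut.conj g • A : Subgroup G)) _))
  refine ⟨h1, ?_⟩
  have h2 := h 1
  rw [map_one, one_smul, sup_idem] at h2
  exact H2.le_fitting_of_isSubnormal h1

end Cfsg.Agent.S0067
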