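import Cfsg.Agent.Base
import Cfsg.Statements.S0068
import Cfsg.Agent.H5.FrobStruct

set_option autoImplicit false
open Cfsg

namespace Cfsg.Agent.S0068

/-- Frobenius complements of even order: if H complements a nontrivial normal subgroup K, each nonidentity element of H has trivial centraliser in K, and H has even order, then H contains a unique involution s, K is abelian, and s inverts every element of K. -/
theorem result {G : Type*} [Group G] [Finite G] (K H : Subgroup G) [K.Normal]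
    (hc : Subgroup.IsComplement' K H) (hK : K ≠ ⊥) (hfpf : ∀ h ∈ H, h ≠ 1 → K ⊓ Subgroup.centralizer {h} = ⊥)
    (heven : 2 ∣ Nat.card H) :
    (∃ s ∈ H, orderOf s = 2 ∧ (∀ t ∈ H, orderOf t = 2 → t = s) ∧ ∀ k ∈ K, s * k * s⁻¹ = k⁻¹) ∧ IsMulCommutative K := by
  have : Fact (Nat.Prime 2) := ⟨Nat.prime_two⟩
  have hinv : ∀ s ∈ H, orderOf s = 2 → ∀ k ∈ K, s * k * s⁻¹ = k⁻¹ := by
    intro s hs h2 k hk
    have hs1 : s ≠ 1 := by rintro rfl; simp at h2
    have hss : s * s = 1 := by rw [← sq, ← h2, pow_orderOf_eq_one]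
    have hsi : s⁻¹ = s := inv_eq_of_mul_eq_one_right hss
    obtain ⟨y, -, rfl⟩ := H5.exists_commutator_eq_of_fpf
      (Subgroup.le_normalizer_of_normal (H := K) (K := ⊤) (Subgroup.mem_top s)) (hfpf s hs hs1) hk
    rw [hsi]
    calc s * (y * s * y⁻¹ * s) * s = s * y * s * y⁻¹ * (s * s) := by group
      _ = s⁻¹ * y * s⁻¹ * y⁻¹ := by rw [hss, hsi, mul_one]
      _ = _ := by group
  obtain ⟨⟨s, hs⟩, hs2⟩ := exists_prime_orderOf_dvd_card' 2 heven
  have hs2' : orderOf s = 2 := by rw [← hs2]; exact Subgroup.orderOf_coe (⟨s, hs⟩ : H)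
  refine ⟨⟨s, hs, hs2', fun t ht ht2 => ?_, hinv s hs hs2'⟩, ⟨⟨fun a b => Subtype.ext ?_⟩⟩⟩
  · by_contra hts
    apply hK
    rw [← hfpf (s⁻¹ * t) (H.mul_mem (H.inv_mem hs) ht) (fun h => hts (inv_mul_eq_one.1 h).symm)]
    refine le_antisymm (fun k hk => ⟨hk, ?_⟩) inf_le_left
    apply Subgroup.mem_centralizer_singleton_iff.2
    have h1 := (hinv s hs hs2' k hk).trans (hinv t ht ht2 k hk).symm
    calc k * (s⁻¹ * t) = s⁻¹ * (s * k * s⁻¹) * t := by group
      _ = s⁻¹ * t * k := by rw [h1]; group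
  · have h1 := hinv s hs hs2' _ (K.mul_mem a.2 b.2)
    have h2 : s * (a * b) * s⁻¹ = (s * a * s⁻¹) * (s * b * s⁻¹) := by group
    rw [h2, hinv s hs hs2' _ a.2, hinv s hs hs2' _ b.2, ← mul_inv_rev, inv_inj] at h1
    exact h1.symm

end Cfsg.Agent.S0068
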