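import Cfsg.Agent.Base
import Cfsg.Statements.S0069
import Cfsg.Agent.H5.FrobCompl
import Cfsg.Agent.S0068

set_option autoImplicit false
open Cfsg

namespace Cfsg.Agent.S0069

/-- A Frobenius complement has nontrivial centre: if H ≠ 1 complements a nontrivial normal subgroup K and every nonidentity element of H has trivial centraliser in K, then the centre of H is nontrivial. -/
theorem result {G : Type*} [Group G] [Finite G] (K H : Subgroup G) [K.Normal]
    (hc : Subgroup.IsComplement' K H) (hK : K ≠ ⊥) (hH : H ≠ ⊥) (hfpf : ∀ h ∈ H, h ≠ 1 → K ⊓ Subgroup.centralizer {h} = ⊥) :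
    Subgroup.center H ≠ ⊥ := by
  rcases Nat.even_or_odd (Nat.card H) with h | h
  · obtain ⟨⟨s, hs, hs2, huniq, -⟩, -⟩ :=
      Cfsg.Agent.S0068.result K H hc hK hfpf (even_iff_two_dvd.1 h)
    rw [Subgroup.ne_bot_iff_exists_ne_one]
    refine ⟨⟨⟨s, hs⟩, Subgroup.mem_center_iff.2 fun g => Subtype.ext ?_⟩, fun h0 => ?_⟩
    · have := huniq (g * s * (g : G)⁻¹) (H.mul_mem (H.mul_mem g.2 hs) (H.inv_mem g.2))
        (by rw [← hs2]; exact MulEquiv.orderOf_eq (MulAut.conj (g : G)) s)
      exact mul_inv_eq_iff_eq_mul.1 this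
    · have : s = 1 := congrArg (fun x : Subgroup.center H => ((x : H) : G)) h0
      rw [this, orderOf_one] at hs2
      omega
  · have hZ := H5.isZGroup_of_fpf_of_odd hK Subgroup.le_normalizer_of_normal hfpf h
    have := (Subgroup.nontrivial_iff_ne_bot H).2 hH
    obtain ⟨p, hp, hpd⟩ := Nat.exists_prime_and_dvd
      (Subgroup.one_lt_index_of_ne_top (IsZGroup.commutator_lt H).ne).ne'
    have : Fact p.Prime := ⟨hp⟩
    obtain ⟨x, hx⟩ := exists_prime_orderOf_dvd_card' (G := H) p
      (hpd.trans (Subgroup.index_dvd_card _))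
    have hx' : orderOf (x : G) = p := by rwa [Subgroup.orderOf_coe]
    rcases H5.mem_commutator_or_central_of_fpf hK Subgroup.le_normalizer_of_normal hfpf x.2
      (hx' ▸ hp) with ⟨-, h1⟩ | ⟨h1, -⟩
    · rw [hx'] at h1
      exact absurd (Nat.eq_one_of_dvd_coprimes (IsZGroup.coprime_commutator_index H) h1 hpd)
        hp.one_lt.ne'
    · rw [Subgroup.ne_bot_iff_exists_ne_one]
      refine ⟨⟨x, Subgroup.mem_center_iff.2 fun g => Subtype.ext
        (Subgroup.mem_centralizer_singleton_iff.1 (h1 g.2))⟩, fun h0 => ?_⟩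
      have : x = 1 := congrArg Subtype.val h0
      rw [this, orderOf_one] at hx
      exact hp.one_lt.ne hx

end Cfsg.Agent.S0069
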