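import Cfsg.Statements.S0073
import Cfsg.Agent.Base
import Cfsg.Agent.H8.AbFitting

set_option autoImplicit false
open Cfsg

namespace Cfsg.Agent.S0073

/-- For a finite non-abelian simple group, either the cube of the least prime divisor of the order divides the order, or 12 does. -/
theorem result {G : Type*} [Group G] [Finite G] [IsSimpleGroup G] (hG : ∃ x y : G, x * y ≠ y * x) : (Nat.card G).minFac ^ 3 ∣ Nat.card G ∨ 12 ∣ Nat.card G := by
  by_contra hcon
  push Not at hcon
  obtain ⟨h3, h12⟩ := hcon
  have hn : Nat.card G ≠ 1 := Finite.one_lt_card.ne'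
  set p := (Nat.card G).minFac with hpdef
  have hp : Fact p.Prime := ⟨Nat.minFac_prime hn⟩
  let P : Sylow p G := default
  obtain ⟨a, ha⟩ := P.isPGroup'.exists_card_eq
  have ha2 : a ≤ 2 := by
    by_contra h
    exact h3 ((pow_dvd_pow p (by omega)).trans (ha ▸ Subgroup.card_subgroup_dvd_card (P : Subgroup G)))
  have hc : IsMulCommutative P := by
    interval_cases a
    · have : Subsingleton P := (Nat.card_eq_one_iff_unique.mp (by simpa using ha)).1
      exact ⟨⟨fun a b => Subsingleton.elim _ _⟩⟩
    · have : IsCyclic P := isCyclic_of_prime_card (p := p) (by simpa using ha)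
      infer_instance
    · exact IsPGroup.isMulCommutative_of_card_eq_prime_sq ha
  have hNC := H8.normalizer_le_centralizer_of_primes P hc ha (by
    intro q hq hqG i h1 h2 hd
    have hpq : p ≤ q := Nat.minFac_le_of_dvd hq.two_le hqG
    have hp2 := hp.out.two_le
    have hi : i = 1 ∨ i = 2 := by omega
    have hq1 : ¬ q ∣ p - 1 := fun h => by
      have := Nat.le_of_dvd (by omega) h
      omega
    rcases hi with rfl | rfl
    · exact hq1 (by simpa using hd)
    · have e : p ^ 2 - 1 = (p + 1) * (p - 1) := by simpa using Nat.sq_sub_sq p 1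
      rw [e] at hd
      have hq2 : q ∣ p + 1 := ((Nat.Prime.dvd_mul hq).mp hd).resolve_right hq1
      have hq3 : q = p + 1 := by
        have h4 := Nat.le_of_dvd (by omega) hq2
        by_contra hne
        have : q = p := by omega
        rw [this] at hq2
        exact hp.out.not_dvd_one ((Nat.dvd_add_right dvd_rfl).mp hq2)
      have hp2 : p = 2 := by
        by_contra hne
        have h5 := hp.out.eq_two_or_odd'.resolve_left hne
        have h6 := hq.eq_two_or_odd'.resolve_left (by omega)
        rw [hq3] at h6
        exact (Nat.not_even_iff_odd.mpr h6) h5.add_one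
      apply h12
      have h4 : 4 ∣ Nat.card G := by
        have := Subgroup.card_subgroup_dvd_card (P : Subgroup G)
        rw [ha, hp2, show a = 2 by omega] at this
        exact this
      have h3' : 3 ∣ Nat.card G := by rwa [hq3, hp2] at hqG
      exact Nat.Coprime.mul_dvd_of_dvd_of_dvd (by norm_num : Nat.Coprime 4 3) h4 h3')
  have hcomp := MonoidHom.ker_transferSylow_isComplement' P hNC
  rcases (inferInstance : (MonoidHom.transferSylow P hNC).ker.Normal).eq_bot_or_eq_top with h | h
  · rw [h, Subgroup.isComplement'_bot_left] at hcomp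
    obtain ⟨x, y, hxy⟩ := hG
    have hx : x ∈ (P : Subgroup G) := hcomp ▸ Subgroup.mem_top x
    have hy : y ∈ (P : Subgroup G) := hcomp ▸ Subgroup.mem_top y
    exact hxy (congrArg Subtype.val (hc.1.1 ⟨x, hx⟩ ⟨y, hy⟩))
  · rw [h, Subgroup.isComplement'_top_left] at hcomp
    exact P.ne_bot_of_dvd_card (Nat.minFac_dvd _) hcomp

end Cfsg.Agent.S0073
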