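import Cfsg.Statements.S0074
import Cfsg.Agent.Base
import Cfsg.Agent.H8.Focal

set_option autoImplicit false
open Cfsg

namespace Cfsg.Agent.S0074

/-- For an abelian Sylow p-subgroup P, the intersection of P with the derived subgroup of G equals its intersection with the derived subgroup of the normalizer of P. -/
theorem result {G : Type*} [Group G] [Finite G] {p : ℕ} [Fact p.Prime] (P : Sylow p G) (hP : IsMulCommutative P) : commutator G ⊓ (P : Subgroup G) = ⁅Subgroup.normalizer (P : Set G), Subgroup.normalizer (P : Set G)⁆ ⊓ (P : Subgroup G) := by
  exact H8.commutator_inf_sylow_eq_of_control P _ P.le_normalizer (H8.abelian_sylow_control P hP)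

end Cfsg.Agent.S0074
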