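import Cfsg.Statements.S0076
import Cfsg.Agent.Base
import Cfsg.Agent.H8.Focal

set_option autoImplicit false
open Cfsg

namespace Cfsg.Agent.S0076

theorem mem_norm {G : Type*} [Group G] (Y : Set G) (x : G)
    (h : (fun y => x * y * x⁻¹) '' Y = Y) : x ∈ Subgroup.normalizer Y := by
  rw [Subgroup.mem_set_normalizer_iff]
  intro y
  constructor
  · intro hy
    rw [← h]
    exact ⟨y, hy, rfl⟩
  · intro hy
    rw [← h] at hy
    obtain ⟨z, hz, hz'⟩ := hy
    have : z = y := by simpa using hz'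
    rwa [← this]

theorem image_eq {G : Type*} [Group G] (Y : Set G) (x : G) (h : x ∈ Subgroup.normalizer Y) :
    (fun y => x * y * x⁻¹) '' Y = Y := by
  rw [Subgroup.mem_set_normalizer_iff] at h
  ext y
  constructor
  · rintro ⟨z, hz, rfl⟩
    exact (h z).mp hz
  · intro hy
    refine ⟨x⁻¹ * y * x, (h _).mpr (by simpa [mul_assoc] using hy), by simp [mul_assoc]⟩

/-- Two P-invariant subsets of a Sylow p-subgroup P that are conjugate in G are conjugate under the normalizer of P. -/
theorem result {G : Type*} [Group G] [Finite G] {p : ℕ} [Fact p.Prime] (P : Sylow p G) (X Y : Set G) (hXP : X ⊆ P) (hYP : Y ⊆ P) (hX : ∀ x ∈ P, (fun y => x * y * x⁻¹) '' X = X) (hY : ∀ x ∈ P, (fun y => x * y * x⁻¹) '' Y = Y) (g : G) (hg : (fun y => g * y * g⁻¹) '' X = Y) : ∃ n ∈ Subgroup.normalizer (P : Set G), (fun y => n * y * n⁻¹) '' X = Y := by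
  have h1 : (P : Subgroup G) ≤ Subgroup.normalizer Y := fun x hx => mem_norm Y x (hY x hx)
  have h2 : ((g • P : Sylow p G) : Subgroup G) ≤ Subgroup.normalizer Y := by
    intro x hx
    have hx' : g⁻¹ * x * g ∈ P := (H8.mem_smul_sylow_iff P g x).mp hx
    apply mem_norm
    have h3 := hX _ hx'
    rw [← hg, Set.image_image]
    conv_rhs => rw [← h3, Set.image_image]
    congr 1
    ext y
    group
  obtain ⟨k, hk, hkP⟩ := H8.exists_mem_smul_sylow_eq (g • P) P _ h2 h1
  rw [smul_smul, Sylow.smul_eq_iff_mem_normalizer] at hkP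
  refine ⟨k * g, hkP, ?_⟩
  conv_rhs => rw [← image_eq Y k hk, ← hg, Set.image_image]
  congr 1
  ext y
  group

end Cfsg.Agent.S0076
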