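import Cfsg.Statements.S0078
import Cfsg.Agent.H7.Tate
import Cfsg.Agent.H16.Alperin

set_option autoImplicit false
open Cfsg

namespace Cfsg.Agent.S0078

/-- In a p-normal group, a Sylow p-subgroup P meets O^p(G) exactly where it meets O^p(V), for any subgroup V containing the normalizer of the centre of P. -/
theorem result {G : Type*} [Group G] [Finite G] {p : ℕ} [Fact p.Prime] (P : Sylow p G) (hn : ∀ Q : Sylow p G, (P : Subgroup G) ⊓ Subgroup.centralizer (P : Set G) ≤ (Q : Subgroup G) → (Q : Subgroup G) ⊓ Subgroup.centralizer (Q : Set G) = (P : Subgroup G) ⊓ Subgroup.centralizer (P : Set G)) (V : Subgroup G) (hV : Subgroup.normalizer (((P : Subgroup G) ⊓ Subgroup.centralizer (P : Set G) : Subgroup G) : Set G) ≤ V) : (P : Subgroup G) ⊓ Cfsg.pResidual p G = (P : Subgroup G) ⊓ (Cfsg.pResidual p V).map V.subtype := by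
  set Z : Subgroup G := (P : Subgroup G) ⊓ Subgroup.centralizer (P : Set G) with hZ
  have hW : IsWeaklyClosed Z P := by
    refine ⟨inf_le_left, fun g hg => ?_⟩
    change H16.cj g Z ≤ P at hg
    change H16.cj g Z = Z
    have h1 := hn (g⁻¹ • P) (H16.cj_le_iff_le_cj.mp hg)
    change H16.cj g⁻¹ P ⊓ H16.Ce (H16.cj g⁻¹ P) = Z at h1
    rw [H16.Ce_cj, ← H16.cj_inf] at h1
    conv_lhs => rw [← h1]
    exact H16.cj_cj_inv g _
  have hPZ : (P : Subgroup G) ≤ Subgroup.centralizer (Z : Set G) :=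
    Subgroup.le_centralizer_iff.mp inf_le_right
  have hPV : (P : Subgroup G) ≤ V := hPZ.trans ((Subgroup.centralizer_le_normalizer _).trans hV)
  rw [← H7.tate_of_control P hPV fun x hx g hg =>
    let ⟨k, hk, e⟩ := H8.weaklyClosed_control hW (hPZ hx) (hPZ hg); ⟨k, hV hk, e⟩]
  rw [inf_comm (pResidual p G), ← inf_assoc, inf_of_le_left hPV]

end Cfsg.Agent.S0078
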