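import Cfsg.Statements.S0083
import Cfsg.Agent.Base
import Cfsg.Agent.H8.AbFitting
import Cfsg.Agent.H7.NPC

set_option autoImplicit false
open Cfsg

namespace Cfsg.Agent.S0083

/-- For an abelian Sylow p-subgroup P, a normal p-complement exists exactly when the normalizer of P is an internal direct product of P with some subgroup. -/
theorem result {G : Type*} [Group G] [Finite G] {p : ℕ} [Fact p.Prime] (P : Sylow p G) (hP : IsMulCommutative P) : Cfsg.HasNormalPComplement p G ↔ ∃ Q : Subgroup G, Q ≤ Subgroup.centralizer (P : Set G) ∧ Q ⊓ (P : Subgroup G) = ⊥ ∧ Q ⊔ (P : Subgroup G) = Subgroup.normalizer (P : Set G) := by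
  constructor
  · intro h
    obtain ⟨K, hK, hc⟩ := (H7.hasNPC_iff_sylow P).mp h
    refine ⟨K ⊓ Subgroup.normalizer (P : Set G), ?_, ?_, ?_⟩
    · rintro k ⟨hk1, hk2⟩ x hx
      have h1 : x⁻¹ * k * x * k⁻¹ ∈ K ⊓ (P : Subgroup G) := by
        constructor
        · exact K.mul_mem (by simpa using hK.conj_mem k hk1 x⁻¹) (K.inv_mem hk1)
        · have := (Subgroup.mem_set_normalizer_iff.mp hk2 x).mp hx
          have h2 := (P : Subgroup G).mul_mem ((P : Subgroup G).inv_mem hx) this
          have e : x⁻¹ * k * x * k⁻¹ = x⁻¹ * (k * x * k⁻¹) := by group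
          rw [e]
          exact h2
      rw [hc.disjoint.eq_bot, Subgroup.mem_bot] at h1
      calc x * k = x * (x⁻¹ * k * x * k⁻¹) * k := by rw [h1, mul_one]
        _ = k * x := by group
    · rw [eq_bot_iff, ← hc.disjoint.eq_bot]
      exact inf_le_inf_right _ inf_le_left
    · apply le_antisymm (sup_le inf_le_right P.le_normalizer)
      intro g hg
      obtain ⟨⟨k, x⟩, rfl⟩ := hc.2 g
      refine Subgroup.mul_mem_sup ⟨k.2, ?_⟩ x.2
      exact (Subgroup.mul_mem_cancel_right _ (P.le_normalizer x.2)).mp hg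
  · rintro ⟨Q, h1, -, h3⟩
    apply H8.hasNPC_of_normalizer_le_centralizer P
    rw [← h3]
    exact sup_le h1 P.le_centralizer

end Cfsg.Agent.S0083
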