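import Cfsg.Statements.S0084
import Cfsg.Agent.Base
import Cfsg.Agent.H8.AbFitting

set_option autoImplicit false
open Cfsg

namespace Cfsg.Agent.S0084

/-- A group whose Sylow 2-subgroups are Klein four-groups and whose order is prime to 3 has a normal 2-complement. -/
theorem result {G : Type*} [Group G] [Finite G] (T : Sylow 2 G) (hT : IsKleinFour T) (h3 : ¬ 3 ∣ Nat.card G) : Cfsg.HasNormalPComplement 2 G := by
  have hc : IsMulCommutative T := IsKleinFour.isMulCommutative
  apply H8.hasNPC_of_normalizer_le_centralizer T
  apply H8.normalizer_le_centralizer_of_primes T hc (a := 2) hT.card_four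
  intro q hq hqG i h1 h2 hd
  have : q ∣ 3 := by
    interval_cases i
    · exact hd.trans (by norm_num)
    · exact hd
  rw [(Nat.prime_dvd_prime_iff_eq hq Nat.prime_three).mp this] at hqG
  exact h3 hqG

end Cfsg.Agent.S0084
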