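import Cfsg.Statements.S0085
import Cfsg.Agent.Base
import Cfsg.Agent.H8.AbFitting

set_option autoImplicit false
open Cfsg

namespace Cfsg.Agent.S0085

/-- A group whose Sylow 2-subgroups are elementary abelian of order 8 and whose order is prime to 3 and to 7 has a normal 2-complement. -/
theorem result {G : Type*} [Group G] [Finite G] (T : Sylow 2 G) (h8 : Nat.card T = 8) (he : ∀ x : T, x * x = 1) (h3 : ¬ 3 ∣ Nat.card G) (h7 : ¬ 7 ∣ Nat.card G) : Cfsg.HasNormalPComplement 2 G := by
  have hc : IsMulCommutative T := ⟨⟨fun x y => by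
    have h1 : ∀ z : T, z⁻¹ = z := fun z => inv_eq_of_mul_eq_one_right (he z)
    rw [← h1 (x * y), mul_inv_rev, h1, h1]⟩⟩
  apply H8.hasNPC_of_normalizer_le_centralizer T
  apply H8.normalizer_le_centralizer_of_primes T hc (a := 3) h8
  intro q hq hqG i h1 h2 hd
  have : q ∣ 3 ∨ q ∣ 7 := by
    interval_cases i
    · exact Or.inl (hd.trans (by norm_num))
    · exact Or.inl hd
    · exact Or.inr hd
  rcases this with h | h
  · rw [(Nat.prime_dvd_prime_iff_eq hq Nat.prime_three).mp h] at hqG
    exact h3 hqG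
  · rw [(Nat.prime_dvd_prime_iff_eq hq (by norm_num)).mp h] at hqG
    exact h7 hqG

end Cfsg.Agent.S0085
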