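import Cfsg.Statements.S0087
import Cfsg.Agent.Base
import Cfsg.Agent.H8.CentralTransfer
import Cfsg.Agent.H8.HallFocal

set_option autoImplicit false
open Cfsg

namespace Cfsg.Agent.S0087

/-- A Hall subgroup that is central in its normalizer has a normal complement. -/
theorem result {G : Type*} [Group G] [Finite G] (H : Subgroup G) (hHall : Nat.Coprime (Nat.card H) H.index) (h : Subgroup.normalizer (H : Set G) ≤ Subgroup.centralizer (H : Set G)) : ∃ N : Subgroup G, N.Normal ∧ N.IsComplement' H := by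
  have hHC : H ≤ Subgroup.centralizer (H : Set G) := H.le_normalizer.trans h
  have hc : IsMulCommutative H := ⟨⟨fun a b => Subtype.ext (hHC b.2 a a.2)⟩⟩
  have hnil : ∀ (L : Type _) [Group L], IsMulCommutative L → Group.IsNilpotent L := by
    intro L _ hL
    let _ : CommGroup L := { mul_comm := hL.1.1 }
    infer_instance
  apply H8.normal_complement_of_nilpotent_hall H (hnil H hc) hHall
  intro x hx g hg
  set C := Subgroup.centralizer {g * x * g⁻¹}
  have h1 : H ≤ C := fun y hy => Subgroup.mem_centralizer_singleton_iff.mpr (hHC hg y hy)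
  have h2 : H.map (MulAut.conj g).toMonoidHom ≤ C := by
    rw [H8.map_conj_le_iff]
    intro w hw
    rw [Subgroup.mem_centralizer_singleton_iff]
    have := hHC hx w hw
    calc g * w * g⁻¹ * (g * x * g⁻¹) = g * (w * x) * g⁻¹ := by group
      _ = g * (x * w) * g⁻¹ := by rw [this]
      _ = _ := by group
  have c1 : Nat.card (H.subgroupOf C) = Nat.card H :=
    Nat.card_congr (Subgroup.subgroupOfEquivOfLe h1).toEquiv
  have c2 : Nat.card ((H.map (MulAut.conj g).toMonoidHom).subgroupOf C) = Nat.card H := by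
    rw [← H8.card_map_conj H g]
    exact Nat.card_congr (Subgroup.subgroupOfEquivOfLe h2).toEquiv
  obtain ⟨c, hc'⟩ := H8.nilpotent_hall_conj (Nat.card H) (H.subgroupOf C)
    ((H.map (MulAut.conj g).toMonoidHom).subgroupOf C) c1 c2 (hnil _ inferInstance)
    (hnil _ inferInstance) (by
      rw [c1]
      exact Nat.Coprime.coprime_dvd_right (Subgroup.relIndex_dvd_index_of_le h1) hHall)
  have h3 : g⁻¹ * c ∈ Subgroup.normalizer (H : Set G) := by
    rw [← H8.map_conj_eq_iff]
    apply Subgroup.eq_of_le_of_card_ge _ (H8.card_map_conj H _).ge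
    rw [H8.map_conj_le_iff]
    intro y hy
    have : c * ⟨y, h1 hy⟩ * c⁻¹ ∈ (H.subgroupOf C).map (MulAut.conj c).toMonoidHom :=
      ⟨⟨y, h1 hy⟩, hy, rfl⟩
    rw [hc', Subgroup.mem_subgroupOf, H8.mem_map_conj_iff] at this
    simpa [mul_assoc] using this
  refine ⟨1, H.one_mem, ?_⟩
  have h4 := h h3 x hx
  have h5 := Subgroup.mem_centralizer_singleton_iff.mp c.2
  calc g * x * g⁻¹ = (c : G)⁻¹ * (g * x * g⁻¹ * c) := by rw [← h5]; group
    _ = (c : G)⁻¹ * g * (x * (g⁻¹ * c)) := by group
    _ = 1 * x * 1⁻¹ := by rw [h4]; group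

end Cfsg.Agent.S0087
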