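import Cfsg.Statements.S0090
import Cfsg.Agent.Base
import Cfsg.Agent.H8.AbFitting
import Cfsg.Agent.H8.Focal

set_option autoImplicit false
open Cfsg

namespace Cfsg.Agent.S0090

/-- An abelian normal Hall subgroup A splits as the internal direct product of G' ∩ A and Z(G) ∩ A, and [A, G] = G' ∩ A. -/
theorem result {G : Type*} [Group G] [Finite G] (A : Subgroup G) [A.Normal] (hc : IsMulCommutative A) (hHall : Nat.Coprime (Nat.card A) A.index) : ⁅A, (⊤ : Subgroup G)⁆ = commutator G ⊓ A ∧ (commutator G ⊓ A) ⊓ (Subgroup.center G ⊓ A) = ⊥ ∧ (commutator G ⊓ A) ⊔ (Subgroup.center G ⊓ A) = A := by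
  have hn : (⊤ : Subgroup G) ≤ Subgroup.normalizer (A : Set G) := by
    rw [Subgroup.normalizer_eq_top]
  have h1 : ⁅A, (⊤ : Subgroup G)⁆ = commutator G ⊓ A := by
    rw [H8.commutator_inf_eq_focal_of_hall A hHall]
    exact le_antisymm (H8.commutator_le_focal_of_le_normalizer A ⊤ hn)
      (H8.focal_le_commutator_of_control A ⊤ fun x _ g _ => ⟨g, trivial, rfl⟩)
  obtain ⟨h2, h3⟩ := H8.fitting_decomposition A ⊤ hc hn (by
    rw [Subgroup.relIndex_top_right]
    exact Nat.Coprime.coprime_dvd_left (Subgroup.index_dvd_of_le A.le_centralizer) hHall.symm)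
  rw [h1, Subgroup.coe_top, Subgroup.centralizer_univ, inf_comm A] at h2 h3
  exact ⟨h1, h2, h3⟩

end Cfsg.Agent.S0090
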