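import Cfsg.Statements.S0092
import Cfsg.Agent.Base
import Cfsg.Agent.H8.AbFitting
import Cfsg.Agent.H8.SylowInf
import Cfsg.Agent.S0075
import Cfsg.Agent.H1.Glauberman

set_option autoImplicit false
open Cfsg

namespace Cfsg.Agent.S0092

/-- If the Sylow p-subgroups of O^p(G) are abelian then G splits over O^p(G). -/
theorem result {G : Type*} [Group G] [Finite G] {p : ℕ} [Fact p.Prime] (h : ∀ Q : Sylow p (Cfsg.pResidual p G), IsMulCommutative Q) : ∃ K : Subgroup G, K.IsComplement' (Cfsg.pResidual p G) := by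
  set K := Cfsg.pResidual p G with hK
  let Q' : Sylow p K := default
  have hQ' := h Q'
  set Q : Subgroup G := (Q' : Subgroup K).map K.subtype with hQ
  have hQK : Q ≤ K := Subgroup.map_subtype_le _
  have memQ : ∀ x : K, (x : G) ∈ Q ↔ x ∈ Q' := fun x =>
    Subgroup.mem_map_iff_mem K.subtype_injective
  have hQc : ∀ a ∈ Q, ∀ b ∈ Q, a * b = b * a := by
    rintro _ ⟨a, ha, rfl⟩ _ ⟨b, hb, rfl⟩
    exact congrArg (fun z : Q' => ((z : K) : G)) (hQ'.1.1 ⟨a, ha⟩ ⟨b, hb⟩)
  have hQp : IsPGroup p Q := Q'.isPGroup'.map _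
  -- no fixed points of the normalizer in `K`
  have h1 := Cfsg.Agent.S0075.result Q' hQ'
  have h0 : Cfsg.pResidual p K = ⊤ := H7.pResidual_pResidual
  rw [h0, inf_top_eq] at h1
  have h2 := (H8.fitting_decomposition_sylow Q' hQ').1
  rw [← h1, ← inf_assoc, inf_idem] at h2
  set M' := Subgroup.normalizer (Q' : Set K) with hM'
  have memM : ∀ x : K, x ∈ M' ↔ (x : G) ∈ Subgroup.normalizer (Q : Set G) := by
    intro x
    rw [Subgroup.mem_set_normalizer_iff, Subgroup.mem_normalizer_iff]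
    constructor
    · intro hx y
      by_cases hy : y ∈ K
      · have := hx ⟨y, hy⟩
        rw [SetLike.mem_coe, SetLike.mem_coe, ← memQ, ← memQ] at this
        exact this
      · refine ⟨fun h => (hy (hQK h)).elim, fun h => (hy ?_).elim⟩
        have := hQK h
        rwa [K.mul_mem_cancel_right (K.inv_mem x.2), K.mul_mem_cancel_left x.2] at this
    · intro hx y
      rw [SetLike.mem_coe, SetLike.mem_coe, ← memQ, ← memQ]
      exact hx y
  -- a complement to `Q'` in its normalizer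
  have : ((Q' : Subgroup K).subgroupOf M').Normal := Subgroup.normal_in_normalizer
  obtain ⟨L', hL'⟩ := Subgroup.exists_right_complement'_of_coprime
    (N := (Q' : Subgroup K).subgroupOf M') (Q'.subtype Q'.le_normalizer).card_coprime_index
  set L : Subgroup G := (L'.map M'.subtype).map K.subtype with hL
  have hLM : ∀ x ∈ L, x ∈ K ∧ x ∈ Subgroup.normalizer (Q : Set G) := by
    rintro _ ⟨_, ⟨y, -, rfl⟩, rfl⟩
    exact ⟨y.1.2, (memM _).mp y.2⟩
  have hML : ∀ x ∈ K, x ∈ Subgroup.normalizer (Q : Set G) → ∃ q ∈ Q, ∃ l ∈ L, x = q * l := by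
    intro x hxK hx
    obtain ⟨⟨q, l⟩, hql⟩ := hL'.2 ⟨⟨x, hxK⟩, (memM _).mpr hx⟩
    exact ⟨q.1.1.1, (memQ _).mpr q.2, l.1.1.1, ⟨_, ⟨_, l.2, rfl⟩, rfl⟩,
      (congrArg (fun z : M' => ((z : K) : G)) hql).symm⟩
  have hLc : Nat.Coprime (Nat.card L) (Nat.card Q) := by
    obtain ⟨k, hk⟩ := hQp.exists_card_eq
    rw [hL, Subgroup.card_map_of_injective K.subtype_injective,
      Subgroup.card_map_of_injective M'.subtype_injective, ← hL'.symm.index_eq_card, hk]
    exact Nat.Coprime.pow_right _ ((Nat.Prime.coprime_iff_not_dvd Fact.out).mpr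
      (Q'.subtype Q'.le_normalizer).not_dvd_index).symm
  set D := Subgroup.normalizer (Q : Set G) ⊓ Subgroup.normalizer (L : Set G) with hD
  have hfr : Subgroup.normalizer (Q : Set G) ≤ K ⊔ D := by
    intro n hn
    have hsolv : Group.IsSolvable Q := by
      have := hQp.isNilpotent
      infer_instance
    obtain ⟨q, hq, hqn⟩ := H1.exists_conj_le_of_le_mul (L.map (MulAut.conj n).toMonoidHom) Q L
      (by
        rw [H8.map_conj_le_iff]
        intro x hx
        exact mul_mem (mul_mem hn (hLM x hx).2) (inv_mem hn))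
      (by rwa [H8.card_map_conj]) (Or.inr hsolv)
      (by
        rintro _ ⟨x, hx, rfl⟩
        exact hML _ (H7.pResidual_normal.conj_mem _ (hLM x hx).1 n)
          (mul_mem (mul_mem hn (hLM x hx).2) (inv_mem hn)))
    have h3 : q * n ∈ Subgroup.normalizer (L : Set G) := by
      rw [← H8.map_conj_eq_iff, ← H8.map_conj_map_conj]
      exact Subgroup.eq_of_le_of_card_ge hqn (by rw [H8.card_map_conj, H8.card_map_conj])
    have : n = q⁻¹ * (q * n) := by group
    rw [this]
    exact Subgroup.mul_mem_sup (K.inv_mem (hQK hq)) ⟨mul_mem (Q.le_normalizer hq) hn, h3⟩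
  have hKD : K ⊔ D = ⊤ := by
    rw [eq_top_iff, ← Sylow.normalizer_sup_eq_top Q']
    exact sup_le hfr le_sup_left
  let R' : Sylow p D := default
  have hR' : K.subgroupOf D ⊔ (R' : Subgroup D) = ⊤ := by
    apply H7.sup_eq_top_of_index (p := p) _ R'.not_dvd_index
    obtain ⟨k, hk⟩ := H7.index_pResidual (p := p) (G := G)
    obtain ⟨j, -, hj⟩ := (Nat.dvd_prime_pow Fact.out).mp
      (hk ▸ Subgroup.relIndex_dvd_index_of_normal K D)
    exact ⟨j, hj⟩
  refine ⟨(R' : Subgroup D).map D.subtype, ?_⟩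
  apply Subgroup.isComplement'_of_disjoint_and_mul_eq_univ
  · rw [Subgroup.disjoint_def]
    rintro _ ⟨x, hx, rfl⟩ hxK
    have hxM : (⟨x, hxK⟩ : K) ∈ M' := (memM _).mpr x.2.1
    have hp : IsPGroup p (((R' : Subgroup D).map D.subtype).subgroupOf K) :=
      (R'.isPGroup'.map _).comap_subtype
    have hxQ' : (⟨x, hxK⟩ : K) ∈ Q' := by
      have h3 : (⟨x, hxK⟩ : K) ∈ ((R' : Subgroup D).map D.subtype).subgroupOf K ⊓ M' :=
        ⟨⟨x, hx, rfl⟩, hxM⟩
      rw [hM', hp.inf_normalizer_sylow Q'] at h3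
      exact h3.2
    have hxQ : (x : G) ∈ Q := (memQ ⟨x, hxK⟩).mpr hxQ'
    have h4 : (⟨x, hxK⟩ : K) ∈ (Q' : Subgroup K) ⊓ Subgroup.centralizer (M' : Set K) := by
      refine ⟨hxQ', fun m hm => Subtype.ext ?_⟩
      obtain ⟨q, hq, l, hl, hm'⟩ := hML m m.2 ((memM m).mp hm)
      have h5 : (x : G) * l * (x : G)⁻¹ * l⁻¹ ∈ L ⊓ Q := by
        constructor
        · exact L.mul_mem ((Subgroup.mem_normalizer_iff.mp x.2.2 l).mp hl) (L.inv_mem hl)
        · have := Q.mul_mem hxQ ((Subgroup.mem_normalizer_iff.mp (hLM l hl).2 _).mp (Q.inv_mem hxQ))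
          simpa [mul_assoc] using this
      rw [(Subgroup.disjoint_of_coprime_natCard hLc).eq_bot, Subgroup.mem_bot, mul_inv_eq_one,
        mul_inv_eq_iff_eq_mul] at h5
      change (m : G) * x = x * m
      rw [hm', mul_assoc, ← h5, ← mul_assoc, hQc q hq x hxQ, mul_assoc]
    rw [h2, Subgroup.mem_bot] at h4
    exact congrArg Subtype.val h4
  · rw [← Subgroup.mul_normal, Subgroup.coe_eq_univ, eq_top_iff, ← hKD]
    refine sup_le le_sup_right ?_
    have := congrArg (Subgroup.map D.subtype) hR'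
    rw [Subgroup.map_sup, ← MonoidHom.range_eq_map, Subgroup.range_subtype,
      Subgroup.subgroupOf_map_subtype] at this
    exact this.ge.trans (sup_le (inf_le_left.trans le_sup_right) le_sup_left)

end Cfsg.Agent.S0092
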