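import Cfsg.Statements.S0099
import Cfsg.Agent.H27.Extra

set_option autoImplicit false
open Cfsg

namespace Cfsg.Agent.S0099

/-- Among three extraspecial 2-groups of equal order, some two are isomorphic. -/
theorem result {E₁ : Type*} {E₂ : Type*} {E₃ : Type*} [Group E₁] [Group E₂] [Group E₃] [Finite E₁] [Finite E₂] [Finite E₃] (h₁ : Cfsg.IsExtraspecial 2 E₁) (h₂ : Cfsg.IsExtraspecial 2 E₂) (h₃ : Cfsg.IsExtraspecial 2 E₃) (h12 : Nat.card E₁ = Nat.card E₂) (h23 : Nat.card E₂ = Nat.card E₃) : Nonempty (E₁ ≃* E₂) ∨ Nonempty (E₂ ≃* E₃) ∨ Nonempty (E₁ ≃* E₃) := by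
  obtain ⟨m, hm, h1⟩ := H27.plus_or_minus_of_isExtraspecial h₁
  have h2 := H27.plus_or_minus_of_card h₂ (m := m) (h12 ▸ hm)
  have h3 := H27.plus_or_minus_of_card h₃ (m := m) (h23 ▸ h12 ▸ hm)
  rcases h1 with a | a <;> rcases h2 with b | b <;> rcases h3 with c | c
  · exact .inl (a.nonempty_equiv b)
  · exact .inl (a.nonempty_equiv b)
  · exact .inr (.inr (a.nonempty_equiv c))
  · exact .inr (.inl (b.nonempty_equiv c))
  · exact .inr (.inl (b.nonempty_equiv c))
  · exact .inr (.inr (a.nonempty_equiv c))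
  · exact .inl (a.nonempty_equiv b)
  · exact .inl (a.nonempty_equiv b)

end Cfsg.Agent.S0099
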