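import Cfsg.Statements.S0104
import Cfsg.Agent.Base
import Cfsg.Agent.H8.SylowInf

set_option autoImplicit false
open Cfsg

namespace Cfsg.Agent.S0104

/-- A subgroup Z of a Sylow p-subgroup P that is normalized by N_G(P) is weakly closed in P exactly when it is normal in every Sylow p-subgroup containing it. -/
theorem result {G : Type*} [Group G] [Finite G] {p : ℕ} [Fact p.Prime] (P : Sylow p G) (Z : Subgroup G) (hZP : Z ≤ (P : Subgroup G)) (hZN : Subgroup.normalizer (P : Set G) ≤ Subgroup.normalizer (Z : Set G)) : Cfsg.IsWeaklyClosed Z P ↔ ∀ R : Sylow p G, Z ≤ (R : Subgroup G) → (R : Subgroup G) ≤ Subgroup.normalizer (Z : Set G) := by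
  constructor
  · intro hW R hR r hr
    rw [← H8.map_conj_eq_iff, H8.weaklyClosed_conj_eq hW R r 1 _ (by rwa [H8.map_conj_one]),
      H8.map_conj_one]
    rw [H8.map_conj_le_iff]
    intro x hx
    exact (R : Subgroup G).mul_mem ((R : Subgroup G).mul_mem hr (hR hx)) ((R : Subgroup G).inv_mem hr)
  · intro h
    refine ⟨hZP, fun g hg => ?_⟩
    have h1 : Z ≤ ((g⁻¹ • P : Sylow p G) : Subgroup G) := by
      intro z hz
      change z ∈ g⁻¹ • P
      rw [H8.mem_smul_sylow_iff, inv_inv]
      exact (H8.map_conj_le_iff _ _ _).mp hg z hz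
    obtain ⟨k, hk, hkP⟩ := H8.exists_mem_smul_sylow_eq (g⁻¹ • P) P _ (h _ h1) (h P hZP)
    rw [smul_smul, Sylow.smul_eq_iff_mem_normalizer] at hkP
    rw [H8.map_conj_eq_iff]
    have := (Subgroup.mul_mem_cancel_left _ hk).mp (hZN hkP)
    exact (Subgroup.inv_mem_iff _).mp this

end Cfsg.Agent.S0104
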