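import Cfsg.Statements.S0110
import Cfsg.Agent.H9.ExtraAut

set_option autoImplicit false
open Cfsg

namespace Cfsg.Agent.S0110

/-- In a p-group G, an extraspecial subgroup E with [G, E] ≤ Z(E) satisfies G = E C_G(E). -/
theorem result {G : Type*} [Group G] [Finite G] {p : ℕ} [Fact p.Prime] (hG : IsPGroup p G) (E : Subgroup G) (hE : Cfsg.IsExtraspecial p E) (h : ⁅(⊤ : Subgroup G), E⁆ ≤ E ⊓ Subgroup.centralizer (E : Set G)) : E ⊔ Subgroup.centralizer (E : Set G) = ⊤ := by
  rw [eq_top_iff]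
  intro g _
  obtain ⟨e, he, h1⟩ := H9.mem_sup_centralizer_of_isExtraspecial hE (g := g) fun x hx =>
    h (Subgroup.commutator_mem_commutator (Subgroup.mem_top g) hx)
  have : g = e * (e⁻¹ * g) := by simp
  rw [this]
  exact Subgroup.mul_mem _ (Subgroup.mem_sup_left he) (Subgroup.mem_sup_right h1)

end Cfsg.Agent.S0110
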