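import Cfsg.Statements.S0114
import Cfsg.Agent.H9.MaxClass
import Cfsg.Agent.H61.Dihedral

set_option autoImplicit false
open Cfsg

namespace Cfsg.Agent.S0114

/-- The central quotient of a 2-group of maximal class is dihedral. -/
theorem result {X : Type*} [Group X] [Finite X] (n : ℕ) (hn : 3 ≤ n) (hX : Nat.card X = 2 ^ n) (hc : Group.nilpotencyClass X = n - 1) : Nonempty (X ⧸ Subgroup.center X ≃* DihedralGroup (2 ^ (n - 2))) := by
  obtain ⟨m, rfl⟩ : ∃ m, n = m + 3 := ⟨n - 3, by omega⟩
  have hP := IsPGroup.of_card hX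
  have hi := (H9.index_commutator_of_maximal_class hn hX hc).1
  obtain ⟨C, hC, hCi⟩ := H9.exists_cyclic_index_two_of_index_commutator m X hX hi
  have hne : commutator X ≠ ⊥ := by
    intro h
    rw [h, Subgroup.index_bot, hX] at hi
    have := Nat.pow_right_injective le_rfl hi
    omega
  obtain ⟨hZ, hZC, hout⟩ := H9.center_of_abelian_index hP inferInstance hCi hi hne
  have hCn := H9.normal_of_index_eq hP hCi
  have hidx : (C.map (QuotientGroup.mk' (Subgroup.center X))).index = 2 := by
    rw [Subgroup.index_map_eq _ (QuotientGroup.mk'_surjective _)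
      (by rwa [QuotientGroup.ker_mk']), hCi]
  have hcard : Nat.card (C.map (QuotientGroup.mk' (Subgroup.center X))) = 2 ^ (m + 3 - 2) := by
    have h1 := (C.map (QuotientGroup.mk' (Subgroup.center X))).index_mul_card
    have h2 := Subgroup.card_eq_card_quotient_mul_card_subgroup (Subgroup.center X)
    rw [hidx] at h1
    rw [hX, hZ, ← h1] at h2
    rw [show m + 3 - 2 = m + 1 by omega]
    rw [show m + 3 = m + 1 + 2 by omega, pow_add] at h2
    omega
  rw [← hcard]
  refine H61.dihedral_of_index_two _ (isCyclic_of_surjective _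
    (MonoidHom.subgroupMap_surjective _ C)) hidx fun q hq => ?_
  obtain ⟨x, rfl⟩ := QuotientGroup.mk_surjective q
  have hx : x ∉ C := fun h => hq ⟨x, h, rfl⟩
  rw [← QuotientGroup.mk_mul, QuotientGroup.eq_one_iff, ← (hout x hx).1]
  exact ⟨by rw [← pow_two, ← hCi]; exact C.pow_index_mem x,
    Subgroup.mem_centralizer_singleton_iff.mpr (mul_assoc x x x)⟩

end Cfsg.Agent.S0114
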