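import Cfsg.Statements.S0115
import Cfsg.Agent.H9.MaxClass

set_option autoImplicit false
open Cfsg

namespace Cfsg.Agent.S0115

/-- A 2-group of order 2^n, n ≥ 3, is of maximal class exactly when its commutator quotient is a Klein four-group. -/
theorem result {X : Type*} [Group X] [Finite X] (n : ℕ) (hn : 3 ≤ n) (hX : Nat.card X = 2 ^ n) : Group.nilpotencyClass X = n - 1 ↔ IsKleinFour (X ⧸ commutator X) := by
  obtain ⟨m, rfl⟩ : ∃ m, n = m + 3 := ⟨n - 3, by omega⟩
  have hP := IsPGroup.of_card hX
  constructor
  · intro hc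
    obtain ⟨h1, h2⟩ := H9.index_commutator_of_maximal_class hn hX hc
    have h3 : ¬ IsCyclic (X ⧸ commutator X) := fun h =>
      h2 (H9.isCyclic_of_isCyclic_quotient_commutator hP h)
    exact ⟨h1, (not_isCyclic_iff_exponent_eq_prime Nat.prime_two h1).mp h3⟩
  · intro h
    have hi : (commutator X).index = 2 ^ 2 := h.card_four
    obtain ⟨C, hC, hCi⟩ := H9.exists_cyclic_index_two_of_index_commutator m X hX hi
    have hne : commutator X ≠ ⊥ := by
      intro h
      rw [h, Subgroup.index_bot, hX] at hi
      have := Nat.pow_right_injective le_rfl hi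
      omega
    obtain ⟨-, -, hout⟩ := H9.center_of_abelian_index hP inferInstance hCi hi hne
    have hne' : C ≠ ⊤ := by
      rintro rfl
      simp at hCi
    obtain ⟨x, -, hx⟩ := SetLike.exists_of_lt hne'.lt_top
    exact H9.nilpotencyClass_eq_of_card_centralizer (m + 1) X hX x (hout x hx).2

end Cfsg.Agent.S0115
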