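import Cfsg.Statements.S0119
import Cfsg.Agent.H9.Critical

set_option autoImplicit false
open Cfsg

namespace Cfsg.Agent.S0119

open scoped commutatorElement IsMulCommutative


/-- If a p'-group A of automorphisms of a p-group G satisfies G = [G, A] and acts trivially on every characteristic abelian subgroup, then G is special with centre equal to the fixed points of A. -/
theorem result {G : Type*} [Group G] [Finite G] {p : ℕ} [Fact p.Prime] (hG : IsPGroup p G) (A : Subgroup (MulAut G)) (hA : Nat.Coprime (Nat.card A) p) (hGA : Subgroup.closure {x : G | ∃ g : G, ∃ a ∈ A, x = g⁻¹ * a g} = ⊤) (hchar : ∀ H : Subgroup G, H.Characteristic → IsMulCommutative H → ∀ a ∈ A, ∀ h ∈ H, a h = h) : Cfsg.IsSpecial p G ∧ (∀ g : G, (g ∈ Subgroup.center G ↔ ∀ a ∈ A, a g = g)) := by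
  classical
  have := hG.isNilpotent
  -- characteristic abelian subgroups are central
  have hcent : ∀ H : Subgroup G, H.Characteristic → IsMulCommutative H →
      H ≤ Subgroup.center G := by
    intro H hH hHc
    have : (⊤ : Subgroup G) ≤ Subgroup.centralizer (H : Set G) := by
      rw [← hGA, Subgroup.closure_le]
      rintro _ ⟨g, a, ha, rfl⟩
      exact H9.inv_mul_apply_mem_centralizer a (hchar H hH hHc a ha) g
    rw [Subgroup.le_centralizer_iff, Subgroup.coe_top, Subgroup.centralizer_univ] at this
    exact this
  -- class at most two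
  have hcl : commutator G ≤ Subgroup.center G := by
    by_contra hcon
    obtain ⟨x, hx1, hx2, hx3⟩ := H9.exists_central_mod hcon
    have hch := H9.centralMod_characteristic (Subgroup.center G)
    refine hx2 (hcent (commutator G ⊓ H9.centralMod (Subgroup.center G))
      (H9.inf_characteristic' _ _) ?_ ⟨hx1, H9.mem_centralMod.mpr hx3⟩)
    rw [H9.isMulCommutative_iff_forall]
    rintro a ⟨-, ha⟩ b ⟨hb, -⟩
    replace ha := H9.mem_centralMod.mp ha
    let f : G →* Subgroup.center G :=
      MonoidHom.mk' (fun g => ⟨⁅a, g⁆, ha g⟩) fun g h => Subtype.ext (by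
        change ⁅a, g * h⁆ = ⁅a, g⁆ * ⁅a, h⁆
        rw [H9.commutatorElement_mul_right', (H9.commute_of_mem_center (ha h) g).eq,
          mul_inv_cancel_right])
    have h1 : f b = 1 := Abelianization.commutator_subset_ker f hb
    exact commutatorElement_eq_one_iff_mul_comm.mp (congrArg Subtype.val h1)
  have hc : ∀ x y : G, ⁅x, y⁆ ∈ Subgroup.center G := fun x y =>
    hcl (H9.commutatorElement_mem_commutator x y)
  -- fixed points lie in the derived subgroup
  have hfix : ∀ g : G, (∀ a ∈ A, a g = g) → g ∈ commutator G := by
    intro g hg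
    have : Fintype A := Fintype.ofFinite A
    let φ : G →* Abelianization G :=
      MonoidHom.mk' (fun g => ∏ a : A, Abelianization.of ((a : MulAut G) g)) fun g h => by
        simp only [map_mul, Finset.prod_mul_distrib]
    have hφ : ∀ g, φ g = ∏ a : A, Abelianization.of ((a : MulAut G) g) := fun _ => rfl
    have hker : (⊤ : Subgroup G) ≤ φ.ker := by
      rw [← hGA, Subgroup.closure_le]
      rintro _ ⟨g, b, hb, rfl⟩
      change φ (g⁻¹ * b g) = 1
      rw [map_mul, map_inv, inv_mul_eq_one, hφ, hφ]
      exact (Fintype.prod_equiv (Equiv.mulRight (⟨b, hb⟩ : A)) _ _ fun a => rfl).symm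
    have h1 : φ g = 1 := hker (Subgroup.mem_top g)
    rw [hφ, Finset.prod_congr rfl (fun (a : A) _ => by rw [hg a a.2]), Finset.prod_const,
      Finset.card_univ, ← Nat.card_eq_fintype_card] at h1
    have h2 := H9.eq_one_of_pow_eq_one_of_coprime
      (hG.of_surjective Abelianization.of (QuotientGroup.mk'_surjective _)) hA h1
    rwa [← MonoidHom.mem_ker, Abelianization.ker_of] at h2
  have hZ : ∀ g ∈ Subgroup.center G, ∀ a ∈ A, a g = g := fun g hg a ha =>
    hchar _ inferInstance inferInstance a ha g hg
  have hZc : commutator G = Subgroup.center G := le_antisymm hcl fun g hg => hfix g (hZ g hg)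
  -- p-th powers are central
  have hpow : ∀ x : G, x ^ p ∈ Subgroup.center G := by
    have key : ∀ n : ℕ, (∀ x : G, x ^ p ^ (n + 1) ∈ Subgroup.center G) →
        ∀ x : G, x ^ p ∈ Subgroup.center G := by
      intro n
      induction n with
      | zero => intro h x; simpa using h x
      | succ n ih =>
        intro h
        apply ih
        intro x
        refine hcent (Subgroup.closure {y : G | ∃ x : G, y = x ^ p ^ (n + 1)}) ?_ ?_
          (Subgroup.subset_closure ⟨x, rfl⟩)
        · refine H9.characteristic_of_forall_mem fun φ y hy => ?_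
          induction hy using Subgroup.closure_induction with
          | mem y hy =>
            obtain ⟨x, rfl⟩ := hy
            exact Subgroup.subset_closure ⟨φ x, map_pow φ x _⟩
          | one => rw [map_one]; exact Subgroup.one_mem _
          | mul x y _ _ hx hy => rw [map_mul]; exact Subgroup.mul_mem _ hx hy
          | inv x _ hx => rw [map_inv]; exact Subgroup.inv_mem _ hx
        · refine Subgroup.isMulCommutative_closure ?_
          rintro _ ⟨x, rfl⟩ _ ⟨y, rfl⟩
          rw [← commutatorElement_eq_one_iff_mul_comm,
            H9.commutatorElement_pow_left (H9.commute_of_mem_center (hc _ _) _),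
            H9.commutatorElement_pow_right (H9.commute_of_mem_center (hc _ _) _), ← pow_mul]
          have h1 : ⁅x, y⁆ ^ p ^ (n + 1 + 1) = 1 := by
            rw [← H9.commutatorElement_pow_left (H9.commute_of_mem_center (hc _ _) _),
              commutatorElement_eq_one_iff_commute]
            exact (H9.commute_of_mem_center (h x) y).symm
          have h2 : p ^ (n + 1) * p ^ (n + 1) = p ^ (n + 1 + 1) * p ^ n := by ring
          rw [h2, pow_mul, h1, one_pow]
    obtain ⟨n, hn⟩ := IsPGroup.iff_card.mp hG
    refine key n fun x => ?_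
    rw [pow_succ, pow_mul, ← hn, pow_card_eq_one', one_pow]
    exact Subgroup.one_mem _
  refine ⟨⟨hG, le_antisymm (H9.frattini_le_of_forall hc hpow)
    (hZc ▸ H9.commutator_le_frattini hG), hZc⟩, fun g => ⟨hZ g, fun h => hcl (hfix g h)⟩⟩

end Cfsg.Agent.S0119
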