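import Cfsg.Statements.S0125
import Cfsg.Agent.Base
import Cfsg.Agent.H8.SylowInf
import Cfsg.Agent.H7.NPC

set_option autoImplicit false
open Cfsg

namespace Cfsg.Agent.S0125

/-- The centralizer of a self-centralizing normal subgroup A of a Sylow p-subgroup is the direct product of A with a normal p'-subgroup. -/
theorem result {G : Type*} [Group G] [Finite G] {p : ℕ} [Fact p.Prime] (R : Sylow p G) (A : Subgroup G) (hAR : A ≤ (R : Subgroup G)) (hAn : (R : Subgroup G) ≤ Subgroup.normalizer (A : Set G)) (hC : (R : Subgroup G) ⊓ Subgroup.centralizer (A : Set G) = A) : ∃ H : Subgroup G, H ≤ Subgroup.centralizer (A : Set G) ∧ Nat.Coprime (Nat.card H) p ∧ Subgroup.centralizer (A : Set G) ≤ Subgroup.normalizer (H : Set G) ∧ H ⊓ A = ⊥ ∧ H ⊔ A = Subgroup.centralizer (A : Set G) := by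
  set C := Subgroup.centralizer (A : Set G) with hCdef
  have hAC : A ≤ C := hC ▸ inf_le_right
  have hRC : (R : Subgroup G) ≤ Subgroup.normalizer (C : Set G) := by
    intro r hr
    rw [Subgroup.mem_normalizer_iff]
    have key : ∀ s ∈ (R : Subgroup G), ∀ c ∈ C, s * c * s⁻¹ ∈ C := by
      intro s hs c hc a ha
      have h1 : s⁻¹ * a * s ∈ A := by
        have := (Subgroup.mem_normalizer_iff.mp (hAn (inv_mem hs)) a).mp ha
        simpa using this
      have h2 := hc _ h1
      calc a * (s * c * s⁻¹) = s * ((s⁻¹ * a * s) * c) * s⁻¹ := by group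
        _ = s * (c * (s⁻¹ * a * s)) * s⁻¹ := by rw [h2]
        _ = _ := by group
    intro c
    refine ⟨key r hr c, fun h => ?_⟩
    have := key r⁻¹ (inv_mem hr) _ h
    simpa [mul_assoc] using this
  obtain ⟨Q, hQ⟩ := H8.exists_sylow_eq_subgroupOf R C hRC
  have hQA : (Q : Subgroup C) = A.subgroupOf C := by
    rw [hQ, ← hC, Subgroup.inf_subgroupOf_right]
  have hcen : Subgroup.normalizer (Q : Set C) ≤ Subgroup.centralizer (Q : Set C) := by
    intro c _ a ha
    have ha' : a ∈ (Q : Subgroup C) := ha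
    rw [hQA] at ha'
    exact Subtype.ext (c.2 a ha')
  have hcomp := MonoidHom.ker_transferSylow_isComplement' Q hcen
  set N := (MonoidHom.transferSylow Q hcen).ker
  refine ⟨N.map C.subtype, Subgroup.map_subtype_le _, ?_, ?_, ?_, ?_⟩
  · rw [Subgroup.card_map_of_injective C.subtype_injective]
    exact ((Nat.Prime.coprime_iff_not_dvd Fact.out).mpr (H7.not_dvd_card_of_isComplement' Q hcomp)).symm
  · exact Subgroup.le_normalizer_map _ |>.trans' (by
      rw [Subgroup.normalizer_eq_top, ← MonoidHom.range_eq_map, Subgroup.range_subtype])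
  · rw [← Subgroup.map_subgroupOf_eq_of_le hAC, ← Subgroup.map_inf _ _ _ C.subtype_injective, ← hQA,
      hcomp.disjoint.eq_bot, Subgroup.map_bot]
  · conv_lhs => rw [← Subgroup.map_subgroupOf_eq_of_le hAC, ← Subgroup.map_sup, ← hQA, hcomp.sup_eq_top,
      ← MonoidHom.range_eq_map, Subgroup.range_subtype]

end Cfsg.Agent.S0125
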