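import Cfsg.Statements.S0129
import Cfsg.Agent.H9.Alperin

set_option autoImplicit false
open Cfsg

namespace Cfsg.Agent.S0129

/-- The order of a p-group is bounded by p^(a(a+1)/2) when it has a maximal normal abelian subgroup of order p^a. -/
theorem result {G : Type*} [Group G] [Finite G] {p : ℕ} [Fact p.Prime] (hG : IsPGroup p G) (A : Subgroup G) [A.Normal] (hA : IsMulCommutative A) (hmax : ∀ B : Subgroup G, B.Normal → IsMulCommutative B → A ≤ B → B = A) (a : ℕ) (ha : Nat.card A = p ^ a) : Nat.card G ≤ p ^ (a * (a + 1) / 2) := by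
  have := hG.isNilpotent
  have h1 : (⊤ : Subgroup G) ⊓ Subgroup.centralizer (A : Set G) ≤ A :=
    H9.centralizer_inf_le_of_maximal_abelian hA le_top fun B h1 h2 _ h3 => hmax B h1 h2 h3
  rw [top_inf_eq] at h1
  have h2 := H9.index_centralizer_le_pow hG a A ha
  have h3 : A.index ≤ (Subgroup.centralizer (A : Set G)).index := Subgroup.index_antitone h1
  have h4 : a * (a + 1) / 2 = a.choose 2 + a := by
    have := Nat.choose_two_right (a + 1)
    rw [Nat.add_sub_cancel, Nat.choose_succ_succ' a 1, Nat.choose_one_right] at this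
    rw [mul_comm, ← this, add_comm]
  rw [← A.index_mul_card, ha, h4, pow_add]
  exact Nat.mul_le_mul_right _ (h3.trans h2)

end Cfsg.Agent.S0129
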