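import Cfsg.Statements.S0131
import Cfsg.Agent.Base
import Cfsg.Agent.H8.Focal

set_option autoImplicit false
open Cfsg

namespace Cfsg.Agent.S0131

/-- P/P' has a normal complement in G exactly when the focal subgroup G' ∩ P is as small as possible, namely P'. -/
theorem result {G : Type*} [Group G] [Finite G] {p : ℕ} [Fact p.Prime] (P : Sylow p G) : (∃ N : Subgroup G, N.Normal ∧ N ⊓ (P : Subgroup G) = ⁅(P : Subgroup G), (P : Subgroup G)⁆ ∧ N ⊔ (P : Subgroup G) = ⊤) ↔ commutator G ⊓ (P : Subgroup G) = ⁅(P : Subgroup G), (P : Subgroup G)⁆ := by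
  constructor
  · rintro ⟨N, hN, h1, h2⟩
    apply le_antisymm
    · rw [← h1]
      refine inf_le_inf_right _ ?_
      have hPN : ⁅(P : Subgroup G), (P : Subgroup G)⁆ ≤ N := h1 ▸ inf_le_left
      rw [← Subgroup.Normal.quotient_commutative_iff_commutator_le]
      refine ⟨⟨fun a b => ?_⟩⟩
      have key : ∀ a : G ⧸ N, ∃ x ∈ (P : Subgroup G), (x : G ⧸ N) = a := by
        intro a
        obtain ⟨a, rfl⟩ := QuotientGroup.mk_surjective a
        have ha : a ∈ N ⊔ (P : Subgroup G) := h2 ▸ Subgroup.mem_top a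
        obtain ⟨n, hn, x, hx, rfl⟩ := Subgroup.mem_sup_of_normal_left.mp ha
        refine ⟨x, hx, ?_⟩
        rw [QuotientGroup.mk_mul, (QuotientGroup.eq_one_iff n).mpr hn, one_mul]
      obtain ⟨x, hx, rfl⟩ := key a
      obtain ⟨y, hy, rfl⟩ := key b
      rw [← QuotientGroup.mk_mul, ← QuotientGroup.mk_mul, QuotientGroup.eq]
      apply hPN
      have := Subgroup.commutator_mem_commutator ((P : Subgroup G).inv_mem hy) ((P : Subgroup G).inv_mem hx)
      convert this using 1
      simp only [commutatorElement_def]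
      group
    · exact le_inf (Subgroup.commutator_mono le_top le_top) (Subgroup.commutator_le_self _)
  · intro h
    obtain ⟨N, hN, -, h1, h2⟩ := H8.exists_normal_inf_eq_focal_of_hall (P : Subgroup G) P.card_coprime_index
    refine ⟨N, hN, ?_, h2⟩
    rw [h1, ← h, Subgroup.commutator_inf_eq_focalSubgroup]

end Cfsg.Agent.S0131
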