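import Cfsg.Statements.S0132
import Cfsg.Agent.H7.MinAct
import Cfsg.Agent.H4.Carter
import Cfsg.Agent.H5.ThompsonCond

set_option autoImplicit false
open Cfsg

namespace Cfsg.Agent.S0132

/-- A minimal non-p-nilpotent finite group is a minimal non-nilpotent group with a normal Sylow p-subgroup. -/
theorem result {G : Type*} [Group G] [Finite G] {p : ℕ} [Fact p.Prime] (h1 : ¬ Cfsg.HasNormalPComplement p G) (h2 : ∀ H : Subgroup G, H ≠ ⊤ → Cfsg.HasNormalPComplement p H) : (∀ H : Subgroup G, H ≠ ⊤ → Group.IsNilpotent H) ∧ ¬ Group.IsNilpotent G ∧ ∀ P : Sylow p G, (P : Subgroup G).Normal := by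
  obtain ⟨R, g, hg, hR, htop⟩ := H7.exists_minAct_sup_eq_top h1 h2
  have hcyc : ∀ x : G ⧸ R, x ∈ Subgroup.zpowers (g : G ⧸ R) := by
    intro x
    have h3 : Subgroup.map (QuotientGroup.mk' R) (R ⊔ Subgroup.zpowers g) = ⊤ := by
      rw [htop]; exact Subgroup.map_top_of_surjective _ (QuotientGroup.mk'_surjective R)
    rw [Subgroup.map_sup, QuotientGroup.map_mk'_self, bot_sup_eq, MonoidHom.map_zpowers] at h3
    exact h3 ▸ Subgroup.mem_top x
  have : IsCyclic (G ⧸ R) := ⟨⟨g, hcyc⟩⟩
  refine ⟨fun H hH => ?_, fun hn => h1 (H5.hasNPC_of_isNilpotent p), fun P => ?_⟩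
  · have hA : Group.IsNilpotent (H ⧸ R.subgroupOf H) := by
      have hc : IsCyclic (H ⧸ R.subgroupOf H) := isCyclic_of_injective
        (QuotientGroup.map (R.subgroupOf H) R H.subtype le_rfl) (by
          rw [injective_iff_map_eq_one]
          intro x hx
          obtain ⟨x, rfl⟩ := QuotientGroup.mk_surjective x
          exact (QuotientGroup.eq_one_iff x).mpr ((QuotientGroup.eq_one_iff (x : G)).mp hx))
      let _ := IsCyclic.commGroup (α := H ⧸ R.subgroupOf H)
      infer_instance
    have hB : Group.IsNilpotent (H ⧸ pResidual p H) := H7.isPGroup_quotient_pResidual.isNilpotent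
    refine H4.isNilpotent_of_quotients (R.subgroupOf H) (pResidual p H) ?_
    rw [eq_bot_iff]
    intro x hx
    have h3 := H7.hasNPC_iff_forall_coprime.mp (h2 H hH) x hx.2
    have h4 := H7.eq_one_of_isPGroup_of_coprime hg.isPGroup (g := ⟨x, hx.1⟩)
      (by rwa [← Subgroup.orderOf_coe, Subgroup.orderOf_coe x])
    exact Subtype.ext (congrArg (Subtype.val : R → G) h4)
  · have h3 : (P : Subgroup G) ≤ R := by
      intro x hx
      rw [← QuotientGroup.eq_one_iff]
      refine H7.eq_one_of_isPGroup_of_coprime (P.isPGroup'.map (QuotientGroup.mk' R))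
        (g := ⟨x, x, hx, rfl⟩) ?_ |> congrArg Subtype.val
      rw [← Subgroup.orderOf_coe]
      exact hg.coprime.coprime_dvd_left ((orderOf_dvd_of_mem_zpowers (hcyc x)).trans
        (orderOf_map_dvd (QuotientGroup.mk' R) g))
    rw [← P.is_maximal' hg.isPGroup h3]
    exact hR

end Cfsg.Agent.S0132
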