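import Cfsg.Statements.S0162
import Cfsg.Agent.H28.CharBasis
import Cfsg.Agent.H30.FrobSchur
import Cfsg.Agent.H29.Central

set_option autoImplicit false
open Cfsg

namespace Cfsg.Agent.S0162

/-- If a finite group has odd order, its order is congruent to its number of conjugacy classes modulo 16. -/
theorem result {G : Type*} [Group G] [Finite G] (hodd : Odd (Nat.card G)) : Nat.card G ≡ Nat.card (ConjClasses G) [MOD 16] := by
  classical
  have := Fintype.ofFinite G
  have hdeg : ∀ χ : Cfsg.IrrCharacter G, ∃ d : ℕ, Odd d ∧ χ.1 1 = d := by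
    rintro ⟨_, n, ρ, hρ, rfl⟩
    exact ⟨_, hodd.of_dvd_nat (H29.finrank_dvd_card ρ), ρ.char_one⟩
  choose d hd hd' using hdeg
  have h1 : Nat.card G = ∑ χ, d χ ^ 2 := by
    apply Nat.cast_injective (R := ℂ)
    rw [← H28.sum_degree_sq]
    simp [hd']
  let c : Cfsg.IrrCharacter G → Cfsg.IrrCharacter G :=
    fun χ => ⟨_, H28.Cfsg.IsIrrCharacter.conj χ.2⟩
  have hc : ∀ χ, d (c χ) = d χ := by
    intro χ
    apply Nat.cast_injective (R := ℂ)
    rw [← hd', ← hd' χ]
    exact H28.Cfsg.IsCharacter.conj_apply_one (H28.Cfsg.IsIrrCharacter.isCharacter χ.2)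
  have h2 : ∑ χ : Cfsg.IrrCharacter G, ((d χ : ZMod 16) ^ 2 - 1) = 0 := by
    refine Finset.sum_involution (fun χ _ => c χ) (fun χ _ => ?_) (fun χ _ h hcc => h ?_)
      (fun _ _ => Finset.mem_univ _) (fun χ _ => ?_)
    · rw [hc]
      obtain ⟨k, hk⟩ := hd χ
      rw [hk]
      push_cast
      generalize (k : ZMod 16) = x
      revert x
      decide
    · have h3 : χ.1 = fun _ => 1 := by
        by_contra hne
        exact H30.conj_ne_of_odd hodd χ.2 hne (congrArg Subtype.val hcc)
      have h4 : d χ = 1 := by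
        apply Nat.cast_injective (R := ℂ)
        rw [← hd', h3, Nat.cast_one]
      simp [h4]
    · ext g
      simp [c]
  rw [← H28.card_irr_eq_card_conjClasses, ← ZMod.natCast_eq_natCast_iff, h1,
    Nat.card_eq_fintype_card]
  rw [Finset.sum_sub_distrib, sub_eq_zero] at h2
  push_cast
  rw [h2]
  simp

end Cfsg.Agent.S0162
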