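import Cfsg.Statements.S0165
import Cfsg.Agent.Base
import Cfsg.Agent.H35.BSpan
import Cfsg.Agent.H29.Central

set_option autoImplicit false
open Cfsg

namespace Cfsg.Agent.S0165

/-- If p ^ n is the exact power of the prime p dividing the order of a finite group and p ^ n divides the degree of an irreducible complex representation, then its character vanishes at every element of order divisible by p. -/
theorem result {G : Type*} [Group G] [Finite G] {V : Type*} [AddCommGroup V] [Module ℂ V] [FiniteDimensional ℂ V] (ρ : Representation ℂ G V) [ρ.IsIrreducible] (p n : ℕ) (hp : p.Prime) (hn : p ^ n ∣ Nat.card G) (hn' : ¬ p ^ (n + 1) ∣ Nat.card G) (hdeg : p ^ n ∣ Module.finrank ℂ V) (x : G) (hx : p ∣ orderOf x) : ρ.character x = 0 := by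
  have := Fintype.ofFinite G
  refine H35.vanish_of_nu_eq (χ := ⟨ρ.character, H28.isIrrCharacter_rep ρ⟩) hp ?_ x hx
  have hG : Nat.card G ≠ 0 := Nat.card_pos.ne'
  have hd : Module.finrank ℂ V ≠ 0 := (H29.finrank_pos_of_isIrreducible ρ).ne'
  have h1 : (Nat.card G).factorization p ≤ n := by
    by_contra h
    exact hn' ((hp.pow_dvd_iff_le_factorization hG).mpr (by omega))
  have h2 : n ≤ (Module.finrank ℂ V).factorization p := (hp.pow_dvd_iff_le_factorization hd).mp hdeg
  have h3 : (Module.finrank ℂ V).factorization p ≤ (Nat.card G).factorization p :=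
    (Nat.factorization_le_iff_dvd hd hG).mpr (H29.finrank_dvd_card ρ) p
  rw [H35.charDegree_eq_of_eq (n := Module.finrank ℂ V) ρ.char_one]
  omega

end Cfsg.Agent.S0165
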