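import Cfsg.Statements.S0167
import Cfsg.Agent.H30.Counting

set_option autoImplicit false
open Cfsg

namespace Cfsg.Agent.S0167

/-- An element g of a finite group is a commutator if and only if the sum over the irreducible characters χ of χ g / χ 1 is nonzero. -/
theorem result {G : Type*} [Group G] [Finite G] (g : G) : (∃ a b : G, g = a * b * a⁻¹ * b⁻¹) ↔ ∑ᶠ χ : Cfsg.IrrCharacter G, (χ : G → ℂ) g / (χ : G → ℂ) 1 ≠ 0 := by
  have := Fintype.ofFinite G
  have h := H30.card_commutator_eq_sum g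
  rw [finsum_eq_sum_of_fintype]
  constructor
  · rintro ⟨a, b, hab⟩ h0
    rw [h0, mul_zero] at h
    have : Nonempty {p : G × G // g = p.1 * p.2 * p.1⁻¹ * p.2⁻¹} := ⟨⟨(a, b), hab⟩⟩
    exact Nat.card_pos.ne' (Nat.cast_eq_zero.1 h)
  · intro h0
    have h1 : Nat.card {p : G × G // g = p.1 * p.2 * p.1⁻¹ * p.2⁻¹} ≠ 0 := by
      intro h2
      rw [h2] at h
      exact mul_ne_zero (H28.card_ne_zero' G) h0 (by simpa using h.symm)
    obtain ⟨⟨⟨a, b⟩, hab⟩⟩ := (Nat.card_ne_zero.1 h1).1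
    exact ⟨a, b, hab⟩

end Cfsg.Agent.S0167
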