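import Cfsg.Statements.S0168
import Cfsg.Agent.H28.CharBasic
import Cfsg.Agent.H29.Eigen

set_option autoImplicit false
open Cfsg

namespace Cfsg.Agent.S0168

/-- The Burnside–Brauer Theorem. Let χ be the character of a faithful complex representation of a finite group, taking m distinct values. Then every irreducible character has nonzero inner product with χ ^ i for some i < m. -/
theorem result {G : Type*} [Group G] [Fintype G] {V : Type*} [AddCommGroup V] [Module ℂ V] [FiniteDimensional ℂ V] (ρ : Representation ℂ G V) (hfaithful : Function.Injective ρ) (ψ : G → ℂ) (hψ : Cfsg.IsIrrCharacter G ψ) : ∃ i : ℕ, i < Nat.card (Set.range ρ.character) ∧ Cfsg.classInner (fun g => ρ.character g ^ i) ψ ≠ 0 := by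
  classical
  by_contra hcon
  push Not at hcon
  let R : Finset ℂ := Finset.univ.image ρ.character
  have hR : Nat.card (Set.range ρ.character) = R.card := by
    rw [Nat.card_coe_set_eq, ← Set.ncard_coe_finset]
    congr 1
    ext x
    simp [R]
  let p : Polynomial ℂ := ∏ a ∈ R.erase (ρ.character 1), (Polynomial.X - Polynomial.C a)
  have hmem : ρ.character 1 ∈ R := Finset.mem_image_of_mem _ (Finset.mem_univ _)
  have hdeg : p.natDegree < R.card := by
    rw [Polynomial.natDegree_finsetProd_X_sub_C_eq_card, Finset.card_erase_of_mem hmem]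
    have := Finset.card_pos.2 ⟨_, hmem⟩
    omega
  have hzero : Cfsg.classInner (fun g => p.eval (ρ.character g)) ψ = 0 := by
    have : (fun g => p.eval (ρ.character g))
        = ∑ i ∈ Finset.range R.card, p.coeff i • (fun g => ρ.character g ^ i) := by
      ext g
      rw [Polynomial.eval_eq_sum_range' hdeg]
      simp
    rw [this, H28.classInner_sum_left]
    refine Finset.sum_eq_zero fun i hi => ?_
    rw [H28.classInner_smul_left, hcon i (hR ▸ Finset.mem_range.1 hi), mul_zero]
  have hvan : ∀ g, g ≠ 1 → p.eval (ρ.character g) = 0 := by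
    intro g hg
    rw [Polynomial.eval_prod]
    refine Finset.prod_eq_zero (i := ρ.character g) ?_ (by simp)
    refine Finset.mem_erase.2 ⟨fun h => hg (hfaithful ?_), Finset.mem_image_of_mem _ (Finset.mem_univ _)⟩
    rw [Representation.char_one, H29.char_eq_iff] at h
    rw [h, map_one]
    rfl
  have hone : p.eval (ρ.character 1) ≠ 0 := by
    rw [Polynomial.eval_prod]
    refine Finset.prod_ne_zero_iff.2 fun a ha => ?_
    simpa [sub_eq_zero] using (Finset.mem_erase.1 ha).1.symm
  rw [Cfsg.classInner, Finset.sum_eq_single 1 (fun g _ hg => by rw [hvan g hg, zero_mul])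
    (by simp)] at hzero
  have h1 := H28.Cfsg.IsIrrCharacter.apply_one_ne_zero hψ
  simp [h1] at hzero
  exact hone (by simpa using hzero)

end Cfsg.Agent.S0168
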