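import Cfsg.Statements.S0170
import Cfsg.Agent.H31.SmallNorm
import Cfsg.Agent.H31.TI

set_option autoImplicit false
open Cfsg

namespace Cfsg.Agent.S0170

/-- Exceptional characters. Let S be a subset of a finite group contained in its normalizer N and meeting its conjugates by elements outside N only in the identity. Given n ≥ 2 distinct irreducible characters of N of equal degree that vanish on N away from S, there exist a sign ε and n distinct irreducible characters θ_i of G such that inducing χ_i − χ_j to G gives ε (θ_i − θ_j) for all i, j. -/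
theorem result {G : Type*} [Group G] [Fintype G] (S : Set G) (hSN : S ⊆ Subgroup.normalizer S) (hTI : ∀ g : G, g ∉ Subgroup.normalizer S → ∀ s ∈ S, g * s * g⁻¹ ∈ S → s = 1) (n : ℕ) (hn : 2 ≤ n) (χ : Fin n → (Subgroup.normalizer S → ℂ)) (hirr : ∀ i, Cfsg.IsIrrCharacter (Subgroup.normalizer S) (χ i)) (hinj : Function.Injective χ) (hvan : ∀ i, ∀ x : Subgroup.normalizer S, (x : G) ∉ S → χ i x = 0) (hdeg : ∀ i j, χ i 1 = χ j 1) : ∃ ε : ℂ, (ε = 1 ∨ ε = -1) ∧ ∃ θ : Fin n → (G → ℂ), (∀ i, Cfsg.IsIrrCharacter G (θ i)) ∧ Function.Injective θ ∧ ∀ i j, Cfsg.indFun (Subgroup.normalizer S) (χ i) - Cfsg.indFun (Subgroup.normalizer S) (χ j) = ε • (θ i - θ j) := by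
  classical
  have i₀ : Fin n := ⟨0, by omega⟩
  obtain ⟨ε, hε, μ, hμ, hμi, h⟩ := H31.exceptional_of_isometry (Subgroup.normalizer S) i₀ χ hirr
    hinj (fun i => hdeg i i₀) (fun i j => H31.classInner_indFun_of_ti _ S hTI
      (H28.Cfsg.IsClassFunction.sub (H28.Cfsg.IsIrrCharacter.isClassFunction (hirr j))
        (H28.Cfsg.IsIrrCharacter.isClassFunction (hirr i₀)))
      (fun x hx => by simp [hvan _ x hx]) (fun x hx => by simp [hvan _ x hx])
      (by simp [hdeg i i₀]))
  exact ⟨ε, hε, μ, hμ, hμi, fun i j => by rw [← h i j, H33.indFun_sub]⟩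

end Cfsg.Agent.S0170
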