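import Cfsg.Statements.S0172
import Cfsg.Agent.H28.ConjCount
import Cfsg.Agent.H30.Vanish
import Cfsg.Agent.H5.FrobStruct

set_option autoImplicit false
open Cfsg

namespace Cfsg.Agent.S0172

theorem card_centralizer_subgroup {G : Type*} [Group G] (L : Subgroup G) (x : L)
    (h : Subgroup.centralizer ({(x : G)} : Set G) ≤ L) :
    Nat.card (Subgroup.centralizer ({(x : G)} : Set G))
      = Nat.card (Subgroup.centralizer ({x} : Set L)) := by
  refine Nat.card_congr
    { toFun := fun y => ⟨⟨y, h y.2⟩, ?_⟩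
      invFun := fun y => ⟨y.1.1, ?_⟩
      left_inv := fun _ => rfl
      right_inv := fun _ => rfl }
  · rw [Subgroup.mem_centralizer_singleton_iff]
    exact Subtype.ext (Subgroup.mem_centralizer_singleton_iff.1 y.2)
  · rw [Subgroup.mem_centralizer_singleton_iff]
    exact congrArg Subtype.val (Subgroup.mem_centralizer_singleton_iff.1 y.2)

theorem card_centralizer_one (G : Type*) [Group G] :
    Nat.card (Subgroup.centralizer ({1} : Set G)) = Nat.card G := by
  have : Subgroup.centralizer ({1} : Set G) = ⊤ := by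
    ext x; simp [Subgroup.mem_centralizer_iff]
  rw [this, Subgroup.card_top]

/-- Class number of a Frobenius group: if G = K H with K normal, K ⊓ H trivial and no non-identity element of H commuting with a non-identity element of K, then |H| * k(G) + 1 = |H| * k(H) + k(K), where k denotes the number of conjugacy classes. -/
theorem result {G : Type*} [Group G] [Finite G] (K H : Subgroup G) [K.Normal] (hKH : K ⊓ H = ⊥) (hKH' : K ⊔ H = ⊤) (hfpf : ∀ h ∈ H, h ≠ 1 → ∀ k ∈ K, h * k = k * h → k = 1) : Nat.card H * Nat.card (ConjClasses G) + 1 = Nat.card H * Nat.card (ConjClasses H) + Nat.card (ConjClasses K) := by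
  classical
  have := Fintype.ofFinite G
  have hc : Subgroup.IsComplement' K H :=
    Subgroup.isComplement'_of_disjoint_and_mul_eq_univ (disjoint_iff.2 hKH) (by
      rw [← Subgroup.normal_mul, hKH']; rfl)
  have hfpf' : ∀ h ∈ H, h ≠ 1 → K ⊓ Subgroup.centralizer {h} = ⊥ := fun h hh h1 =>
    H5.inf_centralizer_eq_bot_iff.2 fun k hk hc => hfpf h hh h1 k hk hc.symm
  have hconj : ∀ k ∈ K, ∀ h ∈ H, h ≠ 1 → ∃ y ∈ K, y * h * y⁻¹ = k * h := fun k hk h hh h1 =>
    H30.exists_conj_eq_mul_of_fpf' K (fun x hx hc => hfpf h hh h1 x hx hc.symm) hk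
  have hCK : ∀ k : K, k ≠ 1 → Subgroup.centralizer ({(k : G)} : Set G) ≤ K := by
    intro k hk g hg
    rw [Subgroup.mem_centralizer_singleton_iff] at hg
    obtain ⟨⟨⟨a, ha⟩, ⟨h, hh⟩⟩, rfl⟩ := hc.2 g
    by_cases h1 : h = 1
    · simpa [h1] using ha
    exfalso
    obtain ⟨y, hy, hy'⟩ := hconj a ha h hh h1
    dsimp only at hg
    rw [← hy'] at hg
    have := hfpf h hh h1 (y⁻¹ * k * y) (K.mul_mem (K.mul_mem (K.inv_mem hy) k.2) hy) (by
      calc h * (y⁻¹ * k * y) = y⁻¹ * (y * h * y⁻¹ * k) * y := by group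
        _ = y⁻¹ * k * y * h := by rw [hg]; group)
    apply hk
    apply Subtype.ext
    calc (k : G) = y * (y⁻¹ * k * y) * y⁻¹ := by group
      _ = 1 := by rw [this]; group
  have hCH : ∀ h : H, h ≠ 1 → Subgroup.centralizer ({(h : G)} : Set G) ≤ H := by
    intro h hh g hg
    rw [Subgroup.mem_centralizer_singleton_iff] at hg
    refine H5.frob_TI_of_fpf hc hfpf' g h h.2 (fun h1 => hh (Subtype.ext h1)) ?_
    rw [hg]; simp
  let c : G → ℕ := fun g => Nat.card (Subgroup.centralizer ({g} : Set G))
  have h1 : ∑ g, c g = ∑ h : H, ∑ k : K, c (k * h) := by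
    rw [← Fintype.sum_prod_type_right']
    exact (Fintype.sum_bijective _ hc _ _ fun _ => rfl).symm
  have h2 : ∀ h : H, h ≠ 1 → ∑ k : K, c (k * h)
      = Nat.card K * Nat.card (Subgroup.centralizer ({h} : Set H)) := by
    intro h hh
    rw [Finset.sum_congr rfl (g := fun _ => Nat.card (Subgroup.centralizer ({h} : Set H)))]
    · simp [Nat.card_eq_fintype_card]
    · intro k _
      obtain ⟨y, -, hy⟩ := hconj k k.2 h h.2 fun h1 => hh (Subtype.ext h1)
      rw [← card_centralizer_subgroup H h (hCH h hh)]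
      exact (H28.card_centralizer_eq_of_isConj (isConj_iff.2 ⟨y, hy⟩)).symm
  have h3 : ∑ k : K, c (k * (1 : H)) + Nat.card K
      = Nat.card G + Nat.card (ConjClasses K) * Nat.card K := by
    rw [← H28.sum_card_centralizer, ← Finset.add_sum_erase _ _ (Finset.mem_univ 1),
      ← Finset.add_sum_erase _ _ (Finset.mem_univ (1 : K)), card_centralizer_one,
      Finset.sum_congr rfl fun k hk => (card_centralizer_subgroup K k
        (hCK k (Finset.mem_erase.1 hk).1)).symm]
    simp only [c, OneMemClass.coe_one, mul_one, card_centralizer_one]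
    ring
  have h4 := H28.sum_card_centralizer (G := H)
  rw [← Finset.add_sum_erase _ _ (Finset.mem_univ 1), card_centralizer_one] at h4
  have h5 := H28.sum_card_centralizer (G := G)
  change ∑ g, c g = _ at h5
  rw [h1, ← Finset.add_sum_erase _ _ (Finset.mem_univ 1),
    Finset.sum_congr rfl fun h hh => h2 h (Finset.mem_erase.1 hh).1, ← Finset.mul_sum] at h5
  have h6 : Nat.card G = Nat.card K * Nat.card H := hc.card_mul.symm
  have hK : 0 < Nat.card K := Nat.card_pos
  apply Nat.eq_of_mul_eq_mul_left hK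
  rw [h6] at h3 h5
  nlinarith

end Cfsg.Agent.S0172
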