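import Cfsg.Statements.S0173
import Cfsg.Agent.H30.Counting

set_option autoImplicit false
open Cfsg

namespace Cfsg.Agent.S0173

/-- Brauer's permutation lemma for a single automorphism: the number of conjugacy classes mapped to themselves equals the number of irreducible complex characters χ with χ ∘ α = χ. -/
theorem result {G : Type*} [Group G] [Finite G] (α : G ≃* G) : Nat.card {C : ConjClasses G // ConjClasses.map α.toMonoidHom C = C} = Nat.card {χ : Cfsg.IrrCharacter G // (χ : G → ℂ) ∘ α = (χ : G → ℂ)} := by
  have h := H30.card_fixed_irr_eq (G := G) α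
    (fun χ hχ => H28.Cfsg.IsIrrCharacter.comp_mulEquiv hχ α)
  refine Eq.trans (Nat.card_congr (Equiv.subtypeEquivRight fun C => ?_)) h.symm
  constructor
  · rintro hC g rfl
    exact (ConjClasses.mk_eq_mk_iff_isConj.1 hC).symm
  · intro hC
    obtain ⟨g, rfl⟩ := ConjClasses.mk_surjective C
    exact ConjClasses.mk_eq_mk_iff_isConj.2 (hC g rfl).symm

end Cfsg.Agent.S0173
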