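import Cfsg.Statements.S0180
import Cfsg.Agent.Base
import Cfsg.Agent.H28.CharBasis
import Cfsg.Agent.H29.GalChar

set_option autoImplicit false
open Cfsg

namespace Cfsg.Agent.S0180

/-- Every irreducible complex character of a finite group takes only rational values if and only if g is conjugate to g ^ m for every element g and every m coprime to the group order. -/
theorem result {G : Type*} [Group G] [Finite G] : (∀ χ : Cfsg.IrrCharacter G, ∀ g : G, ∃ q : ℚ, (χ : G → ℂ) g = (q : ℂ)) ↔ ∀ m : ℕ, m.Coprime (Nat.card G) → ∀ g : G, IsConj g (g ^ m) := by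
  open H28 H29 in
  constructor
  · intro h m hm g
    refine isConj_iff_irr.mpr fun χ => ?_
    obtain ⟨q, hq⟩ := h χ g
    exact (χ.2.isCharacter.apply_pow_of_rat g hq
      (Nat.Coprime.coprime_dvd_right (orderOf_dvd_natCard g) hm)).symm
  · intro h χ g
    refine exists_rat_of_forall_fixed (χ.2.isCharacter.isIntegral g).tower_top fun σ => ?_
    obtain ⟨m, hm, hσ⟩ := exists_pow_char_of_ringHom G σ.toRingHom
    exact (hσ _ χ.2.isCharacter g).trans (χ.2.isClassFunction.eq_of_isConj (h m hm g)).symm

end Cfsg.Agent.S0180
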