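import Cfsg.Statements.S0184
import Cfsg.Agent.Base
import Cfsg.Agent.H29.PGroupChar

set_option autoImplicit false
open Cfsg

namespace Cfsg.Agent.S0184

/-- A finite p-group admits a faithful irreducible complex representation if and only if its centre is cyclic. -/
theorem result {G : Type*} [Group G] [Finite G] (p : ℕ) [Fact p.Prime] (hG : IsPGroup p G) : (∃ (n : ℕ) (ρ : Representation ℂ G (Fin n → ℂ)), ρ.IsIrreducible ∧ Function.Injective ρ) ↔ IsCyclic (Subgroup.center G) := by
  open H28 H29 in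
  constructor
  · rintro ⟨n, ρ, hρ, hinj⟩
    exact (isIrrCharacter_rep ρ).isCyclic_center
      (by rw [charKer_rep]; exact (MonoidHom.ker_eq_bot_iff _).mpr hinj)
  · intro h
    obtain ⟨χ, ⟨n, ρ, hρ, rfl⟩, hk⟩ := exists_faithful_irr_of_isCyclic_center hG
    rw [charKer_rep] at hk
    exact ⟨n, ρ, hρ, (MonoidHom.ker_eq_bot_iff _).mp hk⟩

end Cfsg.Agent.S0184
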