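import Cfsg.Statements.S0186
import Cfsg.Agent.Base
import Cfsg.Agent.H28.CharBasis
import Cfsg.Agent.H29.Burnside
import Cfsg.Agent.S0185

set_option autoImplicit false
open Cfsg

namespace Cfsg.Agent.S0186

/-- Let G be a finite simple group of order n and p a prime dividing n. If G has more than n / p^2 conjugacy classes, then every Sylow p-subgroup of G is abelian. -/
theorem result {G : Type*} [Group G] [Finite G] [IsSimpleGroup G] (p : ℕ) [Fact p.Prime] (hp : p ∣ Nat.card G) (hmany : Nat.card G < p ^ 2 * Nat.card (ConjClasses G)) (P : Sylow p G) (a b : G) (ha : a ∈ P) (hb : b ∈ P) : a * b = b * a := by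
  open H28 H29 in
  classical
  have hp' : p.Prime := Fact.out
  by_cases h2 : p ^ 2 ∣ Nat.card G
  swap
  · have hP : Nat.card P = p := by
      rw [P.card_eq_multiplicity]
      have h1 : 1 ≤ (Nat.card G).factorization p :=
        (hp'.pow_dvd_iff_le_factorization Nat.card_pos.ne').mp (by simpa using hp)
      have h3 : ¬ 2 ≤ (Nat.card G).factorization p := fun h =>
        h2 ((hp'.pow_dvd_iff_le_factorization Nat.card_pos.ne').mpr h)
      rw [show (Nat.card G).factorization p = 1 by omega, pow_one]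
    have : IsCyclic P := isCyclic_of_prime_card hP
    let _ := IsCyclic.commGroup (α := P)
    exact congrArg Subtype.val (mul_comm (⟨a, ha⟩ : P) ⟨b, hb⟩)
  obtain ⟨m, hm⟩ := h2
  have hp0 : 0 < p ^ 2 := pow_pos hp'.pos 2
  have hk : m + 1 ≤ Nat.card (ConjClasses G) := by
    rw [hm] at hmany
    exact lt_of_mul_lt_mul_left hmany (Nat.zero_le _)
  let one : IrrCharacter G := ⟨fun _ => 1, isIrrCharacter_one⟩
  have hex : ∃ χ : IrrCharacter G, χ ≠ one ∧ ∃ d : ℕ, (χ : G → ℂ) 1 = d ∧ d < p := by
    by_contra hne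
    push Not at hne
    choose d hd using fun χ : IrrCharacter G => χ.2.isCharacter.exists_degree
    have h1 := sum_degree_sq (G := G)
    simp only [hd] at h1
    have h3 : ∑ χ : IrrCharacter G, d χ ^ 2 = Nat.card G := by exact_mod_cast h1
    rw [← Finset.add_sum_erase _ _ (Finset.mem_univ one)] at h3
    have h4 : d one = 1 := by
      have : (1 : ℂ) = d one := hd one
      exact_mod_cast this.symm
    have h5 : (Finset.univ.erase one).card • p ^ 2 ≤ ∑ χ ∈ Finset.univ.erase one, d χ ^ 2 :=
      Finset.card_nsmul_le_sum _ _ _ fun χ hχ =>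
        Nat.pow_le_pow_left (hne χ (Finset.mem_erase.mp hχ).1 _ (hd χ)) 2
    rw [Finset.card_erase_of_mem (Finset.mem_univ _), Finset.card_univ, ← Nat.card_eq_fintype_card,
      card_irr_eq_card_conjClasses, smul_eq_mul] at h5
    have h6 : m * p ^ 2 ≤ (Nat.card (ConjClasses G) - 1) * p ^ 2 :=
      Nat.mul_le_mul_right _ (by omega)
    rw [h4, hm] at h3
    nlinarith
  obtain ⟨⟨χ, n, ρ, hρ, rfl⟩, h1, d, hd, hdp⟩ := hex
  have hker : MonoidHom.ker ρ = ⊥ :=
    (Subgroup.Normal.eq_bot_or_eq_top inferInstance).resolve_right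
      (ker_ne_top_of_character_ne_one ρ fun h => h1 (Subtype.ext h))
  have hinj : Function.Injective ρ := (MonoidHom.ker_eq_bot_iff _).mp hker
  simp only [ρ.char_one, Nat.cast_inj] at hd
  have := Cfsg.Agent.S0185.result (G := (P : Subgroup G)) (ρ.comp (P : Subgroup G).subtype)
    (hinj.comp Subtype.val_injective) (fun q hq hqP => by
      obtain ⟨k, hk⟩ := P.isPGroup'.exists_card_eq
      rw [hk] at hqP
      rw [(Nat.prime_dvd_prime_iff_eq hq hp').mp (hq.dvd_of_dvd_pow hqP), hd]
      exact hdp) ⟨a, ha⟩ ⟨b, hb⟩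
  exact congrArg Subtype.val this

end Cfsg.Agent.S0186
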