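import Cfsg.Statements.S0189
import Cfsg.Agent.Base
import Cfsg.Agent.H28.CharBasic

set_option autoImplicit false
open Cfsg

namespace Cfsg.Agent.S0189

/-- If a complex character of a finite group vanishes at every non-identity element of a Sylow p-subgroup P, then |P| divides its degree. -/
theorem result {G : Type*} [Group G] [Finite G] (p : ℕ) [Fact p.Prime] (P : Sylow p G) (χ : G → ℂ) (hχ : Cfsg.IsCharacter G χ) (hvan : ∀ g : G, g ∈ P → g ≠ 1 → χ g = 0) : ∃ k : ℕ, χ 1 = (Nat.card P : ℂ) * k := by
  open H28 in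
  classical
  have := Fintype.ofFinite (P : Subgroup G)
  obtain ⟨k, hk⟩ := (hχ.restrict (P : Subgroup G)).classInner_nat isCharacter_one
  refine ⟨k, ?_⟩
  have hP : (Nat.card (P : Subgroup G) : ℂ) ≠ 0 := by exact_mod_cast Nat.card_pos.ne'
  rw [classInner_one_right, Finset.sum_eq_single (1 : (P : Subgroup G))] at hk
  · rw [← hk]
    change _ = (Nat.card (P : Subgroup G) : ℂ) * _
    rw [mul_inv_cancel_left₀ hP]; rfl
  · intro b _ hb
    exact hvan b b.2 fun h => hb (Subtype.ext h)
  · simp

end Cfsg.Agent.S0189
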