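import Cfsg.Statements.S0194
import Cfsg.Agent.Base
import Cfsg.Agent.H32.Clifford
import Cfsg.Agent.S0161

set_option autoImplicit false
open scoped ComplexConjugate
open Cfsg

namespace Cfsg.Agent.S0194

/-- Let G have odd order, H be a normal subgroup and θ a non-principal irreducible character of H. Then the function induced from θ is orthogonal to its complex conjugate. -/
theorem result {G : Type*} [Group G] [Fintype G] (hodd : Odd (Nat.card G)) (H : Subgroup G) [H.Normal] (θ : H → ℂ) (hθ : Cfsg.IsIrrCharacter H θ) (hθ1 : θ ≠ fun _ => 1) : Cfsg.classInner (fun g => conj (Cfsg.indFun H θ g)) (Cfsg.indFun H θ) = 0 := by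
  have : Fintype H := Fintype.ofFinite H
  have e : (fun g => conj (Cfsg.indFun H θ g)) = Cfsg.indFun H (fun h => conj (θ h)) :=
    funext fun g => (H33.indFun_conj H θ g).symm
  rw [e, H28.classInner_eq_zero_comm]
  refine H32.classInner_indFun_of_not_mem hθ (H28.Cfsg.IsIrrCharacter.conj hθ) fun hm => hθ1 ?_
  obtain ⟨g, hg⟩ := H32.mem_conjSet.1 hm
  have h2 : g ^ 2 ∈ H32.inertia θ := by
    rw [H32.mem_inertia, pow_two, H32.cj_mul, ← hg]
    ext n
    have := congrFun hg n
    rw [H32.cj_apply] at this ⊢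
    rw [← this]
    simp
  have h1 : g ∈ H32.inertia θ := by
    have hcop : (orderOf g).Coprime 2 :=
      (Nat.coprime_two_right.2 hodd).coprime_dvd_left (orderOf_dvd_natCard g)
    obtain ⟨k, hk⟩ := exists_pow_eq_self_of_coprime hcop.symm
    rw [← hk]
    exact Subgroup.pow_mem _ h2 k
  rw [H32.mem_inertia.1 h1] at hg
  refine Cfsg.Agent.S0161.result (hodd.of_dvd_nat H.card_subgroup_dvd_card) ⟨θ, hθ⟩ fun h => ?_
  exact Complex.conj_eq_iff_im.1 (congrFun hg h)

end Cfsg.Agent.S0194
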