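import Cfsg.Agent.Base
import Cfsg.Statements.S0203
import Cfsg.Agent.H85.FourSylow

set_option autoImplicit false
open Cfsg

namespace Cfsg.Agent.S0203

/-- If a Sylow 2-subgroup P of a finite group G is a Klein four-group, then G has three classes of involutions if and only if P has a normal complement in G. -/
theorem result {G : Type*} [Group G] [Finite G] (P : Sylow 2 G) (hP : IsKleinFour (P : Subgroup G)) : Nat.card {C : ConjClasses G // ∃ t : G, orderOf t = 2 ∧ ConjClasses.mk t = C} = 3 ↔ ∃ N : Subgroup G, N.Normal ∧ Subgroup.IsComplement' N (P : Subgroup G) := by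
  haveI : Fact (Nat.Prime 2) := ⟨Nat.prime_two⟩
  rw [← H7.hasNPC_iff_sylow P]
  constructor
  · intro h3
    apply H7.hasNPC_of_controls_fusion P
    intro x hx g hg
    refine ⟨1, one_mem _, ?_⟩
    rw [one_mul, inv_one, mul_one]
    by_contra hne
    have := H85.four_sylow_classes_one P hP hx hg hne (H86.isConj_conj g x)
    omega
  · intro h
    apply H85.four_sylow_classes_three P hP
    intro a ha b hb hab
    obtain ⟨g, rfl⟩ := isConj_iff.1 hab
    obtain ⟨u, hu, h1⟩ := H7.controls_fusion_of_hasNPC h P g
    rw [← h1 a ha hb, H86.four_comm hP hu ha, mul_inv_cancel_right]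

end Cfsg.Agent.S0203
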