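import Cfsg.Statements.S0209
import Cfsg.Agent.H83.InvPair

set_option autoImplicit false
open Cfsg

namespace Cfsg.Agent.S0209

/-- If x, y are involutions whose product has even order n, the element (xy)^(n/2) is an involution that commutes with x and with y. -/
theorem result {G : Type*} [Group G] [Finite G] (x y : G) (hx : orderOf x = 2) (hy : orderOf y = 2) (heven : Even (orderOf (x * y))) : orderOf ((x * y) ^ (orderOf (x * y) / 2)) = 2 ∧ Commute ((x * y) ^ (orderOf (x * y) / 2)) x ∧ Commute ((x * y) ^ (orderOf (x * y) / 2)) y := by
  exact H83.half_pow_spec (H83.mul_self_of_orderOf_two hx) (H83.mul_self_of_orderOf_two hy)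
    (orderOf_pos _).ne' heven

end Cfsg.Agent.S0209
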