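import Cfsg.Agent.Base
import Cfsg.Statements.S0233
import Cfsg.Agent.H85.InvBasic
import Cfsg.Agent.S0238

set_option autoImplicit false
open Cfsg

namespace Cfsg.Agent.S0233

/-- Let G be a finite group of even order with exactly n involutions whose centre has odd order, and put a = |G|/n. Then G has a proper subgroup H with |G : H| = 2 or |G : H| < a(a+1)/2; over ℕ the latter reads 2·|G:H|·n² < |G|·(|G| + n). -/
theorem result {G : Type*} [Group G] [Finite G] (heven : Even (Nat.card G)) (hZ : Odd (Nat.card (Subgroup.center G))) : ∃ H : Subgroup G, H ≠ ⊤ ∧ (H.index = 2 ∨ 2 * H.index * (Nat.card {t : G // orderOf t = 2}) ^ 2 < Nat.card G * (Nat.card G + Nat.card {t : G // orderOf t = 2})) := by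
  classical
  haveI := Fintype.ofFinite G
  haveI : Fact (Nat.Prime 2) := ⟨Nat.prime_two⟩
  have hgpos : 0 < Nat.card G := Nat.card_pos
  have hnt : Nontrivial G := by
    rw [← Finite.one_lt_card_iff_nontrivial]
    obtain ⟨k, hk⟩ := heven
    omega
  -- a proper subgroup of least index
  have hex : ∃ j, ∃ H : Subgroup G, H ≠ ⊤ ∧ H.index = j := ⟨_, ⊥, bot_ne_top, rfl⟩
  obtain ⟨H, hH, hj⟩ := Nat.find_spec hex
  set j := Nat.find hex with hjdef
  have hmin : ∀ K : Subgroup G, K ≠ ⊤ → j ≤ K.index := fun K hK => Nat.find_min' hex ⟨K, hK, rfl⟩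
  refine ⟨H, hH, ?_⟩
  rw [hj]
  by_cases hj2 : j = 2
  · exact Or.inl hj2
  right
  have hno2 : ∀ K : Subgroup G, K.index ≠ 2 := by
    intro K hK
    have h1 := hmin K (by rintro rfl; simp at hK)
    have h2 : H.index ≠ 1 := fun h => hH (Subgroup.index_eq_one.1 h)
    have h3 : H.index ≠ 0 := Subgroup.index_ne_zero_of_finite
    omega
  have hle : ∀ K : Subgroup G, K ≠ ⊤ → j * Nat.card K ≤ Nat.card G := by
    intro K hK
    rw [← K.index_mul_card]
    exact Nat.mul_le_mul_right _ (hmin K hK)
  set I : Finset G := Finset.univ.filter fun t => orderOf t = 2 with hI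
  have hn : Nat.card {t : G // orderOf t = 2} = I.card := by
    rw [Nat.card_eq_fintype_card, Fintype.card_subtype]
  rw [hn]
  let c : G → ℕ := fun x =>
    Nat.card {p : G × G // orderOf p.1 = 2 ∧ orderOf p.2 = 2 ∧ p.1 * p.2 = x}
  have hc : ∀ x, c x = ((I ×ˢ I).filter fun p => p.1 * p.2 = x).card := by
    intro x
    simp only [c]
    rw [Nat.card_eq_fintype_card, Fintype.card_subtype]
    congr 1
    ext p
    simp [hI, and_assoc]
  have hsum : I.card ^ 2 = ∑ x, c x := by
    rw [pow_two, ← Finset.card_product,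
      Finset.card_eq_sum_card_fiberwise (f := fun p : G × G => p.1 * p.2) (t := Finset.univ)
        (fun _ _ => Finset.mem_coe.2 (Finset.mem_univ _))]
    exact Finset.sum_congr rfl fun x _ => (hc x).symm
  have hc1 : c 1 ≤ I.card := by
    rw [hc]
    refine Finset.card_le_card_of_injOn (fun p => p.1) ?_ ?_
    · intro p hp
      exact (Finset.mem_product.1 (Finset.mem_filter.1 hp).1).1
    · rintro ⟨u, v⟩ hp ⟨u', v'⟩ hp' h
      have h1 := (Finset.mem_filter.1 hp).2
      have h2 := (Finset.mem_filter.1 hp').2
      simp only at h h1 h2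
      subst h
      rw [mul_left_cancel (h1.trans h2.symm)]
  have hinv : ∀ x ∈ I, j * (c x + 2) ≤ Nat.card G := by
    intro x hx
    have hx2 := (Finset.mem_filter.1 hx).2
    have h1 := (Cfsg.Agent.S0238.result x).2.2 hx2
    refine (Nat.mul_le_mul_left j h1).trans (hle _ ?_)
    intro htop
    have hxc : x ∈ Subgroup.center G := by
      rw [Subgroup.mem_center_iff]
      intro g
      have : g ∈ Subgroup.centralizer ({x} : Set G) := htop ▸ Subgroup.mem_top g
      exact Subgroup.mem_centralizer_singleton_iff.1 this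
    have h2 := Subgroup.orderOf_dvd_natCard _ hxc
    rw [hx2] at h2
    exact (Nat.not_even_iff_odd.2 hZ) (even_iff_two_dvd.2 h2)
  have hoth : ∀ x, x ≠ 1 → x ∉ I → 2 * j * c x ≤ Nat.card G := by
    intro x hx1 hxI
    by_cases hreal : IsConj x x⁻¹
    swap
    · have : c x = 0 := (Cfsg.Agent.S0238.result x).2.1 hreal
      rw [this]; simp
    have hxx : x⁻¹ ≠ x := by
      intro h
      apply hxI
      refine Finset.mem_filter.2 ⟨Finset.mem_univ _, H85.ord2_iff.2 ⟨?_, hx1⟩⟩
      nth_rewrite 2 [← h]
      exact mul_inv_cancel x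
    let E : Subgroup G :=
      { carrier := {g | g * x * g⁻¹ = x ∨ g * x * g⁻¹ = x⁻¹}
        one_mem' := Or.inl (by simp)
        mul_mem' := by
          rintro a b ha hb
          have e : a * b * x * (a * b)⁻¹ = a * (b * x * b⁻¹) * a⁻¹ := by group
          simp only [Set.mem_ofPred_eq] at ha hb ⊢
          rw [e]
          rcases hb with hb | hb <;> rw [hb]
          · exact ha
          · rw [← conj_inv]
            rcases ha with ha | ha <;> rw [ha]
            · exact Or.inr rfl
            · exact Or.inl (inv_inv x)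
        inv_mem' := by
          rintro a (ha | ha)
          · left
            nth_rewrite 1 [← ha]
            group
          · right
            have : x = a * x⁻¹ * a⁻¹ := by rw [← conj_inv, ha, inv_inv]
            nth_rewrite 1 [this]
            group }
    have hE : Nat.card E = 2 * Nat.card (Subgroup.centralizer ({x} : Set G)) := by
      have h1 := H85.card_conjugators (IsConj.refl x)
      have h2 := H85.card_conjugators hreal
      rw [two_mul]
      nth_rewrite 1 [← h1]
      rw [← h2, ← Nat.card_sum]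
      refine Nat.card_congr (subtypeOrEquiv _ _ ?_)
      rw [disjoint_iff]
      funext g
      simp only [Pi.inf_apply, Pi.bot_apply, inf_Prop_eq, Prop.bot_eq_false, eq_iff_iff, iff_false]
      rintro ⟨h3, h4⟩
      exact hxx (h4.symm.trans h3)
    have hEtop : E ≠ ⊤ := by
      intro h
      apply hno2 (Subgroup.centralizer ({x} : Set G))
      rw [h, Subgroup.card_top, ← (Subgroup.centralizer ({x} : Set G)).index_mul_card] at hE
      exact Nat.eq_of_mul_eq_mul_right Nat.card_pos hE
    have h3 := hle E hEtop
    rw [hE] at h3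
    have h4 : c x ≤ _ := (Cfsg.Agent.S0238.result x).1
    calc 2 * j * c x ≤ 2 * j * Nat.card (Subgroup.centralizer ({x} : Set G)) :=
          Nat.mul_le_mul_left _ h4
      _ = j * (2 * Nat.card (Subgroup.centralizer ({x} : Set G))) := by ring
      _ ≤ _ := h3
  have h1I : (1 : G) ∉ I := fun h => H85.ord2_ne_one (Finset.mem_filter.1 h).2 rfl
  set R : Finset G := Finset.univ \ insert 1 I with hR
  have hRcard : R.card + (I.card + 1) = Nat.card G := by
    rw [hR, ← Finset.card_insert_of_notMem h1I, Finset.card_sdiff_add_card_eq_card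
      (Finset.subset_univ _), Finset.card_univ, Nat.card_eq_fintype_card]
  have hsplit : ∑ x, c x = ∑ x ∈ R, c x + (c 1 + ∑ x ∈ I, c x) := by
    rw [← Finset.sum_insert h1I, hR, Finset.sum_sdiff (Finset.subset_univ _)]
  have hsI : j * (∑ x ∈ I, c x + 2 * I.card) ≤ I.card * Nat.card G := by
    have := Finset.sum_le_card_nsmul I (fun x => j * (c x + 2)) (Nat.card G) hinv
    rw [← Finset.mul_sum, Finset.sum_add_distrib, Finset.sum_const, smul_eq_mul, smul_eq_mul,
      mul_comm I.card 2] at this
    exact this
  have hsR : 2 * j * ∑ x ∈ R, c x ≤ R.card * Nat.card G := by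
    have := Finset.sum_le_card_nsmul R (fun x => 2 * j * c x) (Nat.card G) (by
      intro x hx
      have h := (Finset.mem_sdiff.1 hx).2
      rw [Finset.mem_insert, not_or] at h
      exact hoth x h.1 h.2)
    rwa [← Finset.mul_sum, smul_eq_mul] at this
  rw [hsum, hsplit]
  set a := ∑ x ∈ R, c x
  set b := ∑ x ∈ I, c x
  set g := Nat.card G
  set n := I.card
  set r := R.card
  have h5 : j * c 1 ≤ j * n := Nat.mul_le_mul_left j hc1
  have h6 : g * (g + n) = r * g + 2 * (n * g) + g := by
    nth_rewrite 2 [← hRcard]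
    ring
  rw [h6]
  nlinarith

end Cfsg.Agent.S0233
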