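import Cfsg.Agent.Base
import Cfsg.Statements.S0212
import Cfsg.Agent.H85.InvBasic
import Cfsg.Agent.S0233
import Cfsg.Agent.H87.Simple

set_option autoImplicit false
open Cfsg

namespace Cfsg.Agent.S0212

/-- The Brauer–Fowler bound: if G is a finite simple group and t an involution of G whose centralizer has order n, then |G| ≤ (2n^2)!. -/
theorem result {G : Type*} [Group G] [Finite G] [IsSimpleGroup G] (t : G) (ht : orderOf t = 2) : Nat.card G ≤ Nat.factorial (2 * (Nat.card (Subgroup.centralizer ({t} : Set G))) ^ 2) := by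
  set c := Nat.card (Subgroup.centralizer ({t} : Set G)) with hc
  have hcpos : 0 < c := Nat.card_pos
  by_cases hG : IsMulCommutative G
  · have htop : Subgroup.centralizer ({t} : Set G) = ⊤ := by
      rw [eq_top_iff]
      intro g _
      exact Subgroup.mem_centralizer_singleton_iff.2 (hG.is_comm.comm g t)
    have h1 : c = Nat.card G := by rw [hc, htop, Subgroup.card_top]
    rw [← h1]
    refine le_trans ?_ (Nat.self_le_factorial _)
    nlinarith
  have heven : Even (Nat.card G) := even_iff_two_dvd.2 (ht ▸ orderOf_dvd_natCard t)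
  have hZ : Odd (Nat.card (Subgroup.center G)) := by
    rw [H87.center_eq_bot hG, Subgroup.card_bot]; exact odd_one
  obtain ⟨H, hH, hidx⟩ := Cfsg.Agent.S0233.result heven hZ
  have h1 := Nat.le_of_dvd (Nat.factorial_pos _) (H87.two_mul_card_dvd_factorial hG H hH)
  refine le_trans (by omega : Nat.card G ≤ H.index.factorial) (Nat.factorial_le ?_)
  rcases hidx with h | h
  · rw [h]; nlinarith
  · set n := Nat.card {t : G // orderOf t = 2}
    have h2 : Nat.card {y : G // IsConj t y} ≤ n :=
      Nat.card_le_card_of_injective (fun y => ⟨y.1, H85.ord2_of_isConj ht y.2⟩)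
        (fun a b hab => Subtype.ext (congrArg (fun z : {t : G // orderOf t = 2} => z.1) hab))
    have h3 : Nat.card G ≤ n * c := by
      rw [← H85.card_class_mul_card_centralizer t]
      exact Nat.mul_le_mul_right _ h2
    have h4 : Nat.card G * (Nat.card G + n) ≤ n * c * (n * c + n) :=
      Nat.mul_le_mul h3 (Nat.add_le_add_right h3 n)
    by_contra hlt
    push Not at hlt
    have h5 : 2 * (2 * c ^ 2) * n ^ 2 ≤ 2 * H.index * n ^ 2 :=
      Nat.mul_le_mul_right _ (Nat.mul_le_mul_left 2 hlt.le)
    have h6 : n * c * (n * c + n) = (c * c + c) * n ^ 2 := by ring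
    have h7 : (c * c + c) * n ^ 2 ≤ 2 * (2 * c ^ 2) * n ^ 2 :=
      Nat.mul_le_mul_right _ (by nlinarith)
    omega

end Cfsg.Agent.S0212
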