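import Cfsg.Agent.Base
import Cfsg.Statements.S0213
import Cfsg.Agent.H85.InvBasic

set_option autoImplicit false
open Cfsg

namespace Cfsg.Agent.S0213

open Classical in
/-- pairs whose product has `y` among its powers -/
noncomputable def fib {G : Type*} [Group G] [Fintype G] (x₁ x₂ y : G) : Finset (G × G) :=
  Finset.univ.filter fun p => IsConj x₁ p.1 ∧ IsConj x₂ p.2 ∧ y ∈ Subgroup.zpowers (p.1 * p.2)

theorem mem_fib {G : Type*} [Group G] [Fintype G] {x₁ x₂ y : G} {p : G × G} :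
    p ∈ fib x₁ x₂ y ↔ IsConj x₁ p.1 ∧ IsConj x₂ p.2 ∧ y ∈ Subgroup.zpowers (p.1 * p.2) := by
  simp [fib]

theorem fib_conj {G : Type*} [Group G] [Fintype G] {x₁ x₂ y : G} {p : G × G} (g : G)
    (hp : p ∈ fib x₁ x₂ y) : (g * p.1 * g⁻¹, g * p.2 * g⁻¹) ∈ fib x₁ x₂ (g * y * g⁻¹) := by
  rw [mem_fib] at hp ⊢
  obtain ⟨h1, h2, h3⟩ := hp
  refine ⟨h1.trans (isConj_iff.2 ⟨g, rfl⟩), h2.trans (isConj_iff.2 ⟨g, rfl⟩), ?_⟩
  obtain ⟨k, rfl⟩ := Subgroup.mem_zpowers_iff.1 h3
  refine Subgroup.mem_zpowers_iff.2 ⟨k, ?_⟩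
  rw [← conj_zpow]
  congr 1
  group

theorem card_fib_conj {G : Type*} [Group G] [Fintype G] {x₁ x₂ y z : G} (h : IsConj y z) :
    (fib x₁ x₂ z).card = (fib x₁ x₂ y).card := by
  obtain ⟨g, rfl⟩ := isConj_iff.1 h
  symm
  refine Finset.card_bij' (fun p _ => (g * p.1 * g⁻¹, g * p.2 * g⁻¹))
    (fun p _ => (g⁻¹ * p.1 * g⁻¹⁻¹, g⁻¹ * p.2 * g⁻¹⁻¹)) (fun p hp => fib_conj g hp)
    (fun p hp => ?_) (fun p _ => ?_) (fun p _ => ?_)
  · have := fib_conj g⁻¹ hp
    rwa [show g⁻¹ * (g * y * g⁻¹) * g⁻¹⁻¹ = y by group] at this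
  · ext <;> simp only <;> group
  · ext <;> simp only <;> group

/-- Thompson Order Formula, two-class case: if every involution of the finite group G is conjugate to exactly one of the non-conjugate involutions x₁, x₂, and nᵢ is the number of pairs (u, v) with u conjugate to x₁, v conjugate to x₂ and xᵢ in the cyclic group generated by uv, then |G| = |C(x₂)| n₁ + |C(x₁)| n₂. -/
theorem result {G : Type*} [Group G] [Finite G] (x₁ x₂ : G) (h₁ : orderOf x₁ = 2) (h₂ : orderOf x₂ = 2) (hnc : ¬ IsConj x₁ x₂) (hall : ∀ t : G, orderOf t = 2 → IsConj x₁ t ∨ IsConj x₂ t) : Nat.card G = Nat.card (Subgroup.centralizer ({x₂} : Set G)) * Nat.card {p : G × G // IsConj x₁ p.1 ∧ IsConj x₂ p.2 ∧ x₁ ∈ Subgroup.zpowers (p.1 * p.2)} + Nat.card (Subgroup.centralizer ({x₁} : Set G)) * Nat.card {p : G × G // IsConj x₁ p.1 ∧ IsConj x₂ p.2 ∧ x₂ ∈ Subgroup.zpowers (p.1 * p.2)} := by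
  classical
  haveI := Fintype.ofFinite G
  have hcard : ∀ y : G, Nat.card {p : G × G // IsConj x₁ p.1 ∧ IsConj x₂ p.2 ∧
      y ∈ Subgroup.zpowers (p.1 * p.2)} = (fib x₁ x₂ y).card := by
    intro y
    rw [Nat.card_eq_fintype_card, Fintype.card_subtype]
    congr 1
  rw [hcard, hcard]
  set K₁ : Finset G := Finset.univ.filter fun y => IsConj x₁ y with hK₁
  set K₂ : Finset G := Finset.univ.filter fun y => IsConj x₂ y with hK₂
  have hk₁ := H85.card_class_mul_card_centralizer x₁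
  have hk₂ := H85.card_class_mul_card_centralizer x₂
  rw [Nat.card_eq_fintype_card (α := {y : G // IsConj x₁ y}), Fintype.card_subtype, ← hK₁] at hk₁
  rw [Nat.card_eq_fintype_card (α := {y : G // IsConj x₂ y}), Fintype.card_subtype, ← hK₂] at hk₂
  have hdisj : Disjoint K₁ K₂ := by
    rw [Finset.disjoint_left]
    intro y h1 h2
    exact hnc ((Finset.mem_filter.1 h1).2.trans (Finset.mem_filter.1 h2).2.symm)
  have hord : ∀ y ∈ K₁ ∪ K₂, orderOf y = 2 := by
    intro y hy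
    rcases Finset.mem_union.1 hy with h | h
    · exact H85.ord2_of_isConj h₁ (Finset.mem_filter.1 h).2
    · exact H85.ord2_of_isConj h₂ (Finset.mem_filter.1 h).2
  have hunion : K₁ ×ˢ K₂ = (K₁ ∪ K₂).biUnion (fib x₁ x₂) := by
    ext p
    rw [Finset.mem_product, Finset.mem_biUnion]
    constructor
    · rintro ⟨h1, h2⟩
      have h1' := (Finset.mem_filter.1 h1).2
      have h2' := (Finset.mem_filter.1 h2).2
      obtain ⟨z, hz, hz2, -⟩ := H85.exists_ord2_commute_of_not_isConj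
        (H85.ord2_of_isConj h₁ h1') (H85.ord2_of_isConj h₂ h2')
        (fun h => hnc ((h1'.trans h).trans h2'.symm))
      refine ⟨z, ?_, mem_fib.2 ⟨h1', h2', hz⟩⟩
      rcases hall z hz2 with h | h
      · exact Finset.mem_union_left _ (Finset.mem_filter.2 ⟨Finset.mem_univ _, h⟩)
      · exact Finset.mem_union_right _ (Finset.mem_filter.2 ⟨Finset.mem_univ _, h⟩)
    · rintro ⟨z, -, hz⟩
      obtain ⟨h1, h2, -⟩ := mem_fib.1 hz
      exact ⟨Finset.mem_filter.2 ⟨Finset.mem_univ _, h1⟩,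
        Finset.mem_filter.2 ⟨Finset.mem_univ _, h2⟩⟩
  have hsum : K₁.card * K₂.card
      = K₁.card * (fib x₁ x₂ x₁).card + K₂.card * (fib x₁ x₂ x₂).card := by
    rw [← Finset.card_product, hunion, Finset.card_biUnion, Finset.sum_union hdisj]
    · congr 1
      · rw [Finset.sum_congr rfl (fun y hy => card_fib_conj (Finset.mem_filter.1 hy).2),
          Finset.sum_const, smul_eq_mul]
      · rw [Finset.sum_congr rfl (fun y hy => card_fib_conj (Finset.mem_filter.1 hy).2),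
          Finset.sum_const, smul_eq_mul]
    · intro y hy z hz hne
      rw [Function.onFun, Finset.disjoint_left]
      intro p h1 h2
      exact hne (H85.ord2_unique_in_zpowers (mem_fib.1 h1).2.2 (mem_fib.1 h2).2.2
        (hord y hy) (hord z hz))
  have hpos : 0 < Nat.card G := Nat.card_pos
  apply Nat.eq_of_mul_eq_mul_left hpos
  set c₁ := Nat.card (Subgroup.centralizer ({x₁} : Set G))
  set c₂ := Nat.card (Subgroup.centralizer ({x₂} : Set G))
  set n₁ := (fib x₁ x₂ x₁).card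
  set n₂ := (fib x₁ x₂ x₂).card
  calc Nat.card G * Nat.card G = (K₁.card * c₁) * (K₂.card * c₂) := by rw [hk₁, hk₂]
    _ = (K₁.card * K₂.card) * (c₁ * c₂) := by ring
    _ = (K₁.card * c₁) * (c₂ * n₁) + (K₂.card * c₂) * (c₁ * n₂) := by rw [hsum]; ring
    _ = _ := by rw [hk₁, hk₂]; ring

end Cfsg.Agent.S0213
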