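import Cfsg.Agent.Base
import Cfsg.Statements.S0218
import Cfsg.Agent.H85.InvBasic
import Cfsg.Agent.H86.Small

set_option autoImplicit false
open Cfsg

namespace Cfsg.Agent.S0218

/-- The generalized quaternion group of order 2^(n+3) contains exactly one element of order 2. -/
theorem result (n : ℕ) : Nat.card {x : QuaternionGroup (2 ^ (n + 1)) // orderOf x = 2} = 1 := by
  have h := H86.GQ_top (2 ^ (n + 1))
  have hn : (2 ^ (n + 1) : ℕ) ≠ 0 := by positivity
  rw [Nat.card_eq_one_iff_exists]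
  refine ⟨⟨_, H85.ord2_iff.2 ⟨h.z_mul_z, h.z_ne_one hn⟩⟩, fun y => ?_⟩
  rcases h.eq_of_sq hn (Subgroup.mem_top y.1) (H85.ord2_mul_self y.2) with h1 | h1
  · exact absurd h1 (H85.ord2_ne_one y.2)
  · exact Subtype.ext h1

end Cfsg.Agent.S0218
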