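import Cfsg.Agent.Base
import Cfsg.Statements.S0220
import Cfsg.Agent.H85.InvBasic
import Cfsg.Agent.H7.SylowIn
import Cfsg.Agent.H9.PBasic
import Cfsg.Agent.S0219

set_option autoImplicit false
open Cfsg

namespace Cfsg.Agent.S0220

/-- If x is an involution of a finite group G and a Sylow 2-subgroup of the centralizer of x is cyclic, then G has a subgroup of index 2; in particular G is not simple unless it has order 2. -/
theorem result {G : Type*} [Group G] [Finite G] (x : G) (hx : orderOf x = 2) (S : Sylow 2 ↥(Subgroup.centralizer ({x} : Set G))) (hS : IsCyclic (S : Subgroup ↥(Subgroup.centralizer ({x} : Set G)))) : ∃ H : Subgroup G, H.index = 2 := by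
  haveI : Fact (Nat.Prime 2) := ⟨Nat.prime_two⟩
  let C := Subgroup.centralizer ({x} : Set G)
  have hC : C = Subgroup.centralizer ({x} : Set G) := rfl
  let S' := (S : Subgroup C).map C.subtype
  have hS' : H7.IsSylowIn 2 S' C := H7.isSylowIn_map_subtype S
  have hcyc : IsCyclic S' := by
    haveI := hS
    exact isCyclic_of_surjective (C.subtype.subgroupMap (S : Subgroup C))
      (C.subtype.subgroupMap_surjective _)
  obtain ⟨T, hT⟩ := hS'.isPGroup.exists_le_sylow
  have hxC : x ∈ C := Subgroup.mem_centralizer_singleton_iff.2 rfl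
  have hxp : IsPGroup 2 (Subgroup.zpowers x) :=
    IsPGroup.of_card (n := 1) (by rw [Nat.card_zpowers, hx, pow_one])
  have hxS : x ∈ S' := by
    apply hS'.le_of_le_normalizer hxp (Subgroup.zpowers_le.2 hxC) _ (Subgroup.mem_zpowers x)
    intro s hs
    apply H7.mem_normalizer_of_forall
    intro y hy
    obtain ⟨k, rfl⟩ := Subgroup.mem_zpowers_iff.1 hy
    have h1 : Commute s x := Subgroup.mem_centralizer_singleton_iff.1 (hS'.le hs)
    rw [(h1.zpow_right k).eq, mul_inv_cancel_right]
    exact hy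
  have hTC : (T : Subgroup G) ⊓ C = S' :=
    hS'.eq_of_le (T.isPGroup'.to_le inf_le_left) (le_inf hT hS'.le) inf_le_right
  have hne : (⊤ : Subgroup T) ≠ ⊥ := by
    intro h
    have : (⟨x, hT hxS⟩ : T) ∈ (⊤ : Subgroup T) := Subgroup.mem_top _
    rw [h, Subgroup.mem_bot] at this
    exact H85.ord2_ne_one hx (congrArg Subtype.val this)
  obtain ⟨z, -, hz, hz2⟩ := H9.exists_mem_center_orderOf_eq T.isPGroup' hne
  have hzS : (z : G) ∈ S' := by
    rw [← hTC]
    refine ⟨z.2, Subgroup.mem_centralizer_singleton_iff.2 ?_⟩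
    exact (congrArg Subtype.val (Subgroup.mem_center_iff.1 hz ⟨x, hT hxS⟩)).symm
  obtain ⟨c, hc⟩ := (S'.isCyclic_iff_exists_zpowers_eq_top).1 hcyc
  have hzx : (z : G) = x :=
    H85.ord2_unique_in_zpowers (hc ▸ hzS) (hc ▸ hxS) (by rw [Subgroup.orderOf_coe, hz2]) hx
  have hTle : (T : Subgroup G) ≤ C := by
    intro t ht
    rw [hC, Subgroup.mem_centralizer_singleton_iff, ← hzx]
    exact congrArg Subtype.val (Subgroup.mem_center_iff.1 hz ⟨t, ht⟩)
  rw [inf_eq_left.2 hTle] at hTC
  exact Cfsg.Agent.S0219.result (even_iff_two_dvd.2 (hx ▸ orderOf_dvd_natCard x)) T (hTC ▸ hcyc)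

end Cfsg.Agent.S0220
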