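import Cfsg.Agent.Base
import Cfsg.Statements.S0221
import Cfsg.Agent.H85.E2
import Cfsg.Agent.H8.TransferEval
import Cfsg.Agent.H86.Classes

set_option autoImplicit false
open Cfsg

namespace Cfsg.Agent.S0221

/-- Let G be a finite group with no subgroup of index 2 whose 2-rank is at least 3 (it contains an elementary abelian subgroup of order 8). Then the centralizer of every involution of G also contains an elementary abelian subgroup of order 8. -/
theorem result {G : Type*} [Group G] [Finite G] (hno : ∀ H : Subgroup G, H.index ≠ 2) (hrank : ∃ E : Subgroup G, Nat.card E = 8 ∧ ∀ e ∈ E, e ^ 2 = 1) (x : G) (hx : orderOf x = 2) : ∃ E : Subgroup G, E ≤ Subgroup.centralizer ({x} : Set G) ∧ Nat.card E = 8 ∧ ∀ e ∈ E, e ^ 2 = 1 := by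
  haveI : Fact (Nat.Prime 2) := ⟨Nat.prime_two⟩
  obtain ⟨E, hE8, hE2⟩ := hrank
  have hE : H85.E2 E := H85.e2_iff_sq.2 hE2
  obtain ⟨T, hT⟩ := hE.isPGroup.exists_le_sylow
  have hET : Nat.card (E.subgroupOf T) = 8 := by
    rw [← hE8]; exact Nat.card_congr (Subgroup.subgroupOfEquivOfLe hT).toEquiv
  obtain ⟨U, hUn, hU⟩ := H85.exists_normal_four T.isPGroup' (hE.subgroupOf T) (by omega)
  have hidx := H85.index_centralizer_four_le T.isPGroup' hU
  have hU2 := H85.E2.of_isKleinFour hU
  set T₀ := Subgroup.centralizer (U : Set T) with hT₀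
  set E' := E.subgroupOf (T : Subgroup G)
  have hE' : H85.E2 E' := hE.subgroupOf T
  -- an elementary abelian subgroup of order 8 in `T₀`
  have hF : ∃ F : Subgroup T, F ≤ T₀ ∧ H85.E2 F ∧ 8 ≤ Nat.card F := by
    by_cases hle : U ≤ E'
    · exact ⟨E', fun e he => Subgroup.mem_centralizer_iff.2 fun u hu => hE'.comm (hle hu) he,
        hE', hET.ge⟩
    · have hc : ∀ a ∈ E' ⊓ T₀, ∀ b ∈ U, a * b = b * a := fun a ha b hb =>
        (Subgroup.mem_centralizer_iff.1 ha.2 b hb).symm
      refine ⟨(E' ⊓ T₀) ⊔ U, sup_le inf_le_right hU2.le_centralizer,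
        (hE'.mono inf_le_left).sup hU2 hc, ?_⟩
      have h1 := H85.card_sup_mul_of_comm hc
      have h2 := H85.card_le_mul_card_inf E' T₀
      have h3 : (E' ⊓ T₀) ⊓ U < U :=
        lt_of_le_of_ne inf_le_right fun h => hle (h ▸ inf_le_left.trans inf_le_left)
      have h4 := H9.mul_card_le_of_lt T.isPGroup' h3
      rw [hU.card_four] at h1 h4
      rw [hET] at h2
      have h5 : 4 ≤ Nat.card (E' ⊓ T₀ : Subgroup T) := by nlinarith
      nlinarith
  -- the claim for involutions of `T₀`
  have key : ∀ y : T, y ∈ T₀ → orderOf y = 2 →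
      ∃ F : Subgroup T, F ≤ Subgroup.centralizer ({y} : Set T) ∧ H85.E2 F ∧ 8 ≤ Nat.card F := by
    intro y hy hy2
    by_cases hyU : y ∈ U
    · obtain ⟨F, hF1, hF2, hF3⟩ := hF
      exact ⟨F, hF1.trans (Subgroup.centralizer_le (by simpa using hyU)), hF2, hF3⟩
    · have hc : ∀ a ∈ U, a * y = y * a := Subgroup.mem_centralizer_iff.1 hy
      have h1 := hU2.sup_zpowers (H85.ord2_mul_self hy2) hc
      refine ⟨U ⊔ Subgroup.zpowers y, h1.le_centralizer.trans (Subgroup.centralizer_le ?_), h1, ?_⟩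
      · rw [Set.singleton_subset_iff]
        exact Subgroup.mem_sup_right (Subgroup.mem_zpowers y)
      · rw [H85.card_sup_zpowers_two (by rw [H85.ord2_mul_self hy2]; exact one_mem _)
          (H85.mem_normalizer_of_comm hc) hyU, hU.card_four]
  -- `x` is conjugate into `T₀`
  have hconj : ∃ g : G, g * x * g⁻¹ ∈ T₀.map (T : Subgroup G).subtype := by
    have h0 : T₀.index ≠ 0 := Subgroup.index_ne_zero_of_finite
    by_cases h1 : T₀.index = 1
    · obtain ⟨g, hg⟩ := H86.exists_conj_mem_sylow T (t := x) (k := 1)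
        (by rw [pow_one, pow_two, H85.ord2_mul_self hx])
      exact ⟨g, ⟨_, hg⟩, by rw [Subgroup.index_eq_one.1 h1]; trivial, rfl⟩
    · by_contra hcon
      push Not at hcon
      obtain ⟨N, -, hN, -⟩ := H8.thompson_transfer (T : Subgroup G) _ (H8.odd_index_sylow_two T)
        (by
          rw [Subgroup.relIndex, Subgroup.subgroupOf,
            Subgroup.comap_map_eq_self_of_injective (T : Subgroup G).subtype_injective]
          omega) x (by rw [pow_two, H85.ord2_mul_self hx]) hcon
      exact hno N hN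
  obtain ⟨g, y, hy, hyg⟩ := hconj
  have hy2 : orderOf y = 2 := by
    rw [← Subgroup.orderOf_coe]
    exact (show (y : G) = g * x * g⁻¹ from hyg) ▸ H85.ord2_conj hx g
  obtain ⟨F, hF1, hF2, hF3⟩ := key y hy hy2
  obtain ⟨B, hB, hB8⟩ := H85.exists_le_card_two_pow hF2.isPGroup (n := 3) hF3
  let f : T →* G := (MulAut.conj g⁻¹).toMonoidHom.comp (T : Subgroup G).subtype
  have hf : Function.Injective f := (MulAut.conj g⁻¹).injective.comp Subtype.val_injective
  refine ⟨B.map f, ?_, by rw [Subgroup.card_map_of_injective hf, hB8]; rfl,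
    H85.e2_iff_sq.1 ((hF2.mono hB).map f)⟩
  rintro _ ⟨b, hb, rfl⟩
  have h1 := Subgroup.mem_centralizer_singleton_iff.1 (hF1 (hB hb))
  have h2 : f y = x := by
    show g⁻¹ * (y : G) * g⁻¹⁻¹ = x
    rw [show (y : G) = g * x * g⁻¹ from hyg]; group
  rw [Subgroup.mem_centralizer_singleton_iff, ← h2, ← map_mul, ← map_mul, h1]

end Cfsg.Agent.S0221
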