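import Cfsg.Agent.Base
import Cfsg.Statements.S0226
import Cfsg.Agent.H85.InvBasic

set_option autoImplicit false
open Cfsg

namespace Cfsg.Agent.S0226

/-- A finite group of even order has an odd number of involutions. -/
theorem result {G : Type*} [Group G] [Finite G] (heven : Even (Nat.card G)) : Odd (Nat.card {t : G // orderOf t = 2}) := by
  classical
  haveI := Fintype.ofFinite G
  haveI : Fact (Nat.Prime 2) := ⟨Nat.prime_two⟩
  let f : Function.End G := fun x => x⁻¹
  have hf : f ^ 2 ^ 1 = 1 := by
    funext x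
    show (x⁻¹)⁻¹ = x
    exact inv_inv x
  have h := Equiv.Perm.card_fixedPoints_modEq hf
  have e : Function.fixedPoints f ≃ Option {t : G // orderOf t = 2} := by
    refine ((Equiv.optionSubtypeNe (⟨1, inv_one⟩ : Function.fixedPoints f)).symm).trans
      (Equiv.optionCongr ?_)
    refine
      { toFun := fun p => ⟨p.1.1, H85.ord2_iff.2 ⟨?_, fun h => p.2 (Subtype.ext h)⟩⟩
        invFun := fun t => ⟨⟨t.1, H85.ord2_inv t.2⟩,
          fun h => H85.ord2_ne_one t.2 (congrArg Subtype.val h)⟩
        left_inv := fun p => rfl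
        right_inv := fun t => rfl }
    have h1 : (p.1.1)⁻¹ = p.1.1 := p.1.2
    nth_rewrite 2 [← h1]
    exact mul_inv_cancel _
  rw [← Nat.card_eq_fintype_card, ← Nat.card_eq_fintype_card, Nat.card_congr e,
    Finite.card_option] at h
  rw [Nat.odd_iff]
  rw [Nat.even_iff] at heven
  unfold Nat.ModEq at h
  omega

end Cfsg.Agent.S0226
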