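import Cfsg.Agent.Base
import Cfsg.Statements.S0230
import Cfsg.Agent.H85.InvBasic

set_option autoImplicit false
open Cfsg

namespace Cfsg.Agent.S0230

/-- Let G be a finite group with two non-conjugate involutions, and let t be an involution whose centralizer has maximal order among centralizers of involutions. Then |G| < |C_G(t)|^3. -/
theorem result {G : Type*} [Group G] [Finite G] (s t : G) (hs : orderOf s = 2) (ht : orderOf t = 2) (hnc : ¬ IsConj s t) (hmax : ∀ u : G, orderOf u = 2 → Nat.card (Subgroup.centralizer ({u} : Set G)) ≤ Nat.card (Subgroup.centralizer ({t} : Set G))) : Nat.card G < Nat.card (Subgroup.centralizer ({t} : Set G)) ^ 3 := by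
  classical
  haveI := Fintype.ofFinite G
  set h := Nat.card (Subgroup.centralizer ({t} : Set G)) with hh
  have hpos : 0 < h := Nat.card_pos
  -- involutions commuting with `t`
  let Z : Finset G := Finset.univ.filter fun z => orderOf z = 2 ∧ Commute z t
  have hZ : Z.card < h := by
    have h1 : (insert 1 Z).card ≤ h := by
      rw [hh, Nat.card_eq_fintype_card, Fintype.card_subtype]
      apply Finset.card_le_card
      intro z hz
      rw [Finset.mem_filter]
      refine ⟨Finset.mem_univ _, Subgroup.mem_centralizer_singleton_iff.2 ?_⟩
      rcases Finset.mem_insert.1 hz with rfl | hz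
      · simp
      · exact (Finset.mem_filter.1 hz).2.2.eq
    rw [Finset.card_insert_of_notMem] at h1
    · omega
    · intro h1
      exact H85.ord2_ne_one (Finset.mem_filter.1 h1).2.1 rfl
  have hcl : Nat.card {y : G // IsConj s y} ≤ Z.card * h := by
    rw [Nat.card_eq_fintype_card, Fintype.card_subtype]
    calc (Finset.univ.filter fun y => IsConj s y).card
        ≤ (Z.biUnion fun z => Finset.univ.filter
            fun y => y ∈ Subgroup.centralizer ({z} : Set G)).card := by
          apply Finset.card_le_card
          intro y hy
          have hy' := (Finset.mem_filter.1 hy).2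
          obtain ⟨z, -, hz2, hzy, hzt⟩ := H85.exists_ord2_commute_of_not_isConj
            (H85.ord2_of_isConj hs hy') ht (fun h => hnc (hy'.trans h))
          refine Finset.mem_biUnion.2 ⟨z, Finset.mem_filter.2 ⟨Finset.mem_univ _, hz2, hzt⟩,
            Finset.mem_filter.2 ⟨Finset.mem_univ _, ?_⟩⟩
          exact Subgroup.mem_centralizer_singleton_iff.2 hzy.symm.eq
      _ ≤ Z.card * h := by
          apply Finset.card_biUnion_le_card_mul
          intro z hz
          have := hmax z (Finset.mem_filter.1 hz).2.1
          rwa [Nat.card_eq_fintype_card, Fintype.card_subtype] at this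
  rw [← H85.card_class_mul_card_centralizer s]
  have h2 := hmax s hs
  calc Nat.card {y : G // IsConj s y} * Nat.card (Subgroup.centralizer ({s} : Set G))
      ≤ Z.card * h * h := Nat.mul_le_mul hcl h2
    _ < h * h * h := by
      apply Nat.mul_lt_mul_of_pos_right _ hpos
      exact Nat.mul_lt_mul_of_pos_right hZ hpos
    _ = h ^ 3 := by ring

end Cfsg.Agent.S0230
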