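import Cfsg.Statements.S0231
import Cfsg.Agent.H88.SE

set_option autoImplicit false
open scoped Pointwise
open Cfsg

namespace Cfsg.Agent.S0231

/-- Let T be a Sylow 2-subgroup of the finite group G which is not normal and which intersects every other Sylow 2-subgroup trivially. Then G has a single conjugacy class of involutions. -/
theorem result {G : Type*} [Group G] [Finite G] (T : Sylow 2 G) (hnn : ¬ (T : Subgroup G).Normal) (hTI : ∀ g : G, MulAut.conj g • (T : Subgroup G) ≠ T → MulAut.conj g • (T : Subgroup G) ⊓ T = ⊥) (s t : G) (hs : orderOf s = 2) (ht : orderOf t = 2) : IsConj s t := by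
  have hSE : Cfsg.IsStronglyEmbedded (Subgroup.normalizer ((T : Subgroup G) : Set G)) := by
    rw [H88.isStronglyEmbedded_iff]
    have hT1 : (T : Subgroup G) ≠ ⊥ := by
      intro h
      apply hnn
      rw [h]; infer_instance
    have key : ∀ x ∈ Subgroup.normalizer ((T : Subgroup G) : Set G), orderOf x = 2 →
        x ∈ (T : Subgroup G) := by
      intro x hx h2
      have hp : IsPGroup 2 (Subgroup.zpowers x) := H17.isPGroup_zpowers (k := 1) (by
        rw [pow_one, ← h2]; exact pow_orderOf_eq_one x)
      have := (H17.sylIn_of_sylow T Subgroup.le_normalizer).exists_conj_le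
        (Subgroup.zpowers_le.mpr hx) hp
      obtain ⟨g, hg, hgx⟩ := this
      exact (Subgroup.mem_normalizer_iff.mp hg x).mpr (hgx x (Subgroup.mem_zpowers x))
    refine ⟨fun h => hnn (Subgroup.normalizer_eq_top_iff.mp h), ?_, ?_⟩
    · obtain ⟨x, hx, h2⟩ := H88.exists_involution_of_isPGroup T.isPGroup' hT1
      exact ⟨x, Subgroup.le_normalizer hx, h2⟩
    · intro x hx h2 g hg
      have h1 := key x hx h2
      have h3 := key _ hg (by rw [H83.orderOf_conj, h2])
      by_contra hgN
      have hne : MulAut.conj g • (T : Subgroup G) ≠ T := by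
        intro he
        exact hgN (H17.map_conj_eq_iff_mem_normalizer.mp he)
      have : g * x * g⁻¹ ∈ MulAut.conj g • (T : Subgroup G) ⊓ T :=
        ⟨H17.conj_mem_map_conj g h1, h3⟩
      rw [hTI g hne, Subgroup.mem_bot] at this
      exact H83.ne_one_of_orderOf_two (by rw [H83.orderOf_conj, h2]) this
  exact H88.se_isConj hSE hs ht

end Cfsg.Agent.S0231
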