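import Cfsg.Agent.Base
import Cfsg.Statements.S0232
import Cfsg.Agent.H85.InvBasic
import Cfsg.Agent.S0233

set_option autoImplicit false
open Cfsg

namespace Cfsg.Agent.S0232

universe u

theorem aux (n : ℕ) : ∀ {G : Type u} [Group G] [Finite G], Nat.card G = n →
    Even (Nat.card G) → 2 < Nat.card G →
    ∃ H : Subgroup G, H ≠ ⊤ ∧ Nat.card G < (Nat.card H) ^ 3 := by
  induction n using Nat.strong_induction_on with
  | _ n ih =>
  intro G _ _ hn heven hgt
  haveI : Fact (Nat.Prime 2) := ⟨Nat.prime_two⟩
  rcases Nat.even_or_odd (Nat.card (Subgroup.center G)) with hZ | hZ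
  · -- a central involution
    obtain ⟨z, hz⟩ := exists_prime_orderOf_dvd_card' 2 (even_iff_two_dvd.1 hZ)
    have hz2 : orderOf (z : G) = 2 := by rw [Subgroup.orderOf_coe, hz]
    let N : Subgroup G := Subgroup.zpowers (z : G)
    have hN : Nat.card N = 2 := by rw [Nat.card_zpowers, hz2]
    haveI : N.Normal := ⟨fun a ha g => by
      have := Subgroup.mem_center_iff.1 ((Subgroup.zpowers_le).2 z.2 ha) g
      rwa [this, mul_inv_cancel_right]⟩
    have hq : Nat.card G = Nat.card (G ⧸ N) * 2 := by
      rw [Subgroup.card_eq_card_quotient_mul_card_subgroup N, hN]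
    rcases Nat.even_or_odd (Nat.card (G ⧸ N)) with hq2 | hq2
    · by_cases h2 : 2 < Nat.card (G ⧸ N)
      · obtain ⟨K, hK, hlt⟩ := ih _ (by omega) rfl hq2 h2
        refine ⟨K.comap (QuotientGroup.mk' N), ?_, ?_⟩
        · intro h
          apply hK
          rw [← Subgroup.map_comap_eq_self_of_surjective (QuotientGroup.mk'_surjective N) K, h,
            Subgroup.map_top_of_surjective _ (QuotientGroup.mk'_surjective N)]
        · have h3 := Subgroup.index_comap_of_surjective K (QuotientGroup.mk'_surjective N)
          have h4 := (K.comap (QuotientGroup.mk' N)).index_mul_card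
          have h5 := K.index_mul_card
          have h6 : 0 < K.index := Nat.pos_of_ne_zero Subgroup.index_ne_zero_of_finite
          have h7 : Nat.card (K.comap (QuotientGroup.mk' N)) = Nat.card K * 2 := by
            apply Nat.eq_of_mul_eq_mul_left h6
            rw [← mul_assoc, h5, ← hq, ← h4, h3]
          rw [h7, hq]
          calc Nat.card (G ⧸ N) * 2 < Nat.card K ^ 3 * 2 := by omega
            _ ≤ Nat.card K ^ 3 * 8 := by omega
            _ = (Nat.card K * 2) ^ 3 := by ring
      · refine ⟨N, ?_, ?_⟩
        · intro h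
          rw [h, Subgroup.card_top] at hN
          omega
        · rw [hN]; omega
    · obtain ⟨K, hK⟩ := Subgroup.exists_right_complement'_of_coprime (N := N) (by
        rw [hN, Nat.coprime_two_left]; exact hq2)
      have h1 := hK.card_mul_card
      rw [hN] at h1
      refine ⟨K, ?_, ?_⟩
      · intro h
        rw [h, Subgroup.card_top] at h1
        omega
      · rw [← h1]
        have h2 : 2 ≤ Nat.card K := by omega
        have : 2 * 2 ≤ Nat.card K * Nat.card K := Nat.mul_le_mul h2 h2
        nlinarith
  · obtain ⟨K, hK, hidx⟩ := Cfsg.Agent.S0233.result heven hZ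
    have hex : ∃ j, ∃ H : Subgroup G, H ≠ ⊤ ∧ H.index = j := ⟨_, K, hK, rfl⟩
    classical
    obtain ⟨H, hH, hj⟩ := Nat.find_spec hex
    have hmin : ∀ L : Subgroup G, L ≠ ⊤ → H.index ≤ L.index :=
      fun L hL => hj ▸ Nat.find_min' hex ⟨L, hL, rfl⟩
    refine ⟨H, hH, ?_⟩
    have hmul := H.index_mul_card
    have h1 : H.index ≠ 1 := fun h => hH (Subgroup.index_eq_one.1 h)
    have h0 : H.index ≠ 0 := Subgroup.index_ne_zero_of_finite
    have hK' := hmin K hK
    set h := Nat.card H
    set j := H.index
    have hpos : 0 < h := Nat.card_pos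
    suffices hs : j < h ^ 2 by
      rw [← hmul, pow_succ]
      exact Nat.mul_lt_mul_of_pos_right hs hpos
    rcases hidx with h2 | h2
    · have h3 : j = 2 := by omega
      rw [h3] at hmul ⊢
      have : 2 ≤ h := by omega
      nlinarith
    · obtain ⟨t, ht⟩ := exists_prime_orderOf_dvd_card' 2 (even_iff_two_dvd.1 heven)
      set m := Nat.card {t : G // orderOf t = 2}
      have h3 : Nat.card {y : G // IsConj t y} ≤ m :=
        Nat.card_le_card_of_injective (fun y => ⟨y.1, H85.ord2_of_isConj ht y.2⟩)
          (fun a b hab => Subtype.ext (congrArg (fun z : {t : G // orderOf t = 2} => z.1) hab))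
      have h4 : j ≤ m := by
        refine le_trans ?_ h3
        rw [H85.card_class_eq_index]
        apply hmin
        intro htop
        have hxc : t ∈ Subgroup.center G := by
          rw [Subgroup.mem_center_iff]
          intro g
          have : g ∈ Subgroup.centralizer ({t} : Set G) := htop ▸ Subgroup.mem_top g
          exact Subgroup.mem_centralizer_singleton_iff.1 this
        have h5 := Subgroup.orderOf_dvd_natCard _ hxc
        rw [ht] at h5
        exact (Nat.not_even_iff_odd.2 hZ) (even_iff_two_dvd.2 h5)
      have h5 : Nat.card G ≤ m * h := by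
        rw [← hmul]; exact Nat.mul_le_mul_right _ h4
      have h6 : Nat.card G * (Nat.card G + m) ≤ m * h * (m * h + m) :=
        Nat.mul_le_mul h5 (Nat.add_le_add_right h5 m)
      by_contra hlt
      push Not at hlt
      have h7 : 2 * h ^ 2 * m ^ 2 ≤ 2 * K.index * m ^ 2 :=
        Nat.mul_le_mul_right _ (Nat.mul_le_mul_left 2 (hlt.trans hK'))
      have h8 : m * h * (m * h + m) = (h * h + h) * m ^ 2 := by ring
      have h9 : (h * h + h) * m ^ 2 ≤ 2 * h ^ 2 * m ^ 2 :=
        Nat.mul_le_mul_right _ (by nlinarith)
      omega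

/-- A finite group G of even order greater than 2 has a proper subgroup H with |G| < |H|^3. -/
theorem result {G : Type*} [Group G] [Finite G] (heven : Even (Nat.card G)) (hgt : 2 < Nat.card G) : ∃ H : Subgroup G, H ≠ ⊤ ∧ Nat.card G < (Nat.card H) ^ 3 := by
  exact aux _ rfl heven hgt

end Cfsg.Agent.S0232
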