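import Cfsg.Agent.Base
import Cfsg.Statements.S0234
import Cfsg.Agent.H85.InvBasic
import Cfsg.Agent.S0233
import Cfsg.Agent.H87.Simple

set_option autoImplicit false
open Cfsg

namespace Cfsg.Agent.S0234

theorem card_inv_perm5 : (Finset.univ.filter fun σ : Equiv.Perm (Fin 5) =>
    Equiv.Perm.sign σ = 1 ∧ σ * σ = 1 ∧ σ ≠ 1).card = 15 := by
  decide +kernel

/-- In a finite simple group G of even order greater than 2, the number n of involutions satisfies 3n < |G|. -/
theorem result {G : Type*} [Group G] [Finite G] [IsSimpleGroup G] (heven : Even (Nat.card G)) (hgt : 2 < Nat.card G) : 3 * Nat.card {t : G // orderOf t = 2} < Nat.card G := by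
  classical
  have hG : ¬ IsMulCommutative G := by
    apply H87.nonabelian_of_card_not_prime
    intro hp
    have := hp.even_iff.1 heven
    omega
  have hZ : Odd (Nat.card (Subgroup.center G)) := by
    rw [H87.center_eq_bot hG, Subgroup.card_bot]; exact odd_one
  obtain ⟨H, hH, hidx⟩ := Cfsg.Agent.S0233.result heven hZ
  by_contra hlt
  push Not at hlt
  set n := Nat.card {t : G // orderOf t = 2} with hn
  have hj : H.index ≤ 5 := by
    rcases hidx with h | h
    · omega
    · by_contra hj
      push Not at hj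
      have h4 : Nat.card G * (Nat.card G + n) ≤ 3 * n * (3 * n + n) :=
        Nat.mul_le_mul hlt (Nat.add_le_add_right hlt n)
      have h5 : 2 * 6 * n ^ 2 ≤ 2 * H.index * n ^ 2 :=
        Nat.mul_le_mul_right _ (Nat.mul_le_mul_left 2 hj)
      nlinarith
  haveI := Fintype.ofFinite (G ⧸ H)
  obtain ⟨e⟩ : Nonempty (G ⧸ H ↪ Fin 5) := by
    apply Function.Embedding.nonempty_of_card_le
    rw [Fintype.card_fin, ← Nat.card_eq_fintype_card]
    exact hj
  obtain ⟨g, hg⟩ := H87.exists_smul_ne_quotient H hH
  let f : G →* Equiv.Perm (Fin 5) :=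
    (Equiv.Perm.viaEmbeddingHom e).comp (MulAction.toPermHom G (G ⧸ H))
  have hf : Function.Injective f :=
    (Equiv.Perm.viaEmbeddingHom_injective e).comp (H87.toPermHom_injective _ g _ hg)
  have hsign : ∀ x, Equiv.Perm.sign (f x) = 1 := fun x =>
    H87.hom_comm_trivial hG (Equiv.Perm.sign.comp f) x
  have hn15 : n ≤ 15 := by
    rw [← card_inv_perm5, ← Fintype.card_subtype, ← Nat.card_eq_fintype_card]
    refine Nat.card_le_card_of_injective (fun t => ⟨f t.1, hsign _, ?_, ?_⟩) ?_
    · rw [← map_mul, H85.ord2_mul_self t.2, map_one]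
    · intro h
      exact H85.ord2_ne_one t.2 (hf (h.trans (map_one f).symm))
    · intro a b hab
      exact Subtype.ext (hf (congrArg Subtype.val hab))
  let f' : G →* alternatingGroup (Fin 5) :=
    f.codRestrict _ fun x => Equiv.Perm.mem_alternatingGroup.2 (hsign x)
  have hf' : Function.Injective f' := fun a b hab => hf (congrArg Subtype.val hab)
  have hA : Nat.card (alternatingGroup (Fin 5)) = 60 := by
    have := two_mul_nat_card_alternatingGroup (α := Fin 5)
    rw [Nat.card_perm, Nat.card_fin] at this
    have h5 : (5 : ℕ).factorial = 120 := rfl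
    omega
  have hK : Nat.card f'.range = Nat.card G :=
    (Nat.card_congr (MonoidHom.ofInjective hf').toEquiv).symm
  have hmul := f'.range.index_mul_card
  rw [hK, hA] at hmul
  have hKtop : f'.range ≠ ⊤ := by
    intro h
    rw [h, Subgroup.index_top] at hmul
    omega
  have hA5 : ¬ IsMulCommutative (alternatingGroup (Fin 5)) := by
    apply H87.nonabelian_of_card_not_prime
    rw [hA]; norm_num
  have h120 := H87.two_mul_card_dvd_factorial hA5 _ hKtop
  rw [hA] at h120
  have hidx5 : 5 ≤ f'.range.index := by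
    by_contra h
    push Not at h
    have := Nat.le_of_dvd (Nat.factorial_pos _) h120
    have h2 : f'.range.index.factorial ≤ (4 : ℕ).factorial := Nat.factorial_le (by omega)
    simp [Nat.factorial] at h2
    omega
  have hle : Nat.card G ≤ 12 := by nlinarith
  have hdvd : Nat.card G ∣ 60 := Dvd.intro_left _ hmul
  haveI : Fact (Nat.Prime 2) := ⟨Nat.prime_two⟩
  haveI : Fact (Nat.Prime 5) := ⟨Nat.prime_five⟩
  have h2 := H87.two_mul_card_dvd_factorial_sylow hG 2 (even_iff_two_dvd.1 heven)
  have hcases : Nat.card G = 4 ∨ Nat.card G = 6 ∨ Nat.card G = 10 ∨ Nat.card G = 12 := by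
    obtain ⟨k, hk⟩ := heven
    generalize Nat.card G = m at *
    interval_cases m <;> omega
  rcases hcases with h | h | h | h
  · have h3 := H87.card_sylow_dvd (G := G) 2 (a := 2) (m := 1) (by rw [h]; norm_num) (by norm_num)
    rw [Nat.dvd_one.1 h3, h] at h2
    norm_num at h2
  · have h3 := H87.card_sylow_dvd (G := G) 2 (a := 1) (m := 3) (by rw [h]; norm_num) (by norm_num)
    have h4 := Nat.le_of_dvd (Nat.factorial_pos _) h2
    have h5 : (Nat.card (Sylow 2 G)).factorial ≤ (3 : ℕ).factorial :=
      Nat.factorial_le (Nat.le_of_dvd (by norm_num) h3)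
    simp [Nat.factorial] at h5
    omega
  · have h3 := H87.card_sylow_dvd (G := G) 5 (a := 1) (m := 2) (by rw [h]; norm_num) (by norm_num)
    have h2' := H87.two_mul_card_dvd_factorial_sylow hG 5 (by rw [h]; norm_num)
    have h4 := Nat.le_of_dvd (Nat.factorial_pos _) h2'
    have h5 : (Nat.card (Sylow 5 G)).factorial ≤ (2 : ℕ).factorial :=
      Nat.factorial_le (Nat.le_of_dvd (by norm_num) h3)
    simp [Nat.factorial] at h5
    omega
  · have h3 := H87.card_sylow_dvd (G := G) 2 (a := 2) (m := 3) (by rw [h]; norm_num) (by norm_num)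
    have h4 := Nat.le_of_dvd (Nat.factorial_pos _) h2
    have h5 : (Nat.card (Sylow 2 G)).factorial ≤ (3 : ℕ).factorial :=
      Nat.factorial_le (Nat.le_of_dvd (by norm_num) h3)
    simp [Nat.factorial] at h5
    omega

end Cfsg.Agent.S0234
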