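import Cfsg.Agent.Base
import Cfsg.Statements.S0235
import Cfsg.Agent.H85.InvBasic

set_option autoImplicit false
open Cfsg

namespace Cfsg.Agent.S0235

/-- If x² ≠ 1, the ordered pairs (u, v) of involutions with uv = x correspond bijectively to the involutions t with t x t⁻¹ = x⁻¹ (via (u, v) ↦ u), so the two counts agree. -/
theorem result {G : Type*} [Group G] [Finite G] (x : G) (hx : x ^ 2 ≠ 1) : Nat.card {p : G × G // orderOf p.1 = 2 ∧ orderOf p.2 = 2 ∧ p.1 * p.2 = x} = Nat.card {t : G // orderOf t = 2 ∧ t * x * t⁻¹ = x⁻¹} := by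
  refine Nat.card_congr
    { toFun := fun p => ⟨p.1.1, p.2.1, ?_⟩
      invFun := fun t => ⟨(t.1, t.1 * x), t.2.1, ?_, ?_⟩
      left_inv := fun p => ?_
      right_inv := fun t => rfl }
  · obtain ⟨⟨u, v⟩, hu, hv, rfl⟩ := p
    exact H85.inv_of_mul_ord2 hu hv
  · obtain ⟨t, ht, htx⟩ := t
    refine H85.ord2_iff.2 ⟨?_, ?_⟩
    · calc t * x * (t * x) = (t * x * t⁻¹) * (t * t) * x := by group
        _ = 1 := by rw [htx, H85.ord2_mul_self ht]; group
    · intro h
      apply hx
      have h' : x = t⁻¹ := eq_inv_of_mul_eq_one_right h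
      rw [h', H85.ord2_inv ht, pow_two, H85.ord2_mul_self ht]
  · obtain ⟨t, ht, htx⟩ := t
    simp only
    rw [← mul_assoc, H85.ord2_mul_self ht, one_mul]
  · obtain ⟨⟨u, v⟩, hu, hv, rfl⟩ := p
    ext
    · rfl
    · simp only
      rw [← mul_assoc, H85.ord2_mul_self hu, one_mul]

end Cfsg.Agent.S0235
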