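import Cfsg.Agent.Base
import Cfsg.Statements.S0239
import Cfsg.Agent.H85.InvBasic

set_option autoImplicit false
open Cfsg

namespace Cfsg.Agent.S0239

/-- If some nontrivial element x of a finite group G is conjugate to x⁻¹, then |G| is even. -/
theorem result {G : Type*} [Group G] [Finite G] (x : G) (hx : x ≠ 1) (hreal : IsConj x x⁻¹) : Even (Nat.card G) := by
  by_contra hodd
  rw [Nat.not_even_iff_odd] at hodd
  obtain ⟨g, hg⟩ := isConj_iff.1 hreal
  obtain ⟨k, hk⟩ := hodd
  have h1 := H85.conj_odd_pow_of_inv hg k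
  rw [← hk, pow_card_eq_one'] at h1
  simp only [one_mul, inv_one, mul_one] at h1
  have h2 : orderOf x = 2 := H85.ord2_iff.2 ⟨by nth_rewrite 2 [h1]; exact mul_inv_cancel x, hx⟩
  have h3 := orderOf_dvd_natCard x
  rw [h2, hk] at h3
  omega

end Cfsg.Agent.S0239
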