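import Cfsg.Agent.Base
import Cfsg.Statements.S0240
import Cfsg.Agent.H85.InvBasic

set_option autoImplicit false
open Cfsg

namespace Cfsg.Agent.S0240

/-- Let G be a finite group with n involutions and H a subgroup with |H|·(n+1) > |G|. Then some nontrivial h ∈ H is strongly real in G: an involution t of G satisfies t h t⁻¹ = h⁻¹. -/
theorem result {G : Type*} [Group G] [Finite G] (H : Subgroup G) (hH : Nat.card G < Nat.card H * (Nat.card {t : G // orderOf t = 2} + 1)) : ∃ h : G, h ∈ H ∧ h ≠ 1 ∧ ∃ t : G, orderOf t = 2 ∧ t * h * t⁻¹ = h⁻¹ := by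
  by_contra hcon
  push Not at hcon
  have hinj : Function.Injective (fun o : Option {t : G // orderOf t = 2} => match o with
      | none => ((1 : G) : G ⧸ H)
      | some t => (t.1 : G ⧸ H)) := by
    have hnot : ∀ t : G, orderOf t = 2 → t ∉ H := fun t ht hmem =>
      hcon t hmem (H85.ord2_ne_one ht) t ht (by rw [mul_inv_cancel_right, H85.ord2_inv ht])
    rintro (_ | s) (_ | t) h
    · rfl
    · exact absurd (by simpa using QuotientGroup.eq.1 h) (hnot t.1 t.2)
    · exact absurd (by simpa using QuotientGroup.eq.1 h.symm) (hnot s.1 s.2)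
    · have h1 : s.1⁻¹ * t.1 ∈ H := QuotientGroup.eq.1 h
      rw [H85.ord2_inv s.2] at h1
      by_contra hne
      refine hcon _ h1 (fun h2 => hne ?_) s.1 s.2 (H85.inv_of_mul_ord2 s.2 t.2)
      have h3 : t.1 = s.1⁻¹ := eq_inv_of_mul_eq_one_right h2
      rw [H85.ord2_inv s.2] at h3
      exact congrArg some (Subtype.ext h3.symm)
  have h1 := Nat.card_le_card_of_injective _ hinj
  rw [Finite.card_option] at h1
  have h2 := Subgroup.card_eq_card_quotient_mul_card_subgroup H
  rw [h2, mul_comm] at hH
  exact absurd (Nat.mul_le_mul_left (Nat.card H) h1) (not_le.2 hH)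

end Cfsg.Agent.S0240
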