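import Cfsg.Agent.Base
import Cfsg.Statements.S0241
import Cfsg.Agent.H85.InvBasic

set_option autoImplicit false
open Cfsg

namespace Cfsg.Agent.S0241

/-- If x ≠ 1 is conjugate to x⁻¹ in a finite group G and |C_G(x)| is odd, then some involution t satisfies t x t⁻¹ = x⁻¹. -/
theorem result {G : Type*} [Group G] [Finite G] (x : G) (hx : x ≠ 1) (hreal : IsConj x x⁻¹) (hodd : Odd (Nat.card (Subgroup.centralizer ({x} : Set G)))) : ∃ t : G, orderOf t = 2 ∧ t * x * t⁻¹ = x⁻¹ := by
  obtain ⟨g, hg⟩ := isConj_iff.1 hreal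
  obtain ⟨k, hk⟩ := hodd
  have hg' : g * x⁻¹ * g⁻¹ = x := by rw [← conj_inv, hg, inv_inv]
  have hmem : g * g ∈ Subgroup.centralizer ({x} : Set G) := by
    rw [Subgroup.mem_centralizer_singleton_iff]
    calc g * g * x = g * (g * x * g⁻¹) * g⁻¹ * (g * g) := by group
      _ = x * (g * g) := by rw [hg, hg']
  have h1 : (g * g) ^ (2 * k + 1) = 1 := by
    have := pow_card_eq_one' (G := Subgroup.centralizer ({x} : Set G)) (x := ⟨g * g, hmem⟩)
    rw [hk] at this
    simpa using congrArg Subtype.val this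
  have h2 := H85.conj_odd_pow_of_inv hg k
  refine ⟨g ^ (2 * k + 1), H85.ord2_iff.2 ⟨?_, ?_⟩, h2⟩
  · rw [← (Commute.refl g).mul_pow, h1]
  · intro h
    rw [h] at h2
    simp only [one_mul, inv_one, mul_one] at h2
    have h3 : orderOf x = 2 := H85.ord2_iff.2 ⟨by nth_rewrite 2 [h2]; exact mul_inv_cancel x, hx⟩
    have hxm : x ∈ Subgroup.centralizer ({x} : Set G) :=
      Subgroup.mem_centralizer_singleton_iff.2 rfl
    have h4 := Subgroup.orderOf_dvd_natCard _ hxm
    rw [h3, hk] at h4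
    omega

end Cfsg.Agent.S0241
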