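import Cfsg.Statements.S0258
import Cfsg.Agent.Base
import Cfsg.Agent.H57.Unitri

set_option autoImplicit false
open Cfsg

namespace Cfsg.Agent.S0258

/-- GL_2(q), q a power of the prime p, has exactly q + 1 Sylow p-subgroups. -/
theorem result {F : Type*} [Field F] [Fintype F] {q : ℕ} (hF : Fintype.card F = q) (p : ℕ) [Fact p.Prime] [CharP F p] : Nat.card (Sylow p (Matrix.GeneralLinearGroup (Fin 2) F)) = q + 1 := by
  subst hF
  have h1 := Sylow.card_eq_index_normalizer (H57.sylowUnitriGL 2 F p)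
  have h2 : Subgroup.normalizer ((H57.sylowUnitriGL 2 F p : Sylow p _) : Set (Matrix.GeneralLinearGroup (Fin 2) F)) =
      Cfsg.upperTriangularGL 2 F := H57.normalizer_unitriGL
  rw [h1, h2]
  have h3 := (Cfsg.upperTriangularGL 2 F).card_mul_index
  rw [H57.card_upperTriangularGL, H57.card_gl_fin_eq] at h3
  have hq := Fintype.one_lt_card (α := F)
  obtain ⟨r, hr⟩ : ∃ r, Fintype.card F = r + 1 := ⟨Fintype.card F - 1, by omega⟩
  rw [hr] at h3 ⊢ hq
  simp only [Finset.prod_range_succ, Finset.range_zero, Finset.prod_empty] at h3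
  have h4 : (r + 1) ^ (1 + 1) - 1 = r * (r + 2) := by
    have : (r + 1) ^ (1 + 1) = r * (r + 2) + 1 := by ring
    omega
  rw [h4] at h3
  have hpos : 0 < (r + 1) * r ^ 2 := by
    have : 0 < r := by omega
    positivity
  apply Nat.eq_of_mul_eq_mul_left hpos
  simp only [Nat.add_sub_cancel, zero_add, pow_one, one_mul] at h3
  norm_num at h3
  rw [h3]; ring

end Cfsg.Agent.S0258
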