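import Cfsg.Statements.S0259
import Cfsg.Agent.Base
import Cfsg.Agent.H57.Unitri

set_option autoImplicit false
open Cfsg

namespace Cfsg.Agent.S0259

/-- Distinct Sylow p-subgroups of GL_2(q), p the characteristic, intersect trivially. -/
theorem result {F : Type*} [Field F] [Fintype F] (p : ℕ) [Fact p.Prime] [CharP F p] (P Q : Sylow p (Matrix.GeneralLinearGroup (Fin 2) F)) (h : P ≠ Q) : (P : Subgroup (Matrix.GeneralLinearGroup (Fin 2) F)) ⊓ (Q : Subgroup (Matrix.GeneralLinearGroup (Fin 2) F)) = ⊥ := by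
  obtain ⟨g, hg⟩ := H57.exists_sylow_gl_eq_conj p P
  obtain ⟨g', hg'⟩ := H57.exists_sylow_gl_eq_conj p Q
  rw [eq_bot_iff]
  rintro x ⟨hxP, hxQ⟩
  by_contra hx
  apply h
  have h1 := (hg x).1 hxP
  have h2 := (hg' x).1 hxQ
  set u := g⁻¹ * x * g with hu
  set u' := g'⁻¹ * x * g' with hu'
  have hk : u * (g⁻¹ * g') = (g⁻¹ * g') * u' := by rw [hu, hu']; group
  set k := g⁻¹ * g' with hkdef
  have ha : (u : Matrix (Fin 2) (Fin 2) F) 0 1 ≠ 0 := by
    intro h0
    apply hx
    have : u = 1 := by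
      ext i j
      fin_cases i <;> fin_cases j
      · simpa using h1.2 0
      · simpa using h0
      · simpa using h1.1 (i := 1) (j := 0) (by decide)
      · simpa using h1.2 1
    rw [Subgroup.mem_bot]
    rw [hu] at this
    have h3 : x = g * (g⁻¹ * x * g) * g⁻¹ := by group
    rw [h3, this]; group
  have hk0 : (k : Matrix (Fin 2) (Fin 2) F) 1 0 = 0 := by
    have := congrArg (fun y : Matrix.GeneralLinearGroup (Fin 2) F => (y : Matrix (Fin 2) (Fin 2) F) 0 0) hk
    simp only [Units.val_mul, Matrix.mul_apply, Fin.sum_univ_two, h1.2 0, h2.2 0,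
      h2.1 (i := 1) (j := 0) (by decide)] at this
    have h5 : (u : Matrix (Fin 2) (Fin 2) F) 0 1 * (k : Matrix (Fin 2) (Fin 2) F) 1 0 = 0 := by
      linear_combination this
    exact (mul_eq_zero.1 h5).resolve_left ha
  have hkB : k ∈ Cfsg.upperTriangularGL 2 F := by
    intro i j hij
    fin_cases i <;> fin_cases j <;> first | exact hk0 | simp at hij
  rw [← H57.normalizer_unitriGL] at hkB
  ext y
  change y ∈ P ↔ y ∈ Q
  rw [hg, hg', Subgroup.mem_normalizer_iff''.1 hkB (g⁻¹ * y * g)]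
  have : k⁻¹ * (g⁻¹ * y * g) * k = g'⁻¹ * y * g' := by rw [hkdef]; group
  rw [this]

end Cfsg.Agent.S0259
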