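import Cfsg.Statements.S0267
import Cfsg.Agent.Base
import Cfsg.Agent.H57.ProjLine

set_option autoImplicit false
open Cfsg

namespace Cfsg.Agent.S0267

/-- SL_2(q) is 3-transitive on the q+1 points of the projective line if and only if q is even. -/
theorem result {F : Type*} [Field F] [Fintype F] : MulAction.IsMultiplyPretransitive (Matrix.SpecialLinearGroup (Fin 2) F) (Projectivization F (Fin 2 → F)) 3 ↔ ringChar F = 2 := by
  rw [H57.is_three_pretransitive_iff]
  constructor
  · intro h
    by_contra hc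
    obtain ⟨t, ht⟩ := FiniteField.exists_nonsquare hc
    have ht0 : t ≠ 0 := by rintro rfl; exact ht IsSquare.zero
    obtain ⟨g, h0, h1, h2⟩ := h _ _ _ _ _ _ H57.stdPt0_ne_stdPt1 (H57.stdPt0_ne_stdPtT (one_ne_zero (α := F)))
      (H57.stdPt1_ne_stdPtT 1) H57.stdPt0_ne_stdPt1 (H57.stdPt0_ne_stdPtT ht0) (H57.stdPt1_ne_stdPtT t)
    simp only [H57.stdPt0, H57.stdPt1, H57.stdPtT] at h0 h1 h2
    rw [H57.sl_smul_mk, H57.mk_eq_mk_iff_det_two] at h0 h1 h2
    simp [Matrix.mulVec, dotProduct, Fin.sum_univ_two] at h0 h1 h2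
    have hdet := g.det_coe
    rw [Matrix.det_fin_two, h0, h1] at hdet
    rw [h0, h1] at h2
    exact ht ⟨g.1 1 1, by linear_combination (g.1 1 1) * h2 - t * hdet⟩
  · intro hc a b c a' b' c' hab hac hbc hab' hac' hbc'
    obtain ⟨g, h⟩ := H57.gl_two_three_trans a b c a' b' c' hab hac hbc hab' hac' hbc'
    have hs : Function.Surjective (Matrix.ProjectiveSpecialLinearGroup.toPGL (n := Fin 2) (R := F)) := by
      apply Matrix.ProjectiveSpecialLinearGroup.toPGL_surj_of_roots
      intro r
      obtain ⟨k, hk⟩ := FiniteField.isSquare_of_char_two hc (r : F)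
      refine ⟨Units.mk0 k (by rintro rfl; simp at hk), Units.ext ?_⟩
      simp [hk, sq]
    obtain ⟨x, hx⟩ := hs (Matrix.ProjGenLinGroup.mk g)
    obtain ⟨s, rfl⟩ := QuotientGroup.mk_surjective x
    refine ⟨s, ?_⟩
    have key : ∀ y : Projectivization F (Fin 2 → F), s • y = g • y := by
      intro y
      rw [← H57.pgl_mk_smul g, ← hx]
      rfl
    simpa only [key] using h

end Cfsg.Agent.S0267
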