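import Cfsg.Statements.S0268
import Cfsg.Agent.Base

set_option autoImplicit false
open Cfsg

namespace Cfsg.Agent.S0268

/-- For q odd, -1 is the unique involution of SL_2(q). -/
theorem result {F : Type*} [Field F] [Fintype F] (hF : Odd (Fintype.card F)) (g : Matrix.SpecialLinearGroup (Fin 2) F) (h1 : g ≠ 1) (h2 : g * g = 1) : (g : Matrix (Fin 2) (Fin 2) F) = -1 := by
  have h2' : (2 : F) ≠ 0 := by
    intro h
    have := FiniteField.even_card_iff_char_two (F := F)
    have hc : ringChar F = 2 := by
      have h3 : ((2 : ℕ) : F) = 0 := by exact_mod_cast h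
      have := (ringChar.spec F 2).1 h3
      rcases (Nat.dvd_prime Nat.prime_two).1 this with h4 | h4
      · exact absurd h4 CharP.ringChar_ne_one
      · exact h4
    rw [Nat.odd_iff] at hF
    omega
  have hdet := g.det_coe
  rw [Matrix.det_fin_two] at hdet
  have hm := congrArg (fun x : Matrix.SpecialLinearGroup (Fin 2) F => (x : Matrix (Fin 2) (Fin 2) F)) h2
  simp only [Matrix.SpecialLinearGroup.coe_mul, Matrix.SpecialLinearGroup.coe_one, ← Matrix.ext_iff,
    Fin.forall_fin_two, Matrix.mul_apply, Fin.sum_univ_two] at hm
  obtain ⟨⟨e1, e2⟩, e3, e4⟩ := hm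
  simp at e1 e2 e3 e4
  set a := g.1 0 0 with ha
  set b := g.1 0 1 with hb
  set c := g.1 1 0 with hc
  set d := g.1 1 1 with hd
  have htr : a + d ≠ 0 := by
    intro h
    apply h2'
    have : d = -a := by linear_combination h
    rw [this] at hdet
    linear_combination -e1 - hdet
  have hb0 : b = 0 := by apply mul_left_cancel₀ htr; linear_combination e2
  have hc0 : c = 0 := by apply mul_left_cancel₀ htr; linear_combination e3
  rw [hb0] at e1 hdet
  have had : d = a := by linear_combination (-d) * e1 + a * hdet
  have : a = -1 := by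
    have : (a - 1) * (a + 1) = 0 := by linear_combination e1
    rcases mul_eq_zero.1 this with h | h
    · exfalso
      apply h1
      have ha1 : a = 1 := by linear_combination h
      ext i j
      fin_cases i <;> fin_cases j <;> simp [← ha, ← hb, ← hc, ← hd, had, ha1, hb0, hc0]
    · linear_combination h
  ext i j
  fin_cases i <;> fin_cases j <;> simp [← ha, ← hb, ← hc, ← hd, had, this, hb0, hc0]

end Cfsg.Agent.S0268
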