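import Cfsg.Statements.S0272
import Cfsg.Agent.Base
import Cfsg.Agent.H57.Unitri

set_option autoImplicit false
open Cfsg

namespace Cfsg.Agent.S0272

/-- The normaliser in GL_2(q) of a Sylow p-subgroup, p the characteristic, has order q (q-1)^2. -/
theorem result {F : Type*} [Field F] [Fintype F] {q : ℕ} (hF : Fintype.card F = q) (p : ℕ) [Fact p.Prime] [CharP F p] (P : Sylow p (Matrix.GeneralLinearGroup (Fin 2) F)) : Nat.card (Subgroup.normalizer ((P : Subgroup (Matrix.GeneralLinearGroup (Fin 2) F)) : Set (Matrix.GeneralLinearGroup (Fin 2) F))) = q * (q - 1) ^ 2 := by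
  subst hF
  have h1 := Sylow.card_eq_index_normalizer (H57.sylowUnitriGL 2 F p)
  have h2 : Subgroup.normalizer ((H57.sylowUnitriGL 2 F p : Sylow p _) : Set (Matrix.GeneralLinearGroup (Fin 2) F)) =
      Cfsg.upperTriangularGL 2 F := H57.normalizer_unitriGL
  have h3 := Sylow.card_eq_index_normalizer P
  rw [h1, h2] at h3
  have h4 := (Cfsg.upperTriangularGL 2 F).card_mul_index
  have h5 := (Subgroup.normalizer ((P : Subgroup (Matrix.GeneralLinearGroup (Fin 2) F)) : Set (Matrix.GeneralLinearGroup (Fin 2) F))).card_mul_index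
  have h6 : (Cfsg.upperTriangularGL 2 F).index ≠ 0 := Subgroup.index_ne_zero_of_finite
  have h7 := H57.card_upperTriangularGL (F := F) (n := 2)
  simp only [Sylow.coe_coe] at h5 ⊢
  rw [← h3, ← h4] at h5
  rw [Nat.eq_of_mul_eq_mul_right (Nat.pos_of_ne_zero h6) h5, h7]
  simp

end Cfsg.Agent.S0272
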