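import Cfsg.Statements.S0273
import Cfsg.Agent.Base
import Cfsg.Agent.H57.Unitri

set_option autoImplicit false
open Cfsg

namespace Cfsg.Agent.S0273

/-- In GL_2(q) the centraliser of a non-trivial element of a Sylow p-subgroup (p the characteristic) has order q (q-1): the Sylow subgroup times the scalars. -/
theorem result {F : Type*} [Field F] [Fintype F] {q : ℕ} (hF : Fintype.card F = q) (p : ℕ) [Fact p.Prime] [CharP F p] (P : Sylow p (Matrix.GeneralLinearGroup (Fin 2) F)) (a : Matrix.GeneralLinearGroup (Fin 2) F) (ha : a ∈ P) (ha1 : a ≠ 1) : Nat.card (Subgroup.centralizer ({a} : Set (Matrix.GeneralLinearGroup (Fin 2) F))) = q * (q - 1) := by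
  subst hF
  classical
  obtain ⟨g, hg⟩ := H57.exists_sylow_gl_eq_conj p P
  have h1 := (hg a).1 ha
  set u := g⁻¹ * a * g with hu
  have hc : (u : Matrix (Fin 2) (Fin 2) F) 0 1 ≠ 0 := by
    intro h0
    apply ha1
    have : u = 1 := by
      ext i j
      fin_cases i <;> fin_cases j
      · simpa using h1.2 0
      · simpa using h0
      · simpa using h1.1 (i := 1) (j := 0) (by decide)
      · simpa using h1.2 1
    rw [hu] at this
    have h3 : a = g * (g⁻¹ * a * g) * g⁻¹ := by group
    rw [h3, this]; group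
  have h00 := h1.2 0
  have h11 := h1.2 1
  have h10 := h1.1 (i := 1) (j := 0) (by decide)
  have key : ∀ x : Matrix.GeneralLinearGroup (Fin 2) F, u * x = x * u ↔
      (x : Matrix (Fin 2) (Fin 2) F) 1 0 = 0 ∧ (x : Matrix (Fin 2) (Fin 2) F) 1 1 = (x : Matrix (Fin 2) (Fin 2) F) 0 0 := by
    intro x
    rw [Units.ext_iff, ← Matrix.ext_iff]
    simp only [Fin.forall_fin_two, Units.val_mul, Matrix.mul_apply, Fin.sum_univ_two, h00, h11, h10]
    constructor
    · rintro ⟨⟨e1, e2⟩, e3, e4⟩
      constructor
      · apply mul_left_cancel₀ hc; linear_combination e1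
      · apply mul_left_cancel₀ hc; linear_combination e2
    · rintro ⟨e1, e2⟩
      rw [e1, e2]
      refine ⟨⟨?_, ?_⟩, ?_, ?_⟩ <;> ring
  have e1 : Subgroup.centralizer ({a} : Set (Matrix.GeneralLinearGroup (Fin 2) F)) ≃
      {x : Matrix.GeneralLinearGroup (Fin 2) F // u * x = x * u} :=
    (MulAut.conj g⁻¹).toEquiv.subtypeEquiv (fun x => by
      rw [Subgroup.mem_centralizer_singleton_iff, hu]
      simp only [MulEquiv.toEquiv_eq_coe, EquivLike.coe_coe, MulAut.conj_apply, inv_inv]
      constructor
      · intro h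
        calc g⁻¹ * a * g * (g⁻¹ * x * g) = g⁻¹ * (a * x) * g := by group
          _ = g⁻¹ * (x * a) * g := by rw [h]
          _ = _ := by group
      · intro h
        calc x * a = g * (g⁻¹ * x * g * (g⁻¹ * a * g)) * g⁻¹ := by group
          _ = g * (g⁻¹ * a * g * (g⁻¹ * x * g)) * g⁻¹ := by rw [h]
          _ = _ := by group)
  have e2 : {x : Matrix.GeneralLinearGroup (Fin 2) F // u * x = x * u} ≃ F × Fˣ :=
    { toFun := fun x => ((x.1 : Matrix (Fin 2) (Fin 2) F) 0 1,
        Units.mk0 ((x.1 : Matrix (Fin 2) (Fin 2) F) 0 0) (by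
          have := x.1.det_ne_zero
          rw [Matrix.det_fin_two, ((key _).1 x.2).1] at this
          intro h; apply this; rw [h]; ring))
      invFun := fun y => ⟨Matrix.GeneralLinearGroup.mkOfDetNeZero !![(y.2 : F), y.1; 0, y.2]
        (by simp [Matrix.det_fin_two]), (key _).2 (by simp)⟩
      left_inv := fun x => by
        apply Subtype.ext
        ext i j
        fin_cases i <;> fin_cases j <;> simp [((key _).1 x.2).1, ((key _).1 x.2).2]
      right_inv := fun y => by
        ext <;> simp }
  rw [Nat.card_congr (e1.trans e2), Nat.card_prod, Nat.card_units, Nat.card_eq_fintype_card]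

end Cfsg.Agent.S0273
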