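import Cfsg.Statements.S0274
import Cfsg.Agent.H11.DicksonEmbed

set_option autoImplicit false
open Cfsg

namespace Cfsg.Agent.S0274

open H11 in
/-- Dickson's Theorem for SL_2: if p is odd and H is a subgroup of SL_2(q), q a power of p, with more than one Sylow p-subgroup, then H contains a copy of SL_2(p). -/
theorem result {F : Type*} [Field F] [Fintype F] (p : ℕ) [Fact p.Prime] [CharP F p] (hp : p ≠ 2) (H : Subgroup (Matrix.SpecialLinearGroup (Fin 2) F)) (hH : 1 < Nat.card (Sylow p H)) : ∃ K : Subgroup (Matrix.SpecialLinearGroup (Fin 2) F), K ≤ H ∧ Nonempty (K ≃* Matrix.SpecialLinearGroup (Fin 2) (ZMod p)) := by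
  classical
  by_cases hex : ∃ u ∈ H, ∃ l ∈ H, tr u = 2 ∧ tr l = 2 ∧ tr (u * l) ≠ 2
  · obtain ⟨u, hu, l, hl, h1, h2, h3⟩ := hex
    obtain ⟨M, hM⟩ := dickson_embed p hp H hu hl h1 h2 h3
    let ψ := (conjSL M).comp
      (Matrix.SpecialLinearGroup.map (n := Fin 2) (ZMod.castHom (dvd_refl p) F))
    have hψ : Function.Injective ψ := (conjSL_injective M).comp (sl_map_injective _)
    refine ⟨ψ.range, ?_, ⟨(MonoidHom.ofInjective hψ).symm⟩⟩
    rintro _ ⟨s, rfl⟩
    exact hM s
  · exfalso
    push Not at hex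
    let N : Subgroup H :=
      { carrier := {g | tr (g : Matrix.SpecialLinearGroup (Fin 2) F) = 2}
        mul_mem' := fun {a b} ha hb => hex _ a.2 _ b.2 ha hb
        one_mem' := tr_one
        inv_mem' := fun {a} ha => (tr_inv _).trans ha }
    have hN : IsPGroup p N := by
      intro g
      refine ⟨1, Subtype.ext (Subtype.ext ?_)⟩
      rw [pow_one]
      exact pow_char_of_tr_two p g.2
    have hP : ∀ P : Sylow p H, N = P := by
      intro P
      apply P.is_maximal' hN
      intro g hg
      obtain ⟨k, hk⟩ := P.isPGroup' ⟨g, hg⟩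
      exact tr_eq_two_of_pow_eq_one p (k := k)
        (congrArg Subtype.val (congrArg Subtype.val hk))
    have : Subsingleton (Sylow p H) := ⟨fun P Q => Sylow.ext ((hP P).symm.trans (hP Q))⟩
    have := Finite.card_le_one_iff_subsingleton.mpr this
    omega

end Cfsg.Agent.S0274
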