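import Cfsg.Agent.Base
import Cfsg.Statements.S0275
import Cfsg.Agent.H61.SL2Lift
import Cfsg.Agent.S0274
import Cfsg.Agent.S0261

set_option autoImplicit false
open Cfsg

namespace Cfsg.Agent.S0275

open H61

theorem quaternion_not_isCyclic {n : ℕ} (hn : 2 ≤ n) : ¬ IsCyclic (QuaternionGroup n) := fun h => by
  have h1 := (IsCyclic.isMulCommutative (α := QuaternionGroup n)).is_comm.comm
    (QuaternionGroup.a 1) (QuaternionGroup.xa 0)
  simp only [QuaternionGroup.a_mul_xa, QuaternionGroup.xa_mul_a, zero_sub, zero_add,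
    QuaternionGroup.xa.injEq] at h1
  have h2 : ((2 : ℕ) : ZMod (2 * n)) = 0 := by push_cast; linear_combination -h1
  rw [ZMod.natCast_eq_zero_iff] at h2
  have := Nat.le_of_dvd (by norm_num) h2
  omega

/-- If p is odd and H is a subgroup of SL_2(q), q a power of p, with more than one Sylow p-subgroup, then the Sylow 2-subgroups of H are generalised quaternion. -/
theorem result {F : Type*} [Field F] [Fintype F] (p : ℕ) [Fact p.Prime] [CharP F p] (hp : p ≠ 2) (H : Subgroup (Matrix.SpecialLinearGroup (Fin 2) F)) (hH : 1 < Nat.card (Sylow p H)) (S : Sylow 2 H) : ∃ k : ℕ, 1 ≤ k ∧ Nonempty ((S : Subgroup H) ≃* QuaternionGroup (2 ^ k)) := by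
  have h2 : (2 : F) ≠ 0 := char_ne_two_iff.1 hp
  have e := (S : Subgroup H).equivMapOfInjective H.subtype H.subtype_injective
  rcases two_subgroup_sl h2 (S.isPGroup'.map H.subtype) with hc | ⟨k, hk, ⟨f⟩⟩
  · exfalso
    obtain ⟨K, hK, ⟨f⟩⟩ := Cfsg.Agent.S0274.result p hp H hH
    obtain ⟨T⟩ : Nonempty (Sylow 2 (Matrix.SpecialLinearGroup (Fin 2) (ZMod p))) := inferInstance
    obtain ⟨k, hk, ⟨g⟩⟩ := Cfsg.Agent.S0261.result (F := ZMod p)
      (by rw [ZMod.card]; exact (Fact.out : p.Prime).odd_of_ne_two hp) T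
    let φ : Matrix.SpecialLinearGroup (Fin 2) (ZMod p) →* H :=
      (Subgroup.inclusion hK).comp f.symm.toMonoidHom
    have hφ : Function.Injective φ := (Subgroup.inclusion_injective hK).comp f.symm.injective
    obtain ⟨R, hR⟩ := (T.isPGroup'.map φ).exists_le_sylow
    have h3 : IsCyclic S := isCyclic_of_surjective e.symm e.symm.surjective
    have h4 : IsCyclic R := isCyclic_of_surjective (Sylow.equiv S R) (Sylow.equiv S R).surjective
    have h5 : IsCyclic ((T : Subgroup _).map φ) := Subgroup.isCyclic_of_le hR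
    have e2 := ((T : Subgroup _).equivMapOfInjective φ hφ).symm.trans g
    refine quaternion_not_isCyclic (n := 2 ^ k) ?_ (isCyclic_of_surjective e2 e2.surjective)
    exact Nat.le_self_pow (by omega) 2
  · exact ⟨k, hk, ⟨e.trans f⟩⟩

end Cfsg.Agent.S0275
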