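import Cfsg.Statements.S0305
import Cfsg.Agent.Base
import Cfsg.Agent.H55.O2

set_option autoImplicit false
open Cfsg

namespace Cfsg.Agent.S0305

open H55 H56 H58

/-- GO^+_2(q) is dihedral of order 2(q-1). -/
theorem result {F : Type*} [Field F] [Fintype F] {q : ℕ} (hF : Fintype.card F = q) : Nonempty (Cfsg.isometryGroup F (Cfsg.quadFormPlus 1 F) ≃* DihedralGroup (q - 1)) := by
  subst hF
  obtain ⟨g, hg⟩ := IsCyclic.exists_ofOrder_eq_natCard (α := Fˣ)
  have hc : Nat.card (O (qPlus 1 F)) = 2 * (Fintype.card F - 1) := by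
    simpa using card_O_qPlus (F := F) 0
  have : Finite (O (qPlus 1 F)) := Nat.finite_of_card_ne_zero (by
    have := Fintype.one_lt_card (α := F)
    omega)
  let e : (Fin 1 ⊕ Fin 1 → F) ≃ₗ[F] F × F :=
    (LinearEquiv.sumArrowLequivProdArrow _ _ F F).trans
      ((LinearEquiv.funUnique (Fin 1) F F).prodCongr (LinearEquiv.funUnique (Fin 1) F F))
  obtain ⟨f⟩ := O_equiv_dihedral (Q := qPlus 1 F) (A := F × F)
    ((AlgHom.snd F F F).prod (AlgHom.fst F F F)) (fun _ => rfl) ⟨(0, 1), by simp⟩ e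
    (fun v => by rw [qPlus_apply]; ext <;> simp [e, mul_comm]) (u := (g, (g⁻¹ : Fˣ)))
    (by ext <;> simp) (n := Fintype.card F - 1) (by
      rw [Prod.orderOf_mk, orderOf_units, orderOf_units, orderOf_inv, Nat.lcm_self, hg,
        Nat.card_units, Nat.card_eq_fintype_card]) hc
  exact ⟨(toO _ (coe_qPlus 1 F)).trans f⟩

end Cfsg.Agent.S0305
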