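import Cfsg.Statements.S0306
import Cfsg.Agent.Base
import Cfsg.Agent.H55.O2
import Cfsg.Agent.H55.QExt

set_option autoImplicit false
open Cfsg

namespace Cfsg.Agent.S0306

open H55 H56 H58

/-- GO^-_2(q) is dihedral of order 2(q+1). -/
theorem result {F : Type*} [Field F] [Fintype F] {q : ℕ} (hF : Fintype.card F = q) (a b : F) (hab : ∀ z₁ z₂ : F, z₁ ^ 2 + a * z₁ * z₂ + b * z₂ ^ 2 = 0 → z₁ = 0 ∧ z₂ = 0) : Nonempty (Cfsg.isometryGroup F (Cfsg.quadFormMinus 0 F a b) ≃* DihedralGroup (q + 1)) := by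
  subst hF
  have := factQE_of_aniso hab
  have hd := disc_ne_zero_of_aniso hab
  obtain ⟨g, hg⟩ := IsCyclic.exists_ofOrder_eq_natCard (α := (QE a b)ˣ)
  rw [Nat.card_units, Nat.card_eq_fintype_card, card_quadraticAlgebra] at hg
  have hq := Fintype.one_lt_card (α := F)
  have hc : Nat.card (O (qMinus 0 F a b)) = 2 * (Fintype.card F + 1) := by
    simpa using card_O_qMinus (F := F) 0 hab
  have : Finite (O (qMinus 0 F a b)) := Nat.finite_of_card_ne_zero (by omega)
  let e : ((Fin 0 ⊕ Fin 0) ⊕ Fin 2 → F) ≃ₗ[F] QE a b :=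
    { toFun := fun v => ⟨v (.inr 0), v (.inr 1)⟩
      invFun := fun z => Sum.elim 0 ![z.re, z.im]
      map_add' := fun _ _ => rfl
      map_smul' := fun _ _ => rfl
      left_inv := fun v => by
        funext i
        rcases i with (i | i) | i
        · exact i.elim0
        · exact i.elim0
        · fin_cases i <;> rfl
      right_inv := fun _ => rfl }
  have hm : Fintype.card F ^ 2 - 1 = (Fintype.card F - 1) * (Fintype.card F + 1) := by
    rw [mul_comm, ← Nat.sq_sub_sq, one_pow]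
  obtain ⟨f⟩ := O_equiv_dihedral (Q := qMinus 0 F a b) (A := QE a b)
    (qeConj a b) qeConj_qeConj ⟨⟨0, 1⟩, fun h => one_ne_zero (im_eq_zero_of_qeConj_eq hd h)⟩ e
    (fun v => by rw [qMinus_apply, mul_qeConj, Finset.univ_eq_empty, Finset.sum_empty, zero_add]; rfl)
    (u := (g ^ (Fintype.card F - 1) : (QE a b)ˣ))
    (by
      rw [qeConj_eq_pow hd, ← pow_succ', ← Units.val_pow_eq_pow_val, ← pow_mul, ← hm, ← hg,
        pow_orderOf_eq_one, Units.val_one])
    (n := Fintype.card F + 1) (by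
      rw [orderOf_units, orderOf_pow_of_dvd (by omega) (by rw [hg, hm]; exact dvd_mul_right _ _),
        hg, hm, Nat.mul_div_cancel_left _ (by omega)]) hc
  exact ⟨(toO _ (coe_qMinus 0 F a b)).trans f⟩

end Cfsg.Agent.S0306
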