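import Cfsg.Statements.S0307
import Cfsg.Agent.Base
import Cfsg.Agent.H57.SLCard

set_option autoImplicit false
open Cfsg

namespace Cfsg.Agent.S0307

/-- PSL_n(q) is normal in PGL_n(q) with cyclic quotient of order gcd(n, q-1): the image of the natural map PSL_n → PGL_n is the kernel of a surjective homomorphism onto the cyclic group of that order. -/
theorem result {F : Type*} [Field F] [Fintype F] {q : ℕ} (hF : Fintype.card F = q) (n : ℕ) (hn : 1 ≤ n) : ∃ g : Matrix.ProjGenLinGroup (Fin n) F →* Multiplicative (ZMod (Nat.gcd n (q - 1))), Function.Surjective g ∧ g.ker = (Matrix.ProjectiveSpecialLinearGroup.toPGL : Matrix.ProjectiveSpecialLinearGroup (Fin n) F →* Matrix.ProjGenLinGroup (Fin n) F).range := by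
  subst hF
  have : Nonempty (Fin n) := ⟨⟨0, hn⟩⟩
  let R : Subgroup Fˣ := (powMonoidHom n : Fˣ →* Fˣ).range
  have hcard : Nat.card (Fˣ ⧸ R) = Nat.gcd n (Fintype.card F - 1) := by
    rw [← Subgroup.index_eq_card, IsCyclic.index_powMonoidHom_range, Nat.card_units,
      Nat.card_eq_fintype_card, Nat.gcd_comm]
  have hcyc : IsCyclic (Fˣ ⧸ R) := isCyclic_of_surjective _ (QuotientGroup.mk'_surjective R)
  let e : Multiplicative (ZMod (Nat.gcd n (Fintype.card F - 1))) ≃* (Fˣ ⧸ R) :=
    hcard ▸ zmodCyclicMulEquiv hcyc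
  let d : Matrix.ProjGenLinGroup (Fin n) F →* Fˣ ⧸ R :=
    Matrix.ProjGenLinGroup.lift ((QuotientGroup.mk' R).comp Matrix.GeneralLinearGroup.det) (by
      ext u
      simp only [MonoidHom.comp_apply, Matrix.GeneralLinearGroup.det_scalar, Fintype.card_fin,
        QuotientGroup.mk'_apply, MonoidHom.one_apply, QuotientGroup.eq_one_iff]
      exact ⟨u, rfl⟩)
  have hd : Function.Surjective d := by
    intro x
    obtain ⟨u, rfl⟩ := QuotientGroup.mk'_surjective R x
    obtain ⟨g, rfl⟩ := Matrix.GeneralLinearGroup.det_surjective (n := Fin n) u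
    exact ⟨Matrix.ProjGenLinGroup.mk g, rfl⟩
  refine ⟨e.symm.toMonoidHom.comp d, e.symm.surjective.comp hd, ?_⟩
  ext x
  induction x using Matrix.ProjGenLinGroup.induction_on with | mk g => ?_
  simp only [MonoidHom.mem_ker, MonoidHom.comp_apply, MulEquiv.coe_toMonoidHom,
    EmbeddingLike.map_eq_one_iff, d, Matrix.ProjGenLinGroup.lift_mk, QuotientGroup.mk'_apply,
    QuotientGroup.eq_one_iff, MonoidHom.mem_range]
  constructor
  · rintro ⟨u, hu⟩
    have hker : g * (Matrix.GeneralLinearGroup.scalar (Fin n) u)⁻¹ ∈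
        (Matrix.GeneralLinearGroup.det : _ →* Fˣ).ker := by
      simp only [MonoidHom.mem_ker, map_mul, map_inv, Matrix.GeneralLinearGroup.det_scalar,
        Fintype.card_fin, ← hu, powMonoidHom_apply, mul_inv_cancel]
    rw [← H57.range_toGL_eq_ker_det] at hker
    obtain ⟨s, hs⟩ := hker
    refine ⟨s, ?_⟩
    rw [Matrix.ProjectiveSpecialLinearGroup.toPGL_mk, hs, map_mul, map_inv,
      Matrix.ProjGenLinGroup.mk_scalar, inv_one, mul_one]
  · rintro ⟨x, hx⟩
    obtain ⟨s, rfl⟩ := QuotientGroup.mk_surjective x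
    rw [Matrix.ProjectiveSpecialLinearGroup.toPGL_mk, Matrix.ProjGenLinGroup.mk_eq_mk_iff] at hx
    obtain ⟨u, rfl⟩ := hx
    exact ⟨u, by simp⟩

end Cfsg.Agent.S0307
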