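import Cfsg.Statements.S0310
import Cfsg.Agent.Base
import Cfsg.Agent.H67.BNPar

set_option autoImplicit false
open Cfsg

namespace Cfsg.Agent.S0310

/-- For a set `J` of distinguished generators, the subgroup generated by `B` and `J` is exactly the union of
the double cosets `B n B` with `n` in the subgroup generated by `J` (so `B W_J B` is a subgroup). -/
theorem result {G : Type*} [Group G] (P : Cfsg.BNPair G) {J : Set G}
    (hJ : J ⊆ P.S) (g : G) :
    g ∈ P.parabolic J ↔ ∃ n ∈ Subgroup.closure J, g ∈ DoubleCoset.doubleCoset n (P.B : Set G) P.B := by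
  constructor
  · rw [H67.parabolic_eq_cellSubgroup' hJ]
    rintro ⟨w, hw, h⟩
    obtain ⟨l, hl, rfl⟩ := H67.exists_wp_of_mem_closure (H67.sim P) (H67.sim_sq P) _ hw
    have key : ∃ n : P.N, (n : G) ∈ Subgroup.closure J ∧
        (QuotientGroup.mk n : H67.Weyl P) = H67.wp (H67.sim P) l := by
      clear hw h
      induction l with
      | nil => exact ⟨1, Subgroup.one_mem _, by simp⟩
      | cons i l ih =>
        obtain ⟨n, hn, e⟩ := ih fun j hj => hl j (by simp [hj])
        have hi : (i : G) ∈ J := hl i (by simp)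
        refine ⟨⟨i, P.subset i.2⟩ * n, Subgroup.mul_mem _ (Subgroup.subset_closure hi) hn, ?_⟩
        rw [H67.wp_cons, ← e, H67.sim, QuotientGroup.mk_mul]
    obtain ⟨n, hn, e⟩ := key
    rw [← e, H67.inCell_mk_iff_doubleCoset] at h
    exact ⟨n, hn, h⟩
  · rintro ⟨n, hn, h⟩
    rw [DoubleCoset.mem_doubleCoset] at h
    obtain ⟨b, hb, b', hb', rfl⟩ := h
    exact Subgroup.mul_mem _ (Subgroup.mul_mem _ (Subgroup.mem_sup_left hb)
      (Subgroup.mem_sup_right hn)) (Subgroup.mem_sup_left hb')

end Cfsg.Agent.S0310
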