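import Cfsg.Statements.S0315
import Cfsg.Agent.Base
import Cfsg.Agent.H67.BNPar

set_option autoImplicit false
open Cfsg

namespace Cfsg.Agent.S0315

/-- Standard parabolic subgroups intersect as the index sets do: `P_J ⊓ P_K = P_{J ∩ K}`. -/
theorem result {G : Type*} [Group G] (P : Cfsg.BNPair G) {J K : Set G}
    (hJ : J ⊆ P.S) (hK : K ⊆ P.S) : P.parabolic J ⊓ P.parabolic K = P.parabolic (J ∩ K) := by
  rw [H67.eq_parabolic_of_le (P := P) (P.parabolic J ⊓ P.parabolic K)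
    (le_inf (H67.B_le_parabolic J) (H67.B_le_parabolic K))]
  congr 1
  ext s
  constructor
  · rintro ⟨hs, h1, h2⟩
    exact ⟨(H67.mem_parabolic_iff_of_mem_S hJ hs).1 h1, (H67.mem_parabolic_iff_of_mem_S hK hs).1 h2⟩
  · rintro ⟨h1, h2⟩
    exact ⟨hJ h1, H67.mem_parabolic_of_mem h1, H67.mem_parabolic_of_mem h2⟩

end Cfsg.Agent.S0315
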