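import Cfsg.Statements.S0316
import Cfsg.Agent.Base
import Cfsg.Agent.H67.BNPar

set_option autoImplicit false
open Cfsg

namespace Cfsg.Agent.S0316

/-- The map `J ↦ P_J` is a lattice isomorphism from the power set of the set of distinguished generators onto the
subgroups containing `B`. -/
theorem result {G : Type*} [Group G] (P : Cfsg.BNPair G) :
    ∃ e : Set P.S ≃o {M : Subgroup G // P.B ≤ M},
      ∀ J : Set P.S, ((e J : {M : Subgroup G // P.B ≤ M}) : Subgroup G) = P.parabolic (Subtype.val '' J) := by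
  refine ⟨⟨⟨fun J => ⟨H67.cellSubgroup P J, H67.B_le_cellSubgroup J⟩,
    fun M => {s | (s : G) ∈ M.1}, ?_, ?_⟩, ?_⟩, ?_⟩
  · intro J
    ext s
    exact H67.sim_mem_cellSubgroup_iff
  · intro M
    exact Subtype.ext (H67.eq_cellSubgroup_of_le M.1 M.2).symm
  · intro J K
    simp only [Equiv.coe_fn_mk, Subtype.mk_le_mk]
    constructor
    · intro h s hs
      exact H67.sim_mem_cellSubgroup_iff.1 (h (H67.sim_mem_cellSubgroup_iff.2 hs))
    · rintro h g ⟨w, hw, hg⟩
      exact ⟨w, Subgroup.closure_mono (Set.image_mono h) hw, hg⟩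
  · intro J
    exact (H67.parabolic_eq_cellSubgroup J).symm

end Cfsg.Agent.S0316
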