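import Cfsg.Statements.S0321
import Cfsg.Agent.Base
import Cfsg.Agent.H67.BNPar

set_option autoImplicit false
open Cfsg

namespace Cfsg.Agent.S0321

/-- For `n ∈ N` not in `B`, the union `B ∪ B n B` is (the underlying set of) a subgroup exactly when `n` agrees
modulo `B ⊓ N` with one of the distinguished representatives; thus the distinguished involutions are
determined by `B` and `N`. -/
theorem result {G : Type*} [Group G] (P : Cfsg.BNPair G) {n : G}
    (hn : n ∈ P.N) (hnB : n ∉ P.B) :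
    (∃ H : Subgroup G, (H : Set G) = (P.B : Set G) ∪ DoubleCoset.doubleCoset n (P.B : Set G) P.B) ↔ ∃ s ∈ P.S, s⁻¹ * n ∈ P.B := by
  constructor
  · rintro ⟨H, hH⟩
    have hB : P.B ≤ H := fun b hb => by
      rw [← SetLike.mem_coe, hH]; exact Or.inl hb
    have hnH : n ∈ H := by
      rw [← SetLike.mem_coe, hH]; exact Or.inr (DoubleCoset.mem_doubleCoset_self P.B P.B n)
    have hK := H67.eq_parabolic_of_le H hB
    rcases (P.S ∩ (H : Set G)).eq_empty_or_nonempty with h0 | ⟨s, hs, hsH⟩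
    · rw [h0, BNPair.parabolic, Subgroup.closure_empty, sup_bot_eq] at hK
      exact absurd (hK ▸ hnH) hnB
    · refine ⟨s, hs, ?_⟩
      rw [hH] at hsH
      rcases hsH with h | h
      · exact absurd h (H67.not_mem_B P hs)
      · exact (H67.weyl_mk_eq_iff P ⟨s, P.subset hs⟩ ⟨n, hn⟩).1
          ((H67.inCell_sim ⟨s, hs⟩).unique ((H67.inCell_mk_iff_doubleCoset ⟨n, hn⟩ s).2 h))
  · rintro ⟨s, hs, h⟩
    have e : H67.sim P ⟨s, hs⟩ = QuotientGroup.mk ⟨n, hn⟩ :=
      (H67.weyl_mk_eq_iff P ⟨s, P.subset hs⟩ ⟨n, hn⟩).2 h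
    refine ⟨H67.cellSubgroup P {⟨s, hs⟩}, ?_⟩
    ext g
    rw [Set.mem_union, ← H67.inCell_mk_iff_doubleCoset ⟨n, hn⟩ g, ← e, SetLike.mem_coe,
      SetLike.mem_coe, ← H67.inCell_one_iff, H67.mem_cellSubgroup]
    constructor
    · rintro ⟨w, hw, hg⟩
      rw [Set.image_singleton, ← Subgroup.zpowers_eq_closure] at hw
      have : w = 1 ∨ w = H67.sim P ⟨s, hs⟩ := by
        obtain ⟨k, rfl⟩ := hw
        simp only
        rcases Int.even_or_odd' k with ⟨j, rfl | rfl⟩
        · left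
          rw [zpow_mul, zpow_two, H67.sim_sq, one_zpow]
        · right
          rw [zpow_add, zpow_mul, zpow_two, H67.sim_sq, one_zpow, one_mul, zpow_one]
      rcases this with rfl | rfl
      exacts [Or.inl hg, Or.inr hg]
    · rintro (hg | hg)
      · exact ⟨_, Subgroup.one_mem _, hg⟩
      · exact ⟨_, Subgroup.subset_closure ⟨_, rfl, rfl⟩, hg⟩

end Cfsg.Agent.S0321
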