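import Cfsg.Statements.S0323
import Cfsg.Agent.Base

set_option autoImplicit false
open scoped Pointwise
open Cfsg

namespace Cfsg.Agent.S0323

/-- A doubly transitive action on a set with at least three points yields a (B,N)-pair of rank one:
`B` is the stabiliser of a point `x`, `N` the setwise stabiliser of a pair `{x, y}`. -/
theorem result {G Ω : Type*} [Group G] [MulAction G Ω]
    (h2 : MulAction.IsMultiplyPretransitive G Ω 2) {x y z : Ω} (hxy : x ≠ y) (hyz : y ≠ z) (hxz : x ≠ z) :
    ∃ P : Cfsg.BNPair G, P.B = MulAction.stabilizer G x ∧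
      P.N = MulAction.stabilizer G ({x, y} : Set Ω) ∧ P.rank = 1 := by
  rw [MulAction.is_two_pretransitive_iff] at h2
  obtain ⟨t, htx, hty⟩ := h2 hxy hxy.symm
  have hN : ∀ g : G, g ∈ MulAction.stabilizer G ({x, y} : Set Ω) ↔
      (g • x = x ∧ g • y = y) ∨ (g • x = y ∧ g • y = x) := by
    intro g
    rw [MulAction.mem_stabilizer_iff, Set.smul_set_insert, Set.smul_set_singleton,
      Set.pair_eq_pair_iff]
  have hB : ∀ g : G, g ∈ MulAction.stabilizer G x ↔ g • x = x := fun g =>
    MulAction.mem_stabilizer_iff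
  have hcell : ∀ g n : G, g • x ≠ x → n • x ≠ x →
      g ∈ DoubleCoset.doubleCoset n (MulAction.stabilizer G x : Set G) (MulAction.stabilizer G x) := by
    intro g n hg hn
    obtain ⟨b, hb1, hb2⟩ := h2 hn.symm hg.symm
    rw [DoubleCoset.mem_doubleCoset]
    refine ⟨b, hb1, (b * n)⁻¹ * g, ?_, by group⟩
    rw [SetLike.mem_coe, hB, mul_smul, ← hb2, ← mul_smul, ← mul_smul]
    simp
  have hcell1 : ∀ g n : G, g • x = x → n • x = x →
      g ∈ DoubleCoset.doubleCoset n (MulAction.stabilizer G x : Set G) (MulAction.stabilizer G x) := by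
    intro g n hg hn
    rw [DoubleCoset.mem_doubleCoset]
    refine ⟨1, Subgroup.one_mem _, n⁻¹ * g, ?_, by group⟩
    rw [SetLike.mem_coe, hB, mul_smul, hg, inv_smul_eq_iff, hn]
  have htN : t ∈ MulAction.stabilizer G ({x, y} : Set Ω) := (hN t).2 (Or.inr ⟨htx, hty⟩)
  refine ⟨⟨MulAction.stabilizer G x, MulAction.stabilizer G ({x, y} : Set Ω), {t}, ?_, ?_, ?_, ?_,
    ?_, ?_, ?_, ?_⟩, rfl, rfl, ?_⟩
  · rw [eq_top_iff]
    rintro g -
    by_cases hg : g • x = x
    · exact Subgroup.mem_sup_left hg
    · have := hcell g t hg (by rw [htx]; exact hxy.symm)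
      rw [DoubleCoset.mem_doubleCoset] at this
      obtain ⟨b, hb, b', hb', rfl⟩ := this
      exact Subgroup.mul_mem _ (Subgroup.mul_mem _ (Subgroup.mem_sup_left hb)
        (Subgroup.mem_sup_right htN)) (Subgroup.mem_sup_left hb')
  · intro n hn u hu
    obtain ⟨hu1, hu2⟩ := Subgroup.mem_inf.1 hu
    rw [hB] at hu1
    rw [hN] at hu2
    have hu3 : u • y = y := by
      rcases hu2 with h | h
      · exact h.2
      · exact absurd (hu1.symm.trans h.1) hxy
    have hn' := Subgroup.inv_mem _ hn
    rw [hN] at hn'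
    rw [hB, mul_smul, mul_smul, smul_eq_iff_eq_inv_smul]
    rcases hn' with h | h
    · rw [h.1, hu1]
    · rw [h.1, hu3]
  · rintro _ rfl
    exact htN
  · rintro _ rfl
    rw [hB, mul_smul, htx, hty]
  · rintro _ rfl _ rfl _
    rfl
  · apply le_antisymm
    · exact sup_le ((Subgroup.closure_le _).2 (by rintro _ rfl; exact htN)) inf_le_right
    · intro n hn
      rcases (hN n).1 hn with h | h
      · exact Subgroup.mem_sup_right ⟨h.1, hn⟩
      · have : n = t * (t⁻¹ * n) := by group
        rw [this]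
        refine Subgroup.mul_mem _ (Subgroup.mem_sup_left (Subgroup.subset_closure rfl))
          (Subgroup.mem_sup_right (Subgroup.mem_inf.2
            ⟨?_, Subgroup.mul_mem _ (Subgroup.inv_mem _ htN) hn⟩))
        rw [hB, mul_smul, h.1, inv_smul_eq_iff, htx]
  · rintro s rfl n hn b hb
    rw [hB] at hb
    rcases (hN n).1 hn with h | h
    · left
      refine hcell _ _ ?_ ?_
      · rw [mul_smul, mul_smul, h.1, hb, htx]; exact hxy.symm
      · rw [mul_smul, h.1, htx]; exact hxy.symm
    · by_cases hc : (s * b * n) • x = x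
      · left
        exact hcell1 _ _ hc (by rw [mul_smul, h.1, hty])
      · right
        exact hcell _ _ hc (by rw [h.1]; exact hxy.symm)
  · rintro s rfl hc
    obtain ⟨b, hb1, hb2⟩ := h2 hxy hxz
    have : s * b * s ∈ (MulAction.stabilizer G x : Set G) := hc ▸ ⟨b, hb1, rfl⟩
    rw [SetLike.mem_coe, hB, mul_smul, mul_smul, htx, hb2] at this
    exact hyz (MulAction.injective s (hty.trans this.symm))
  · simp [BNPair.rank]

end Cfsg.Agent.S0323
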