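import Cfsg.Statements.S0326
import Cfsg.Agent.Base

set_option autoImplicit false
open Cfsg

namespace Cfsg.Agent.S0326

/-- The Suzuki–Tits ovoid over a finite field with `q` elements has `q² + 1` points. -/
theorem result {F : Type*} [Field F] [Fintype F] (m : ℕ) :
    Nat.card (Cfsg.suzukiOvoid F m) = Fintype.card F ^ 2 + 1 := by
  let vec : Option (F × F) → (Fin 4 → F) := fun p => match p with
    | none => ![1, 0, 0, 0]
    | some p => ![p.1 * p.2 + p.1 ^ (2 ^ (m + 1) + 2) + p.2 ^ (2 ^ (m + 1)), p.2, p.1, 1]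
  have hv : ∀ p, vec p ≠ 0 := by
    rintro (_ | p) h
    · simpa [vec] using congrFun h 0
    · simpa [vec] using congrFun h 3
  have hi : Function.Injective fun p => Projectivization.mk F (vec p) (hv p) := by
    intro p p' h
    obtain ⟨a, ha⟩ := (Projectivization.mk_eq_mk_iff' F _ _ _ _).mp h
    have h0 := congrFun ha 0
    have h1 := congrFun ha 1
    have h2 := congrFun ha 2
    have h3 := congrFun ha 3
    rcases p with _ | ⟨x, y⟩ <;> rcases p' with _ | ⟨x', y'⟩ <;> simp [vec] at h0 h1 h2 h3 ⊢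
    · simp [h3] at h0
    · subst h3
      simp at h1 h2
      exact ⟨h2.symm, h1.symm⟩
  have e : Cfsg.suzukiOvoid F m = Set.range fun p => Projectivization.mk F (vec p) (hv p) := by
    ext p
    constructor
    · rintro ⟨v, hv, rfl, rfl | ⟨x, y, rfl⟩⟩
      · exact ⟨none, rfl⟩
      · exact ⟨some (x, y), rfl⟩
    · rintro ⟨_ | ⟨x, y⟩, rfl⟩
      · exact ⟨_, _, rfl, Or.inl rfl⟩
      · exact ⟨_, _, rfl, Or.inr ⟨x, y, rfl⟩⟩
  rw [e, Nat.card_range_of_injective hi]
  simp [pow_two]

end Cfsg.Agent.S0326
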