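import Cfsg.Statements.S0335
import Cfsg.Agent.H66.SzZass

set_option autoImplicit false
open Cfsg

namespace Cfsg.Agent.S0335

/-- The Suzuki–Tits point set is an ovoid: any three distinct points of it are projectively independent
(no line of projective 3-space meets it in more than two points). -/
theorem result {F : Type*} [Field F] [Fintype F] {m : ℕ} (hm : 1 ≤ m)
    (hF : Fintype.card F = 2 ^ (2 * m + 1)) (p : Fin 3 ↪ Cfsg.suzukiOvoid F m) :
    Projectivization.Independent (fun i => (p i : Projectivization F (Fin 4 → F))) := by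
  have hT := H66.titsOf_isFin F hm hF
  generalize H66.titsOf F m hF = T at hT
  let M := H66.modelA hT
  let r : Fin 3 → M.Pt := fun i => (H66.ptEquivA hT).symm (p i)
  have hr : Function.Injective r := (H66.ptEquivA hT).symm.injective.comp p.injective
  have e : (fun i => (p i : Projectivization F (Fin 4 → F))) = fun i => T.proj (r i) := by
    funext i
    rw [← H66.ptEquivA_val hT, Equiv.apply_symm_apply]
  rw [e]
  apply Projectivization.Independent.mk
  obtain ⟨g, h0, h1⟩ := M.exists_smul_pair (hr.ne (show (0 : Fin 3) ≠ 1 by decide))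
  have n0 : g⁻¹ • r 2 ≠ M.inf := fun h =>
    hr.ne (show (0 : Fin 3) ≠ 2 by decide) (by rw [← h0, ← h, smul_inv_smul])
  obtain ⟨x, y, h2⟩ := M.exists_pt n0
  have n1 : (x, y) ≠ (0, 0) := by
    rintro ⟨rfl, rfl⟩
    exact hr.ne (show (1 : Fin 3) ≠ 2 by decide) (by rw [← h1, ← h2, smul_inv_smul])
  obtain ⟨c0, hc0, e0⟩ := M.smul_eq_iff.mp (inv_smul_eq_iff.mpr h0.symm)
  obtain ⟨c1, hc1, e1⟩ := M.smul_eq_iff.mp (inv_smul_eq_iff.mpr h1.symm)
  obtain ⟨c2, hc2, e2⟩ := M.smul_eq_iff.mp h2
  apply LinearIndependent.of_comp (Matrix.toLin' (M.ρ g⁻¹))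
  rw [Fintype.linearIndependent_iff]
  intro a ha
  simp only [Fin.sum_univ_three, Function.comp_apply, Matrix.toLin'_apply] at ha
  rw [e0, e1, e2] at ha
  have k0 := congrFun ha 0
  have k1 := congrFun ha 1
  have k2 := congrFun ha 2
  have k3 := congrFun ha 3
  simp [H66.Model.inf, H66.Model.pt, H66.Tits.vec_none, H66.Tits.vec_some, hc2] at k0 k1 k2 k3
  have a2 : a 2 = 0 := by
    by_contra h
    exact n1 (by simp [k1.resolve_left h, k2.resolve_left h])
  intro i
  fin_cases i
  · simpa [a2, hc0] using k0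
  · simpa [a2, hc1] using k3
  · exact a2

end Cfsg.Agent.S0335
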