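import Cfsg.Statements.S0351
import Cfsg.Agent.Base
import Cfsg.Agent.H76.Steiner

set_option autoImplicit false
open Cfsg

namespace Cfsg.Agent.S0351

/-- Derived design: removing a point p from the blocks through p of an S(t+1, k+1, v) yields an S(t, k, v-1) on the points other than p. -/
theorem result {α : Type*} [Fintype α] [DecidableEq α] {t k : ℕ} {B : Set (Finset α)} (hB : Cfsg.IsSteinerSystem (t + 1) (k + 1) B) (p : α) : Cfsg.IsSteinerSystem t k {b' : Finset {a : α // a ≠ p} | ∃ b ∈ B, p ∈ b ∧ b' = Finset.subtype (fun a => a ≠ p) b} := by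
  constructor
  · rintro b' ⟨b, hb, hp, rfl⟩
    have h1 := hB.1 b hb
    rw [Finset.card_subtype]
    have : b.filter (fun a => a ≠ p) = b.erase p := by
      ext a; simp [and_comm]
    rw [this, Finset.card_erase_of_mem hp, h1]; rfl
  · intro s hs
    have hps : p ∉ s.map (Function.Embedding.subtype _) := by simp
    obtain ⟨b, ⟨hb, hsb⟩, hu⟩ := hB.2 (insert p (s.map (Function.Embedding.subtype _)))
      (by rw [Finset.card_insert_of_notMem hps, Finset.card_map, hs])
    refine ⟨Finset.subtype (fun a => a ≠ p) b, ⟨⟨b, hb, hsb (Finset.mem_insert_self _ _), rfl⟩, ?_⟩, ?_⟩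
    · intro a ha
      rw [Finset.mem_subtype]
      exact hsb (Finset.mem_insert_of_mem (Finset.mem_map_of_mem _ ha))
    · rintro c' ⟨⟨c, hc, hpc, rfl⟩, hsc⟩
      rw [hu c ⟨hc, ?_⟩]
      intro a ha
      rcases Finset.mem_insert.1 ha with rfl | ha
      · exact hpc
      · obtain ⟨x, hx, rfl⟩ := Finset.mem_map.1 ha
        exact Finset.mem_subtype.1 (hsc hx)

end Cfsg.Agent.S0351
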