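import Cfsg.Statements.S0354
import Cfsg.Agent.Base
import Cfsg.Agent.H76.Steiner

set_option autoImplicit false
open Cfsg

namespace Cfsg.Agent.S0354

/-- In an S(5, 8, 24), each block is disjoint from exactly 30 blocks. -/
theorem result {α : Type*} [Fintype α] [DecidableEq α] (hα : Fintype.card α = 24) {B : Set (Finset α)} (hB : Cfsg.IsSteinerSystem 5 8 B) {b : Finset α} (hb : b ∈ B) : {c : Finset α | c ∈ B ∧ Disjoint b c}.ncard = 30 := by
  classical
  have h := H76.steiner_inter_block hB (by norm_num) hb ∅ (by simp)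
  rw [hα] at h
  have h2 : H76.tri (H76.lam 5 8 24) (∅ : Finset α).card (8 - (∅ : Finset α).card) = 30 := by
    rw [Finset.card_empty]; decide
  rw [h2] at h
  rw [H76.ncard_sep_blocks]
  simp only [Finset.disjoint_iff_inter_eq_empty]
  exact_mod_cast h

end Cfsg.Agent.S0354
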