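import Cfsg.Statements.S0357
import Cfsg.Agent.Base
import Cfsg.Agent.H76.Steiner

set_option autoImplicit false
open Cfsg

namespace Cfsg.Agent.S0357

/-- In a Steiner system S(5, 6, 12), the complement of every block is again a block. -/
theorem result {α : Type*} [Fintype α] [DecidableEq α] (hα : Fintype.card α = 12) {B : Set (Finset α)} (hB : Cfsg.IsSteinerSystem 5 6 B) {b : Finset α} (hb : b ∈ B) : bᶜ ∈ B := by
  have h := H76.steiner_inter_block hB (by norm_num) hb ∅ (by simp)
  rw [hα] at h
  have h2 : H76.tri (H76.lam 5 6 12) (∅ : Finset α).card (6 - (∅ : Finset α).card) = 1 := by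
    rw [Finset.card_empty]; decide
  rw [h2] at h
  obtain ⟨c, hc⟩ := Finset.card_pos.1 (show 0 < ((H76.blocks B).filter (fun c => b ∩ c = ∅)).card by omega)
  rw [Finset.mem_filter, H76.mem_blocks] at hc
  have : c = bᶜ := by
    apply Finset.eq_of_subset_of_card_le
    · intro a ha
      rw [Finset.mem_compl]
      intro hab
      have : a ∈ b ∩ c := Finset.mem_inter.2 ⟨hab, ha⟩
      rw [hc.2] at this
      simp at this
    · rw [Finset.card_compl, hα, hB.1 b hb, hB.1 c hc.1]
  rw [← this]; exact hc.1

end Cfsg.Agent.S0357
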