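import Cfsg.Agent.Base
import Cfsg.Statements.S0359
import Cfsg.Agent.H72.Golay

set_option autoImplicit false
open Cfsg

namespace Cfsg.Agent.S0359

/-- The weight of every word of the length-24 code is one of 0, 8, 12, 16, 24. -/
theorem result (w : Cfsg.GolayPt → ZMod 2) (hw : w ∈ Cfsg.golayCode) : hammingNorm w = 0 ∨ hammingNorm w = 8 ∨ hammingNorm w = 12 ∨ hammingNorm w = 16 ∨ hammingNorm w = 24 := by
  rw [H72.hammingNorm_eq_card]
  exact H72.card_of_mem_cSets ⟨w, hw, rfl⟩

end Cfsg.Agent.S0359
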