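import Cfsg.Agent.Base
import Cfsg.Statements.S0371
import Cfsg.Agent.H72.M24

set_option autoImplicit false
open Cfsg

namespace Cfsg.Agent.S0371

def two : (ZMod 23)ˣ := ⟨2, 12, by decide, by decide⟩

theorem two_mem : Equiv.optionCongr (Units.mulLeft two) ∈ Cfsg.M24 := by
  have := H72.toPerm_eq (g := 983435072843990828779021698901151808)
    (σ := Equiv.optionCongr (Units.mulLeft two)) (by decide +kernel) (by decide +kernel)
  rw [← this]
  exact (H72.inM24_spec (by decide +kernel)).2

/-- Multiplication by a nonzero square residue modulo 23, fixing the extra point, lies in the group of the length-24 code. -/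
theorem result (u : (ZMod 23)ˣ) (hu : IsSquare u) : Equiv.optionCongr (Units.mulLeft u) ∈ Cfsg.M24 := by
  obtain ⟨v, rfl⟩ := hu
  have h : ∀ v : (ZMod 23)ˣ, ∃ k : Fin 11, v * v = two ^ k.val := by decide +kernel
  obtain ⟨k, hk⟩ := h v
  rw [hk]
  generalize k.val = n
  induction n with
  | zero =>
    have : Equiv.optionCongr (Units.mulLeft (two ^ 0)) = (1 : Equiv.Perm Cfsg.GolayPt) := by
      ext p : 1; cases p <;> simp
    rw [this]; exact Subgroup.one_mem _
  | succ n ih =>
    have := Subgroup.mul_mem _ ih two_mem
    convert this using 1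
    ext p : 1
    cases p <;> simp [pow_succ, mul_assoc]

end Cfsg.Agent.S0371
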