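import Cfsg.Statements.S0385
import Cfsg.Agent.Base
import Cfsg.Agent.H76.M24Mod

set_option autoImplicit false
open Cfsg

namespace Cfsg.Agent.S0385

/-- The 6-point intersections of octads with a fixed dodecad form a Steiner system S(5, 6, 12) on the dodecad. -/
theorem result (d : Finset Cfsg.GolayPt) (hd : d ∈ Cfsg.dodecads) : Cfsg.IsSteinerSystem 5 6 {h : Finset {p : Cfsg.GolayPt // p ∈ d} | ∃ o ∈ Cfsg.octads, (o ∩ d).card = 6 ∧ h = Finset.subtype (fun p => p ∈ d) o} := by
  have hmap : ∀ o : Finset Cfsg.GolayPt, (Finset.subtype (fun p => p ∈ d) o).map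
      (Function.Embedding.subtype _) = o ∩ d := fun o => by
    rw [Finset.subtype_map, Finset.filter_mem_eq_inter]
  constructor
  · rintro _ ⟨o, -, h6, rfl⟩
    rw [← Finset.card_map (Function.Embedding.subtype _), hmap, h6]
  · intro s hs
    have hs' : (s.map (Function.Embedding.subtype _)).card = 5 := by rw [Finset.card_map, hs]
    obtain ⟨o, ho, hso⟩ := H72.exists_octad hs'
    have hsd : s.map (Function.Embedding.subtype _) ⊆ d := by
      intro x hx
      obtain ⟨y, -, rfl⟩ := Finset.mem_map.1 hx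
      exact y.2
    refine ⟨_, ⟨⟨o, ho, ?_, rfl⟩, fun x hx => Finset.mem_subtype.2
      (hso (Finset.mem_map_of_mem _ hx))⟩, ?_⟩
    · have h1 := Finset.card_le_card (Finset.subset_inter hso hsd)
      have h2 := H72.even_card_inter ho.1 hd.1
      have h3 := H72.card_of_mem_cSets (H72.symmDiff_mem_cSets ho.1 hd.1)
      have h4 := H76.card_symmDiff_add o d
      have h5 := Finset.card_le_card (Finset.inter_subset_left (s₁ := o) (s₂ := d))
      rw [ho.2] at h4 h5
      rw [hd.2] at h4
      rw [Nat.even_iff] at h2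
      omega
    · rintro _ ⟨⟨o', ho', -, rfl⟩, h⟩
      rw [H72.octad_unique ho' ho hs'.ge (fun x hx => ?_) hso]
      obtain ⟨y, hy, rfl⟩ := Finset.mem_map.1 hx
      exact Finset.mem_subtype.1 (h hy)

end Cfsg.Agent.S0385
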