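import Cfsg.Agent.Base
import Cfsg.Statements.S0386
import Cfsg.Agent.H72.Std

set_option autoImplicit false
open Cfsg

namespace Cfsg.Agent.S0386

open H72 MulAction
open scoped Pointwise

/-- For a fixed dodecad, 132 octads meet it in 6 points, 132 in 2 points and 495 in 4 points. -/
theorem result (d : Finset Cfsg.GolayPt) (hd : d ∈ Cfsg.dodecads) : {o : Finset Cfsg.GolayPt | o ∈ Cfsg.octads ∧ (o ∩ d).card = 6}.ncard = 132 ∧ {o : Finset Cfsg.GolayPt | o ∈ Cfsg.octads ∧ (o ∩ d).card = 2}.ncard = 132 ∧ {o : Finset Cfsg.GolayPt | o ∈ Cfsg.octads ∧ (o ∩ d).card = 4}.ncard = 495 := by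
  obtain ⟨g, hg, rfl⟩ := dodecad_trans hd
  have key : ∀ k, {o | o ∈ octads ∧ (o ∩ g • ofMask dod0).card = k}.ncard =
      (octL.filter fun m => Nat.beq (pop (Nat.land m dod0)) k).length := by
    intro k
    rw [← ncard_octads_filter (fun o => (o ∩ ofMask dod0).card = k) _
      (fun m _ => by rw [card_inter_ofMask, Nat.beq_eq])]
    exact ncard_smul_eq g _ _ fun x => by
      simp only [Set.mem_ofPred_eq, smul_mem_octads_iff hg, card_smul_inter]
  simp only [key]
  decide +kernel

end Cfsg.Agent.S0386
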