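import Cfsg.Agent.Base
import Cfsg.Statements.S0389
import Cfsg.Agent.H72.Std2

set_option autoImplicit false
open scoped Pointwise
open Cfsg

namespace Cfsg.Agent.S0389

open H72 MulAction
open scoped Pointwise

/-- The stabiliser of a dodecad and a point on it is 3-transitive on the complementary dodecad. -/
theorem result (d : Finset Cfsg.GolayPt) (hd : d ∈ Cfsg.dodecads) (p : Cfsg.GolayPt) (hp : p ∈ d) (x y : Fin 3 ↪ Cfsg.GolayPt) (hx : ∀ i, x i ∉ d) (hy : ∀ i, y i ∉ d) : ∃ g ∈ MulAction.stabilizer Cfsg.M24 d ⊓ MulAction.stabilizer Cfsg.M24 p, ∀ i, (g : Equiv.Perm Cfsg.GolayPt) (x i) = y i := by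
  have key : ∀ z : Fin 3 ↪ Cfsg.GolayPt, [z 0, z 1, z 2].Nodup := by
    intro z
    simp [z.injective.eq_iff]
  obtain ⟨g, hg, g1, g2, g3⟩ := std_dod_out hd hp [x 0, x 1, x 2] (by simp) (key x) (by simp [hx])
  obtain ⟨k, hk, k1, k2, k3⟩ := std_dod_out hd hp [y 0, y 1, y 2] (by simp) (key y) (by simp [hy])
  simp only [List.length_cons, List.length_nil, List.take, List.map_cons, List.map_nil,
    List.cons.injEq, and_true] at g3 k3
  refine ⟨⟨k * g⁻¹, Subgroup.mul_mem _ hk (Subgroup.inv_mem _ hg)⟩, ⟨?_, ?_⟩, fun i => ?_⟩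
  · show (k * g⁻¹) • d = d
    rw [mul_smul, inv_smul_eq_iff.2 g1.symm, k1]
  · show (k * g⁻¹) • p = p
    rw [mul_smul, inv_smul_eq_iff.2 (show p = g • pt 0 from g2.symm)]; exact k2
  · show k (g⁻¹ (x i)) = y i
    fin_cases i
    · show k (g⁻¹ (x 0)) = y 0
      rw [← g3.1, ← k3.1]; simp
    · show k (g⁻¹ (x 1)) = y 1
      rw [← g3.2.1, ← k3.2.1]; simp
    · show k (g⁻¹ (x 2)) = y 2
      rw [← g3.2.2, ← k3.2.2]; simp

end Cfsg.Agent.S0389
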