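import Cfsg.Statements.S0402
import Cfsg.Agent.H77.Simple

set_option autoImplicit false
open Cfsg

namespace Cfsg.Agent.S0402

/-- Stabiliser of a minimal vector is simple of order 42305421312000. -/
theorem result (v : Cfsg.leechLattice) (hv : Cfsg.sqNorm (v : Cfsg.GolayPt → ℤ) = 32) : Cfsg.IsCo2 (MulAction.stabilizer Cfsg.Co0 v) := by
  obtain ⟨g, rfl⟩ := H77.exists_smul_U hv
  have φ := H77.conjEquiv g (H77.conj_mem_St1 g H77.vU)
  exact ⟨φ.isSimpleGroup_congr.1 H77.simple_co2, by rw [← Nat.card_congr φ.toEquiv, H77.card_co2]⟩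

end Cfsg.Agent.S0402
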