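import Cfsg.Statements.S0423
import Cfsg.Agent.H4.JA6

set_option autoImplicit false
open Cfsg

namespace Cfsg.Agent.S0423

/-- Existence of a simple group of order 604800. -/
theorem result : ∃ G : Subgroup (Equiv.Perm (Fin 100)), Cfsg.IsJ2 G := by
  let f : H4.M2.X →* Equiv.Perm (Fin 100) := H49.toPermP.comp (H49.subHom _ _)
  have e := MonoidHom.ofInjective (f := f) (H49.toPermP_inj.comp (H49.subHom_inj _ _))
  exact ⟨f.range, e.symm.isSimpleGroup, (Nat.card_congr e.toEquiv).symm.trans H4.M2.card⟩

end Cfsg.Agent.S0423
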