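import Cfsg.Statements.S0426
import Cfsg.Agent.Base
import Cfsg.Agent.H76.Aut
import Cfsg.Agent.H76.W11

set_option autoImplicit false
open Cfsg

namespace Cfsg.Agent.S0426

/-- Aut of an S(4, 5, 11) is simple of order 7920 and sharply 4-transitive on points. -/
theorem result {α : Type*} [Fintype α] [DecidableEq α] (hα : Fintype.card α = 11) {B : Set (Finset α)} (hB : Cfsg.IsSteinerSystem 4 5 B) : Cfsg.IsM11 (Cfsg.setSystemAut B) ∧ MulAction.IsMultiplyPretransitive (Cfsg.setSystemAut B) α 4 ∧ ∀ x : Fin 4 ↪ α, MulAction.stabilizer (Cfsg.setSystemAut B) x = ⊥ := by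
  have h1 := H76.multTrans_of_std _ (H76.isoW11 hα hB)
  have hW : ∀ m ∈ H76.stdW11, H76.WF 5 11 m := by
    have : H76.allL H76.stdW11 (fun m => Nat.beq (Nat.land m (H76.full 5 11)) m) = true := by
      decide +kernel
    exact fun m hm => H76.WF_of_land_full (H76.allL_iff.1 this m hm)
  have h2 := H76.sharp_of_autS (by norm_num) hW (by decide +kernel) (H76.isoW11 hα hB)
  exact ⟨H76.SharpT.simple_eleven (α := α) ⟨h1, h2⟩ (by rw [Nat.card_eq_fintype_card, hα]), h1, h2⟩

end Cfsg.Agent.S0426
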