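import Cfsg.Statements.S0430
import Cfsg.Agent.Base
import Cfsg.Agent.H76.HSGraph

set_option autoImplicit false
open Cfsg

namespace Cfsg.Agent.S0430

/-- Uniqueness of the strongly regular graph with parameters (100, 22, 0, 6). -/
theorem result {V W : Type*} [Fintype V] [Fintype W] {G : SimpleGraph V} {H : SimpleGraph W} [DecidableRel G.Adj] [DecidableRel H.Adj] (hG : G.IsSRGWith 100 22 0 6) (hH : H.IsSRGWith 100 22 0 6) : Nonempty (G ≃g H) := by
  have h1 := H76.srg_iff.1 hG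
  have h2 := H76.srg_iff.1 hH
  obtain ⟨v⟩ : Nonempty V := (Nat.card_pos_iff.1 (by rw [h1.card]; norm_num)).1
  obtain ⟨w⟩ : Nonempty W := (Nat.card_pos_iff.1 (by rw [h2.card]; norm_num)).1
  obtain ⟨e, -⟩ := H76.hs_unique h1 h2 v w
  exact ⟨e⟩

end Cfsg.Agent.S0430
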