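import Cfsg.Statements.S0439
import Cfsg.Agent.H75.Coord

set_option autoImplicit false
open Cfsg

namespace Cfsg.Agent.S0439

/-- In the symmetric group of degree n ≥ 2, the set of transpositions is a conjugacy class of 3-transpositions which generates the group. -/
theorem result (n : ℕ) (hn : 2 ≤ n) : Cfsg.IsThreeTranspositionClass {σ : Equiv.Perm (Fin n) | σ.IsSwap} := by
  refine H75.class_of_trans (H75.swaps_group n) ?_ ?_
  · refine ⟨Equiv.swap ⟨0, by omega⟩ ⟨1, by omega⟩, _, _, ?_, rfl⟩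
    simp
  · rintro _ ⟨i, j, hij, rfl⟩ _ ⟨k, l, hkl, rfl⟩
    exact isConj_iff.1 (Equiv.Perm.isConj_swap hij hkl)

end Cfsg.Agent.S0439
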