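import Cfsg.Statements.S0442
import Cfsg.Agent.Base
import Cfsg.Agent.H83.InvPair

set_option autoImplicit false
open Cfsg

namespace Cfsg.Agent.S0442


/-- A standard trick for producing elements of an involution centraliser: for an involution a and an element g, let b be the conjugate g⁻¹ * a * g. If a * b has odd order 2m + 1 then g * (a * b) ^ m commutes with a; if a * b has even order 2m then (a * b) ^ m and (a * (g * a * g⁻¹)) ^ m commute with a. -/
theorem result {G : Type*} [Group G] (a g : G) (ha : orderOf a = 2) : (∀ m : ℕ, orderOf (a * (g⁻¹ * a * g)) = 2 * m + 1 → Commute (g * (a * (g⁻¹ * a * g)) ^ m) a) ∧ (∀ m : ℕ, orderOf (a * (g⁻¹ * a * g)) = 2 * m → Commute ((a * (g⁻¹ * a * g)) ^ m) a ∧ Commute ((a * (g * a * g⁻¹)) ^ m) a) := by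
  have haa := H83.mul_self_of_orderOf_two ha
  have hai := H83.inv_eq_of_orderOf_two ha
  obtain ⟨b, hb⟩ : ∃ b, b = g⁻¹ * a * g := ⟨_, rfl⟩
  rw [← hb]
  have hbb : b * b = 1 := by
    rw [hb]
    calc g⁻¹ * a * g * (g⁻¹ * a * g) = g⁻¹ * (a * a) * g := by group
      _ = 1 := by rw [haa]; group
  have key : ∀ c : G, c * c = 1 → ∀ m : ℕ, a * (a * c) ^ m * a = ((a * c) ^ m)⁻¹ := by
    intro c hc m
    have := H83.left_inverts_mul haa hc
    have h2 : a * (a * c) ^ m * a⁻¹ = (a * (a * c) * a⁻¹) ^ m := by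
      rw [conj_pow]
    rw [hai] at h2 this
    rw [h2, this, inv_pow]
  have key2 : ∀ c : G, c * c = 1 → ∀ m : ℕ, (a * c) ^ (2 * m) = 1 → Commute ((a * c) ^ m) a := by
    intro c hc m hm
    have h1 := key c hc m
    have h2 : ((a * c) ^ m)⁻¹ = (a * c) ^ m := by
      rw [inv_eq_iff_mul_eq_one, ← pow_add, ← two_mul, hm]
    rw [h2] at h1
    show _ * _ = _ * _
    calc (a * c) ^ m * a = (a * (a * c) ^ m * a) * a := by rw [h1]
      _ = a * (a * c) ^ m := by rw [mul_assoc, haa, mul_one]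
  refine ⟨fun m hm => ?_, fun m hm => ⟨key2 b hbb m (by rw [← hm, pow_orderOf_eq_one]), ?_⟩⟩
  · have h1 := key b hbb m
    have h3 : (a * b) ^ (2 * m + 1) = 1 := by rw [← hm, pow_orderOf_eq_one]
    have h4 : ((a * b) ^ m)⁻¹ = a * b * (a * b) ^ m := by
      rw [inv_eq_iff_mul_eq_one, ← pow_succ', ← pow_add, ← h3]
      congr 1; ring
    have h5 : (a * b) ^ m * a = b * (a * b) ^ m := by
      calc (a * b) ^ m * a = a * (a * (a * b) ^ m * a) := by
            rw [← mul_assoc a, ← mul_assoc a, haa, one_mul]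
        _ = b * (a * b) ^ m := by
            rw [h1, h4, ← mul_assoc, ← mul_assoc, haa, one_mul]
    show _ * _ = _ * _
    rw [mul_assoc, h5, hb]
    group
  · apply key2
    · calc g * a * g⁻¹ * (g * a * g⁻¹) = g * (a * a) * g⁻¹ := by group
        _ = 1 := by rw [haa]; group
    · have h1 : (a * b) ^ (2 * m) = 1 := by rw [← hm, pow_orderOf_eq_one]
      have h2 : a * (g * a * g⁻¹) = g * (a * b)⁻¹ * g⁻¹ := by
        rw [hb, mul_inv_rev, mul_inv_rev, mul_inv_rev, hai]; group
      rw [h2, conj_pow, inv_pow, h1]; group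

end Cfsg.Agent.S0442
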