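import Cfsg.Statements.S0446
import Cfsg.Agent.Base

set_option autoImplicit false
open Cfsg

namespace Cfsg.Agent.S0446


/-- Every finite group of even order contains a 2-central involution, i.e. an element of order 2 in the centre of some Sylow 2-subgroup. -/
theorem result {G : Type*} [Group G] [Finite G] (h : Even (Nat.card G)) : ∃ t : G, Cfsg.IsTwoCentralInvolution t := by
  obtain ⟨P⟩ := (Sylow.nonempty : Nonempty (Sylow 2 G))
  have hP : Nontrivial P := by
    rw [← Finite.one_lt_card_iff_nontrivial, P.card_eq_multiplicity]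
    apply Nat.one_lt_pow _ (by norm_num)
    exact (Nat.prime_two.factorization_pos_of_dvd Nat.card_pos.ne' h.two_dvd).ne'
  have hZ : Nontrivial (Subgroup.center P) := P.isPGroup'.center_nontrivial
  have hZp : IsPGroup 2 (Subgroup.center P) := P.isPGroup'.to_subgroup _
  obtain ⟨k, hk0, hk⟩ := hZp.nontrivial_iff_card.1 hZ
  obtain ⟨z, hz⟩ := exists_prime_orderOf_dvd_card' (G := Subgroup.center P) 2
    (by rw [hk]; exact dvd_pow_self 2 hk0.ne')
  refine ⟨((z : P) : G), ?_, P, (z : P).2, fun x hx => ?_⟩
  · rw [Subgroup.orderOf_coe, Subgroup.orderOf_coe, hz]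
  · have := Subgroup.mem_center_iff.1 z.2 ⟨x, hx⟩
    exact congrArg Subtype.val this

end Cfsg.Agent.S0446
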