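import Cfsg.Statements.S0451
import Cfsg.Agent.H38.HeF

set_option autoImplicit false
open Cfsg

namespace Cfsg.Agent.S0451

/-- With s a transvection of SL(5, 2): two finite simple groups of equal order, each possessing an involution whose centraliser is isomorphic to the centraliser of s, are isomorphic. -/
theorem result {G H : Type*} [Group G] [Finite G] [IsSimpleGroup G] [Group H] [Finite H] [IsSimpleGroup H] (s : Matrix.SpecialLinearGroup (Fin 5) (ZMod 2)) (hs : (s : Matrix (Fin 5) (Fin 5) (ZMod 2)) = Matrix.transvection 0 1 1) (j : G) (k : H) (hj : orderOf j = 2) (hk : orderOf k = 2) (e : Subgroup.centralizer ({j} : Set G) ≃* Subgroup.centralizer ({s} : Set (Matrix.SpecialLinearGroup (Fin 5) (ZMod 2)))) (f : Subgroup.centralizer ({k} : Set H) ≃* Subgroup.centralizer ({s} : Set (Matrix.SpecialLinearGroup (Fin 5) (ZMod 2)))) (hcard : Nat.card G = Nat.card H) : Nonempty (G ≃* H) := by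
  have c1 := H38.He.card_SL5
  have c2 := H72.card_M24
  have c3 := H71.He.card
  rcases H38.He.held_simple hs hj e with ⟨⟨a⟩⟩ | ⟨⟨a⟩⟩ | ⟨⟨a⟩⟩ <;>
    rcases H38.He.held_simple hs hk f with ⟨⟨b⟩⟩ | ⟨⟨b⟩⟩ | ⟨⟨b⟩⟩ <;>
    first
      | exact ⟨a.trans b.symm⟩
      | (rw [Nat.card_congr a.toEquiv, Nat.card_congr b.toEquiv] at hcard; omega)

end Cfsg.Agent.S0451
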