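import Cfsg.Statements.S0458
import Cfsg.Agent.H73.J3
import Cfsg.Agent.H73.J3L216
import Cfsg.Agent.H73.GF4

set_option autoImplicit false
open Cfsg

namespace Cfsg.Agent.S0458

/-- Janko's third group exists as a transitive permutation group of degree 6156 with point stabiliser of order 8160: a simple group of order 50232960. -/
theorem result : ∃ H : Subgroup (Equiv.Perm (Fin 6156)), Cfsg.IsJ3 H ∧ MulAction.IsPretransitive H (Fin 6156) ∧ Nat.card (MulAction.stabilizer H (0 : Fin 6156)) = 8160 := by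
  obtain ⟨F, _, _, hF, ω, hω⟩ := H73.exists_gf4
  have h := H73.J3.package _ _ (H73.J3.hvF hF hω)
  obtain ⟨K, hK⟩ := H73.J3.exists_index _ _ (H73.J3.hvF hF hω)
  have := h.2.2
  have := Nat.finite_of_card_ne_zero (h.2.1.trans_ne (by norm_num))
  obtain ⟨H, ⟨e⟩, h1, h2⟩ := H73.perm_realization K hK (by norm_num)
  refine ⟨H, ⟨e.symm.isSimpleGroup, by rw [← Nat.card_congr e.toEquiv, h.2.1]⟩, h1, ?_⟩
  have h3 := K.card_mul_index
  rw [hK, h.2.1] at h3
  omega

end Cfsg.Agent.S0458
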