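import Cfsg.Statements.S0460
import Cfsg.Agent.H88.ONSub
import Cfsg.Agent.H73.Core

set_option autoImplicit false
open Cfsg

namespace Cfsg.Agent.S0460

/-- The O'Nan group exists as a transitive permutation group of degree 122760: simple of order 460815505920, point stabiliser of order 3753792, and containing simple subgroups of orders 175560 and 7920. -/
theorem result : ∃ H : Subgroup (Equiv.Perm (Fin 122760)), Cfsg.IsON H ∧ MulAction.IsPretransitive H (Fin 122760) ∧ Nat.card (MulAction.stabilizer H (0 : Fin 122760)) = 3753792 ∧ (∃ K : Subgroup H, Cfsg.IsJ1 K) ∧ (∃ K : Subgroup H, Cfsg.IsM11 K) := by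
  have := H71.ON.simple
  obtain ⟨H, ⟨e⟩, h1, h2⟩ := H73.perm_realization (H71.stab H71.ON.ρ 0) H71.ON.index0 (by norm_num)
  obtain ⟨K, ⟨φ⟩⟩ := H88.ONSub.subJ e
  obtain ⟨K', ⟨ψ⟩⟩ := H88.ONSub.subM e
  have := H72.simple_M11
  exact ⟨H, ⟨e.symm.isSimpleGroup, (Nat.card_congr e.toEquiv).symm.trans H71.ON.card⟩, h1,
    by rw [h2, ← H71.ON.stab0, H71.ON.cardH],
    ⟨K, φ.symm.isSimpleGroup, (Nat.card_congr φ.toEquiv).symm.trans H74.J1.card⟩,
    ⟨K', ψ.symm.isSimpleGroup, (Nat.card_congr ψ.toEquiv).symm.trans H72.card_M11⟩⟩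

end Cfsg.Agent.S0460
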