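import Cfsg.Statements.S0461
import Cfsg.Agent.H80.J4Rep
import Cfsg.Agent.H73.J4M

set_option autoImplicit false
open Cfsg

namespace Cfsg.Agent.S0461

/-- Janko's fourth group exists as a group of 112 × 112 matrices over the field with two elements: GL(112, 2) has a simple subgroup of order 86775571046077562880. -/
theorem result : ∃ H : Subgroup (GL (Fin 112) (ZMod 2)), Cfsg.IsJ4 H := by
  have k : ∀ {G M : Type} [Group G] [Group M] (f : G →* M), Function.Injective f → IsJ4 G →
      ∃ H : Subgroup M, IsJ4 H := fun f hf h =>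
    have := h.1
    ⟨f.range, (MonoidHom.ofInjective hf).symm.isSimpleGroup,
      (Nat.card_congr (MonoidHom.ofInjective hf).toEquiv).symm.trans h.2⟩
  have := H73.J4T.simple
  exact k ((H49.UG.toUnits H80.J4R.CM).comp H80.J4R.ρ)
    (H49.UG.toUnits_inj.comp H80.J4R.ρ_inj) ⟨this, H73.J4T.card⟩

end Cfsg.Agent.S0461
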