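import Cfsg.Statements.S0462
import Cfsg.Agent.H88.HeIso
import Cfsg.Agent.H79.NetS

set_option autoImplicit false
open Cfsg

namespace Cfsg.Agent.S0462

/-- The Held group exists as a transitive permutation group of degree 2058: simple of order 4030387200, with point stabiliser containing, with index 2, a copy of the 4-dimensional symplectic group over the field with four elements. -/
theorem result : ∃ H : Subgroup (Equiv.Perm (Fin 2058)), Cfsg.IsHe H ∧ MulAction.IsPretransitive H (Fin 2058) ∧ ∃ (F : Type) (_ : Field F) (_ : Fintype F), Fintype.card F = 4 ∧ ∃ N : Subgroup (MulAction.stabilizer H (0 : Fin 2058)), N.index = 2 ∧ Nonempty (N ≃* Matrix.symplecticGroup (Fin 2) F) := by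
  have := H71.He.simple
  have := H88.HeLoc.fin0
  obtain ⟨H, ⟨e⟩, h1, ⟨f⟩⟩ := H79.perm_realization (H71.stab H71.He.ρ 0)
    (H71.index_eq rfl H71.He.orb0) (by norm_num)
  obtain ⟨N, h, ⟨g⟩⟩ := H88.HeLoc.stab_iso
  exact ⟨H, ⟨e.symm.isSimpleGroup, (Nat.card_congr e.toEquiv).symm.trans H71.He.card⟩, h1,
    H55.F4, inferInstance, inferInstance, H55.card_F4, N.map f.toMonoidHom,
    (Subgroup.index_map_equiv N f).trans h, ⟨(f.subgroupMap N).symm.trans g⟩⟩

end Cfsg.Agent.S0462
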