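import Cfsg.Statements.S0463
import Cfsg.Agent.H73.HNA

set_option autoImplicit false
open Cfsg

namespace Cfsg.Agent.S0463

/-- The Harada–Norton group exists as a transitive permutation group of degree 1140000: simple of order 273030912000000 with point stabiliser isomorphic to the alternating group of degree 12. -/
theorem result : ∃ H : Subgroup (Equiv.Perm (Fin 1140000)), Cfsg.IsHN H ∧ MulAction.IsPretransitive H (Fin 1140000) ∧ Nonempty (MulAction.stabilizer H (0 : Fin 1140000) ≃* alternatingGroup (Fin 12)) := by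
  obtain ⟨ψ, hψ⟩ := H73.HNT.exA12
  haveI := H73.HNT.simple
  haveI : Finite Cfsg.Spor.HN := Nat.finite_of_card_ne_zero (by rw [H73.HNT.card]; decide)
  have e := MonoidHom.ofInjective hψ
  have h1 : Nat.card ψ.range = 239500800 := by
    rw [← Nat.card_congr e.toEquiv, nat_card_alternatingGroup, Nat.card_fin]; rfl
  have h2 : ψ.range.index = 1140000 := by
    have := ψ.range.card_mul_index
    rw [h1, H73.HNT.card] at this
    omega
  obtain ⟨H, ⟨f⟩, h3, ⟨k⟩⟩ := H73.perm_realization' ψ.range h2 (by decide)
  exact ⟨H, ⟨f.symm.isSimpleGroup, by rw [← Nat.card_congr f.toEquiv, H73.HNT.card]⟩, h3, ⟨k.trans e.symm⟩⟩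

end Cfsg.Agent.S0463
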