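import Cfsg.Statements.S0464
import Cfsg.Agent.H74.TD4

set_option autoImplicit false
set_option maxRecDepth 100000
open Cfsg

namespace Cfsg.Agent.S0464

theorem aux {G : Type} [Group G] (ρ : Cfsg.Spor.Th →* G) (hρ : Function.Injective ρ) :
    ∃ H : Subgroup G, Cfsg.IsTh H ∧ ∃ K : Subgroup H, K.index = 143127000 ∧
      ∃ L : Subgroup H, L ≤ K ∧ Cfsg.Is3D4 L := by
  obtain ⟨L, h1, h2, h3⟩ := H74.D4.exists_L
  let e : Cfsg.Spor.Th ≃* ρ.range := MonoidHom.ofInjective hρ
  have := H88.ThT.simple
  let f := L.equivMapOfInjective e.toMonoidHom e.injective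
  refine ⟨ρ.range, ⟨e.symm.isSimpleGroup, (Nat.card_congr e.toEquiv).symm.trans H88.ThT.card⟩,
    H74.D4.B.map e.toMonoidHom, ?_, L.map e.toMonoidHom, Subgroup.map_mono h1,
    f.symm.isSimpleGroup, 2, Nat.prime_two.isPrimePow,
    ((Nat.card_congr f.toEquiv).symm.trans h3).trans (by norm_num)⟩
  have hb : Function.Bijective e.toMonoidHom := e.bijective
  rw [Subgroup.index_map_of_bijective hb, H74.D4.index_B]

/-- The Thompson group exists as a group of 248 × 248 matrices over the field with three elements: a simple subgroup of GL(248, 3) of order 90745943887872000, possessing a subgroup of index 143127000 which contains a simple subgroup of the order of a triality-twisted D4 group. -/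
theorem result : ∃ H : Subgroup (GL (Fin 248) (ZMod 3)), Cfsg.IsTh H ∧ ∃ K : Subgroup H, K.index = 143127000 ∧ ∃ L : Subgroup H, L ≤ K ∧ Cfsg.Is3D4 L := by
  exact aux H74.ThT.ρ H88.ThT.ρ_inj

end Cfsg.Agent.S0464
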