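import Cfsg.Statements.S0481
import Cfsg.Agent.H78.Large

set_option autoImplicit false
open Cfsg

namespace Cfsg.Agent.S0481

open H78

/-- Large extraspecial subgroups: let z be an involution of a finite group G whose centraliser C contains a normal 2-subgroup Q with centre of order 2 and all squares central, such that every element of G centralising Q lies in Q. Then C contains a Sylow 2-subgroup of G, and any involution of G whose centraliser contains a Sylow 2-subgroup of G is conjugate to z. -/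
theorem result {G : Type*} [Group G] [Finite G] (z : G) (hz : orderOf z = 2) (Q : Subgroup G) (hQC : Q ≤ Subgroup.centralizer ({z} : Set G)) (hQn : ∀ g ∈ Subgroup.centralizer ({z} : Set G), ∀ q ∈ Q, g * q * g⁻¹ ∈ Q) (hQ2 : IsPGroup 2 Q) (hZ : Nat.card (Subgroup.center Q) = 2) (hsq : ∀ x : Q, x ^ 2 ∈ Subgroup.center Q) (hlarge : Subgroup.centralizer (Q : Set G) ≤ Q) : (∃ P : Sylow 2 G, (P : Subgroup G) ≤ Subgroup.centralizer ({z} : Set G)) ∧ ∀ u : G, orderOf u = 2 → (∃ P : Sylow 2 G, (P : Subgroup G) ≤ Subgroup.centralizer ({u} : Set G)) → IsConj z u := by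
  have : Fact (Nat.Prime 2) := ⟨Nat.prime_two⟩
  have hz1 := ne_one_of_orderOf_two hz
  have hzc : ∀ y ∈ Q, y * z = z * y := fun y hy =>
    Subgroup.mem_centralizer_singleton_iff.1 (hQC hy)
  have hcen : ∀ x : G, (∀ y ∈ Q, y * x = x * y) → x ≠ 1 → x = z := by
    intro x hx hx1
    obtain ⟨c, -, hc⟩ := (Nat.card_eq_two_iff' (1 : Subgroup.center Q)).1 hZ
    have h1 := hc ⟨⟨x, hlarge hx⟩, Subgroup.mem_center_iff.2 fun y => Subtype.ext (hx y y.2)⟩
      (fun h => hx1 (congrArg (fun t : Subgroup.center Q => ((t : Q) : G)) h))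
    have h2 := hc ⟨⟨z, hlarge hzc⟩, Subgroup.mem_center_iff.2 fun y => Subtype.ext (hzc y y.2)⟩
      (fun h => hz1 (congrArg (fun t : Subgroup.center Q => ((t : Q) : G)) h))
    exact congrArg (fun t : Subgroup.center Q => ((t : Q) : G)) (h1.trans h2.symm)
  constructor
  · obtain ⟨P, hP⟩ := hQ2.exists_le_sylow
    refine ⟨P, ?_⟩
    have : Nontrivial (P : Subgroup G) :=
      ⟨⟨⟨z, hP (hlarge hzc)⟩, 1, fun h1 => hz1 (congrArg Subtype.val h1)⟩⟩
    have := P.isPGroup'.center_nontrivial
    obtain ⟨⟨c, hc⟩, hc1⟩ := exists_ne (1 : Subgroup.center (P : Subgroup G))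
    have h2 : ∀ y ∈ P, y * (c : G) = c * y := fun y hy =>
      congrArg Subtype.val (Subgroup.mem_center_iff.1 hc ⟨y, hy⟩)
    have h3 := hcen c (fun y hy => h2 y (hP hy)) (fun h => hc1 (Subtype.ext (Subtype.ext h)))
    intro x hx
    rw [Subgroup.mem_centralizer_singleton_iff, ← h3]
    exact h2 x hx
  · rintro u hu ⟨P, hP⟩
    obtain ⟨g, hg⟩ := exists_conj_mem_sylow P hQ2
    have h1 := hcen (g * u * g⁻¹) (fun y hy => by
      have := Subgroup.mem_centralizer_singleton_iff.1 (hP (hg y hy))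
      calc y * (g * u * g⁻¹) = g * (g⁻¹ * y * g * u) * g⁻¹ := by group
        _ = _ := by rw [this]; group) (by simpa using ne_one_of_orderOf_two hu)
    exact (isConj_iff.2 ⟨g, h1⟩).symm

end Cfsg.Agent.S0481
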