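import Cfsg.Statements.S0499
import Cfsg.Agent.H86.Misc
import Cfsg.Agent.H8.AbFitting

set_option autoImplicit false
open Cfsg

namespace Cfsg.Agent.S0499

/-- A non-abelian finite simple group of even order has order divisible by 12, 16 or 56. -/
theorem result {G : Type*} [Group G] [Finite G] [IsSimpleGroup G]
    (hG : ¬ IsMulCommutative G) (h2 : Even (Nat.card G)) :
    12 ∣ Nat.card G ∨ 16 ∣ Nat.card G ∨ 56 ∣ Nat.card G := by
  have hN := H86.not_hasNPC_of_simple hG (p := 2) h2.two_dvd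
  by_contra hne
  push Not at hne
  obtain ⟨h12, h16, h56⟩ := hne
  refine hN (H7.hasNPC_of_normalizer_centralizer fun Q hQ g hg ho => by_contra fun hc => ?_)
  obtain ⟨a, ha⟩ := hQ.exists_card_eq
  have h1 : (Subgroup.centralizer (Q : Set G)).relIndex (Subgroup.zpowers g) ≠ 1 :=
    fun e => hc (Subgroup.relIndex_eq_one.mp e (Subgroup.mem_zpowers g))
  obtain ⟨q, hq, hd⟩ := Nat.exists_prime_and_dvd h1
  have hqg : q ∣ orderOf g := hd.trans (Nat.card_zpowers g ▸ Subgroup.relIndex_dvd_card _ _)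
  have hqG := hqg.trans (orderOf_dvd_natCard g)
  obtain ⟨i, hi, hia, hqi⟩ := H8.prime_dvd_pow_sub_one_of_relIndex Q _ (Subgroup.zpowers_le.mpr hg)
    Nat.prime_two ha hq (by
      rintro rfl
      exact absurd (Nat.eq_one_of_dvd_coprimes ho hqg dvd_rfl) (by norm_num)) hd
  have hiG : 2 ^ i ∣ Nat.card G := (pow_dvd_pow 2 hia).trans (ha ▸ Subgroup.card_subgroup_dvd_card Q)
  have hi3 : i ≤ 3 := by
    by_contra e
    exact h16 ((pow_dvd_pow 2 (show 4 ≤ i by omega)).trans hiG)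
  interval_cases i
  · exact hq.not_dvd_one hqi
  · rw [(Nat.prime_dvd_prime_iff_eq hq Nat.prime_three).mp hqi] at hqG
    exact h12 (Nat.Coprime.mul_dvd_of_dvd_of_dvd (by norm_num : Nat.Coprime 4 3) hiG hqG)
  · rw [(Nat.prime_dvd_prime_iff_eq hq Nat.prime_seven).mp hqi] at hqG
    exact h56 (Nat.Coprime.mul_dvd_of_dvd_of_dvd (by norm_num : Nat.Coprime 8 7) hiG hqG)

end Cfsg.Agent.S0499
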