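import Cfsg.Agent.Base
import Cfsg.Statements.S0529
import Cfsg.Agent.H5.Supersolv

set_option autoImplicit false
open Cfsg

namespace Cfsg.Agent.S0529

/-- A finite supersolvable group has a chain of normal subgroups, from the trivial subgroup to the whole group, in which every step has prime index and the primes occurring are non-increasing as one goes up the chain. -/
theorem result {G : Type*} [Group G] [Finite G] (hG : Cfsg.IsSupersolvable G) : ∃ (n : ℕ) (H : Fin (n + 1) → Subgroup G), H 0 = ⊥ ∧ H (Fin.last n) = ⊤ ∧ (∀ i, (H i).Normal) ∧ (∀ i : Fin n, H i.castSucc ≤ H i.succ ∧ ((H i.castSucc).relIndex (H i.succ)).Prime) ∧ ∀ i j : Fin n, i ≤ j → (H j.castSucc).relIndex (H j.succ) ≤ (H i.castSucc).relIndex (H i.succ) := by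
  obtain ⟨n, H, h0, h1, h2, h3⟩ := H5.exists_normal_chain
    (fun M V : Subgroup G => (M.relIndex V).Prime ∧
      ∀ q : ℕ, q.Prime → q ∣ M.index → q ≤ M.relIndex V) (fun M hM hT => by
      have hQ := H5.IsSupersolvable.quotient hG M
      have hi : 1 < M.index := Subgroup.one_lt_index_of_ne_top hT
      have hne : M.index.primeFactors.Nonempty := Nat.nonempty_primeFactors.2 hi
      set p := M.index.primeFactors.max' hne with hp
      have hpm : p ∈ M.index.primeFactors := Finset.max'_mem _ _
      have hmax : ∀ q : ℕ, q.Prime → q ∣ M.index → q ≤ p := fun q hq hqd =>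
        Finset.le_max' _ _ (Nat.mem_primeFactors.2 ⟨hq, hqd, by omega⟩)
      obtain ⟨Q, hQn, hQ1, hQ2⟩ := H23.exists_normal_isPiHall_ge_of_isSupersolvable hQ p
      have hQb : Q ≠ ⊥ := by
        rintro rfl
        exact hQ2 p (Nat.prime_of_mem_primeFactors hpm) (show p ≤ p from le_rfl)
          (by rw [Subgroup.index_bot]; exact Nat.dvd_of_mem_primeFactors hpm)
      obtain ⟨N, hN, hNQ, hNp⟩ := H5.exists_normal_prime_card_le hQ Q hQb
      have hle : M ≤ N.comap (QuotientGroup.mk' M) := QuotientGroup.le_comap_mk' M N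
      have e1 := H4.card_mul_relIndex hle
      rw [H4.card_comap_mk'] at e1
      have e2 := Nat.eq_of_mul_eq_mul_left Nat.card_pos e1
      refine ⟨N.comap (QuotientGroup.mk' M), inferInstance, lt_of_le_of_ne hle fun h => ?_,
        e2 ▸ hNp, fun q hq hqd => (hmax q hq hqd).trans ?_⟩
      · rw [← h, Subgroup.relIndex_self] at e2
        exact hNp.one_lt.ne e2
      · rw [e2]
        exact hQ1 _ hNp (Subgroup.card_dvd_of_le hNQ)) ⊥ inferInstance
  refine ⟨n, H, h0, h1, h2, fun i => ⟨(h3 i).1.le, (h3 i).2.1⟩, fun i j hij => ?_⟩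
  have hmono : Monotone H := (Fin.strictMono_iff_lt_succ.2 fun i => (h3 i).1).monotone
  apply (h3 i).2.2 _ (h3 j).2.1
  exact (Subgroup.relIndex_dvd_index_of_le (h3 j).1.le).trans
    (Subgroup.index_dvd_of_le (hmono (by simpa using hij)))

end Cfsg.Agent.S0529
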