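import Cfsg.Agent.Base
import Cfsg.Statements.S0530
import Cfsg.Agent.H5.Supersolv

set_option autoImplicit false
open Cfsg

namespace Cfsg.Agent.S0530

theorem aux {Q : Type*} [Group Q] [Finite Q] [Nontrivial Q] {p : ℕ} [Fact p.Prime]
    (P : Subgroup Q) [hn : P.Normal] (hP : IsPGroup p P) (h2 : ∀ x ∉ P, ∀ y ∉ P, x * y ∈ P) :
    ∃ g : Q, g ≠ 1 ∧ (Subgroup.zpowers g).Normal := by
  have hN : ∀ g : Q, (∀ x : Q, x * g * x⁻¹ ∈ Subgroup.zpowers g) → (Subgroup.zpowers g).Normal := by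
    intro g hg
    refine ⟨?_⟩
    rintro _ ⟨k, rfl⟩ x
    simp only [← conj_zpow]
    exact Subgroup.zpow_mem _ (hg x) k
  by_cases hb : P = ⊥
  · subst hb
    obtain ⟨g, hg⟩ := exists_ne (1 : Q)
    refine ⟨g, hg, hN g fun x => ?_⟩
    by_cases hx : x = 1
    · simp [hx]
    · have h3 : x * g = 1 := h2 x hx g hg
      rw [h3, one_mul, inv_eq_of_mul_eq_one_right h3]
      exact Subgroup.mem_zpowers g
  have := (Subgroup.nontrivial_iff_ne_bot P).2 hb
  have := hP.center_nontrivial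
  obtain ⟨⟨z, hz⟩, hz1⟩ := exists_ne (1 : Subgroup.center P)
  have hz1' : (z : Q) ≠ 1 := fun h => hz1 (Subtype.ext (Subtype.ext h))
  have hzc : ∀ x ∈ P, x * z = z * x := fun x hx =>
    congrArg Subtype.val (Subgroup.mem_center_iff.1 hz ⟨x, hx⟩)
  by_cases hall : ∀ t ∉ P, t * z * t⁻¹ = (z : Q)⁻¹
  · refine ⟨z, hz1', hN _ fun x => ?_⟩
    by_cases hx : x ∈ P
    · rw [hzc x hx, mul_inv_cancel_right]; exact Subgroup.mem_zpowers _
    · rw [hall x hx]; exact Subgroup.inv_mem _ (Subgroup.mem_zpowers _)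
  push Not at hall
  obtain ⟨t, ht, htz⟩ := hall
  have hc : ∀ x ∈ P, x * (t * z * t⁻¹) * x⁻¹ = t * z * t⁻¹ := by
    intro x hx
    have := hzc _ (hn.conj_mem' x hx t)
    calc x * (t * z * t⁻¹) * x⁻¹ = t * (t⁻¹ * x * t * z) * t⁻¹ * x⁻¹ := by group
      _ = t * z * t⁻¹ := by rw [this]; group
  refine ⟨z * (t * z * t⁻¹), fun h => htz (eq_inv_of_mul_eq_one_right h), hN _ fun x => ?_⟩
  suffices x * (z * (t * z * t⁻¹)) * x⁻¹ = z * (t * z * t⁻¹) by
    rw [this]; exact Subgroup.mem_zpowers _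
  by_cases hx : x ∈ P
  · calc x * (z * (t * z * t⁻¹)) * x⁻¹ = (x * z) * x⁻¹ * (x * (t * z * t⁻¹) * x⁻¹) := by group
      _ = _ := by rw [hc x hx, hzc x hx]; group
  · have h3 := hzc _ (h2 x hx t ht)
    have h4 := hc _ (h2 x hx t⁻¹ (by simpa using ht))
    have h5 := hzc _ (hn.conj_mem _ z.2 t)
    calc x * (z * (t * z * t⁻¹)) * x⁻¹
        = (x * t⁻¹ * (t * z * t⁻¹) * (x * t⁻¹)⁻¹) * ((x * t * z) * (x * t)⁻¹) := by group
      _ = _ := by rw [h4, h3, ← h5]; group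

/-- A finite group whose order is twice a prime power is supersolvable. -/
theorem result {G : Type*} [Group G] [Finite G] (p n : ℕ) (hp : p.Prime) (hG : Nat.card G = 2 * p ^ n) : Cfsg.IsSupersolvable G := by
  have : Fact p.Prime := ⟨hp⟩
  obtain ⟨P, hP⟩ := Sylow.exists_subgroup_card_pow_prime (G := G) p (n := n)
    (hG ▸ dvd_mul_left _ _)
  have hi : P.index = 2 := by
    have := P.index_mul_card
    rw [hP, hG] at this
    exact Nat.eq_of_mul_eq_mul_right (pow_pos hp.pos n) this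
  have := Subgroup.normal_of_index_eq_two hi
  apply H5.isSupersolvable_of_forall_quotient
  intro M _ hT
  have : Nontrivial (G ⧸ M) := QuotientGroup.nontrivial_iff.2 hT
  have : (P.map (QuotientGroup.mk' M)).Normal :=
    Subgroup.Normal.map inferInstance _ (QuotientGroup.mk'_surjective M)
  apply aux (P.map (QuotientGroup.mk' M)) ((IsPGroup.of_card hP).map _)
  intro x hx y hy
  obtain ⟨x, rfl⟩ := QuotientGroup.mk'_surjective M x
  obtain ⟨y, rfl⟩ := QuotientGroup.mk'_surjective M y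
  refine ⟨x * y, (Subgroup.mul_mem_iff_of_index_two hi).2 ?_, rfl⟩
  exact iff_of_false (fun h => hx ⟨x, h, rfl⟩) (fun h => hy ⟨y, h, rfl⟩)

end Cfsg.Agent.S0530
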