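import Cfsg.Agent.Base
import Cfsg.Statements.S0534
import Cfsg.Agent.H5.Supersolv
import Cfsg.Agent.H4.Hall

set_option autoImplicit false
open Cfsg

namespace Cfsg.Agent.S0534

/-- Let G be a finite solvable group and A a finite abelian group such that every prime dividing the order of A divides the order of G and, for each prime p dividing the order of G, the exponent of p in the order of A is one less than its exponent in the order of G. Then G × A has a subgroup of every order dividing its order. -/
theorem result {G A : Type*} [Group G] [CommGroup A] [Finite G] [Finite A] [Group.IsSolvable G] (hA : ∀ p : ℕ, p.Prime → p ∣ Nat.card A → p ∣ Nat.card G) (hexp : ∀ p : ℕ, p.Prime → p ∣ Nat.card G → (Nat.card A).factorization p + 1 = (Nat.card G).factorization p) : Cfsg.HasSubgroupOfEveryOrder (G × A) := by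
  intro d hd
  have hG : Nat.card G ≠ 0 := Nat.card_pos.ne'
  have hA0 : Nat.card A ≠ 0 := Nat.card_pos.ne'
  rw [Nat.card_prod] at hd
  have hd0 : d ≠ 0 := ne_zero_of_dvd_ne_zero (Nat.mul_ne_zero hG hA0) hd
  obtain ⟨H, h1, h2⟩ := H4.exists_isPiHall {p | (Nat.card G).factorization p ≤ d.factorization p} G
  have hH : Nat.card H ≠ 0 := Nat.card_pos.ne'
  have h3 : ∀ p, (Nat.card H).factorization p + H.index.factorization p =
      (Nat.card G).factorization p := fun p => by
    rw [← H.card_mul_index, Nat.factorization_mul hH H.index_ne_zero_of_finite]; rfl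
  have h4 : Nat.card H ∣ d := by
    rw [← Nat.factorization_prime_le_iff_dvd hH hd0]
    intro p hp
    by_cases h : p ∣ Nat.card H
    · have := h1 p hp h
      have := h3 p
      simp only [Set.mem_setOf_eq] at *
      omega
    · rw [Nat.factorization_eq_zero_of_not_dvd h]; exact Nat.zero_le _
  obtain ⟨e, rfl⟩ := h4
  have he : e ≠ 0 := right_ne_zero_of_mul hd0
  have h5 : e ∣ Nat.card A := by
    rw [← Nat.factorization_prime_le_iff_dvd he hA0]
    intro p hp
    have h6 := (Nat.factorization_prime_le_iff_dvd hd0 (Nat.mul_ne_zero hG hA0)).2 hd p hp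
    have h7 := h3 p
    have h8 : (Nat.card H * e).factorization p = (Nat.card H).factorization p + e.factorization p := by
      rw [Nat.factorization_mul hH he]; rfl
    rw [Nat.factorization_mul hG hA0, Finsupp.add_apply] at h6
    by_cases h : (Nat.card G).factorization p ≤ (Nat.card H * e).factorization p
    · have := Nat.factorization_eq_zero_of_not_dvd (h2 p hp h)
      omega
    · have := hexp p hp (Nat.dvd_of_factorization_pos (by omega))
      omega
  obtain ⟨B, hB⟩ := H5.IsSupersolvable.hasSubgroupOfEveryOrder
    (H5.isSupersolvable_of_isNilpotent (G := A)) e h5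
  exact ⟨H.prod B, by rw [Nat.card_congr (H.prodEquiv B).toEquiv, Nat.card_prod, hB]⟩

end Cfsg.Agent.S0534
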