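import Cfsg.Statements.S0535
import Cfsg.Agent.H4.System
import Cfsg.Agent.S0006

set_option autoImplicit false
open Cfsg

namespace Cfsg.Agent.S0535

/-- Suppose that for every nontrivial subgroup H of a finite group and every prime p dividing the order of H there is a proper subgroup of H whose index in H is a power of p. Then the group is solvable. -/
theorem result {G : Type*} [Group G] [Finite G] (h : ∀ H : Subgroup G, H ≠ ⊥ → ∀ p : ℕ, p.Prime → p ∣ Nat.card H → ∃ K : Subgroup H, K ≠ ⊤ ∧ ∃ k : ℕ, K.index = p ^ k) : Group.IsSolvable G := by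
  have key : ∀ (p : ℕ), p.Prime → ∀ (n : ℕ) (H : Subgroup G), Nat.card H = n →
      ∃ K : Subgroup G, IsPiHallOf {q | q ≠ p} K H := by
    intro p hp n
    induction n using Nat.strong_induction_on with
    | _ n ih =>
    intro H hH
    by_cases hd : p ∣ Nat.card H
    · have hne : H ≠ ⊥ := by
        rintro rfl
        rw [Subgroup.card_bot] at hd
        exact hp.ne_one (Nat.eq_one_of_dvd_one hd)
      obtain ⟨K, hK, k, hk⟩ := h H hne p hp hd
      obtain ⟨L, hL⟩ := ih _ (by rw [← hH, Subgroup.card_subtype]; exact H4.card_lt_of_ne_top K hK)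
        (K.map H.subtype) rfl
      refine ⟨L, hL.1.trans (Subgroup.map_subtype_le K), hL.2.1, fun q hq hqp hqd => ?_⟩
      rw [← Subgroup.relIndex_mul_relIndex L _ H hL.1 (Subgroup.map_subtype_le K)] at hqd
      rcases (Nat.Prime.dvd_mul hq).mp hqd with h1 | h1
      · exact hL.2.2 q hq hqp h1
      · rw [Subgroup.relIndex, Subgroup.subgroupOf,
          Subgroup.comap_map_eq_self_of_injective H.subtype_injective, hk] at h1
        exact hqp ((Nat.prime_dvd_prime_iff_eq hq hp).mp (hq.dvd_of_dvd_pow h1))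
    · refine ⟨H, le_rfl, fun q _ hqd hqp => hd (hqp ▸ hqd), fun q hq _ hqd => ?_⟩
      rw [Subgroup.relIndex_self] at hqd
      exact hq.ne_one (Nat.eq_one_of_dvd_one hqd)
  refine Cfsg.Agent.S0006.result fun p hp => ?_
  obtain ⟨K, hK⟩ := key p hp _ ⊤ rfl
  exact ⟨K, (H4.isPiHall_compl_iff hp).mp (H4.isPiHallOf_top.mp hK)⟩

end Cfsg.Agent.S0535
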