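import Cfsg.Statements.S0537
import Cfsg.Agent.H4.Schmidt
import Cfsg.Agent.S0055
import Cfsg.Agent.H2.MinNormal

set_option autoImplicit false
open Cfsg

namespace Cfsg.Agent.S0537

/-- A finite non-abelian group in which every proper subgroup is abelian is either of prime-power order, or is generated by a cyclic Sylow p-subgroup and a normal Sylow q-subgroup that is elementary abelian, for distinct primes p and q. -/
theorem result {G : Type*} [Group G] [Finite G] (hna : ¬ IsMulCommutative G) (h : ∀ H : Subgroup G, H ≠ ⊤ → IsMulCommutative H) : (∃ p : ℕ, p.Prime ∧ IsPGroup p G) ∨ ∃ p q : ℕ, p.Prime ∧ q.Prime ∧ p ≠ q ∧ ∃ (P : Sylow p G) (Q : Sylow q G), IsCyclic P ∧ (Q : Subgroup G).Normal ∧ Cfsg.IsElementaryAbelian q (Q : Subgroup G) ∧ (P : Subgroup G) ⊔ Q = ⊤ := by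
  have hnil : ∀ H : Subgroup G, H ≠ ⊤ → Group.IsNilpotent H := fun H hH => by
    have := h H hH
    open scoped IsMulCommutative in infer_instance
  by_cases hG : Group.IsNilpotent G
  · left
    by_contra hne
    push Not at hne
    refine hna (H4.comm_of_nilpotent_of_pgroups_comm fun p hp P => h _ fun htop => hne p hp ?_)
    exact (htop ▸ P.isPGroup').of_surjective (⊤ : Subgroup G).subtype fun x => ⟨⟨x, trivial⟩, rfl⟩
  right
  obtain ⟨p, q, hp, hq, hne, Q, g, hN, hQ, hg, htop, hc⟩ := H4.schmidt_structure hG hnil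
  have := Fact.mk hp
  have := Fact.mk hq
  have hcop : (Nat.card (Subgroup.zpowers g)).Coprime (Nat.card Q) :=
    H4.coprime_card_of_isPGroup hp hq hne (H4.isPGroup_of_isPiSubgroup_singleton hg.1)
      (H4.isPGroup_of_isPiSubgroup_singleton hQ.1)
  have hQne : Q ≠ ⊤ := by
    rintro rfl
    exact hG (Group.isNilpotent_top.mp (H4.isPGroup_of_isPiSubgroup_singleton hQ.1).isNilpotent)
  have hQc := h Q hQne
  have hn : Subgroup.zpowers g ≤ Subgroup.normalizer (Q : Set G) := by
    rw [Subgroup.normalizer_eq_top]; exact le_top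
  obtain ⟨h1, h2⟩ := Cfsg.Agent.S0055.result (Subgroup.zpowers g) Q hn hcop
  -- a `g`-invariant subgroup of `Q` is centralized by `g` or is all of `Q`
  have key : ∀ R : Subgroup G, R ≤ Q → Subgroup.zpowers g ≤ Subgroup.normalizer (R : Set G) →
      R ≤ Subgroup.centralizer (Subgroup.zpowers g : Set G) ∨ R = Q := by
    intro R hR hRn
    by_cases ht : Subgroup.zpowers g ⊔ R = ⊤
    · exact Or.inr (H4.eq_of_le_sup_of_coprime hRn hR (ht ▸ le_top) hcop.symm)
    · left
      intro r hr x hx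
      exact congrArg Subtype.val ((h _ ht).is_comm.comm ⟨x, Subgroup.mem_sup_left hx⟩
        ⟨r, Subgroup.mem_sup_right hr⟩)
  have h3 : ⁅Q, Subgroup.zpowers g⁆ = Q := by
    refine (key _ (Subgroup.commutator_le_left _ _)
      (Subgroup.normalizer_commutator_ge_right _ _)).resolve_left fun hle => hc ?_
    rw [inf_eq_right.mpr (le_inf (Subgroup.commutator_le_left _ _) hle),
      Subgroup.commutator_eq_bot_iff_le_centralizer, Subgroup.le_centralizer_iff] at h1
    exact h1 (Subgroup.mem_zpowers g)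
  rw [h3, inf_eq_left.mpr inf_le_left] at h1
  obtain ⟨R, hRn, hR⟩ := H2.exists_normal_pow_eq_one Q q
  have hRQ : R = Q := by
    refine (key R (fun x hx => ((hR x).mp hx).1)
      (by rw [Subgroup.normalizer_eq_top]; exact le_top)).resolve_left fun hle => ?_
    have hQb : Q ≠ ⊥ := by
      rintro rfl
      exact hc fun x hx => by rw [Subgroup.mem_bot.mp hx, one_mul, mul_one]
    obtain ⟨r, hr, hd⟩ := Nat.exists_prime_and_dvd ((Subgroup.one_lt_card_iff_ne_bot Q).mpr hQb).ne'
    obtain rfl : r = q := hQ.1 r hr hd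
    obtain ⟨x, hx⟩ := exists_prime_orderOf_dvd_card' r hd
    have hxR : (x : G) ∈ R := (hR x).mpr ⟨x.2, by
      rw [← Subgroup.coe_pow, ← hx, pow_orderOf_eq_one, Subgroup.coe_one]⟩
    have : (x : G) ∈ Q ⊓ Subgroup.centralizer (Subgroup.zpowers g : Set G) := ⟨x.2, hle hxR⟩
    rw [h1, Subgroup.mem_bot, OneMemClass.coe_eq_one] at this
    rw [this, orderOf_one] at hx
    exact hr.one_lt.ne hx
  obtain ⟨P, hP⟩ := H4.exists_sylow_of_isPiHall_singleton hg
  obtain ⟨Q, rfl⟩ := H4.exists_sylow_of_isPiHall_singleton hQ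
  exact ⟨p, q, hp, hq, hne, P, Q, by rw [hP]; infer_instance, hN,
    ⟨hQc, fun x hx => ((hR x).mp (hRQ ▸ hx)).2⟩, by rw [hP, htop]⟩

end Cfsg.Agent.S0537
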