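import Cfsg.Statements.S0541
import Cfsg.Agent.H18.Subnormal

set_option autoImplicit false
open Pointwise
open Cfsg

namespace Cfsg.Agent.S0541

/-- Let Z and Y be subgroups of a finite group G and p a prime. Suppose that for every g in G the subgroup generated by the conjugates of g Z g⁻¹ under Y is a p-group. Then there is a Sylow p-subgroup P of G such that Y normalizes the subgroup generated by all conjugates of Z contained in P. -/
theorem result {G : Type*} [Group G] [Finite G] (p : ℕ) [Fact p.Prime] (Z Y : Subgroup G) (h : ∀ g : G, IsPGroup p ↥(⨆ y ∈ Y, MulAut.conj (y * g) • Z)) : ∃ P : Sylow p G, Y ≤ Subgroup.normalizer ((⨆ g ∈ {g : G | MulAut.conj g • Z ≤ (P : Subgroup G)}, MulAut.conj g • Z : Subgroup G) : Set G) := by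
  classical
  let F : Set (Set (Subgroup G)) := {T | (∀ U ∈ T, ∃ g, U = H98.cj g Z) ∧
    (∀ y ∈ Y, ∀ U ∈ T, H98.cj y U ∈ T) ∧ IsPGroup p (sSup T : Subgroup G)}
  obtain ⟨T, hT, hmax⟩ := Set.Finite.exists_maximal (Set.toFinite F)
    ⟨∅, by simp, by simp, by rw [sSup_empty]; exact IsPGroup.of_bot⟩
  obtain ⟨P, hP⟩ := hT.2.2.exists_le_sylow
  have hYT : Y ≤ Subgroup.normalizer ((sSup T : Subgroup G) : Set G) :=
    H18.le_normalizer_sSup fun y hy U hU => le_sSup (hT.2.1 y hy U hU)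
  let S : Set (Subgroup G) := {U | (∃ g, U = H98.cj g Z) ∧ U ≤ P}
  have hTS : T ⊆ S := fun U hU => ⟨hT.1 U hU, (le_sSup hU).trans hP⟩
  have hST : T = S := by
    by_contra hne
    obtain ⟨X, ⟨⟨g, rfl⟩, hXP⟩, hXT, hXn⟩ := H18.exists_mem_normalizer_sSup (H := P) (S := S)
      (fun U hU => H98.subN_of_isPGroup P.isPGroup' hU.2) (by
        rintro _ ⟨⟨g, rfl⟩, hU⟩ x hx
        exact ⟨⟨x * g, H98.cj_cj _ _ _⟩, H98.cj_le_of_le_of_mem hU hx⟩)
      (hTS.ssubset_of_ne hne)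
    let T' : Set (Subgroup G) := T ∪ {U | ∃ y ∈ Y, U = H98.cj (y * g) Z}
    have hT' : T' ∈ F := by
      refine ⟨?_, ?_, ?_⟩
      · rintro U (hU | ⟨y, -, rfl⟩)
        · exact hT.1 U hU
        · exact ⟨_, rfl⟩
      · rintro y hy U (hU | ⟨z, hz, rfl⟩)
        · exact Or.inl (hT.2.1 y hy U hU)
        · exact Or.inr ⟨y * z, mul_mem hy hz, by rw [H98.cj_cj, mul_assoc]⟩
      · have e : sSup {U | ∃ y ∈ Y, U = H98.cj (y * g) Z} = ⨆ y ∈ Y, MulAut.conj (y * g) • Z := by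
          refine le_antisymm (sSup_le ?_) (iSup₂_le fun y hy => le_sSup ⟨y, hy, rfl⟩)
          rintro _ ⟨y, hy, rfl⟩
          exact le_iSup₂_of_le (f := fun y (_ : y ∈ Y) => MulAut.conj (y * g) • Z) y hy le_rfl
        rw [sSup_union, sup_comm]
        refine IsPGroup.to_sup_of_normal_right' (e ▸ h g) hT.2.2 (sSup_le ?_)
        rintro _ ⟨y, hy, rfl⟩
        rw [← H98.cj_cj, ← H98.cj_eq_self (hYT hy), ← H98.cj_normalizer]
        exact H98.cj_mono _ hXn
    exact hXT (hmax hT' Set.subset_union_left (Or.inr ⟨1, one_mem _, by rw [one_mul]⟩))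
  refine ⟨P, ?_⟩
  have e : (⨆ g ∈ {g : G | MulAut.conj g • Z ≤ (P : Subgroup G)}, MulAut.conj g • Z : Subgroup G)
      = sSup T := by
    rw [hST]
    refine le_antisymm (iSup₂_le fun g hg => le_sSup ⟨⟨g, rfl⟩, hg⟩) (sSup_le ?_)
    rintro _ ⟨⟨g, rfl⟩, hg⟩
    exact le_iSup₂_of_le (f := fun g (_ : g ∈ {g : G | MulAut.conj g • Z ≤ (P : Subgroup G)}) =>
      MulAut.conj g • Z) g hg le_rfl
  rw [e]; exact hYT

end Cfsg.Agent.S0541
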