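import Cfsg.Statements.S0548
import Cfsg.Agent.H2.CoreFree
import Cfsg.Agent.H89.Centralizer

set_option autoImplicit false
open Cfsg

namespace Cfsg.Agent.S0548

/-- Let a finite solvable group G act faithfully and primitively on a set, let M be a minimal normal subgroup and H the stabilizer of a point. Then H is a complement to M, no non-identity element of H centralizes M, and the only subgroups of M normalized by H are the trivial subgroup and M. -/
theorem result {G : Type*} [Group G] [Finite G] [Group.IsSolvable G] {Ω : Type*} [MulAction G Ω] [FaithfulSMul G Ω] (hprim : MulAction.IsPreprimitive G Ω) (M : Subgroup G) [M.Normal] (hM : M ≠ ⊥) (hmin : ∀ K : Subgroup G, K.Normal → K ≤ M → K = ⊥ ∨ K = M) (ω : Ω) : Subgroup.IsComplement' M (MulAction.stabilizer G ω) ∧ MulAction.stabilizer G ω ⊓ Subgroup.centralizer (M : Set G) = ⊥ ∧ ∀ K : Subgroup G, K ≤ M → MulAction.stabilizer G ω ≤ Subgroup.normalizer (K : Set G) → K = ⊥ ∨ K = M := by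
  have hc := H2.isMulCommutative_of_minimal_normal hmin
  have ht := H89.isPretransitive_of_normal_of_primitive (Ω := Ω) M hM
  have h1 : MulAction.stabilizer G ω ⊓ Subgroup.centralizer (M : Set G) = ⊥ := by
    rw [eq_bot_iff]
    rintro c ⟨hc1, hc2⟩
    exact H89.eq_one_of_commute_transitive M (fun n hn => hc2 n hn) hc1
  have h2 : M ⊔ MulAction.stabilizer G ω = ⊤ := by
    rw [eq_top_iff]
    intro g _
    obtain ⟨n, hn, s, hs, rfl⟩ := H89.exists_mul_stabilizer_of_transitive M ω g
    exact Subgroup.mul_mem_sup hn hs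
  refine ⟨H2.isComplement'_of_disjoint_of_sup_eq_top ?_ h2, h1, fun K hK hn => hmin K ?_ hK⟩
  · exact ((disjoint_iff.mpr h1).mono_right (Subgroup.le_centralizer M)).symm
  · exact H2.normal_of_sup_eq_top h2 (H2.le_normalizer_of_le_centralizer
      ((Subgroup.le_centralizer M).trans (Subgroup.centralizer_le hK))) hn

end Cfsg.Agent.S0548
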