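import Cfsg.Statements.S0550
import Cfsg.Agent.H2.CoreFree

set_option autoImplicit false
open Cfsg

namespace Cfsg.Agent.S0550

/-- Let U be a maximal subgroup with trivial normal core in a finite group G, and A ≠ B two minimal normal subgroups. Then A is the centralizer of B and B that of A, U complements each of them, A and B are non-abelian, and A, B and (A ⊔ B) ∩ U are pairwise isomorphic. -/
theorem result {G : Type*} [Group G] [Finite G] (U : Subgroup G) (hU : IsCoatom U) (hcore : U.normalCore = ⊥) (A B : Subgroup G) [A.Normal] [B.Normal] (hA : A ≠ ⊥) (hB : B ≠ ⊥) (hAmin : ∀ K : Subgroup G, K.Normal → K ≤ A → K = ⊥ ∨ K = A) (hBmin : ∀ K : Subgroup G, K.Normal → K ≤ B → K = ⊥ ∨ K = B) (hAB : A ≠ B) : Subgroup.centralizer (B : Set G) = A ∧ Subgroup.centralizer (A : Set G) = B ∧ Subgroup.IsComplement' A U ∧ Subgroup.IsComplement' B U ∧ ¬ IsMulCommutative A ∧ Nonempty (A ≃* B) ∧ Nonempty (A ≃* ↥((A ⊔ B) ⊓ U)) := by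
  have hd : Disjoint A B := by
    rcases H2.le_or_disjoint_of_minimal_normal hAmin B with h | h
    · exact absurd ((hBmin A inferInstance h).resolve_left hA) hAB
    · exact h
  obtain ⟨h1, h2, -, ⟨e1⟩⟩ := H2.two_minimal_normal_of_corefree hU hcore A B hA hB hd
  obtain ⟨h3, h4, h5, ⟨e2⟩⟩ := H2.two_minimal_normal_of_corefree hU hcore B A hB hA hd.symm
  have e3 := e2.trans (MulEquiv.subgroupCongr (show (B ⊔ A) ⊓ U = (A ⊔ B) ⊓ U by rw [sup_comm]))
  exact ⟨h1, h3, h2, h4, h5, ⟨e3.trans e1.symm⟩, ⟨e3⟩⟩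

end Cfsg.Agent.S0550
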