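import Cfsg.Statements.S0553
import Cfsg.Agent.H2.MinNormal
import Cfsg.Agent.H3.Frattini
import Cfsg.Agent.H4.HallBasic

set_option autoImplicit false
open Cfsg

namespace Cfsg.Agent.S0553

/-- Let G be a nontrivial finite solvable group in which every maximal subgroup has order coprime to its index. Then for some prime p dividing the order of G the Sylow p-subgroups of G are normal. -/
theorem result {G : Type*} [Group G] [Finite G] [Group.IsSolvable G] [Nontrivial G] (h : ∀ M : Subgroup G, IsCoatom M → (Nat.card M).Coprime M.index) : ∃ p : ℕ, p.Prime ∧ p ∣ Nat.card G ∧ ∀ P : Sylow p G, (P : Subgroup G).Normal := by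
  have hΦ : frattini G ≠ ⊤ := H3.frattini_ne_top
  have : Nontrivial (G ⧸ frattini G) := QuotientGroup.nontrivial_iff.mpr hΦ
  obtain ⟨p, hp, hne⟩ := H2.exists_pCore_ne_bot (G ⧸ frattini G)
  have := Fact.mk hp
  set L := (pCore p (G ⧸ frattini G)).comap (QuotientGroup.mk' (frattini G)) with hL
  have hle : frattini G ≤ L := by
    conv_lhs => rw [← QuotientGroup.ker_mk' (frattini G)]
    exact Subgroup.ker_le_comap _ _
  have hrel : (frattini G).relIndex L = Nat.card (pCore p (G ⧸ frattini G)) := by
    conv_lhs => rw [← QuotientGroup.ker_mk' (frattini G)]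
    rw [Subgroup.relIndex_ker,
      Subgroup.map_comap_eq_self_of_surjective (QuotientGroup.mk'_surjective _)]
  obtain ⟨k, hk⟩ := H2.exists_card_pCore p (G ⧸ frattini G)
  have hLn : Group.IsNilpotent L := by
    refine H3.isNilpotent_of_quotient_le_frattini L (frattini G) hle le_rfl ?_
    refine IsPGroup.isNilpotent (p := p) (IsPGroup.of_card (n := k) ?_)
    rw [← hk, ← hrel]; rfl
  have hex : ∃ q : ℕ, q.Prime ∧ ¬ pCore q G ≤ frattini G := by
    by_contra hcon
    push Not at hcon
    apply hne
    have h1 : L ≤ frattini G := by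
      refine (H2.le_fitting L).trans ?_
      rw [H2.fitting_eq_iSup_pCore]
      exact iSup_le fun q => hcon q q.2
    rw [← Subgroup.map_comap_eq_self_of_surjective (QuotientGroup.mk'_surjective _)
      (pCore p (G ⧸ frattini G)), Subgroup.map_eq_bot_iff, QuotientGroup.ker_mk']
    exact h1
  obtain ⟨q, hq, hq'⟩ := hex
  have := Fact.mk hq
  rw [H3.le_frattini_iff] at hq'
  push Not at hq'
  obtain ⟨M, hM, hle'⟩ := hq'
  have htop : pCore q G ⊔ M = ⊤ := hM.2 _ (right_lt_sup.mpr hle')
  obtain ⟨j, hj⟩ := H2.exists_card_pCore q G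
  have h1 : M.index ∣ q ^ j := by
    have e1 := H4.card_sup_mul_card_inf (pCore q G) M
    rw [htop, Subgroup.card_top, ← M.card_mul_index, mul_assoc, mul_comm _ (Nat.card M)] at e1
    rw [← hj, ← Nat.eq_of_mul_eq_mul_left Nat.card_pos e1]
    exact Dvd.intro _ rfl
  have h2 : q ∣ M.index := by
    obtain ⟨i, -, hi⟩ := (Nat.dvd_prime_pow hq).mp h1
    rw [hi]
    refine dvd_pow_self q ?_
    rintro rfl
    exact hM.1 (Subgroup.index_eq_one.mp hi)
  have h3 : ¬ q ∣ (pCore q G).index := by
    intro hd
    rw [← Subgroup.relIndex_top_right, ← htop, Subgroup.relIndex_sup_left] at hd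
    exact hq.one_lt.ne' (Nat.eq_one_of_dvd_coprimes (h M hM)
      (hd.trans (Subgroup.relIndex_dvd_card _ _)) h2)
  refine ⟨q, hq, h2.trans M.index_dvd_card, fun P => ?_⟩
  rw [H2.sylow_eq_pCore_of_not_dvd_index h3 P]
  infer_instance

end Cfsg.Agent.S0553
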