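import Cfsg.Statements.S0554
import Cfsg.Agent.H2.MinNormal
import Cfsg.Agent.H4.HallBasic

set_option autoImplicit false
open Cfsg

namespace Cfsg.Agent.S0554

/-- Let G be a finite solvable group and let S assign to each of t distinct primes, including every prime divisor of the order of G, a Sylow subgroup of G. Then every element of G is a product s_0 s_1 ⋯ s_(t-1) with s_i in S i, the factors taken in the given order. -/
theorem result {G : Type*} [Group G] [Finite G] [Group.IsSolvable G] (t : ℕ) (p : Fin t → ℕ) (hp : ∀ i, (p i).Prime) (hinj : Function.Injective p) (hall : ∀ q : ℕ, q.Prime → q ∣ Nat.card G → ∃ i, p i = q) (S : (i : Fin t) → Sylow (p i) G) : ∀ g : G, ∃ s : (i : Fin t) → G, (∀ i, s i ∈ (S i : Subgroup G)) ∧ g = (List.ofFn s).prod := by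
  induction hn : Nat.card G using Nat.strong_induction_on generalizing G with
  | _ n ih =>
    intro g
    rcases subsingleton_or_nontrivial G with hG | hG
    · exact ⟨fun _ => 1, fun i => Subgroup.one_mem _, Subsingleton.elim _ _⟩
    obtain ⟨q, hq, hne⟩ := H2.exists_pCore_ne_bot G
    have := Fact.mk hq
    have hqd : q ∣ Nat.card G := by
      by_contra h
      exact hne (H2.pCore_eq_bot_of_not_dvd h)
    obtain ⟨j, rfl⟩ := hall q hq hqd
    set N := pCore (p j) G
    let f := QuotientGroup.mk' N
    have hf : Function.Surjective f := QuotientGroup.mk'_surjective N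
    obtain ⟨s, hs, hg⟩ := ih _ (hn ▸ H4.card_quotient_lt N hne)
      (fun q hq hd => hall q hq (hd.trans (Subgroup.card_quotient_dvd_card N)))
      (fun i => haveI := Fact.mk (hp i); (S i).mapSurjective hf) rfl (f g)
    choose r hr hrs using hs
    have h1 : f (List.ofFn r).prod = f g := by
      rw [hg, map_list_prod, List.map_ofFn]
      congr 2
      funext i
      exact hrs i
    obtain ⟨m, hm, hgm⟩ := (QuotientGroup.mk'_eq_mk' N).mp h1
    set B := ((List.ofFn r).drop (j + 1)).prod
    have hm' : B * m * B⁻¹ ∈ (S j : Subgroup G) :=
      H2.pCore_le_sylow (S j) (Subgroup.Normal.conj_mem inferInstance m hm B)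
    refine ⟨Function.update r j (r j * (B * m * B⁻¹)), fun i => ?_, ?_⟩
    · by_cases h : i = j
      · subst h
        rw [Function.update_self]
        exact Subgroup.mul_mem _ (hr i) hm'
      · rw [Function.update_of_ne h]
        exact hr i
    · have e1 : ∀ a : G, List.ofFn (Function.update r j a) = (List.ofFn r).set j a := by
        intro a
        apply List.ext_getElem
        · simp
        · intro i h1 h2
          simp only [List.getElem_ofFn, List.getElem_set, Function.update_apply, Fin.ext_iff]
          split_ifs with h3 h4 h4
          · rfl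
          · exact absurd h3.symm h4
          · exact absurd h4.symm h3
          · rfl
      have e2 := e1 (r j)
      rw [Function.update_eq_self] at e2
      have e3 : (j : ℕ) < (List.ofFn r).length := by simp
      have e4 := congrArg List.prod e2
      rw [List.prod_set, if_pos e3] at e4
      rw [e1, List.prod_set, if_pos e3, ← hgm, e4]
      change _ * B * m = _ * B
      group

end Cfsg.Agent.S0554
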