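import Cfsg.Statements.S0555
import Cfsg.Agent.H4.HallBasic

set_option autoImplicit false
open Cfsg

namespace Cfsg.Agent.S0555

/-- Let i ≥ 1. If in the derived series of a group the quotient of the i-th term by the (i+1)-st and the quotient of the (i+1)-st by the (i+2)-nd are both cyclic, then the (i+1)-st and (i+2)-nd terms coincide. -/
theorem result {G : Type*} [Group G] (i : ℕ) (hi : 1 ≤ i) (h₁ : IsCyclic (↥(derivedSeries G i) ⧸ (derivedSeries G (i + 1)).subgroupOf (derivedSeries G i))) (h₂ : IsCyclic (↥(derivedSeries G (i + 1)) ⧸ (derivedSeries G (i + 2)).subgroupOf (derivedSeries G (i + 1)))) : derivedSeries G (i + 1) = derivedSeries G (i + 2) := by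
  set A := derivedSeries G (i + 1) with hA
  set B := derivedSeries G (i + 2) with hB
  set C := derivedSeries G i with hC
  have hBA : B ≤ A := derivedSeries_antitone G (by omega)
  have hAC : A ≤ C := derivedSeries_antitone G (by omega)
  have hCG : C ≤ commutator G := by
    rw [← derivedSeries_one]; exact derivedSeries_antitone G hi
  let π := QuotientGroup.mk' B
  have hs := QuotientGroup.mk'_surjective B
  have hAn : (A.map π).Normal := Subgroup.Normal.map inferInstance _ hs
  have hcyc : IsCyclic (A.map π) := by
    have h4 : (π.subgroupMap A).ker = B.subgroupOf A := by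
      ext x
      rw [MonoidHom.mem_ker, Subgroup.mem_subgroupOf, Subtype.ext_iff, ← QuotientGroup.eq_one_iff]
      rfl
    exact isCyclic_of_surjective _ ((QuotientGroup.quotientMulEquivOfEq h4.symm).trans
      (QuotientGroup.quotientKerEquivOfSurjective _ (π.subgroupMap_surjective A))).surjective
  have hcomm : ∀ a b : MulAut (A.map π), a * b = b * a := fun a b =>
    (IsCyclic.mulAutMulEquiv (A.map π)).injective (by rw [map_mul, map_mul, mul_comm])
  have h1 : commutator (G ⧸ B) ≤ (MulAut.conjNormal : G ⧸ B →* MulAut (A.map π)).ker := by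
    rw [commutator_def, Subgroup.commutator_le]
    intro x _ y _
    rw [MonoidHom.mem_ker, map_commutatorElement, commutatorElement_eq_one_iff_mul_comm, hcomm]
  have h2 : ∀ c ∈ C, ∀ a ∈ A, π c * π a = π a * π c := by
    intro c hc a ha
    have h3 : π c ∈ commutator (G ⧸ B) := by
      have := Subgroup.mem_map_of_mem π (hCG hc)
      rw [commutator_def, Subgroup.map_commutator] at this
      exact Subgroup.commutator_mono le_top le_top this
    have h4 := congrArg Subtype.val
      (DFunLike.congr_fun (MonoidHom.mem_ker.mp (h1 h3)) ⟨π a, Subgroup.mem_map_of_mem _ ha⟩)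
    simp only [MulAut.conjNormal_apply, MulAut.one_apply] at h4
    rwa [mul_inv_eq_iff_eq_mul] at h4
  have hle : B.subgroupOf C ≤ A.subgroupOf C := Subgroup.comap_mono hBA
  let f : (C ⧸ B.subgroupOf C) →* (C ⧸ A.subgroupOf C) := QuotientGroup.map _ _ (MonoidHom.id C) hle
  have h5 : IsMulCommutative (C ⧸ B.subgroupOf C) := by
    refine f.isMulCommutative_of_isCyclic_of_ker_le_center ?_
    intro x hx
    obtain ⟨x, rfl⟩ := QuotientGroup.mk_surjective x
    have hxA : (x : G) ∈ A := by
      have hx' : ((x : C) : C ⧸ A.subgroupOf C) = 1 := hx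
      rw [QuotientGroup.eq_one_iff] at hx'
      exact hx'
    rw [Subgroup.mem_center_iff]
    intro y
    obtain ⟨y, rfl⟩ := QuotientGroup.mk_surjective y
    rw [← QuotientGroup.mk_mul, ← QuotientGroup.mk_mul, QuotientGroup.eq, Subgroup.mem_subgroupOf,
      Subgroup.coe_mul, Subgroup.coe_inv, ← QuotientGroup.eq]
    exact h2 y y.2 x hxA
  refine le_antisymm ?_ hBA
  rw [Subgroup.Normal.quotient_commutative_iff_commutator_le] at h5
  have h6 := Subgroup.map_mono (f := C.subtype) h5
  rw [commutator_def, Subgroup.map_commutator, ← MonoidHom.range_eq_map, Subgroup.range_subtype,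
    Subgroup.map_subgroupOf_eq_of_le (hBA.trans hAC)] at h6
  exact h6

end Cfsg.Agent.S0555
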