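import Cfsg.Statements.S0556
import Cfsg.Agent.Base
import Cfsg.Agent.H23.AbelianMax

set_option autoImplicit false
open Cfsg

namespace Cfsg.Agent.S0556

/-- If a finite group has a maximal subgroup that is abelian, then the third term of its derived series is trivial (so the group is solvable of derived length at most three). -/
theorem result {G : Type*} [Group G] [Finite G] (A : Subgroup G) (hA : IsCoatom A) [IsMulCommutative A] : derivedSeries G 3 = ⊥ := by
  exact H23.derivedSeries_three_eq_bot_of_abelian_isCoatom A hA

end Cfsg.Agent.S0556
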