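import Cfsg.Agent.Base
import Cfsg.Statements.S0558
import Cfsg.Agent.H7.Frobenius
import Cfsg.Agent.H2.Fitting

set_option autoImplicit false
open Cfsg

namespace Cfsg.Agent.S0558

open Pointwise

/-- Let H be a subgroup of a finite group G that is not a Sylow subgroup of G for any prime, and suppose that for every prime p dividing the order of H and every Sylow p-subgroup P of H the normalizer of P in G is exactly H. Then some normal subgroup of G is a complement to H. -/
theorem result {G : Type*} [Group G] [Finite G] (H : Subgroup G) (hnot : ∀ p : ℕ, p.Prime → ∀ P : Sylow p G, (P : Subgroup G) ≠ H) (hnorm : ∀ p : ℕ, p.Prime → p ∣ Nat.card H → ∀ P : Sylow p H, Subgroup.normalizer (((P : Subgroup H).map H.subtype : Subgroup G) : Set G) = H) : ∃ N : Subgroup G, N.Normal ∧ Subgroup.IsComplement' N H := by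
  have hA : ∀ (p : ℕ) [Fact p.Prime], p ∣ Nat.card H →
      ∃ P : Sylow p G, (P : Subgroup G) ≤ H ∧ Subgroup.normalizer ((P : Subgroup G) : Set G) = H := by
    intro p hp hd
    obtain ⟨P⟩ : Nonempty (Sylow p H) := inferInstance
    have h1 := H7.isSylowIn_map_subtype P
    have h2 := hnorm p hp.out hd P
    obtain ⟨S, hS⟩ := h1.isPGroup.exists_le_sylow
    have h3 : (P : Subgroup H).map H.subtype = S := by
      by_contra hne
      have h4 := H7.lt_inf_normalizer S.isPGroup' (lt_of_le_of_ne hS hne)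
      rw [h2] at h4
      exact h4.ne' (h1.eq_of_le S.isPGroup'.to_inf_left h4.le inf_le_right)
    exact ⟨S, h3 ▸ h1.le, h3 ▸ h2⟩
  have hB : ∀ (p q : ℕ) [Fact p.Prime] [Fact q.Prime], p ≠ q → ∀ (P : Sylow p G) (Q : Sylow q G),
      (P : Subgroup G) ≤ H → Subgroup.normalizer ((P : Subgroup G) : Set G) = H →
      (Q : Subgroup G) ≤ H → Subgroup.normalizer ((Q : Subgroup G) : Set G) = H →
      (Q : Subgroup G) ≤ Subgroup.centralizer ((P : Subgroup G) : Set G) := by
    intro p q _ _ hpq P Q h1 h2 h3 h4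
    rw [← Subgroup.commutator_eq_bot_iff_le_centralizer, eq_bot_iff,
      ← (IsPGroup.disjoint_of_ne q p hpq.symm _ _ Q.isPGroup' P.isPGroup').eq_bot]
    exact le_inf (Subgroup.le_normalizer_iff_commutator_le_left.1 (h4 ▸ h1))
      (Subgroup.le_normalizer_iff_commutator_le_right.1 (h2 ▸ h3))
  have hNPC : ∀ (p : ℕ) [Fact p.Prime], p ∣ Nat.card H → HasNormalPComplement p G := by
    intro p hp hd
    obtain ⟨P, hPH, hPN⟩ := hA p hd
    have hq : ∃ q : ℕ, q.Prime ∧ q ≠ p ∧ q ∣ Nat.card H := by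
      by_contra h
      push Not at h
      apply hnot p hp.out P
      symm
      apply P.is_maximal' _ hPH
      apply IsPGroup.of_card (n := (Nat.card H).primeFactorsList.length)
      apply Nat.eq_prime_pow_of_unique_prime_dvd Nat.card_pos.ne'
      intro d hd hdd
      by_contra hd2
      exact h d hd hd2 hdd
    obtain ⟨q, hq, hqp, hqd⟩ := hq
    have : Fact q.Prime := ⟨hq⟩
    obtain ⟨Q, hQH, hQN⟩ := hA q hqd
    have hQP := hB p q hqp.symm P Q hPH hPN hQH hQN
    have hC : H ≤ (P : Subgroup G) ⊔ Subgroup.centralizer ((P : Subgroup G) : Set G) := by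
      rw [← Subgroup.relIndex_eq_one]
      by_contra hne
      obtain ⟨r, hr, hrd⟩ := Nat.exists_prime_and_dvd hne
      have : Fact r.Prime := ⟨hr⟩
      obtain ⟨R, hRH, hRN⟩ := hA r (hrd.trans (Subgroup.relIndex_dvd_card _ _))
      have hRle : (R : Subgroup G) ≤ (P : Subgroup G) ⊔ Subgroup.centralizer ((P : Subgroup G) : Set G) := by
        by_cases hrp : r = p
        · subst hrp
          have : (R : Subgroup G) ≤ P :=
            (H7.isSylowIn_top P).le_of_normalizes R.isPGroup' le_top (hPN ▸ hRH)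
          exact this.trans le_sup_left
        · exact (hB p r (Ne.symm hrp) P R hPH hPN hRH hRN).trans le_sup_right
      exact (H7.isSylowIn_of_sylow_le R hRH).not_dvd
        (hrd.trans (Subgroup.relIndex_dvd_of_le_left H hRle))
    apply H7.hasNPC_of_controls_fusion P
    intro x hx g hgx
    have h1 : (Q : Subgroup G) ≤ Subgroup.centralizer {x} :=
      hQP.trans (Subgroup.centralizer_le (Set.singleton_subset_iff.2 hx))
    have h2 : ((g⁻¹ • Q : Sylow q G) : Subgroup G) ≤ Subgroup.centralizer {x} := by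
      rw [Sylow.coe_subgroup_smul, H7.conj_smul_le_iff]
      intro y hy
      rw [Subgroup.mem_centralizer_singleton_iff]
      have := hQP hy _ hgx
      calc g⁻¹ * y * g⁻¹⁻¹ * x = g⁻¹ * (y * (g * x * g⁻¹)) * g := by group
        _ = x * (g⁻¹ * y * g⁻¹⁻¹) := by rw [← this]; group
    obtain ⟨c, hc, hcQ⟩ :=
      (H7.isSylowIn_of_sylow_le Q h1).exists_conj_eq (H7.isSylowIn_of_sylow_le _ h2)
    have h3 : g * c ∈ H := by
      rw [← hQN, ← H7.conj_smul_eq_iff_mem_normalizer, ← H7.conj_smul_conj_smul, hcQ,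
        Sylow.coe_subgroup_smul, H7.conj_smul_conj_smul]
      simp
    obtain ⟨u, hu, d, hd, hud⟩ := (H7.mem_sup_iff_of_le_normalizer
      (Subgroup.centralizer_le_normalizer _)).1 (hC h3)
    refine ⟨u, hu, ?_⟩
    have hc' := Subgroup.mem_centralizer_singleton_iff.1 hc
    have hd' := hd x hx
    calc u * x * u⁻¹ = u * (x * d) * d⁻¹ * u⁻¹ := by group
      _ = (u * d) * x * (u * d)⁻¹ := by rw [hd']; group
      _ = g * (c * x) * c⁻¹ * g⁻¹ := by rw [← hud]; group
      _ = g * x * g⁻¹ := by rw [hc']; group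
  let N : Subgroup G := ⨅ p ∈ (Nat.card H).primeFactors, pResidual p G
  have hN : N.Normal := Subgroup.normal_iInf_normal fun p =>
    Subgroup.normal_iInf_normal fun _ => inferInstance
  refine ⟨N, hN, Subgroup.isComplement'_of_disjoint_and_mul_eq_univ ?_ ?_⟩
  · rw [Subgroup.disjoint_def]
    intro x hxN hxH
    rw [← orderOf_eq_one_iff]
    by_contra hne
    obtain ⟨r, hr, hrd⟩ := Nat.exists_prime_and_dvd hne
    have : Fact r.Prime := ⟨hr⟩
    have hrH : r ∣ Nat.card H := hrd.trans (H.orderOf_dvd_natCard hxH)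
    have h1 : x ∈ pResidual r G := by
      simp only [N, Subgroup.mem_iInf] at hxN
      exact hxN r (Nat.mem_primeFactors.2 ⟨hr, hrH, Nat.card_pos.ne'⟩)
    have h2 := H7.hasNPC_iff_forall_coprime.1 (hNPC r hrH) x h1
    exact hr.one_lt.ne' (Nat.eq_one_of_dvd_coprimes h2 hrd dvd_rfl)
  · rw [← Subgroup.normal_mul, Subgroup.coe_eq_univ]
    apply H2.eq_top_of_forall_sylow_le
    intro r hr _
    by_cases hrH : r ∣ Nat.card H
    · obtain ⟨R, hR, -⟩ := hA r hrH
      exact ⟨R, hR.trans le_sup_right⟩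
    · obtain ⟨R⟩ : Nonempty (Sylow r G) := inferInstance
      refine ⟨R, le_trans ?_ le_sup_left⟩
      refine le_iInf₂ fun p hp => H7.le_pResidual_of_coprime ?_
      obtain ⟨k, hk⟩ := R.isPGroup'.exists_card_eq
      rw [hk]
      apply Nat.Coprime.pow_left
      rw [Nat.coprime_primes hr.out (Nat.prime_of_mem_primeFactors hp)]
      rintro rfl
      exact hrH (Nat.dvd_of_mem_primeFactors hp)

end Cfsg.Agent.S0558
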