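import Cfsg.Statements.S0559
import Cfsg.Agent.H4.HallBasic

set_option autoImplicit false
open Pointwise
open Cfsg

namespace Cfsg.Agent.S0559

/-- Let G = HK be a finite group (every element a product of an element of H and an element of K), and let A and B be conjugates of H and K. Then every element is a product of an element of A and one of B, and there is g with A = gHg⁻¹ and B = gKg⁻¹ simultaneously. -/
theorem result {G : Type*} [Group G] [Finite G] (H K A B : Subgroup G) (hHK : ∀ g : G, ∃ h ∈ H, ∃ k ∈ K, g = h * k) (hA : ∃ x : G, A = MulAut.conj x • H) (hB : ∃ y : G, B = MulAut.conj y • K) : (∀ g : G, ∃ a ∈ A, ∃ b ∈ B, g = a * b) ∧ ∃ g : G, A = MulAut.conj g • H ∧ B = MulAut.conj g • K := by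
  obtain ⟨x, rfl⟩ := hA
  obtain ⟨y, rfl⟩ := hB
  obtain ⟨h, hh, k, hk, he⟩ := hHK (x⁻¹ * y)
  have hx : MulAut.conj x • H = MulAut.conj (x * h) • H := by
    rw [← H4.conj_smul_conj_smul, Subgroup.conj_smul_eq_self_of_mem hh]
  have hy : MulAut.conj y • K = MulAut.conj (x * h) • K := by
    rw [inv_mul_eq_iff_eq_mul] at he
    rw [he, ← mul_assoc, ← H4.conj_smul_conj_smul, Subgroup.conj_smul_eq_self_of_mem hk]
  refine ⟨fun g => ?_, x * h, hx, hy⟩
  obtain ⟨a, ha, b, hb, hab⟩ := hHK ((x * h)⁻¹ * g * (x * h))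
  refine ⟨x * h * a * (x * h)⁻¹, ?_, x * h * b * (x * h)⁻¹, ?_, ?_⟩
  · rw [hx, H4.mem_conj_smul]; simpa [mul_assoc] using ha
  · rw [hy, H4.mem_conj_smul]; simpa [mul_assoc] using hb
  · calc g = x * h * ((x * h)⁻¹ * g * (x * h)) * (x * h)⁻¹ := by group
      _ = _ := by rw [hab]; group

end Cfsg.Agent.S0559
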