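import Cfsg.Statements.S0561
import Cfsg.Agent.H4.SystemQuot

set_option autoImplicit false
open Pointwise
open Cfsg

namespace Cfsg.Agent.S0561

/-- Let the finite solvable group G be the product HK of subgroups, and let A be normal in H and B normal in K, where A and B are Hall subgroups of G (order coprime to index). Then for all x, y the product set of xAx⁻¹ and yBy⁻¹ is a subgroup of G. -/
theorem result {G : Type*} [Group G] [Finite G] [Group.IsSolvable G] (H K A B : Subgroup G) (hHK : ∀ g : G, ∃ h ∈ H, ∃ k ∈ K, g = h * k) (hA : A ≤ H) (hAn : (A.subgroupOf H).Normal) (hB : B ≤ K) (hBn : (B.subgroupOf K).Normal) (hAh : (Nat.card A).Coprime A.index) (hBh : (Nat.card B).Coprime B.index) (x y : G) : ∃ S : Subgroup G, (S : Set G) = ((MulAut.conj x • A : Subgroup G) : Set G) * ((MulAut.conj y • B : Subgroup G) : Set G) := by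
  have hnA : H ≤ Subgroup.normalizer (A : Set G) :=
    (Subgroup.normal_subgroupOf_iff_le_normalizer hA).mp hAn
  have hnB : K ≤ Subgroup.normalizer (B : Set G) :=
    (Subgroup.normal_subgroupOf_iff_le_normalizer hB).mp hBn
  have hAB : (A : Set G) * B = (B : Set G) * A := by
    obtain ⟨L, hL, hAL⟩ := H4.exists_isPiHall_ge
      (π := {p | p ∣ Nat.card A ∨ p ∣ Nat.card B}) (K := A) (fun p _ h => Or.inl h)
    obtain ⟨g, hg⟩ := H4.le_conj_isPiHall hL (K := B) (fun p _ h => Or.inr h)
    obtain ⟨h, hh, k, hk, he⟩ := hHK g⁻¹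
    rw [Subgroup.subset_pointwise_smul_iff, ← map_inv, he, ← H4.conj_smul_conj_smul,
      H4.conj_smul_eq_iff_mem_normalizer.mpr (hnB hk), Subgroup.pointwise_smul_subset_iff,
      ← map_inv] at hg
    have hAL' : A ≤ MulAut.conj h⁻¹ • L := by
      rw [← H4.conj_smul_eq_iff_mem_normalizer.mpr (hnA (H.inv_mem hh))]
      exact Subgroup.pointwise_smul_le_pointwise_smul_iff.mpr hAL
    have hL' := H4.isPiHall_smul hL (MulAut.conj h⁻¹)
    set D := MulAut.conj h⁻¹ • L
    have hcop : (A.relIndex D).Coprime (B.relIndex D) := by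
      apply Nat.coprime_of_dvd
      intro p hp h1 h2
      rcases hL'.1 p hp (h1.trans (Subgroup.relIndex_dvd_card _ _)) with h3 | h3
      · exact hp.one_lt.ne' (Nat.eq_one_of_dvd_coprimes hAh h3
          (h1.trans (Subgroup.relIndex_dvd_index_of_le hAL')))
      · exact hp.one_lt.ne' (Nat.eq_one_of_dvd_coprimes hBh h3
          (h2.trans (Subgroup.relIndex_dvd_index_of_le hg)))
    apply H4.set_mul_comm_of_eq_coe (D := D)
    apply Set.Subset.antisymm
    · intro g hg
      obtain ⟨x, hx, y, hy, rfl⟩ := H4.exists_mul_of_coprime_relIndex hcop hg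
      exact Set.mul_mem_mul hx.1 hy.1
    · rintro _ ⟨x, hx, y, hy, rfl⟩
      exact D.mul_mem (hAL' hx) (hg hy)
  obtain ⟨h, hh, k, hk, he⟩ := hHK (x⁻¹ * y)
  have hx : MulAut.conj x • A = MulAut.conj (x * h) • A := by
    rw [← H4.conj_smul_conj_smul, H4.conj_smul_eq_iff_mem_normalizer.mpr (hnA hh)]
  have hy : MulAut.conj y • B = MulAut.conj (x * h) • B := by
    rw [inv_mul_eq_iff_eq_mul] at he
    rw [he, ← mul_assoc, ← H4.conj_smul_conj_smul,
      H4.conj_smul_eq_iff_mem_normalizer.mpr (hnB hk)]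
  refine ⟨MulAut.conj (x * h) • (A ⊔ B), ?_⟩
  rw [hx, hy, Subgroup.coe_pointwise_smul, Subgroup.coe_pointwise_smul, Subgroup.coe_pointwise_smul,
    H4.coe_sup_of_set_mul_comm hAB, smul_mul']

end Cfsg.Agent.S0561
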