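import Cfsg.Statements.S0563
import Cfsg.Agent.H4.KegelC
import Cfsg.Agent.S0561

set_option autoImplicit false
open Pointwise
open Cfsg

namespace Cfsg.Agent.S0563

/-- If a finite group G is the product AB of two nilpotent subgroups of coprime orders, then G is solvable, and for every Sylow p-subgroup P of A and Sylow q-subgroup Q of B the product set PQ is a subgroup. -/
theorem result {G : Type*} [Group G] [Finite G] (A B : Subgroup G) (hA : Group.IsNilpotent A) (hB : Group.IsNilpotent B) (hcop : (Nat.card A).Coprime (Nat.card B)) (hAB : ∀ g : G, ∃ a ∈ A, ∃ b ∈ B, g = a * b) : Group.IsSolvable G ∧ ∀ (p q : ℕ) [Fact p.Prime] [Fact q.Prime] (P : Sylow p A) (Q : Sylow q B), ∃ S : Subgroup G, (S : Set G) = (((P : Subgroup A).map A.subtype : Subgroup G) : Set G) * (((Q : Subgroup B).map B.subtype : Subgroup G) : Set G) := by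
  have hs := H4.kegel_wielandt hA hB hAB
  refine ⟨hs, fun p q _ _ P Q => ?_⟩
  have key : ∀ (A B : Subgroup G), (Nat.card A).Coprime (Nat.card B) → H4.Fact2 A B →
      ∀ (p : ℕ) [Fact p.Prime] (P : Sylow p A),
      (Nat.card ((P : Subgroup A).map A.subtype)).Coprime ((P : Subgroup A).map A.subtype).index := by
    intro A B hcop hf p _ P
    rw [Subgroup.index_map_subtype, Subgroup.card_subtype]
    exact P.card_coprime_index.mul_right ((hcop.coprime_dvd_left
      (Subgroup.card_subgroup_dvd_card _)).coprime_dvd_right hf.index_dvd)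
  have := Cfsg.Agent.S0561.result A B _ _ hAB (Subgroup.map_subtype_le (P : Subgroup A))
    (Subgroup.normal_subgroupOf_of_le_normalizer (H4.le_normalizer_map_subtype _))
    (Subgroup.map_subtype_le (Q : Subgroup B))
    (Subgroup.normal_subgroupOf_of_le_normalizer (H4.le_normalizer_map_subtype _))
    (key A B hcop hAB p P) (key B A hcop.symm (H4.Fact2.symm hAB) q Q) 1 1
  simpa only [H4.conj_one_smul] using this

end Cfsg.Agent.S0563
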