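import Cfsg.Statements.S0567
import Cfsg.Agent.H98.Subnormal

set_option autoImplicit false
open Cfsg

namespace Cfsg.Agent.S0567

/-- A subgroup H of a group G is subnormal exactly when, for some m, the subgroup obtained from G by taking the commutator with H m times in succession is contained in H. -/
theorem result {G : Type*} [Group G] (H : Subgroup G) : H.IsSubnormal ↔ ∃ m : ℕ, (fun K : Subgroup G => ⁅K, H⁆)^[m] ⊤ ≤ H := by
  constructor
  · intro h
    have key : ∀ K : Subgroup G, H98.SubN K ⊤ → H ≤ K →
        ∃ m : ℕ, (fun K : Subgroup G => ⁅K, H⁆)^[m] ⊤ ≤ K := by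
      intro K hK
      induction hK with
      | refl => exact fun _ => ⟨0, le_top⟩
      | step K L h1 h2 h3 ih =>
        intro hH
        obtain ⟨m, hm⟩ := ih (hH.trans h1)
        refine ⟨m + 1, ?_⟩
        rw [Function.iterate_succ_apply']
        exact (Subgroup.commutator_mono hm hH).trans (H98.commutator_le_right' h2)
    exact key H (H98.subN_top_iff.2 h) le_rfl
  · rintro ⟨m, hm⟩
    have key : ∀ m : ℕ, H98.SubN (H ⊔ (fun K : Subgroup G => ⁅K, H⁆)^[m] ⊤) ⊤ := by
      intro m
      induction m with
      | zero => simpa using H98.SubN.refl ⊤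
      | succ m ih =>
        rw [Function.iterate_succ_apply']
        set K := (fun K : Subgroup G => ⁅K, H⁆)^[m] ⊤
        refine H98.SubNIn.trans (H98.SubN.of_normal (sup_le le_sup_left
          (H98.commutator_le_of_le le_sup_right le_sup_left)) (sup_le
            (H98.le_normalizer_of_le le_sup_left) ?_)) ih
        refine H98.le_normalizer_of_commutator_le (A := H ⊔ ⁅K, H⁆) ?_ le_rfl
        refine H98.commutator_sup_left_le (H98.le_normalizer_of_le le_sup_left)
          (H98.le_normalizer_of_le le_sup_right) ?_ ?_
        · rw [Subgroup.commutator_comm]; exact le_sup_right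
        · exact (H98.commutator_le_left' (Subgroup.normalizer_commutator_ge_left _ _)).trans
            le_sup_right
    have := key m
    rw [sup_eq_left.2 hm] at this
    exact H98.subN_top_iff.1 this

end Cfsg.Agent.S0567
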