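import Cfsg.Statements.S0571
import Cfsg.Agent.H4.FactorAb
import Cfsg.Agent.H5.Supersolv

set_option autoImplicit false
open Cfsg

namespace Cfsg.Agent.S0571

universe u

theorem aux (n : ℕ) : ∀ (G : Type u) [Group G] [Finite G], Nat.card G = n →
    ∀ A B : Subgroup G, IsCyclic A → IsCyclic B → H4.Fact2 A B → Cfsg.IsSupersolvable G := by
  induction n using Nat.strong_induction_on with
  | _ n ih =>
  intro G _ _ hG A B hA hB hf
  rcases subsingleton_or_nontrivial G with hs | hs
  · exact H5.isSupersolvable_of_isNilpotent
  have := hA.isMulCommutative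
  have := hB.isMulCommutative
  obtain ⟨N, hN, hb, hle⟩ := H4.exists_normal_le_of_abelian_factors hf
  have : IsCyclic N := hle.elim (fun h => Subgroup.isCyclic_of_le h)
    (fun h => Subgroup.isCyclic_of_le h)
  exact H5.isSupersolvable_of_cyclic_normal N (ih _ (hG ▸ H4.card_quotient_lt N hb) (G ⧸ N) rfl _ _
    (isCyclic_of_surjective _ ((QuotientGroup.mk' N).subgroupMap_surjective A))
    (isCyclic_of_surjective _ ((QuotientGroup.mk' N).subgroupMap_surjective B))
    (hf.map _ (QuotientGroup.mk'_surjective N)))


/-- If a finite group G is the product AB of two cyclic subgroups (every element is a product ab), then G is supersolvable. -/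
theorem result {G : Type*} [Group G] [Finite G] (A B : Subgroup G) [IsCyclic A] [IsCyclic B] (hAB : ∀ g : G, ∃ a ∈ A, ∃ b ∈ B, g = a * b) : Cfsg.IsSupersolvable G := by
  exact aux _ G rfl A B inferInstance inferInstance hAB

end Cfsg.Agent.S0571
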