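import Cfsg.Statements.S0574
import Cfsg.Agent.H4.FactorAb

set_option autoImplicit false
open Cfsg

namespace Cfsg.Agent.S0574

universe u

open H4

/-- If `G = V A` with `A` abelian and `V` a minimal normal elementary abelian subgroup containing
`G'`, then nilpotent subgroups are abelian. -/
theorem comm_of_nilpotent {G : Type u} [Group G] [Finite G] {V A B : Subgroup G} [V.Normal]
    [IsMulCommutative A] [Group.IsSolvable V] (hb : V ≠ ⊥)
    (hmin : ∀ K : Subgroup G, K.Normal → K ≤ V → K = ⊥ ∨ K = V) (hA : V ⊔ A = ⊤)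
    (hV : commutator G ≤ V) [Group.IsNilpotent B] : IsMulCommutative B := by
  obtain ⟨p, hp, hexp⟩ := minimal_normal_exponent hb hmin
  have hVp := isPGroup_of_exponent hexp
  have hVc := minimal_normal_comm hb hmin
  obtain ⟨P, hP⟩ := exists_sylowOf hp A
  have := H2.isNilpotent_of_isMulCommutative A
  have hPV := le_centralizer_minimal_normal_of_supplement hp hVp hmin hA
    (isPGroup_of_isPiSubgroup_singleton hP.2.1) (le_normalizer_isPiHallOf_of_nilpotent hP)
  have hS : IsPiHall {p} (V ⊔ P) := isPiHall_sup_of_normal (F := V)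
    ⟨le_rfl, isPiSubgroup_of_isPGroup hp hVp rfl, fun q hq _ hd => by
      rw [Subgroup.relIndex_self] at hd
      exact hq.ne_one (Nat.eq_one_of_dvd_one hd)⟩ hP hA
  have hSn : (V ⊔ P).Normal := Subgroup.Normal.of_commutator_le G (hV.trans le_sup_left)
  have hSc : V ⊔ P ≤ Subgroup.centralizer ((V ⊔ P : Subgroup G) : Set G) := by
    refine sup_le ?_ ?_ <;> rw [Subgroup.le_centralizer_iff]
    · exact sup_le (fun a ha b hb => comm_of_mem hb ha) hPV
    · exact sup_le (Subgroup.le_centralizer_iff.mp hPV)
        fun a ha b hb => comm_of_mem (hP.1 hb) (hP.1 ha)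
  refine comm_of_nilpotent_of_pgroups_comm fun s hs S => ⟨⟨fun a b => ?_⟩⟩
  have hS' : IsPGroup s ((S : Subgroup B).map B.subtype) := S.isPGroup'.map _
  have ha : ((a : B) : G) ∈ (S : Subgroup B).map B.subtype := Subgroup.mem_map_of_mem _ a.2
  have hb : ((b : B) : G) ∈ (S : Subgroup B).map B.subtype := Subgroup.mem_map_of_mem _ b.2
  refine Subtype.ext (Subtype.ext ?_)
  change ((a : B) : G) * ((b : B) : G) = ((b : B) : G) * ((a : B) : G)
  by_cases hsp : s = p
  · subst hsp
    have h4 := le_isPiHall_of_le_normalizer hS (isPiSubgroup_of_isPGroup hs hS' rfl)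
      (by rw [Subgroup.normalizer_eq_top]; exact le_top)
    exact hSc (h4 hb) _ (h4 ha)
  · rw [← commutatorElement_eq_one_iff_mul_comm, ← Subgroup.mem_bot,
      ← (Subgroup.disjoint_of_coprime_natCard (coprime_card_of_isPGroup hs hp hsp hS' hVp)).eq_bot]
    exact Subgroup.mem_inf.mpr ⟨Subgroup.commutator_le_self _
      (Subgroup.commutator_mem_commutator ha hb),
      hV (Subgroup.commutator_mem_commutator trivial trivial)⟩

/-- If `G = A B = A ⟨b^G⟩` with `b ∈ B'`, `A` abelian and `B` nilpotent, then `b = 1`. -/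
theorem eq_one_of_sup_normalClosure {G : Type u} [Group G] [Finite G] {A B : Subgroup G}
    [IsMulCommutative A] [Group.IsNilpotent B] (hf : Fact2 A B) {b : G} (hb : b ∈ ⁅B, B⁆)
    (h : Subgroup.normalClosure {b} ⊔ A = ⊤) : b = 1 := by
  by_contra hb1
  have := kegel_wielandt (H2.isNilpotent_of_isMulCommutative A) inferInstance hf
  set V := Subgroup.normalClosure ({b} : Set G)
  have hbV : b ∈ V := Subgroup.subset_normalClosure rfl
  obtain ⟨M, hM, -, hlt, hch⟩ := H2.exists_chief_factor_below (A := ⊥) (B := V)
    (bot_lt_iff_ne_bot.mpr (ne_bot_of_mem hbV hb1))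
  have hs := QuotientGroup.mk'_surjective M
  have hVn : (V.map (QuotientGroup.mk' M)).Normal := Subgroup.Normal.map inferInstance _ hs
  have hAc : IsMulCommutative (A.map (QuotientGroup.mk' M)) := inferInstance
  have hsup : V.map (QuotientGroup.mk' M) ⊔ A.map (QuotientGroup.mk' M) = ⊤ := by
    rw [← Subgroup.map_sup, h, Subgroup.map_top_of_surjective _ hs]
  have hBn := isNilpotent_map B (QuotientGroup.mk' M)
  have hc : IsMulCommutative (B.map (QuotientGroup.mk' M)) := by
    refine comm_of_nilpotent (V := V.map (QuotientGroup.mk' M)) ?_ (fun K hK hle => ?_) hsup ?_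
    · rw [Ne, Subgroup.map_eq_bot_iff, QuotientGroup.ker_mk']
      exact hlt.not_ge
    · have h2 : K.comap (QuotientGroup.mk' M) ≤ V := by
        have := Subgroup.comap_mono (f := QuotientGroup.mk' M) hle
        rwa [Subgroup.comap_map_eq, QuotientGroup.ker_mk', sup_eq_left.mpr hlt.le] at this
      rcases hch _ inferInstance (QuotientGroup.le_comap_mk' M K) h2 with h3 | h3
      · left
        rw [← Subgroup.map_comap_eq_self_of_surjective hs K, h3, Subgroup.map_eq_bot_iff,
          QuotientGroup.ker_mk']
      · right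
        rw [← h3, Subgroup.map_comap_eq_self_of_surjective hs K]
    · rw [← Subgroup.Normal.quotient_commutative_iff_commutator_le]
      refine ⟨⟨fun x y => ?_⟩⟩
      have key : ∀ x : (G ⧸ M) ⧸ V.map (QuotientGroup.mk' M), x ∈ (A.map (QuotientGroup.mk' M)).map
          (QuotientGroup.mk' (V.map (QuotientGroup.mk' M))) := by
        intro x
        have h3 := congrArg (Subgroup.map (QuotientGroup.mk' (V.map (QuotientGroup.mk' M)))) hsup
        have h0 : (V.map (QuotientGroup.mk' M)).map
            (QuotientGroup.mk' (V.map (QuotientGroup.mk' M))) = ⊥ := by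
          rw [Subgroup.map_eq_bot_iff, QuotientGroup.ker_mk']
        rw [Subgroup.map_sup, h0,
          bot_sup_eq, Subgroup.map_top_of_surjective _ (QuotientGroup.mk'_surjective _)] at h3
        rw [h3]; trivial
      exact comm_of_mem (key x) (key y)
  have h1 : ⁅B, B⁆ ≤ M := by
    rw [← QuotientGroup.ker_mk' M, ← Subgroup.map_eq_bot_iff, Subgroup.map_commutator,
      Subgroup.commutator_eq_bot_iff_le_centralizer]
    exact fun x hx y hy => comm_of_mem hy hx
  exact hlt.not_ge (Subgroup.normalClosure_le_normal (Set.singleton_subset_iff.mpr (h1 hb)))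

theorem aux (k : ℕ) : ∀ (G : Type u) [Group G] [Finite G] (A B : Subgroup G), IsMulCommutative A →
    ⁅B, B⁆ ≤ Subgroup.centralizer (B : Set G) → Fact2 A B →
    (Nat.card (⁅B, B⁆ : Subgroup G)).primeFactorsList.length ≤ k →
    derivedSeries G (2 * (1 + k)) = ⊥ := by
  induction k with
  | zero =>
    intro G _ _ A B hA hB hf hk
    rw [Nat.le_zero, List.length_eq_zero_iff, Nat.primeFactorsList_eq_nil] at hk
    have h1 := Subgroup.card_eq_one.mp (hk.resolve_left Nat.card_pos.ne')
    rw [Subgroup.commutator_eq_bot_iff_le_centralizer] at h1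
    have : IsMulCommutative B := ⟨⟨fun a b => Subtype.ext (h1 b.2 a a.2)⟩⟩
    exact Cfsg.Agent.S0572.result A B hf
  | succ k ih =>
    intro G _ _ A B hA hB hf hk
    by_cases hb : ⁅B, B⁆ = ⊥
    · have := ih G A B hA hB hf (by rw [hb, Subgroup.card_bot]; simp)
      exact eq_bot_iff.mpr (this ▸ derivedSeries_antitone G (by omega))
    have hBn : Group.IsNilpotent B := by
      refine Subgroup.isNilpotent_of_lowerCentralSeries_eq_bot (n := 2) ?_
      change ⁅⁅B, B⁆, B⁆ = ⊥
      rwa [Subgroup.commutator_eq_bot_iff_le_centralizer]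
    obtain ⟨H, ⟨hAH, hH⟩, hmin⟩ := H2.exists_minimal_subgroup
      (fun H : Subgroup G => A ≤ H ∧ H ⊓ ⁅B, B⁆ ≠ ⊥) ⟨⊤, le_top, by rwa [top_inf_eq]⟩
    have hfH := hf.subgroupOf_left hAH
    have hc : IsMulCommutative (B.subgroupOf H) := by
      suffices ⁅B.subgroupOf H, B.subgroupOf H⁆ = ⊥ by
        rw [Subgroup.commutator_eq_bot_iff_le_centralizer] at this
        exact ⟨⟨fun a b => Subtype.ext (this b.2 a a.2)⟩⟩
      rw [eq_bot_iff]
      intro b hb'
      by_contra hb1
      have := isNilpotent_subgroupOf B H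
      refine hb1 (eq_one_of_sup_normalClosure hfH hb' ?_)
      apply Subgroup.map_injective H.subtype_injective
      rw [← MonoidHom.range_eq_map, Subgroup.range_subtype]
      refine hmin _ ⟨?_, ne_bot_of_mem (x := (b : G)) ⟨Subgroup.mem_map_of_mem _
        (Subgroup.mem_sup_left (Subgroup.subset_normalClosure rfl)), ?_⟩ ?_⟩
        (Subgroup.map_subtype_le _)
      · rw [Subgroup.map_sup, Subgroup.map_subgroupOf_eq_of_le hAH]
        exact le_sup_right
      · have := Subgroup.mem_map_of_mem H.subtype hb'
        rw [Subgroup.map_commutator, Subgroup.subgroupOf_map_subtype] at this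
        exact Subgroup.commutator_mono inf_le_left inf_le_left this
      · exact fun h => hb1 (Subtype.ext h)
    have h2 := Cfsg.Agent.S0572.result _ _ hfH
    obtain ⟨b, hb', hb1⟩ := exists_ne_one_of_ne_bot hH
    set K := Subgroup.normalClosure ((Subgroup.zpowers b : Subgroup G) : Set G)
    have hKH : K ≤ H := normalClosure_le_of_factor (hf.symm.mono le_rfl hAH)
      ((Subgroup.le_centralizer_iff.mp (((Subgroup.zpowers_le (G := G)).mpr hb'.2).trans hB)).trans
        (Subgroup.centralizer_le_normalizer _)) (g := 1)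
      (by rw [conj_one_smul]; exact (Subgroup.zpowers_le (G := G)).mpr hb'.1)
    have hs := QuotientGroup.mk'_surjective K
    have h3 := ih (G ⧸ K) (A.map (QuotientGroup.mk' K)) (B.map (QuotientGroup.mk' K)) inferInstance
      (by
        rw [← Subgroup.commutator_eq_bot_iff_le_centralizer] at hB ⊢
        rw [← Subgroup.map_commutator, ← Subgroup.map_commutator, hB, Subgroup.map_bot])
      (hf.map _ hs) (by
        rw [← Subgroup.map_commutator]
        rw [card_eq_card_map_mul_card_inf ⁅B, B⁆ K,
          (Nat.perm_primeFactorsList_mul Nat.card_pos.ne' Nat.card_pos.ne').length_eq,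
          List.length_append] at hk
        have : (Nat.card (K ⊓ ⁅B, B⁆ : Subgroup G)).primeFactorsList.length ≠ 0 := by
          rw [Ne, List.length_eq_zero_iff, Nat.primeFactorsList_eq_nil, not_or,
            Subgroup.card_eq_one]
          exact ⟨Nat.card_pos.ne', ne_bot_of_mem (x := b)
            ⟨Subgroup.subset_normalClosure (Subgroup.mem_zpowers b), hb'.2⟩ hb1⟩
        omega)
    rw [← map_derivedSeries_eq hs, Subgroup.map_eq_bot_iff, QuotientGroup.ker_mk'] at h3
    have h4 := congrArg (Subgroup.map H.subtype) h2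
    rw [derivedSeries_succ, derivedSeries_succ, derivedSeries_zero, Subgroup.map_commutator,
      Subgroup.map_commutator, ← MonoidHom.range_eq_map, Subgroup.range_subtype,
      Subgroup.map_bot] at h4
    rw [show 2 * (1 + (k + 1)) = 2 * (1 + k) + 1 + 1 by ring, derivedSeries_succ,
      derivedSeries_succ, eq_bot_iff, ← h4]
    have h5 := Subgroup.commutator_mono (h3.trans hKH) (h3.trans hKH)
    exact Subgroup.commutator_mono h5 h5


/-- Let the finite group G be the product AB of an abelian subgroup A and a subgroup B of nilpotency class at most two, and let Ω be the number of prime factors, with multiplicity, of the order of the commutator subgroup of B. Then the term of index 2(1 + Ω) of the derived series of G is trivial. -/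
theorem result {G : Type*} [Group G] [Finite G] (A B : Subgroup G) [IsMulCommutative A] (hB : commutator ↥B ≤ Subgroup.center ↥B) (hAB : ∀ g : G, ∃ a ∈ A, ∃ b ∈ B, g = a * b) : derivedSeries G (2 * (1 + (Nat.card ↥(commutator ↥B)).primeFactorsList.length)) = ⊥ := by
  have h1 : (commutator B).map B.subtype = ⁅B, B⁆ := by
    rw [commutator_def, Subgroup.map_commutator, ← MonoidHom.range_eq_map, Subgroup.range_subtype]
  refine aux _ G A B inferInstance ?_ hAB (by rw [← h1, Subgroup.card_subtype])
  rw [← h1]
  rintro _ ⟨x, hx, rfl⟩ y hy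
  exact congrArg Subtype.val (Subgroup.mem_center_iff.mp (hB hx) ⟨y, hy⟩)

end Cfsg.Agent.S0574
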