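import Cfsg.Statements.S0577
import Cfsg.Agent.H4.Schmidt
import Cfsg.Agent.S0027
import Cfsg.Agent.H2.MinNormal

set_option autoImplicit false
open Cfsg

namespace Cfsg.Agent.S0577

/-- Let G be a finite minimal non-nilpotent group and Q a normal Sylow q-subgroup of G, and let D be the commutator subgroup of Q regarded in G (a normal subgroup). Then G modulo D is non-abelian and all its proper subgroups are abelian. -/
theorem result {G : Type*} [Group G] [Finite G] (hG : Cfsg.IsMinimalNonNilpotent G) (q : ℕ) [Fact q.Prime] (hq : q ∣ Nat.card G) (Q : Sylow q G) (hQ : (Q : Subgroup G).Normal) (D : Subgroup G) [D.Normal] (hD : D = (commutator ↥(Q : Subgroup G)).map (Q : Subgroup G).subtype) : ¬ IsMulCommutative (G ⧸ D) ∧ ∀ K : Subgroup (G ⧸ D), K ≠ ⊤ → IsMulCommutative K := by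
  obtain ⟨p, r, hp, hr, hne, R, g, hN, hR, hg, htop, hc⟩ := H4.schmidt_structure hG.1 hG.2
  have hq' : q.Prime := Fact.out
  have hcop : (Nat.card (Subgroup.zpowers g)).Coprime (Nat.card R) :=
    H4.coprime_card_of_isPGroup hp hr hne (H4.isPGroup_of_isPiSubgroup_singleton hg.1)
      (H4.isPGroup_of_isPiSubgroup_singleton hR.1)
  have hQh := H4.isPiHall_singleton_sylow Q
  have hqr : q = r := by
    by_contra hqr
    have hqp : q = p := by
      by_contra hqp
      rw [← R.card_mul_index] at hq
      rcases (Nat.Prime.dvd_mul hq').mp hq with h | h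
      · exact hqr (hR.1 q hq' h)
      · have h1 := H4.card_sup_mul_card_inf R (Subgroup.zpowers g)
        rw [sup_comm, htop, (Subgroup.disjoint_of_coprime_natCard hcop.symm).eq_bot,
          Subgroup.card_bot, mul_one, Subgroup.card_top, ← R.card_mul_index] at h1
        rw [Nat.eq_of_mul_eq_mul_left Nat.card_pos h1] at h
        exact hqp (hg.1 q hq' h)
    subst hqp
    have h1 : Subgroup.zpowers g ≤ Q := H4.le_isPiHall_of_le_normalizer hQh hg.1
      (by rw [Subgroup.normalizer_eq_top]; exact le_top)
    apply hc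
    intro x hx
    exact (Subgroup.commute_of_normal_of_disjoint _ _ hN hQ (Subgroup.disjoint_of_coprime_natCard
      (H4.coprime_card_of_isPGroup hr hp hne.symm (H4.isPGroup_of_isPiSubgroup_singleton hR.1)
        Q.isPGroup')) x g hx (h1 (Subgroup.mem_zpowers g)))
  subst hqr
  obtain rfl : R = Q := H4.eq_of_isPiHall_of_le hR hQh.1 (H4.le_isPiHall_of_normal hQh hR.1)
  have hD' : D = ⁅(Q : Subgroup G), (Q : Subgroup G)⁆ := by
    rw [hD, commutator_def, Subgroup.map_commutator, ← MonoidHom.range_eq_map,
      Subgroup.range_subtype]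
  have hn : Subgroup.zpowers g ≤ Subgroup.normalizer ((Q : Subgroup G) : Set G) := by
    rw [Subgroup.normalizer_eq_top]; exact le_top
  have hQs : Group.IsSolvable (Q : Subgroup G) := by
    have := Q.isPGroup'.isNilpotent
    infer_instance
  have hs := QuotientGroup.mk'_surjective D
  constructor
  · intro hcomm
    rw [Subgroup.Normal.quotient_commutative_iff_commutator_le] at hcomm
    have h1 := Cfsg.Agent.S0027.result (Subgroup.zpowers g) Q hn hcop (Or.inr hQs)
    have h2 : ⁅(Q : Subgroup G), Subgroup.zpowers g⁆ = Q := by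
      by_cases ht : Subgroup.zpowers g ⊔ ⁅(Q : Subgroup G), Subgroup.zpowers g⁆ = ⊤
      · exact H4.eq_of_le_sup_of_coprime (Subgroup.normalizer_commutator_ge_right _ _)
          (Subgroup.commutator_le_left _ _) (ht ▸ le_top) hcop.symm
      · exfalso
        have := hG.2 _ ht
        have h3 := H4.le_centralizer_of_nilpotent le_sup_right le_sup_left
          (L := Subgroup.zpowers g ⊔ ⁅(Q : Subgroup G), Subgroup.zpowers g⁆)
          (hcop.symm.coprime_dvd_left (Subgroup.card_dvd_of_le (Subgroup.commutator_le_left _ _)))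
        rw [← Subgroup.commutator_eq_bot_iff_le_centralizer, h1,
          Subgroup.commutator_eq_bot_iff_le_centralizer, Subgroup.le_centralizer_iff] at h3
        exact hc (h3 (Subgroup.mem_zpowers g))
    have h3 : (Q : Subgroup G) ≤ ⁅(Q : Subgroup G), (Q : Subgroup G)⁆ := by
      rw [← hD']
      refine le_trans ?_ hcomm
      rw [← h2]
      exact Subgroup.commutator_mono le_top le_top
    exact (H2.commutator_lt_of_isSolvable (Q.ne_bot_of_dvd_card hq)).not_ge h3
  · intro K hK
    have h1 : K.comap (QuotientGroup.mk' D) ≠ ⊤ := fun h => hK (by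
      rw [← Subgroup.map_comap_eq_self_of_surjective hs K, h, Subgroup.map_top_of_surjective _ hs])
    have h2 := hG.2 _ h1
    have h3 : Group.IsNilpotent K := by
      rw [← Subgroup.map_comap_eq_self_of_surjective hs K]
      exact H4.isNilpotent_map _ _
    have hQn : ((Q : Subgroup G).map (QuotientGroup.mk' D)).Normal := hQ.map _ hs
    have hQb := H4.isPiHall_map_of_surjective hQh _ hs
    refine H4.comm_of_nilpotent_of_pgroups_comm fun s hs' S => ⟨⟨fun a b => ?_⟩⟩
    have hS : IsPGroup s ((S : Subgroup K).map K.subtype) := S.isPGroup'.map _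
    have ha : ((a : K) : G ⧸ D) ∈ (S : Subgroup K).map K.subtype := Subgroup.mem_map_of_mem _ a.2
    have hb : ((b : K) : G ⧸ D) ∈ (S : Subgroup K).map K.subtype := Subgroup.mem_map_of_mem _ b.2
    refine Subtype.ext (Subtype.ext ?_)
    change ((a : K) : G ⧸ D) * ((b : K) : G ⧸ D) = ((b : K) : G ⧸ D) * ((a : K) : G ⧸ D)
    rw [← commutatorElement_eq_one_iff_mul_comm, ← Subgroup.mem_bot]
    by_cases hsq : s = q
    · subst hsq
      have h4 := H4.le_isPiHall_of_le_normalizer hQb (H4.isPiSubgroup_of_isPGroup hs' hS rfl)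
        (by rw [Subgroup.normalizer_eq_top]; exact le_top)
      have h5 := Subgroup.commutator_mem_commutator (h4 ha) (h4 hb)
      rwa [← Subgroup.map_commutator, ← hD',
        (Subgroup.map_eq_bot_iff D).mpr (by rw [QuotientGroup.ker_mk'])] at h5
    · rw [← (Subgroup.disjoint_of_coprime_natCard (H4.coprime_card_of_isPGroup hs' hq' hsq hS
        (Q.isPGroup'.map (QuotientGroup.mk' D)))).eq_bot]
      refine Subgroup.mem_inf.mpr ⟨?_, ?_⟩
      · exact Subgroup.commutator_le_self _ (Subgroup.commutator_mem_commutator ha hb)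
      · have h4 := Subgroup.map_mono (f := QuotientGroup.mk' D) (H4.commutator_le_of_zpowers_sup htop)
        rw [commutator_def, Subgroup.map_commutator, Subgroup.map_top_of_surjective _ hs] at h4
        exact h4 (Subgroup.commutator_mem_commutator trivial trivial)

end Cfsg.Agent.S0577
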