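import Cfsg.Statements.S0578
import Cfsg.Agent.H4.Schmidt
import Cfsg.Agent.H1.Cocycle

set_option autoImplicit false
open Cfsg

namespace Cfsg.Agent.S0578

/-- If in a finite group the normalizer of each abelian subgroup coincides with its centralizer, then the group is abelian. -/
theorem result {G : Type*} [Group G] [Finite G] (h : ∀ A : Subgroup G, IsMulCommutative A → Subgroup.normalizer (A : Set G) = Subgroup.centralizer (A : Set G)) : IsMulCommutative G := by
  have key : ∀ (n : ℕ) (H : Subgroup G), Nat.card H = n → IsMulCommutative H := by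
    intro n
    induction n using Nat.strong_induction_on with
    | _ n ih =>
    intro H hH
    have h1 : ∀ K : Subgroup H, K ≠ ⊤ → IsMulCommutative (K.map H.subtype) := fun K hK =>
      ih _ (by rw [← hH, Subgroup.card_subtype]; exact H4.card_lt_of_ne_top K hK) _ rfl
    have h2 : ∀ K : Subgroup H, K ≠ ⊤ → IsMulCommutative K := fun K hK =>
      ⟨⟨fun a b => Subtype.ext (Subtype.ext (congrArg (fun z : K.map H.subtype => (z : G))
        ((h1 K hK).is_comm.comm
        ⟨_, Subgroup.mem_map_of_mem _ a.2⟩ ⟨_, Subgroup.mem_map_of_mem _ b.2⟩)))⟩⟩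
    have : Group.IsSolvable H := H4.solvable_of_proper_nilpotent fun K hK => by
      have := h2 K hK
      open scoped IsMulCommutative in infer_instance
    rcases subsingleton_or_nontrivial H with hs | hs
    · exact ⟨⟨fun a b => Subsingleton.elim _ _⟩⟩
    obtain ⟨M, hM, hp⟩ := H1.exists_normal_prime_index H
    have hne : M ≠ ⊤ := by
      rintro rfl
      rw [Subgroup.index_top] at hp
      exact Nat.not_prime_one hp
    have := Fact.mk hp
    have : IsCyclic (H ⧸ M) := isCyclic_of_prime_card (p := M.index) rfl
    refine (QuotientGroup.mk' M).isMulCommutative_of_isCyclic_of_ker_le_center ?_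
    rw [QuotientGroup.ker_mk']
    intro m hm
    rw [Subgroup.mem_center_iff]
    intro x
    have h3 : (x : G) ∈ Subgroup.normalizer ((M.map H.subtype : Subgroup G) : Set G) := by
      rw [← H4.conj_smul_eq_iff_mem_normalizer]
      have := H4.map_conj_smul H.subtype x M
      rw [hM.conj_smul_eq_self] at this
      exact this.symm
    rw [h _ (h1 M hne)] at h3
    exact Subtype.ext (h3 m (Subgroup.mem_map_of_mem _ hm)).symm
  have := key _ ⊤ rfl
  exact ⟨⟨fun a b => congrArg Subtype.val (this.is_comm.comm ⟨a, trivial⟩ ⟨b, trivial⟩)⟩⟩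

end Cfsg.Agent.S0578
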