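import Cfsg.Statements.S0582
import Cfsg.Agent.H4.WielandtHall
import Cfsg.Agent.H5.Supersolv
import Cfsg.Agent.H23.Tower

set_option autoImplicit false
open Pointwise
open Cfsg

namespace Cfsg.Agent.S0582

universe u

theorem exists_normal_sylow {G : Type u} [Group G] [Finite G] {H : Subgroup G}
    (hH : Cfsg.IsSupersolvable H) {p : ℕ}
    (hmax : ∀ q : ℕ, q.Prime → q ∣ Nat.card H → q ≤ p) :
    ∃ P : Subgroup G, IsPiHallOf {p} P H ∧ H ≤ Subgroup.normalizer (P : Set G) := by
  obtain ⟨Q, hn, hQ⟩ := H23.exists_normal_isPiHall_ge_of_isSupersolvable hH p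
  refine ⟨Q.map H.subtype, H4.isPiHallOf_map_subtype ⟨fun q hq hd => le_antisymm
    (hmax q hq (hd.trans (Subgroup.card_subgroup_dvd_card Q))) (hQ.1 q hq hd),
    fun q hq hqp => hQ.2 q hq (le_of_eq hqp.symm)⟩, H4.le_normalizer_map_subtype Q⟩

theorem aux (π : Set ℕ) (n : ℕ) : ∀ (G : Type u) [Group G] [Finite G], Nat.card G = n →
    ∀ H K : Subgroup G, Cfsg.IsSupersolvable H → Cfsg.IsSupersolvable K → IsPiHall π H →
      IsPiHall π K → ∃ x : G, MulAut.conj x • H = K := by
  induction n using Nat.strong_induction_on with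
  | _ n ih =>
  intro G _ _ hG H K hH hK h1 h2
  have hc := H4.card_eq_of_isPiHall h1 h2
  by_cases hb : Nat.card K = 1
  · rw [Subgroup.card_eq_one.mp hb, Subgroup.card_eq_one.mp (hc.trans hb)]
    exact ⟨1, H4.conj_one_smul _⟩
  have hne : (Nat.card K).primeFactors.Nonempty :=
    Nat.nonempty_primeFactors.mpr (lt_of_le_of_ne Nat.card_pos (Ne.symm hb))
  obtain ⟨p, hpm, hmax⟩ := Finset.exists_max_image _ id hne
  have hp := Nat.prime_of_mem_primeFactors hpm
  have hd := Nat.dvd_of_mem_primeFactors hpm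
  have hmax' : ∀ q : ℕ, q.Prime → q ∣ Nat.card K → q ≤ p := fun q hq hqd =>
    hmax q (Nat.mem_primeFactors.mpr ⟨hq, hqd, Nat.card_pos.ne'⟩)
  obtain ⟨P, hP, hPn⟩ := exists_normal_sylow hH (hc ▸ hmax')
  obtain ⟨Q, hQ, hQn⟩ := exists_normal_sylow hK hmax'
  have hπ : p ∈ π := h2.1 p hp hd
  obtain ⟨g, -, hg⟩ := H4.sylowOf_conj hp (H4.isPiHallOf_top.mpr
    (H4.isPiHall_of_isPiHallOf hP fun q hq hqp => h1.2 q hq (hqp ▸ hπ)))
    (H4.isPiHallOf_top.mpr (H4.isPiHall_of_isPiHallOf hQ fun q hq hqp => h2.2 q hq (hqp ▸ hπ)))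
  set L := Subgroup.normalizer (Q : Set G) with hL
  have hHL : MulAut.conj g • H ≤ L := by
    rw [hL, ← hg, H4.normalizer_conj_smul]
    exact Subgroup.pointwise_smul_le_pointwise_smul_iff.mpr hPn
  have hQH : Q ≤ MulAut.conj g • H := by
    rw [← hg]; exact Subgroup.pointwise_smul_le_pointwise_smul_iff.mpr hP.1
  have hQb : Q.subgroupOf L ≠ ⊥ := by
    rw [Ne, ← Subgroup.card_eq_one, H4.card_subgroupOf_of_le Subgroup.le_normalizer,
      Subgroup.card_eq_one]
    rintro rfl
    exact hQ.2.2 p hp rfl (by rwa [Subgroup.relIndex_bot_left])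
  have hs := QuotientGroup.mk'_surjective (Q.subgroupOf L)
  have hss : ∀ X : Subgroup G, X ≤ L → Cfsg.IsSupersolvable X →
      Cfsg.IsSupersolvable ((X.subgroupOf L).map (QuotientGroup.mk' (Q.subgroupOf L))) :=
    fun X hX h => H5.IsSupersolvable.of_surjective (H5.IsSupersolvable.of_equiv h
      (Subgroup.subgroupOfEquivOfLe hX).symm) _ (MonoidHom.subgroupMap_surjective _ _)
  obtain ⟨x, hx⟩ := ih _ (lt_of_lt_of_le (H4.card_quotient_lt _ hQb)
      (hG ▸ Subgroup.card_le_card_group L)) (L ⧸ Q.subgroupOf L) rfl _ _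
    (hss _ hHL (H5.IsSupersolvable.of_surjective hH _
      ((MulAut.conj g).toMonoidHom.subgroupMap_surjective H))) (hss _ hQn hK)
    (H4.isPiHall_map_of_surjective (H4.isPiHall_subgroupOf_of_le (H4.isPiHall_smul h1 _) hHL) _ hs)
    (H4.isPiHall_map_of_surjective (H4.isPiHall_subgroupOf_of_le h2 hQn) _ hs)
  obtain ⟨x, rfl⟩ := hs x
  have h3 := congrArg (Subgroup.comap (QuotientGroup.mk' (Q.subgroupOf L))) hx
  rw [H4.comap_conj_smul, Subgroup.comap_map_eq, Subgroup.comap_map_eq, QuotientGroup.ker_mk',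
    sup_eq_left.mpr (Subgroup.subgroupOf_mono L hQH), sup_eq_left.mpr (Subgroup.subgroupOf_mono L hQ.1)] at h3
  have h4 := congrArg (Subgroup.map L.subtype) h3
  rw [H4.map_conj_smul, Subgroup.map_subgroupOf_eq_of_le hHL,
    Subgroup.map_subgroupOf_eq_of_le hQn, H4.conj_smul_conj_smul] at h4
  exact ⟨_, h4⟩


/-- Let H and K be supersolvable subgroups of a finite group G of the same order, that order being coprime to their index. Then H and K are conjugate in G. -/
theorem result {G : Type*} [Group G] [Finite G] (H K : Subgroup G) (hH : Cfsg.IsSupersolvable H) (hK : Cfsg.IsSupersolvable K) (hcard : Nat.card H = Nat.card K) (hHall : (Nat.card H).Coprime H.index) : ∃ x : G, MulAut.conj x • H = K := by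
  have h1 := H4.isPiHall_of_coprime hHall
  refine aux _ _ G rfl H K hH hK h1 ⟨fun p _ hd => hcard ▸ hd, ?_⟩
  have h2 : H.index = K.index := Nat.eq_of_mul_eq_mul_left (Nat.card_pos (α := H))
    (H.card_mul_index.trans (by rw [hcard, K.card_mul_index]))
  rw [← h2]
  exact h1.2

end Cfsg.Agent.S0582
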