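import Cfsg.Statements.S0587
import Cfsg.Agent.H2.CoreFree

set_option autoImplicit false
open Cfsg

namespace Cfsg.Agent.S0587

/-- Let G be a finite group whose largest normal p-subgroup L is nontrivial, and M a maximal subgroup of G with trivial normal core. Then L is elementary abelian, M is a complement to L, L is a minimal normal subgroup of G, the centralizer of L is L, and for every prime q such that the largest normal q-subgroup of M is nontrivial, the order of L is congruent to 1 modulo q and q ≠ p. -/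
theorem result {G : Type*} [Group G] [Finite G] (p : ℕ) [Fact p.Prime] (hL : Cfsg.pCore p G ≠ ⊥) (M : Subgroup G) (hM : IsCoatom M) (hcore : M.normalCore = ⊥) : Cfsg.IsElementaryAbelian p (Cfsg.pCore p G) ∧ Subgroup.IsComplement' (Cfsg.pCore p G) M ∧ (∀ K : Subgroup G, K.Normal → K ≤ Cfsg.pCore p G → K = ⊥ ∨ K = Cfsg.pCore p G) ∧ Subgroup.centralizer ((Cfsg.pCore p G : Subgroup G) : Set G) = Cfsg.pCore p G ∧ ∀ (q : ℕ) [Fact q.Prime], Cfsg.pCore q ↥M ≠ ⊥ → Nat.card (Cfsg.pCore p G) % q = 1 % q ∧ q ≠ p := by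
  have := H2.pCore_isNilpotent p G
  obtain ⟨h1, h2, h3⟩ := H2.nilpotent_normal_of_corefree hM hcore _ hL
  refine ⟨H2.isElementaryAbelian_of_minimal_normal (H2.pCore_isPGroup p G) h3, h2, h3, h1, ?_⟩
  intro q hq hne
  have h4 := H2.card_pCore_modEq_one_of_corefree hM hcore _ hL hne
  refine ⟨h4, ?_⟩
  rintro rfl
  rcases (H2.pCore_isPGroup q G).card_eq_or_dvd with h | h
  · exact hL (Subgroup.card_eq_one.mp h)
  · exact hq.out.one_lt.ne' (Nat.dvd_one.mp ((h4.dvd_iff dvd_rfl).mp h))

end Cfsg.Agent.S0587
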