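import Cfsg.Agent.Base
import Cfsg.Statements.S0588

set_option autoImplicit false
open Cfsg

namespace Cfsg.Agent.S0588

/-- If a subgroup H of a finite group G contains the centralizer of every non-identity element of H, then the order of H is coprime to its index. -/
theorem result {G : Type*} [Group G] [Finite G] (H : Subgroup G) (h : ∀ x ∈ H, x ≠ 1 → Subgroup.centralizer ({x} : Set G) ≤ H) : (Nat.card H).Coprime H.index := by
  apply Nat.Coprime.symm
  apply Nat.coprime_of_dvd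
  intro p hp hpi hpH
  have : Fact p.Prime := ⟨hp⟩
  obtain ⟨Q⟩ : Nonempty (Sylow p H) := inferInstance
  have hQ : (Q : Subgroup H) ≠ ⊥ := Q.ne_bot_of_dvd_card hpH
  obtain ⟨P, hP⟩ := (Q.isPGroup'.map H.subtype).exists_le_sylow
  obtain ⟨⟨⟨y, hyH⟩, hyQ⟩, hy1⟩ := Subgroup.ne_bot_iff_exists_ne_one.1 hQ
  have hy1' : y ≠ 1 := fun h0 => hy1 (Subtype.ext (Subtype.ext h0))
  have hyP : y ∈ (P : Subgroup G) := hP ⟨⟨y, hyH⟩, hyQ, rfl⟩
  have : Nontrivial P := ⟨⟨⟨y, hyP⟩, 1, fun h0 => hy1' (congrArg Subtype.val h0)⟩⟩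
  have := P.isPGroup'.center_nontrivial
  obtain ⟨⟨z, hz⟩, hz1⟩ := exists_ne (1 : Subgroup.center P)
  have hz1' : (z : G) ≠ 1 := fun h0 => hz1 (Subtype.ext (Subtype.ext h0))
  have hzH : (z : G) ∈ H := by
    apply h y hyH hy1'
    rw [Subgroup.mem_centralizer_singleton_iff]
    exact (congrArg Subtype.val (Subgroup.mem_center_iff.1 hz ⟨y, hyP⟩)).symm
  have hPH : (P : Subgroup G) ≤ H := by
    intro x hx
    apply h z hzH hz1'
    rw [Subgroup.mem_centralizer_singleton_iff]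
    exact congrArg Subtype.val (Subgroup.mem_center_iff.1 hz ⟨x, hx⟩)
  exact P.not_dvd_index (hpi.trans (Subgroup.index_dvd_of_le hPH))

end Cfsg.Agent.S0588
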