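import Cfsg.Statements.S0590
import Cfsg.Agent.H11.QuadAct

set_option autoImplicit false
open Cfsg

namespace Cfsg.Agent.S0590

/-- Quadratic action on an elementary abelian p-group forces the acting group modulo the kernel of the action to be elementary abelian. -/
theorem result {G : Type*} [Group G] [Finite G] {p : ℕ} [Fact p.Prime] (V H : Subgroup G) (hV : Cfsg.IsElementaryAbelian p V) (hHV : H ≤ Subgroup.normalizer (V : Set G)) (hq : ⁅⁅V, H⁆, H⁆ = ⊥) : ⁅H, H⁆ ≤ Subgroup.centralizer (V : Set G) ∧ ∀ a ∈ H, a ^ p ∈ Subgroup.centralizer (V : Set G) := by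
  constructor
  · rw [← Subgroup.commutator_eq_bot_iff_le_centralizer]
    exact Subgroup.commutator_commutator_eq_bot_of_rotate
      (by rwa [Subgroup.commutator_comm H V]) hq
  · intro a ha v hv
    have hz : Subgroup.zpowers a ≤ H := Subgroup.zpowers_le.mpr ha
    have h1 := H11.quad_elem (V := V) (a := a) (eq_bot_iff.mpr (hq ▸
      Subgroup.commutator_mono (Subgroup.commutator_mono le_rfl hz) hz)) hv
    set c := a * v * a⁻¹ * v⁻¹ with hc
    have hcV : c ∈ V := V.mul_mem ((Subgroup.mem_normalizer_iff.mp (hHV ha) v).mp hv) (V.inv_mem hv)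
    have hca : Commute a c := mul_inv_eq_iff_eq_mul.mp h1
    have key : ∀ n : ℕ, a ^ n * v = c ^ n * v * a ^ n := by
      intro n
      induction n with
      | zero => simp
      | succ n ih =>
        have e : a * v = c * v * a := by rw [hc]; group
        rw [pow_succ' a, mul_assoc, ih, ← mul_assoc, ← mul_assoc, (hca.pow_right n).eq,
          mul_assoc (c ^ n), e, pow_succ c]
        simp only [mul_assoc]
    rw [key p, hV.2 c hcV, one_mul]

end Cfsg.Agent.S0590
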