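import Cfsg.Statements.S0591
import Cfsg.Agent.H11.QuadAct

set_option autoImplicit false
open Cfsg

namespace Cfsg.Agent.S0591

/-- For a quadratically acting element a on an elementary abelian p-group V, the fixed points C_V(a) have order at least the square root of the order of V. -/
theorem result {G : Type*} [Group G] [Finite G] {p : ℕ} [Fact p.Prime] (V : Subgroup G) (hV : Cfsg.IsElementaryAbelian p V) (a : G) (ha : a ∈ Subgroup.normalizer (V : Set G)) (hq : ⁅⁅V, Subgroup.zpowers a⁆, Subgroup.zpowers a⁆ = ⊥) : Nat.card V ≤ Nat.card ↥(V ⊓ Subgroup.centralizer (Subgroup.zpowers a : Set G)) ^ 2 := by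
  have hc := hV.1.is_comm.comm
  have hm : ∀ v ∈ V, a * v * a⁻¹ ∈ V := fun v hv => (Subgroup.mem_normalizer_iff.mp ha v).mp hv
  let f : V →* G := MonoidHom.mk' (fun v => a * v * a⁻¹ * (v : G)⁻¹) (by
    intro v w
    have e1 := congrArg Subtype.val (hc v⁻¹ ⟨_, V.mul_mem (hm w w.2) (V.inv_mem w.2)⟩)
    simp only [Subgroup.coe_mul, Subgroup.coe_inv] at e1 ⊢
    rw [mul_assoc _ (v : G)⁻¹, e1]
    group)
  have hcen : ∀ x : G, x ∈ Subgroup.centralizer (Subgroup.zpowers a : Set G) ↔ a * x = x * a := by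
    intro x
    constructor
    · exact fun h => h a (Subgroup.mem_zpowers a)
    · rintro h _ ⟨k, rfl⟩
      exact (Commute.zpow_left h k).eq
  have h1 : f.range ≤ V ⊓ Subgroup.centralizer (Subgroup.zpowers a : Set G) := by
    rintro _ ⟨v, rfl⟩
    exact ⟨V.mul_mem (hm v v.2) (V.inv_mem v.2),
      (hcen _).mpr (mul_inv_eq_iff_eq_mul.mp (H11.quad_elem hq v.2))⟩
  have h2 : f.ker.map V.subtype ≤ V ⊓ Subgroup.centralizer (Subgroup.zpowers a : Set G) := by
    rintro _ ⟨v, hv, rfl⟩
    refine ⟨v.2, (hcen _).mpr ?_⟩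
    have : a * v * a⁻¹ * (v : G)⁻¹ = 1 := hv
    rwa [mul_inv_eq_one, mul_inv_eq_iff_eq_mul] at this
  have h3 := Subgroup.card_le_of_le h1
  have h4 := Subgroup.card_le_of_le h2
  rw [Subgroup.card_map_of_injective V.subtype_injective] at h4
  rw [← f.ker.card_mul_index, Subgroup.index_ker, sq]
  exact Nat.mul_le_mul h4 h3

end Cfsg.Agent.S0591
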