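import Cfsg.Statements.S0592
import Cfsg.Agent.H11.QuadCore

set_option autoImplicit false
open Cfsg

namespace Cfsg.Agent.S0592

/-- Two quadratically acting generators of a linear group that is not a p-group, with the p'-part of the order of their product dividing q - 1, give a homomorphism onto a subgroup of SL(2, q) that is not a p-group. -/
theorem result {K : Type*} [Field K] [Fintype K] {p : ℕ} [Fact p.Prime] [CharP K p] {W : Type*} [AddCommGroup W] [Module K W] [FiniteDimensional K W] [Finite W] [Nontrivial W] (H : Subgroup (W ≃ₗ[K] W)) (a b : W ≃ₗ[K] W) (hH : H = Subgroup.closure {a, b}) (ha : ∀ w : W, a (a w - w) = a w - w) (hb : ∀ w : W, b (b w - w) = b w - w) (hnp : ¬ IsPGroup p H) (hk : ∃ e k : ℕ, orderOf (a * b) = p ^ e * k ∧ k ∣ Fintype.card K - 1) : ∃ φ : H →* Matrix.SpecialLinearGroup (Fin 2) K, ¬ IsPGroup p φ.range := by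
  classical
  have hpp : p.Prime := Fact.out
  let σ : (W ≃ₗ[K] W) →* Module.End K W := LinearEquiv.automorphismGroup.toLinearMapMonoidHom
  have hσ : ∀ g w, σ g w = g w := fun _ _ => rfl
  have hq : ∀ c : W ≃ₗ[K] W, (∀ w, c (c w - w) = c w - w) → (σ c - 1) * (σ c - 1) = 0 := by
    intro c hc
    refine LinearMap.ext fun w => ?_
    simp only [Module.End.mul_apply, LinearMap.sub_apply, Module.End.one_apply, hσ, hc, sub_self,
      LinearMap.zero_apply]
  have hR : (p : Module.End K W) = 0 := by
    rw [← map_natCast (algebraMap K _)]; simp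
  set α := σ a - 1 with hα
  set β := σ b - 1 with hβ
  have qa : α * α = 0 := hq a ha
  have qb : β * β = 0 := hq b hb
  set c := σ (a * b) with hc
  have hcd : c * (α * β + β * α) = (c - 1) * (c - 1) := by
    have e1 : c = (1 + α) * (1 + β) := by rw [hc, map_mul, hα, hβ]; simp
    have e2 : c * ((1 - β) * (1 - α)) = 1 := by
      rw [e1, mul_assoc, ← mul_assoc (1 + β)]
      have : (1 + β) * (1 - β) = 1 := by rw [mul_sub, mul_one, add_mul, qb]; simp
      rw [this, one_mul, mul_sub, mul_one, add_mul, qa]; simp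
    have e3 : α * β + β * α = c + (1 - β) * (1 - α) - (1 + 1) := by
      rw [e1]; noncomm_ring
    rw [e3, mul_sub, mul_add, e2]; noncomm_ring
  have hcu : IsUnit c := (Group.isUnit (a * b)).map σ
  have hd : ¬ IsNilpotent (α * β + β * α) := by
    intro hd
    apply hnp
    intro h
    obtain ⟨k, hk⟩ := H11.pow_prime_pow_eq_one_of_nilpotent hpp hR
      (H11.nilpotent_of_quad σ qa qb hd (h := h.1) (by rw [← hH]; exact h.2))
    refine ⟨k, Subtype.ext (LinearEquiv.ext fun w => ?_)⟩
    rw [← map_pow] at hk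
    exact LinearMap.congr_fun hk w
  obtain ⟨e, k, hek, hk⟩ := hk
  have hq1 : Fintype.card K - 1 ≠ 0 := by have := Fintype.one_lt_card (α := K); omega
  obtain ⟨μ, hμ1, w, hw0, hw⟩ : ∃ μ : K, μ ≠ 1 ∧ ∃ w : W, w ≠ 0 ∧ c w = μ • w := by
    by_contra hcon
    push Not at hcon
    apply hd
    have hu : ∀ μ : K, μ ≠ 1 → IsUnit (c - algebraMap K _ μ) := by
      intro μ hμ
      rw [LinearMap.isUnit_iff_ker_eq_bot, LinearMap.ker_eq_bot']
      intro w hw
      by_contra h0
      apply hcon μ hμ w h0
      simpa [sub_eq_zero] using hw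
    have h1 : c ^ (p ^ e * (Fintype.card K - 1)) = 1 := by
      obtain ⟨j, hj⟩ := hk
      rw [hc, ← map_pow, hj, ← mul_assoc, ← hek, pow_mul, pow_orderOf_eq_one, one_pow, map_one]
    have h2 : IsNilpotent (c ^ Fintype.card K - c) := by
      have : CharP (Module.End K W) p := charP_of_injective_algebraMap
        (algebraMap K (Module.End K W)).injective p
      refine ⟨p ^ e, ?_⟩
      rw [sub_pow_char_pow_of_commute _ _ ((Commute.refl c).pow_left _), ← pow_mul, sub_eq_zero]
      have : Fintype.card K * p ^ e = p ^ e * (Fintype.card K - 1) + p ^ e := by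
        obtain ⟨m, hm⟩ : ∃ m, Fintype.card K = m + 1 := ⟨Fintype.card K - 1, by omega⟩
        rw [hm, Nat.add_sub_cancel]; ring
      rw [this, pow_add, h1, one_mul]
    have h3 : (Polynomial.X ^ Fintype.card K - Polynomial.X : Polynomial K) =
        (Polynomial.X - Polynomial.C 1) *
          ∏ μ ∈ Finset.univ.erase 1, (Polynomial.X - Polynomial.C μ) := by
      rw [Finset.mul_prod_erase Finset.univ (fun μ : K => Polynomial.X - Polynomial.C μ)
        (Finset.mem_univ 1)]
      have hm : (Polynomial.X ^ Fintype.card K - Polynomial.X : Polynomial K).Monic :=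
        Polynomial.monic_X_pow_sub (by
          rw [Polynomial.degree_X]; exact_mod_cast Fintype.one_lt_card)
      have := Polynomial.prod_multiset_X_sub_C_of_monic_of_roots_card_eq hm (by
        rw [FiniteField.roots_X_pow_card_sub_X,
          FiniteField.X_pow_card_sub_X_natDegree_eq K Fintype.one_lt_card]; rfl)
      rw [FiniteField.roots_X_pow_card_sub_X] at this
      exact this.symm
    have h4 : IsUnit (Polynomial.aeval c
        (∏ μ ∈ Finset.univ.erase (1 : K), (Polynomial.X - Polynomial.C μ))) := by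
      refine Finset.prod_induction _ (fun f => IsUnit (Polynomial.aeval c f)) ?_ (by simp) ?_
      · intro f g hf hg; rw [map_mul]; exact hf.mul hg
      · intro μ hμ
        simpa using hu μ (Finset.ne_of_mem_erase hμ)
    have h5 := congrArg (Polynomial.aeval c) h3
    simp only [map_sub, map_pow, Polynomial.aeval_X, map_mul, map_one] at h5
    have hcomm : Commute (c - 1) (Polynomial.aeval c
        (∏ μ ∈ Finset.univ.erase (1 : K), (Polynomial.X - Polynomial.C μ))) := by
      have := (Commute.all (Polynomial.X - 1 : Polynomial K)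
        (∏ μ ∈ Finset.univ.erase (1 : K), (Polynomial.X - Polynomial.C μ))).map (Polynomial.aeval c)
      simpa using this
    rw [h5, h4.isNilpotent_mul_unit_of_commute_iff hcomm] at h2
    have h6 : IsNilpotent (c * (α * β + β * α)) := by
      rw [hcd]; exact (Commute.refl _).isNilpotent_mul_left h2
    have hcomm2 : Commute c (α * β + β * α) := by
      apply hcu.mul_left_cancel
      rw [← mul_assoc c _ c, hcd]; noncomm_ring
    exact (hcu.isNilpotent_unit_mul_of_commute_iff hcomm2.symm).mp h6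
  have hμ0 : μ ≠ 0 := by
    rintro rfl
    rw [zero_smul] at hw
    exact hw0 ((a * b).injective (hw.trans (map_zero _).symm))
  set lam := (μ - 1) ^ 2 / μ with hlam
  have hl : lam ≠ 0 := div_ne_zero (pow_ne_zero 2 (sub_ne_zero.mpr hμ1)) hμ0
  have hdw : (α * β + β * α) w = lam • w := by
    apply (a * b).injective
    change c _ = c _
    rw [← Module.End.mul_apply, hcd, map_smul, hw, smul_smul]
    simp only [Module.End.mul_apply, LinearMap.sub_apply, Module.End.one_apply, map_sub, hw,
      map_smul]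
    rw [hlam, div_mul_cancel₀ _ hμ0]
    module
  obtain ⟨v, hv0, hv, hαv⟩ : ∃ v : W, v ≠ 0 ∧ (α * β + β * α) v = lam • v ∧ α v = 0 := by
    by_cases h : α w = 0
    · exact ⟨w, hw0, hdw, h⟩
    · refine ⟨α w, h, ?_, LinearMap.congr_fun qa w⟩
      have : (α * β + β * α) * α = α * (α * β + β * α) := by
        rw [add_mul, mul_add, mul_assoc β, ← mul_assoc α α, qa]; simp [mul_assoc]
      rw [← Module.End.mul_apply, this, Module.End.mul_apply, hdw, map_smul]
  obtain ⟨ι, hι, -, e1, e2⟩ := H11.exists_iota α.toAddMonoidHom β.toAddMonoidHom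
    (LinearMap.toSpanSingleton K W v).toAddMonoidHom (smul_left_injective K hv0) lam hl
    (fun s => by simp [hαv])
    (fun s => by
      simp only [LinearMap.add_apply, Module.End.mul_apply, hαv, map_zero, add_zero] at hv
      simp [hv, smul_smul, mul_comm])
    (fun w => LinearMap.congr_fun qb w)
  obtain ⟨L, ψ, hL, hψ⟩ := H11.exists_relHom (fun (g : W ≃ₗ[K] W) (w : W) => g w) (by simp) (by simp)
    (fun (m : Matrix.SpecialLinearGroup (Fin 2) K) (x : Fin 2 → K) =>
      (m : Matrix (Fin 2) (Fin 2) K).mulVec x)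
    (by simp) (fun g h x => (Matrix.mulVec_mulVec x _ _).symm)
    (fun m m' h => Subtype.ext (Matrix.ext_of_mulVec_single fun i => h _)) ι hι
  have f1 : ∀ x, a (ι x) = ι ((H11.uMat lam).1.mulVec x) := fun x => by
    rw [← e1]; simp [hα, hσ]
  have f2 : ∀ x, b (ι x) = ι ((H11.lMat (1 : K)).1.mulVec x) := fun x => by
    rw [← e2]; simp [hβ, hσ]
  have haL : a ∈ L := (hL a).mpr ⟨_, f1⟩
  have hbL : b ∈ L := (hL b).mpr ⟨_, f2⟩
  have hHL : H ≤ L := by
    rw [hH, Subgroup.closure_le]
    rintro _ (rfl | rfl) <;> assumption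
  have haH : a ∈ H := hH ▸ Subgroup.subset_closure (Or.inl rfl)
  have hbH : b ∈ H := hH ▸ Subgroup.subset_closure (Or.inr rfl)
  refine ⟨ψ.comp (Subgroup.inclusion hHL), fun hP => ?_⟩
  have g1 : ψ ⟨a, haL⟩ = H11.uMat lam :=
    Subtype.ext (Matrix.ext_of_mulVec_single fun i => hι ((hψ ⟨a, haL⟩ _).symm.trans (f1 _)))
  have g2 : ψ ⟨b, hbL⟩ = H11.lMat 1 :=
    Subtype.ext (Matrix.ext_of_mulVec_single fun i => hι ((hψ ⟨b, hbL⟩ _).symm.trans (f2 _)))
  obtain ⟨n, hn⟩ := hP ⟨_, ⟨a, haH⟩ * ⟨b, hbH⟩, rfl⟩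
  have hn' : (ψ (⟨a, haL⟩ * ⟨b, hbL⟩)) ^ p ^ n = 1 := congrArg Subtype.val hn
  rw [map_mul, g1, g2] at hn'
  have := H11.tr_eq_two_of_pow_eq_one p hn'
  rw [H11.tr_uMat_mul, H11.tr_lMat] at this
  exact hl (by simpa using this)

end Cfsg.Agent.S0592
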