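import Cfsg.Statements.S0593
import Cfsg.Agent.H11.QuadAct

set_option autoImplicit false
open Cfsg

namespace Cfsg.Agent.S0593

/-- For odd p, a faithful group on an elementary abelian p-group generated by two quadratically acting elements is a p-group or has non-abelian Sylow 2-subgroups. -/
theorem result {G : Type*} [Group G] [Finite G] {p : ℕ} [Fact p.Prime] (hp : p ≠ 2) (V H : Subgroup G) (hV : Cfsg.IsElementaryAbelian p V) (hHV : H ≤ Subgroup.normalizer (V : Set G)) (hf : H ⊓ Subgroup.centralizer (V : Set G) = ⊥) (a b : G) (hab : H = Subgroup.closure {a, b}) (ha : ⁅⁅V, Subgroup.zpowers a⁆, Subgroup.zpowers a⁆ = ⊥) (hb : ⁅⁅V, Subgroup.zpowers b⁆, Subgroup.zpowers b⁆ = ⊥) (hnp : ¬ IsPGroup p H) (T : Sylow 2 H) : ¬ IsMulCommutative T := by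
  have haH : a ∈ H := hab ▸ Subgroup.subset_closure (Or.inl rfl)
  have hbH : b ∈ H := hab ▸ Subgroup.subset_closure (Or.inr rfl)
  refine H11.not_comm_sylow_two_of_involves hp
    (H11.involves_sl_of_quad_pair hp V H hV hHV haH hbH ha hb ?_) T
  by_contra hcon
  push Not at hcon
  apply hnp
  intro h
  obtain ⟨k, hk⟩ := hcon h (hab ▸ h.2)
  have : (h : G) ^ p ^ k ∈ H ⊓ Subgroup.centralizer (V : Set G) :=
    Subgroup.mem_inf.mpr ⟨H.pow_mem h.2 _, hk⟩
  rw [hf, Subgroup.mem_bot] at this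
  exact ⟨k, Subtype.ext this⟩

end Cfsg.Agent.S0593
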