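import Cfsg.Statements.S0594
import Cfsg.Agent.H11.QuadAct
import Cfsg.Agent.H18.PSolv

set_option autoImplicit false
open Cfsg

namespace Cfsg.Agent.S0594

/-- For odd p, two quadratic generators of a faithful group that is not a p-group, one of which acts nontrivially on a normal subgroup of order prime to p, force p = 3 and a section isomorphic to SL(2,3). -/
theorem result {G : Type*} [Group G] [Finite G] {p : ℕ} [Fact p.Prime] (hp : p ≠ 2) (V H : Subgroup G) (hV : Cfsg.IsElementaryAbelian p V) (hHV : H ≤ Subgroup.normalizer (V : Set G)) (hf : H ⊓ Subgroup.centralizer (V : Set G) = ⊥) (a b : G) (hab : H = Subgroup.closure {a, b}) (ha : ⁅⁅V, Subgroup.zpowers a⁆, Subgroup.zpowers a⁆ = ⊥) (hb : ⁅⁅V, Subgroup.zpowers b⁆, Subgroup.zpowers b⁆ = ⊥) (hnp : ¬ IsPGroup p H) (Q : Subgroup G) (hQH : Q ≤ H) (hQn : H ≤ Subgroup.normalizer (Q : Set G)) (hQ : (Nat.card Q).Coprime p) (hQa : ⁅Q, Subgroup.zpowers a⁆ ≠ ⊥) : p = 3 ∧ ∃ (K L : Subgroup G) (hL : (L.subgroupOf K).Normal), K ≤ H ∧ Nonempty ((K ⧸ L.subgroupOf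 K) ≃* Matrix.SpecialLinearGroup (Fin 2) (ZMod 3)) := by
  have hpp : p.Prime := Fact.out
  have haH : a ∈ H := hab ▸ Subgroup.subset_closure (Or.inl rfl)
  obtain ⟨x, hxQ, hxa⟩ : ∃ x ∈ Q, x * a * x⁻¹ ≠ a := by
    by_contra hcon
    push Not at hcon
    apply hQa
    rw [Subgroup.commutator_eq_bot_iff_le_centralizer]
    rintro x hx _ ⟨k, rfl⟩
    exact (Commute.zpow_left (mul_inv_eq_iff_eq_mul.mp (hcon x hx)).symm k).eq
  have hxH := hQH hxQ
  have hb' : x * a * x⁻¹ ∈ H := H.mul_mem (H.mul_mem hxH haH) (H.inv_mem hxH)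
  set K := Subgroup.closure ({a, x * a * x⁻¹} : Set G) with hK
  have hKH : K ≤ H := (Subgroup.closure_le H).mpr (by rintro _ (rfl | rfl) <;> assumption)
  have haK : a ∈ K := Subgroup.subset_closure (Or.inl rfl)
  have hbK : x * a * x⁻¹ ∈ K := Subgroup.subset_closure (Or.inr rfl)
  have hcQ : x * a * x⁻¹ * a⁻¹ ∈ Q := by
    have := Q.mul_mem hxQ ((Subgroup.mem_normalizer_iff.mp (hQn haH) _).mp (Q.inv_mem hxQ))
    simpa only [mul_assoc] using this
  have h1 := H11.involves_sl_of_quad_pair hp V K hV (hKH.trans hHV) haK hbK ha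
    (H11.quad_conj (hHV hxH) ha) ⟨x * a * x⁻¹ * a⁻¹, K.mul_mem hbK (K.inv_mem haK), by
      intro k hk
      have : (x * a * x⁻¹ * a⁻¹) ^ p ^ k ∈ H ⊓ Subgroup.centralizer (V : Set G) :=
        Subgroup.mem_inf.mpr ⟨H.pow_mem (hQH hcQ) _, hk⟩
      rw [hf, Subgroup.mem_bot] at this
      have h2 : (x * a * x⁻¹ * a⁻¹) ^ Nat.card Q = 1 :=
        congrArg Subtype.val (pow_card_eq_one' (x := (⟨_, hcQ⟩ : Q)))
      have := (pow_eq_one_iff_of_coprime (hQ.pow_right k)).mp ⟨h2, this⟩
      exact hxa (mul_inv_eq_one.mp this)⟩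
  have hp3 : p = 3 := by
    by_contra h3
    have h5 : 5 ≤ p := by
      have := hpp.two_le
      have h4 : p ≠ 4 := by rintro rfl; exact absurd hpp (by norm_num)
      omega
    have hN : (Q.subgroupOf H).Normal := (Subgroup.normal_subgroupOf_iff_le_normalizer hQH).mpr hQn
    let f : K →* H ⧸ Q.subgroupOf H := (QuotientGroup.mk' _).comp (Subgroup.inclusion hKH)
    have hsol : Cfsg.IsPSolvable p K := by
      apply H18.isPSolvable_of_normal_of_quotient f.ker
      · apply H18.isPSolvable_of_coprime
        refine hQ.coprime_dvd_left ?_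
        rw [← Subgroup.card_map_of_injective K.subtype_injective]
        apply Subgroup.card_dvd_of_le
        rintro _ ⟨y, hy, rfl⟩
        exact (QuotientGroup.eq_one_iff (Subgroup.inclusion hKH y)).mp hy
      · refine H18.isPSolvable_of_injective ?_ (QuotientGroup.quotientKerEquivRange f).toMonoidHom
          (MulEquiv.injective _)
        have hle : f.range ≤ Subgroup.zpowers (QuotientGroup.mk ⟨a, haH⟩ : H ⧸ Q.subgroupOf H) := by
          rintro _ ⟨⟨y, hy⟩, rfl⟩
          induction hy using Subgroup.closure_induction with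
          | mem z hz =>
            rcases hz with rfl | rfl
            · exact Subgroup.mem_zpowers _
            · refine ⟨1, ?_⟩
              simp only [zpow_one]
              symm
              change (QuotientGroup.mk _ : H ⧸ Q.subgroupOf H) = _
              rw [QuotientGroup.eq_iff_div_mem, div_eq_mul_inv]
              exact hcQ
          | one => exact one_mem _
          | mul y z hy hz h1 h2 =>
            have := mul_mem h1 h2
            rwa [← map_mul] at this
          | inv y hy h1 =>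
            have := inv_mem h1
            rwa [← map_inv] at this
        refine H18.isPSolvable_of_le (H18.isPSolvable_of_isSolvable p) hle
    obtain ⟨L, g, hg⟩ := H94.involves_iff.mp h1
    exact H11.not_isPSolvable_sl h5
      (H18.isPSolvable_of_surjective (H18.isPSolvable_subgroup hsol L) g hg)
  subst hp3
  exact ⟨rfl, H11.section_of_involves (H94.involves_trans h1 (H94.involves_of_le hKH))⟩

end Cfsg.Agent.S0594
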