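import Cfsg.Statements.S0597
import Cfsg.Agent.S0590
import Cfsg.Agent.H18.Subnormal
import Cfsg.Agent.H13.Comm

set_option autoImplicit false
open Cfsg

namespace Cfsg.Agent.S0597

/-- If two subnormal subgroups of a faithful group on an elementary abelian p-group satisfy [V, E₁, E₂] = 1, then their commutator lies in the largest normal p-subgroup. -/
theorem result {G : Type*} [Group G] [Finite G] {p : ℕ} [Fact p.Prime] (V H : Subgroup G) (hV : Cfsg.IsElementaryAbelian p V) (hHV : H ≤ Subgroup.normalizer (V : Set G)) (hf : H ⊓ Subgroup.centralizer (V : Set G) = ⊥) (E₁ E₂ : Subgroup G) (h₁ : E₁ ≤ H) (h₂ : E₂ ≤ H) (hs₁ : (E₁.subgroupOf H).IsSubnormal) (hs₂ : (E₂.subgroupOf H).IsSubnormal) (hc : ⁅⁅V, E₁⁆, E₂⁆ = ⊥) : ⁅E₁, E₂⁆ ≤ (Cfsg.pCore p H).map H.subtype := by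
  have hE : E₁ ⊔ E₂ ≤ H := sup_le h₁ h₂
  have hN : E₁ ⊔ E₂ ≤ Subgroup.normalizer ((⁅E₁, E₂⁆ : Subgroup G) : Set G) :=
    sup_le (Subgroup.normalizer_commutator_ge_left _ _)
      (Subgroup.normalizer_commutator_ge_right _ _)
  have hle : ⁅E₁, E₂⁆ ≤ E₁ ⊔ E₂ := Subgroup.commutator_le_sup _ _
  have hsub : ((⁅E₁, E₂⁆ : Subgroup G).subgroupOf H).IsSubnormal := by
    have h1 : ((E₁ ⊔ E₂).subgroupOf H).IsSubnormal := by
      rw [Subgroup.subgroupOf_sup h₁ h₂]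
      exact H18.isSubnormal_sup hs₁ hs₂
    refine Subgroup.IsSubnormal.trans (Subgroup.comap_mono hle) ?_ h1
    apply Subgroup.Normal.isSubnormal
    exact ⟨fun x hx y => (Subgroup.mem_normalizer_iff.mp (hN y.2) _).mp hx⟩
  have hV1 : ⁅V, E₁⁆ ≤ V := by
    rw [Subgroup.commutator_le]
    intro v hv e he
    rw [commutatorElement_def, mul_assoc, mul_assoc, ← mul_assoc e]
    exact V.mul_mem hv ((Subgroup.mem_normalizer_iff.mp (hHV (h₁ he)) _).mp (V.inv_mem hv))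
  have hc2 : E₂ ≤ Subgroup.centralizer ((⁅V, E₁⁆ : Subgroup G) : Set G) := by
    rw [← Subgroup.commutator_eq_bot_iff_le_centralizer, Subgroup.commutator_comm]; exact hc
  have hn1 : E₁ ≤ Subgroup.normalizer ((⁅V, E₁⁆ : Subgroup G) : Set G) :=
    Subgroup.normalizer_commutator_ge_right _ _
  -- `[E₁, E₂]` centralizes `[V, E₁]`
  have hA : ⁅E₁, E₂⁆ ≤ Subgroup.centralizer ((⁅V, E₁⁆ : Subgroup G) : Set G) := by
    rw [Subgroup.commutator_le]
    intro x hx y hy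
    rw [commutatorElement_def]
    refine Subgroup.mul_mem _ ?_ (Subgroup.inv_mem _ (hc2 hy))
    exact (Subgroup.mem_normalizer_iff.mp
      (H13.normalizer_le_normalizer_centralizer _ (hn1 hx)) _).mp (hc2 hy)
  -- `[V, [E₁, E₂]] ≤ [V, E₁]`
  have hB : ⁅V, ⁅E₁, E₂⁆⁆ ≤ ⁅V, E₁⁆ := by
    let D : Subgroup G :=
      { carrier := {g | g ∈ Subgroup.normalizer (V : Set G) ∧ ∀ v ∈ V, v * g * v⁻¹ * g⁻¹ ∈ ⁅V, E₁⁆}
        one_mem' := ⟨one_mem _, fun v _ => by simp⟩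
        mul_mem' := by
          rintro g h ⟨g1, g2⟩ ⟨h1, h2⟩
          refine ⟨mul_mem g1 h1, fun v hv => ?_⟩
          have a1 := h2 v hv
          have a2 := g2 v hv
          have a3 := g2 _ (hV1 a1)
          have : v * (g * h) * v⁻¹ * (g * h)⁻¹ = (v * g * v⁻¹ * g⁻¹) *
            ((v * h * v⁻¹ * h⁻¹) * g * (v * h * v⁻¹ * h⁻¹)⁻¹ * g⁻¹)⁻¹ * (v * h * v⁻¹ * h⁻¹) := by
            group
          rw [this]
          exact mul_mem (mul_mem a2 (inv_mem a3)) a1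
        inv_mem' := by
          rintro g ⟨g1, g2⟩
          refine ⟨inv_mem g1, fun v hv => ?_⟩
          have a1 := g2 _ ((Subgroup.mem_normalizer_iff''.mp g1 v⁻¹).mp (V.inv_mem hv))
          have a2 : g⁻¹ * v⁻¹ * g * g * (g⁻¹ * v⁻¹ * g)⁻¹ * g⁻¹ = (g⁻¹ * v⁻¹ * g) * v := by group
          have a3 : v * g⁻¹ * v⁻¹ * g⁻¹⁻¹ = v * (g⁻¹ * v⁻¹ * g) := by group
          have a4 := congrArg Subtype.val (hV.1.is_comm.comm ⟨v, hv⟩
            ⟨_, (Subgroup.mem_normalizer_iff''.mp g1 v⁻¹).mp (V.inv_mem hv)⟩)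
          simp only [Subgroup.coe_mul] at a4
          rw [a3, a4, ← a2]; exact a1 }
    have hD1 : E₁ ≤ D := fun e he => ⟨hHV (h₁ he), fun v hv =>
      Subgroup.commutator_mem_commutator hv he⟩
    have hD : ⁅E₁, E₂⁆ ≤ D := by
      rw [Subgroup.commutator_le]
      intro x hx y hy
      rw [commutatorElement_def, mul_assoc, mul_assoc, ← mul_assoc y]
      refine D.mul_mem (hD1 hx) ⟨mul_mem (mul_mem (hHV (h₂ hy)) (inv_mem (hHV (h₁ hx))))
        (inv_mem (hHV (h₂ hy))), fun v hv => ?_⟩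
      have a1 := (hD1 (E₁.inv_mem hx)).2 _
        ((Subgroup.mem_normalizer_iff''.mp (hHV (h₂ hy)) v).mp hv)
      have a2 := hc2 hy _ a1
      have : v * (y * x⁻¹ * y⁻¹) * v⁻¹ * (y * x⁻¹ * y⁻¹)⁻¹ =
        y * (y⁻¹ * v * y * x⁻¹ * (y⁻¹ * v * y)⁻¹ * x⁻¹⁻¹) * y⁻¹ := by group
      rw [this, ← a2, mul_inv_cancel_right]
      exact a1
    rw [Subgroup.commutator_le]
    intro v hv g hg
    exact (hD hg).2 v hv
  have hq : ⁅⁅V, ⁅E₁, E₂⁆⁆, ⁅E₁, E₂⁆⁆ = ⊥ := by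
    rw [eq_bot_iff]
    refine (Subgroup.commutator_mono hB le_rfl).trans (le_of_eq ?_)
    rw [Subgroup.commutator_comm, Subgroup.commutator_eq_bot_iff_le_centralizer]
    exact hA
  have hP : IsPGroup p (⁅E₁, E₂⁆ : Subgroup G) := by
    intro x
    refine ⟨1, Subtype.ext ?_⟩
    have := (Cfsg.Agent.S0590.result V _ hV ((hle.trans hE).trans hHV) hq).2 x x.2
    have h2 : (x : G) ^ p ∈ H ⊓ Subgroup.centralizer (V : Set G) :=
      Subgroup.mem_inf.mpr ⟨H.pow_mem (hE (hle x.2)) _, this⟩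
    rw [hf, Subgroup.mem_bot] at h2
    simpa using h2
  have := Subgroup.map_mono (f := H.subtype) (H2.le_pCore_of_isSubnormal hsub hP.comap_subtype)
  rwa [Subgroup.map_subgroupOf_eq_of_le (hle.trans hE)] at this

end Cfsg.Agent.S0597
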