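import Cfsg.Statements.S0607
import Cfsg.Agent.Base
import Cfsg.Agent.H12.Offender

set_option autoImplicit false
open Cfsg

namespace Cfsg.Agent.S0607

/-- The replacement Theorem for the Thompson subgroup: from A of maximal order among elementary abelian p-subgroups one obtains A₀ = [V, A] C_A([V, A]) of the same kind, quadratic on V and nontrivial on V when A is. -/
theorem result {G : Type*} [Group G] [Finite G] {p : ℕ} [Fact p.Prime] (V : Subgroup G) [V.Normal] (hV : Cfsg.IsElementaryAbelian p V) (A : Subgroup G) (hA : A ∈ Cfsg.maxElementaryAbelianSubgroups p G) : (⁅V, A⁆ ⊔ (A ⊓ Subgroup.centralizer ((⁅V, A⁆ : Subgroup G) : Set G))) ∈ Cfsg.maxElementaryAbelianSubgroups p G ∧ ⁅⁅V, ⁅V, A⁆ ⊔ (A ⊓ Subgroup.centralizer ((⁅V, A⁆ : Subgroup G) : Set G))⁆, ⁅V, A⁆ ⊔ (A ⊓ Subgroup.centralizer ((⁅V, A⁆ : Subgroup G) : Set G))⁆ = ⊥ ∧ (⁅V, A⁆ ≠ ⊥ → ⁅V, ⁅V, A⁆ ⊔ (A ⊓ Subgroup.centralizer ((⁅V, A⁆ : Subgroup G) :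 Set G))⁆ ≠ ⊥) := by
  rw [← H12.maxEA_top] at hA ⊢
  have hAV : A ≤ Subgroup.normalizer (V : Set G) := Subgroup.le_normalizer_of_normal
  have hVA : ⁅V, A⁆ ≤ V := Subgroup.commutator_le_left V A
  have hVc := H12.ea_le_centralizer hV
  have hb := H12.bestOffender_of_mem_maxEA hV le_top hA
  obtain ⟨-, -, -, h3⟩ := H12.timmesfeld hV hAV hb (le_refl V)
  have e : ⁅V, ⁅V, A⁆ ⊔ (A ⊓ Subgroup.centralizer ((⁅V, A⁆ : Subgroup G) : Set G))⁆ =
      ⁅V, A ⊓ Subgroup.centralizer ((⁅V, A⁆ : Subgroup G) : Set G)⁆ := by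
    rw [sup_comm, H12.commutator_sup_centralizer (inf_le_left.trans hAV) (hVA.trans hVc)]
  refine ⟨H12.replace_mem_maxEA hV le_top hA hAV le_rfl, ?_, fun h => e ▸ h3 h⟩
  rw [e, Subgroup.commutator_eq_bot_iff_le_centralizer, Subgroup.le_centralizer_iff]
  refine le_trans ?_ (H12.centralizer_anti (Subgroup.commutator_mono le_rfl inf_le_left))
  exact sup_le ((hVA.trans hVc).trans (H12.centralizer_anti hVA)) inf_le_right

end Cfsg.Agent.S0607
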