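import Cfsg.Statements.S0615
import Cfsg.Agent.Base
import Cfsg.Agent.H12.Pair

set_option autoImplicit false
open Cfsg

namespace Cfsg.Agent.S0615

/-- Two subnormal subgroups acting irreducibly on their incomparable commutator modules, in a faithful group with trivial largest normal p-subgroup, generate their direct product, and the commutator module splits accordingly. -/
theorem result {G : Type*} [Group G] [Finite G] {p : ℕ} [Fact p.Prime] (V E E₁ E₂ : Subgroup G) (hV : Cfsg.IsElementaryAbelian p V) (hEV : E ≤ Subgroup.normalizer (V : Set G)) (hf : E ⊓ Subgroup.centralizer (V : Set G) = ⊥) (hgen : E = E₁ ⊔ E₂) (hs₁ : (E₁.subgroupOf E).IsSubnormal) (hs₂ : (E₂.subgroupOf E).IsSubnormal) (hOp : Cfsg.pCore p ↥E = ⊥) (hirr₁ : (∀ U : Subgroup G, U ≤ ⁅V, E₁⁆ → E₁ ≤ Subgroup.normalizer (U : Set G) → U = ⊥ ∨ U = ⁅V, E₁⁆))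 (hirr₂ : (∀ U : Subgroup G, U ≤ ⁅V, E₂⁆ → E₂ ≤ Subgroup.normalizer (U : Set G) → U = ⊥ ∨ U = ⁅V, E₂⁆)) (h12 : ¬ ⁅V, E₁⁆ ≤ ⁅V, E₂⁆) (h21 : ¬ ⁅V, E₂⁆ ≤ ⁅V, E₁⁆) (hc₁ : 2 < Nat.card E₁) (hc₂ : 2 < Nat.card E₂) : ⁅E₁, E₂⁆ = ⊥ ∧ E₁ ⊓ E₂ = ⊥ ∧ ⁅V, E₁⁆ ⊓ ⁅V, E₂⁆ = ⊥ ∧ ⁅V, E⁆ = ⁅V, E₁⁆ ⊔ ⁅V, E₂⁆ := by
  have hE₁ : E₁ ≤ E := hgen ▸ le_sup_left
  have hE₂ : E₂ ≤ E := hgen ▸ le_sup_right
  have hO : ∀ {K : Subgroup G}, K ≤ E → (K.subgroupOf E).IsSubnormal → pCore p ↥K = ⊥ := by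
    intro K hK hs
    rw [← H2.pCore_eq_bot_mulEquiv (Subgroup.subgroupOfEquivOfLe hK),
      H2.pCore_eq_subgroupOf_of_isSubnormal hs, hOp, Subgroup.bot_subgroupOf]
  have hf' : ∀ {K : Subgroup G}, K ≤ E → K ⊓ Subgroup.centralizer (V : Set G) = ⊥ :=
    fun hK => le_bot_iff.1 (hf ▸ inf_le_inf_right _ hK)
  have h₁ : H12.IrrOn V E₁ := ⟨hE₁.trans hEV,
    H12.faithful_commutator_of_pCore hV (hE₁.trans hEV) (hf' hE₁) (hO hE₁ hs₁), hirr₁, hc₁⟩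
  have h₂ : H12.IrrOn V E₂ := ⟨hE₂.trans hEV,
    H12.faithful_commutator_of_pCore hV (hE₂.trans hEV) (hf' hE₂) (hO hE₂ hs₂), hirr₂, hc₂⟩
  obtain ⟨a, b⟩ := H12.pair_commute h₁ h₂ hE₁ hE₂ hf hs₁ hs₂ h12 h21
  refine ⟨a, ?_, b, by rw [hgen, H12.commutator_sup_right h₁.norm h₂.norm]⟩
  have c : ⁅V, E₁ ⊓ E₂⁆ = ⊥ := le_bot_iff.1 (b ▸ le_inf
    (Subgroup.commutator_mono le_rfl inf_le_left) (Subgroup.commutator_mono le_rfl inf_le_right))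
  exact le_bot_iff.1 (hf ▸ le_inf (inf_le_left.trans hE₁)
    (Subgroup.le_centralizer_iff.1 (Subgroup.commutator_eq_bot_iff_le_centralizer.1 c)))

end Cfsg.Agent.S0615
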