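import Cfsg.Statements.S0617
import Cfsg.Agent.Base
import Cfsg.Agent.H12.FF3

set_option autoImplicit false
open Cfsg

namespace Cfsg.Agent.S0617

/-- Structure Theorem for failure of factorization: a faithful group generated by best offenders, with self-centralizing p'-core, is a direct product of copies of SL(2, p) (p = 2 or 3), each acting on its own plane in V, which is the direct product of these planes and C_V(H). -/
theorem result {G : Type*} [Group G] [Finite G] {p : ℕ} [Fact p.Prime] (V H : Subgroup G) (hV : Cfsg.IsElementaryAbelian p V) (hHV : H ≤ Subgroup.normalizer (V : Set G)) (hf : H ⊓ Subgroup.centralizer (V : Set G) = ⊥) (hS1 : Subgroup.centralizer (Cfsg.pPrimeCore p ↥H : Set ↥H) ≤ Cfsg.pPrimeCore p ↥H) (hS3 : H = ⨆ A : {A : Subgroup G // A ≤ H ∧ Cfsg.IsBestOffenderOn p V A}, (A : Subgroup G)) (hH1 : H ≠ ⊥) : (p = 2 ∨ p = 3) ∧ (∀ E : {E : Subgroup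 G // ∃ A : Subgroup G, A ≤ H ∧ Cfsg.IsBestOffenderOn p V A ∧ ⁅V, A⁆ ≠ ⊥ ∧ (∀ B : Subgroup G, B ≤ A → Cfsg.IsBestOffenderOn p V B → ⁅V, B⁆ ≠ ⊥ → B = A) ∧ E = ⁅((Cfsg.pPrimeCore p ↥H).map H.subtype), A⁆ ⊔ A}, H ≤ Subgroup.normalizer ((E : Subgroup G) : Set G) ∧ Nonempty (↥(E : Subgroup G) ≃* Matrix.SpecialLinearGroup (Fin 2) (ZMod p)) ∧ Nat.card ↥(⁅V, (E : Subgroup G)⁆) = p ^ 2) ∧ iSupIndep (fun E : {E : Subgroup G // ∃ A : Subgroup G, A ≤ H ∧ Cfsg.IsBestOffenderOn p V A ∧ ⁅V, A⁆ ≠ ⊥ ∧ (∀ B : Subgroup G, B ≤ A → Cfsg.IsBestOffenderOn p V B → ⁅V, B⁆ ≠ ⊥ → B = A) ∧ E = ⁅((Cfsg.pPrimeCore p ↥H).map H.subtype), A⁆ ⊔ A} => (E : Subgroup G)) ∧ (⨆ E : {E : Subgroup G // ∃ A : Subgroup G, A ≤ H ∧ Cfsg.IsBestOffenderOn p V A ∧ ⁅V, A⁆ ≠ ⊥ ∧ (∀ B : Subgroup G, B ≤ A → Cfsg.IsBestOffenderOn p V B → ⁅V, B⁆ ≠ ⊥ → B = A) ∧ E = ⁅((Cfsg.pPrimeCore p ↥H).map H.subtype), A⁆ ⊔ A}, (E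 : Subgroup G)) = H ∧ iSupIndep (fun o : Option {E : Subgroup G // ∃ A : Subgroup G, A ≤ H ∧ Cfsg.IsBestOffenderOn p V A ∧ ⁅V, A⁆ ≠ ⊥ ∧ (∀ B : Subgroup G, B ≤ A → Cfsg.IsBestOffenderOn p V B → ⁅V, B⁆ ≠ ⊥ → B = A) ∧ E = ⁅((Cfsg.pPrimeCore p ↥H).map H.subtype), A⁆ ⊔ A} => o.elim (V ⊓ Subgroup.centralizer (H : Set G)) (fun E => ⁅V, (E : Subgroup G)⁆)) ∧ (V ⊓ Subgroup.centralizer (H : Set G)) ⊔ (⨆ E : {E : Subgroup G // ∃ A : Subgroup G, A ≤ H ∧ Cfsg.IsBestOffenderOn p V A ∧ ⁅V, A⁆ ≠ ⊥ ∧ (∀ B : Subgroup G, B ≤ A → Cfsg.IsBestOffenderOn p V B → ⁅V, B⁆ ≠ ⊥ → B = A) ∧ E = ⁅((Cfsg.pPrimeCore p ↥H).map H.subtype), A⁆ ⊔ A}, ⁅V, (E : Subgroup G)⁆) = V := by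
  have h := H12.ff_of_pPrimeCore hV hHV hf hS1
  have hgen := h.le_sSup_isTv_of_gen hS3.le
  generalize (Cfsg.pPrimeCore p ↥H).map H.subtype = F at h ⊢
  have hP : (fun E : Subgroup G => ∃ A : Subgroup G, A ≤ H ∧ Cfsg.IsBestOffenderOn p V A ∧
      ⁅V, A⁆ ≠ ⊥ ∧ (∀ B : Subgroup G, B ≤ A → Cfsg.IsBestOffenderOn p V B → ⁅V, B⁆ ≠ ⊥ → B = A) ∧
      E = ⁅F, A⁆ ⊔ A) = H12.IsBlock p V H F := by
    ext E
    constructor
    · rintro ⟨A, h1, h2, h3, h4, h5⟩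
      exact ⟨A, h1, h.isTv_of_min h1 h2 h3 h4, h5⟩
    · rintro ⟨A, h1, h2, h5⟩
      obtain ⟨h3, h4, h6⟩ := h.min_of_isTv h1 h2
      exact ⟨A, h1, h3, h4, h6, h5⟩
  have key : ∀ P : Subgroup G → Prop, P = H12.IsBlock p V H F → (p = 2 ∨ p = 3) ∧
      (∀ E : {E // P E}, H ≤ Subgroup.normalizer ((E : Subgroup G) : Set G) ∧
        Nonempty (↥(E : Subgroup G) ≃* Matrix.SpecialLinearGroup (Fin 2) (ZMod p)) ∧
        Nat.card ↥(⁅V, (E : Subgroup G)⁆) = p ^ 2) ∧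
      iSupIndep (fun E : {E // P E} => (E : Subgroup G)) ∧
      (⨆ E : {E // P E}, (E : Subgroup G)) = H ∧
      iSupIndep (fun o : Option {E // P E} =>
        o.elim (V ⊓ Subgroup.centralizer (H : Set G)) (fun E => ⁅V, (E : Subgroup G)⁆)) ∧
      (V ⊓ Subgroup.centralizer (H : Set G)) ⊔ (⨆ E : {E // P E}, ⁅V, (E : Subgroup G)⁆) = V := by
    rintro P rfl
    obtain ⟨E₀, hE₀⟩ := H12.FF.exists_isBlock (F := F) hgen hH1
    have hs : (⨆ E : {E // H12.IsBlock p V H F E}, (E : Subgroup G)) = H :=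
      le_antisymm (iSup_le fun E => h.isBlock_le E.2)
        ((H12.FF.le_sSup_isBlock hgen).trans (sSup_eq_iSup' _).le)
    have hc : (⨆ E : {E // H12.IsBlock p V H F E}, ⁅V, (E : Subgroup G)⁆) = ⁅V, H⁆ := by
      rw [← H12.commutator_iSup_right fun E : {E // H12.IsBlock p V H F E} =>
        (h.isBlock_sl E.2).norm, hs]
    obtain ⟨c1, c2⟩ := h.centralizer_compl hgen
    refine ⟨(h.isBlock_sl hE₀).two_or_three, fun E => ⟨h.isBlock_normal hgen E.2,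
      (h.isBlock_sl E.2).iso, (h.isBlock_sl E.2).card_comm⟩, fun E => ?_, hs, ?_, ?_⟩
    · refine (disjoint_iff.2 (h.isBlock_sl E.2).faith).mono_right (iSup₂_le fun E' hne => ?_)
      exact Subgroup.le_centralizer_iff.1
        (h.isBlock_of_ne E.2 E'.2 fun e => hne (Subtype.ext e).symm).2
    · rintro (_ | E)
      · refine (disjoint_iff.2 c1).mono_right (iSup₂_le ?_)
        rintro (_ | E') hne
        · exact absurd rfl hne
        · exact Subgroup.commutator_mono le_rfl (h.isBlock_le E'.2)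
      · refine (disjoint_iff.2 (h.isBlock_sl E.2).inf_eq).mono_right (iSup₂_le ?_)
        rintro (_ | E') hne
        · exact inf_le_inf_left _ (H12.centralizer_anti (h.isBlock_le E.2))
        · exact le_inf (H12.commutator_le_of_le_normalizer (h.isBlock_sl E'.2).norm)
            (h.isBlock_of_ne E'.2 E.2 fun e => hne (congrArg some (Subtype.ext e))).2
    · rw [hc, sup_comm, c2]
  exact key _ hP

end Cfsg.Agent.S0617
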