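import Cfsg.Statements.S0619
import Cfsg.Agent.Base
import Cfsg.Agent.H12.Hol

set_option autoImplicit false
open Cfsg

namespace Cfsg.Agent.S0619

/-- For a p-separable group and a normal elementary abelian p-subgroup V with no nontrivial normal p-subgroup modulo its centralizer C, the Thompson subgroup J(G) moves Ω₁(Z(J(C))) only inside V. -/
theorem result {G : Type*} [Group G] [Finite G] {p : ℕ} [Fact p.Prime] (hsep : Cfsg.IsPSolvable p G) (V : Subgroup G) [V.Normal] (hV : Cfsg.IsElementaryAbelian p V) (hO : Cfsg.pCore p (G ⧸ Subgroup.centralizer (V : Set G)) = ⊥) : ⁅Cfsg.omegaOne p (Cfsg.centerThompsonOf p (Subgroup.centralizer (V : Set G))), Cfsg.thompsonSubgroup p G⁆ ≤ V := by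
  have h := H12.tr_hol V
  have := H12.thompsonSubgroup_normal (p := p) (G := G)
  have hf := h.ff hV hsep hO (thompsonSubgroup p G)
  set C := Subgroup.centralizer (V : Set G) with hC
  have hVC : V ≤ C := H12.ea_le_centralizer hV
  have key : ∀ A ∈ H12.maxEA p (⊤ : Subgroup G),
      omegaOne p (centerThompsonOf p C) ≤ (A ⊓ C) ⊔ V := by
    intro A hA
    have h1 := hf.offM_le (Subgroup.map_mono (H12.thompsonSubgroupOf_top (p := p) (G := G) ▸
      H12.le_thompsonSubgroupOf hA)) (H12.ea_map hA.2.1 _)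
    have h2 := h.offM_map A
    rw [h.card_range] at h1
    rw [show H12.offM V A = Nat.card A * Nat.card ↥(V ⊓ A) by
      rw [H12.offM, H12.inf_centralizer_of_mem_maxEA hV le_top hA]] at h2
    have h3 := H12.card_sup_mul_card_inf (A := A ⊓ C) (B := V) Subgroup.le_normalizer_of_normal
    rw [inf_assoc, inf_eq_right.2 hVC, inf_comm A V] at h3
    have h4 : Nat.card A ≤ Nat.card ↥((A ⊓ C) ⊔ V) := by
      refine Nat.le_of_mul_le_mul_right ?_ (Nat.card_pos (α := ↥(V ⊓ A)))
      rw [h3, ← h2, mul_comm (Nat.card ↥(A ⊓ C))]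
      exact Nat.mul_le_mul_right _ h1
    have h5 := H12.mem_maxEA_of_card_le hA le_top
      (H12.ea_sup (H12.ea_mono hA.2.1 inf_le_left) hV inf_le_right) h4
    have h6 := H12.mem_maxEA_of_le h5 (sup_le inf_le_right hVC) le_top
    exact (H12.omegaOne_mono (inf_le_inf_right _ (H12.thompsonSubgroupOf_le C))).trans
      (H12.omegaOne_centralizer_thompson_le h6)
  rw [← QuotientGroup.ker_mk' V, ← Subgroup.map_eq_bot_iff, Subgroup.map_commutator,
    Subgroup.commutator_comm, Subgroup.commutator_eq_bot_iff_le_centralizer,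
    Subgroup.map_le_iff_le_comap, ← H12.thompsonSubgroupOf_top, H12.thompsonSubgroupOf_le_iff]
  intro A hA a ha
  rintro _ ⟨w, hw, rfl⟩
  obtain ⟨c, hc, v, hv, rfl⟩ := (H12.mem_sup_of_le_normalizer Subgroup.le_normalizer_of_normal).1
    (key A hA hw)
  rw [map_mul, (QuotientGroup.eq_one_iff v).2 hv |> (show QuotientGroup.mk' V v = 1 from ·),
    mul_one, ← map_mul, ← map_mul, H12.ea_comm hA.2.1 hc.1 ha]

end Cfsg.Agent.S0619
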