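import Cfsg.Statements.S0621
import Cfsg.Agent.Base
import Cfsg.Agent.H12.FF5

set_option autoImplicit false
open Cfsg

namespace Cfsg.Agent.S0621

/-- Let K be p-separable with O_p'(K) = 1, normalized by an elementary abelian q-group X for a prime q not dividing the order of K. If the Thompson factorization fails in K, then p is 2 or 3 and the fixed points of X contain a plane W of order p² and a subgroup inducing SL(2, p) on it. -/
theorem result {G : Type*} [Group G] [Finite G] {p : ℕ} [Fact p.Prime] {q : ℕ} [Fact q.Prime] (K X : Subgroup G) (hXK : X ≤ Subgroup.normalizer (K : Set G)) (hX : Cfsg.IsElementaryAbelian q X) (hq : ¬ q ∣ Nat.card K) (hsep : Cfsg.IsPSolvable p ↥K) (hO : Cfsg.pPrimeCore p ↥K = ⊥) (hnf : ¬ Cfsg.IsThompsonFactorizable p ↥K) : (p = 2 ∨ p = 3) ∧ ∃ W D : Subgroup G, W ≤ K ⊓ Subgroup.centralizer (X : Set G) ∧ D ≤ K ⊓ Subgroup.centralizer (X : Set G) ∧ Cfsg.IsElementaryAbelian p W ∧ Nat.card W = p ^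 2 ∧ D ≤ Subgroup.normalizer (W : Set G) ∧ ∃ hn : ((Subgroup.centralizer (W : Set G)).subgroupOf D).Normal, Nonempty ((↥D ⧸ (Subgroup.centralizer (W : Set G)).subgroupOf D) ≃* Matrix.SpecialLinearGroup (Fin 2) (ZMod p)) := by
  obtain ⟨ψ, ι, F, Y, h, hf, hgen, hop, hl, hk, hv⟩ :=
    H12.op_setup K X hXK (H12.ea_isPGroup hX) hq hsep hO
  rw [H12.isThompsonFactorizable_iff hO, ← h.ker_eq, ← Subgroup.map_eq_bot_iff] at hnf
  obtain ⟨E, hE⟩ := H12.FF.exists_isBlock hgen hnf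
  obtain ⟨W, hW, hc, hd⟩ := hf.op_plane hE (hop hnf)
  obtain ⟨φ, hφ, hs⟩ := hf.op_sl2 hgen hE (hop hnf)
  have hU := H12.Tr.pull_le (ι := ι) W
  have hW' := H12.Tr.im_pull (hW.trans inf_le_left)
  let D : Subgroup G := (((thompsonSubgroup p K).map ψ).comap ψ).map K.subtype ⊓
    Subgroup.centralizer (X : Set G)
  have hDK : D ≤ K := inf_le_left.trans (Subgroup.map_subtype_le _)
  have hDH : ∀ d : D, ψ (Subgroup.inclusion hDK d) ∈ (thompsonSubgroup p K).map ψ := by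
    rintro ⟨_, ⟨k, hk, rfl⟩, -⟩; exact hk
  have hd' := fun d : D => hd _ ⟨hf.norm (hDH d), hk _ d.2.2⟩
    (H1.le_normalizer_commutator hf.norm (hf.isBlock_normal hgen hE) (hDH d))
  refine ⟨(hf.isBlock_sl hE).two_or_three, (H12.Tr.pull ι W).map K.subtype, D,
    le_inf (Subgroup.map_subtype_le _) ?_, inf_le_inf_right _ (Subgroup.map_subtype_le _),
    H12.ea_map (H12.ea_mono (H12.ea_omV (H18.centralizer_pCore_le hsep hO)) hU) _, ?_,
    fun d hd => ?_, H12.exists_quotient_equiv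
      (φ.comp ((ψ.comp (Subgroup.inclusion hDK)).codRestrict _ hDH)) (fun s => ?_) fun g => ?_⟩
  · rintro _ ⟨_, ⟨v, hv', rfl⟩, rfl⟩
    exact hv v (hW hv').2
  · rw [Subgroup.card_map_of_injective K.subtype_injective, ← h.card_im hU, hW', hc]
  · exact Subgroup.le_normalizer_map K.subtype
      ⟨_, (h.mem_normalizer_im hU).1 (hW'.symm ▸ (hd' ⟨d, hd⟩).1), rfl⟩
  · obtain ⟨d, h1, rfl⟩ := hs s
    obtain ⟨k, h2, h3⟩ := hl d ⟨Subgroup.map_le_range _ _ d.2, h1⟩
    exact ⟨⟨k, ⟨k, by rw [SetLike.mem_coe, Subgroup.mem_comap, h3]; exact d.2, rfl⟩, h2⟩,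
      congrArg φ (Subtype.ext h3)⟩
  · rw [MonoidHom.comp_apply, hφ]
    refine (hd' g).2.symm.trans ?_
    rw [← hW', h.mem_centralizer_im hU, hW']
    constructor
    · rintro h1 _ ⟨u, hu, rfl⟩
      exact congrArg Subtype.val (h1 u hu)
    · exact fun h1 u hu => Subtype.ext (h1 u ⟨u, hu, rfl⟩)

end Cfsg.Agent.S0621
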