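import Cfsg.Statements.S0625
import Cfsg.Agent.H11.QuadAct
import Cfsg.Agent.H18.PSolv

set_option autoImplicit false
open Cfsg

namespace Cfsg.Agent.S0625

/-- A p-separable group with p at least 5 is p-stable in the action sense. -/
theorem result {G : Type*} [Group G] [Finite G] {p : ℕ} [Fact p.Prime] (hp : 5 ≤ p) (hsep : Cfsg.IsPSolvable p G) : Cfsg.IsActionPStable p G := by
  refine H11.isActionPStable_of_not_involves_qd (by omega)
    (H11.not_involves_qd_of_not_involves_sl fun h => ?_)
  obtain ⟨K, f, hf⟩ := H94.involves_iff.mp h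
  exact H11.not_isPSolvable_sl hp
    (H18.isPSolvable_of_surjective (H18.isPSolvable_subgroup hsep K) f hf)

end Cfsg.Agent.S0625
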