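import Cfsg.Statements.S0628
import Cfsg.Agent.H10.ActionStable

set_option autoImplicit false
open Cfsg

namespace Cfsg.Agent.S0628

/-- The normal p-complement Theorem of Thompson in the form with W(S): for odd p, G has a normal p-complement as soon as the normalizer of the characteristic subgroup W(S) of a Sylow p-subgroup S has one. -/
theorem result {G : Type*} [Group G] [Finite G] {p : ℕ} [Fact p.Prime] (hp : p ≠ 2) (S : Sylow p G) (hN : Cfsg.HasNormalPComplement p ↥(Subgroup.normalizer (((Cfsg.stableNormalClosure p ↥(S : Subgroup G)).map (S : Subgroup G).subtype) : Set G))) : Cfsg.HasNormalPComplement p G := by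
  exact H10.hasNPC_of_charFunctor (H10.isCharFunctor_stableNormalClosure p)
    (fun G _ _ S h => H10.stableNormalClosure_normal
      (h.sectionsStable hp S.isPGroup').isActionPStable h.charP S) S hN

end Cfsg.Agent.S0628
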