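import Cfsg.Statements.S0633
import Cfsg.Agent.Base
import Cfsg.Agent.H22.HHSub
import Cfsg.Agent.H18.PSolv
import Cfsg.Agent.H2.PrimeCore

set_option autoImplicit false
open Cfsg

namespace Cfsg.Agent.S0633

/-- Theorem B of Hall and Higman on the minimal polynomial of a p-element of order p^n in a p-solvable linear group on a nonzero vector space in characteristic p with no nontrivial normal p-subgroup: its degree is p^n, except when some p^n₀ - 1 (n₀ ≤ n) is a power of a prime q for which the Sylow q-subgroups are non-abelian, in which case the degree is at least p^(n-n₀)(p^n₀ - 1). -/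
theorem result {F : Type*} [Field F] {p : ℕ} [Fact p.Prime] [CharP F p] {V : Type*} [AddCommGroup V] [Module F V] [FiniteDimensional F V] [Nontrivial V] (H : Subgroup (V ≃ₗ[F] V)) [Finite H] (hsol : Cfsg.IsPSolvable p H) (hOp : Cfsg.pCore p H = ⊥) (x : V ≃ₗ[F] V) (hx : x ∈ H) (n : ℕ) (hn : orderOf x = p ^ n) (r : ℕ) (hr : minpoly F (x : Module.End F V) = (Polynomial.X - 1) ^ r) : r = p ^ n ∨ ∃ n₀ q m : ℕ, 1 ≤ n₀ ∧ n₀ ≤ n ∧ q.Prime ∧ 1 ≤ m ∧ p ^ n₀ - 1 = q ^ m ∧ (∀ Q : Sylow q H, ¬ IsMulCommutative Q) ∧ p ^ (n - n₀) * (p ^ n₀ - 1) ≤ r := by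
  have hp : p.Prime := Fact.out
  let ρ : Representation F H V := LinearEquiv.automorphismGroup.toLinearMapMonoidHom.comp H.subtype
  have hρ : Function.Injective ρ := fun a b h => Subtype.ext (LinearEquiv.toLinearMap_injective h)
  let x' : H := ⟨x, hx⟩
  have hx' : orderOf x' = p ^ n := by rw [← hn, ← Subgroup.orderOf_coe]
  have hρx : ρ x' = (x : Module.End F V) := rfl
  have hdeg : ((Polynomial.X - 1 : Polynomial F) ^ r).natDegree = r := by
    have := Polynomial.natDegree_X_sub_C (1 : F)
    rw [Polynomial.natDegree_pow]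
    simp only [map_one] at this
    rw [this, mul_one]
  have hxn : ρ x' ^ p ^ n = 1 := by rw [← map_pow, ← hx', pow_orderOf_eq_one, map_one]
  have hle : r ≤ p ^ n := by
    have h1 : minpoly F (x : Module.End F V) ∣ Polynomial.X ^ p ^ n - Polynomial.C 1 :=
      minpoly.dvd F _ (by rw [map_sub, map_pow, Polynomial.aeval_X, ← hρx, hxn]; simp)
    have h2 := Polynomial.natDegree_le_of_dvd h1
      (Polynomial.X_pow_sub_C_ne_zero (pow_pos hp.pos n) 1)
    rwa [hr, hdeg, Polynomial.natDegree_X_pow_sub_C] at h2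
  have hint : IsIntegral F (x : Module.End F V) := Algebra.IsIntegral.isIntegral _
  rcases n with _ | n
  · left
    have := minpoly.natDegree_pos hint
    rw [hr, hdeg] at this
    simp only [pow_zero] at hle ⊢
    omega
  have hcop : (Nat.card (Cfsg.pPrimeCore p H)).Coprime p := H2.coprime_card_pPrimeCore p H
  have hnd : ¬ p ∣ Nat.card (Cfsg.pPrimeCore p H) := (Nat.Prime.coprime_iff_not_dvd hp).1 hcop.symm
  rcases H22.hh_degree_coprime ρ (Cfsg.pPrimeCore p H) hnd
    (by rwa [Ne, CharP.cast_eq_zero_iff F p]) x' ⟨n + 1, by rw [← hx', pow_orderOf_eq_one]⟩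
    (Subgroup.le_normalizer_of_normal (Subgroup.mem_top x')) n hxn
    (by
      by_contra h
      push Not at h
      have h1 : x' ^ p ^ n ∈ Cfsg.pPrimeCore p H := by
        apply H18.centralizer_pPrimeCore_le hsol hOp
        intro t ht
        apply hρ
        rw [map_mul, map_mul, map_pow, h t ht]
      have h2 := Subgroup.orderOf_dvd_natCard _ h1
      rw [orderOf_pow' _ (pow_pos hp.pos n).ne', hx', Nat.gcd_eq_right (pow_dvd_pow p n.le_succ),
        pow_succ', Nat.mul_div_cancel _ (pow_pos hp.pos n)] at h2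
      exact hnd h2)
    _ (minpoly.ne_zero hint) (minpoly.aeval F _) with h | ⟨q, k, l, m, hq, e1, e2, e3, ⟨Q, -, hQ, s, hs, t, ht, hst⟩, e5⟩
  · left
    rw [hr, hdeg] at h
    omega
  · right
    rw [hr, hdeg] at e5
    refine ⟨l + 1, q, m, by omega, by omega, hq, e2, by omega, fun S hS => hst ?_, ?_⟩
    · have := Fact.mk hq
      obtain ⟨T, hT⟩ := hQ.exists_le_sylow
      obtain ⟨g, rfl⟩ := MulAction.exists_smul_eq H S T
      have : IsMulCommutative ((g • S : Sylow q H) : Subgroup H) := by
        rw [Sylow.coe_subgroup_smul]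
        exact Subgroup.map_isMulCommutative _ _
      rw [← map_mul, ← map_mul]
      exact congrArg ρ (congrArg Subtype.val (this.is_comm.comm ⟨s, hT hs⟩ ⟨t, hT ht⟩))
    · rw [show n + 1 - (l + 1) = k by omega, Nat.mul_sub_one, ← pow_add,
        show k + (l + 1) = n + 1 by omega]
      omega

end Cfsg.Agent.S0633
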