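import Cfsg.Statements.S0635
import Cfsg.Agent.H18.PLength

set_option autoImplicit false
open Cfsg

namespace Cfsg.Agent.S0635

/-- The p-length of a p-soluble group is at most the nilpotency class of its Sylow p-subgroups. -/
theorem result {G : Type*} [Group G] [Finite G] {p : ℕ} [Fact p.Prime] (hsol : Cfsg.IsPSolvable p G) (S : Sylow p G) : Cfsg.PLengthLE p (Group.nilpotencyClass ↥(S : Subgroup G)) G := by
  refine H18.pLengthLE_of_lowerCentralSeries hsol _ fun P hP => ?_
  obtain ⟨g, hg⟩ := H18.exists_injective_sylow S hP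
  have := S.isPGroup'.isNilpotent
  have h1 : (S : Subgroup G).lowerCentralSeries (Group.nilpotencyClass ↥(S : Subgroup G)) = ⊥ :=
    Subgroup.lowerCentralSeries_eq_bot_of_nilpotencyClass_le le_rfl
  have h2 := Subgroup.lowerCentralSeries_mono (Group.nilpotencyClass ↥(S : Subgroup G)) hg
  beta_reduce at h2
  rwa [h1, le_bot_iff, ← Subgroup.map_lowerCentralSeries,
    Subgroup.map_eq_bot_iff_of_injective _ (MulAut.conj g).injective] at h2

end Cfsg.Agent.S0635
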