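import Cfsg.Statements.S0638
import Cfsg.Agent.H19.Metacyclic3

set_option autoImplicit false
open Cfsg

namespace Cfsg.Agent.S0638

/-- For odd p, in a non-cyclic metacyclic p-group the elements of order dividing p generate an elementary abelian subgroup of order p². -/
theorem result {R : Type*} [Group R] [Finite R] {p : ℕ} [Fact p.Prime] (hp : p ≠ 2) (hR : IsPGroup p R) (hm : Cfsg.IsMetacyclic R) (hnc : ¬ IsCyclic R) : Cfsg.IsElementaryAbelian p (Cfsg.omegaOne p (⊤ : Subgroup R)) ∧ Nat.card ↥(Cfsg.omegaOne p (⊤ : Subgroup R)) = p ^ 2 := by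
  have hp' : p.Prime := Fact.out
  obtain ⟨a, b, h⟩ := H19.exists_MC hm
  have hreg := h.regAt hp hR
  have hO : omegaOne p (⊤ : Subgroup R) = hreg.omega hR 1 := by
    apply le_antisymm
    · rw [omegaOne, Subgroup.closure_le]
      intro g hg
      exact (hreg.mem_omega hR).2 (by simpa using hg.2)
    · intro g hg
      exact Subgroup.subset_closure ⟨Subgroup.mem_top g, by simpa using (hreg.mem_omega hR).1 hg⟩
  obtain ⟨x, y, h1, h2, h3, h4⟩ := H19.exists_pair_of_isMetacyclic hp hR hm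
  have hy : y ≠ 1 := by
    rintro rfl
    apply hnc
    rw [orderOf_one, mul_one] at h4
    exact isCyclic_of_orderOf_eq_card x h4
  have hx : x ≠ 1 := by
    rintro rfl
    rw [orderOf_one] at h2
    exact hy (orderOf_eq_one_iff.1 (le_antisymm h2 (orderOf_pos y)))
  have key : ∀ z : R, z ≠ 1 → ∃ w : hreg.omega hR 1, (w : R) ∈ Subgroup.zpowers z ∧ orderOf w = p := by
    intro z hz
    have h5 := hR.dvd_orderOf hz
    have h6 := orderOf_pow_orderOf_div (orderOf_pos z).ne' h5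
    refine ⟨⟨z ^ (orderOf z / p), ?_⟩, Subgroup.pow_mem _ (Subgroup.mem_zpowers z) _, ?_⟩
    · rw [hreg.mem_omega hR, pow_one, ← pow_mul, Nat.div_mul_cancel h5, pow_orderOf_eq_one]
    · rw [← Subgroup.orderOf_coe, h6]
  obtain ⟨u, hu, hu'⟩ := key x hx
  obtain ⟨v, hv, hv'⟩ := key y hy
  have h5 : Subgroup.zpowers u ⊓ Subgroup.zpowers v = ⊥ := by
    rw [eq_bot_iff]
    rintro g ⟨⟨i, hi⟩, ⟨j, hj⟩⟩
    have : (g : R) ∈ Subgroup.zpowers x ⊓ Subgroup.zpowers y :=
      ⟨hi ▸ Subgroup.zpow_mem _ hu i, hj ▸ Subgroup.zpow_mem _ hv j⟩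
    rw [h3] at this
    exact Subtype.ext this
  have h6 := H19.card_mul_card_le_of_inf_eq_bot h5
  rw [Nat.card_zpowers, Nat.card_zpowers, hu', hv'] at h6
  have h7 := H19.card_le_of_isMetacyclic hm hp'.pos (hreg.omega hR 1)
    fun g hg => by simpa using (hreg.mem_omega hR).1 hg
  have h8 : Nat.card (hreg.omega hR 1) = p ^ 2 := by rw [sq]; exact le_antisymm h7 h6
  rw [hO]
  exact ⟨⟨IsPGroup.isMulCommutative_of_card_eq_prime_sq h8,
    fun g hg => by simpa using (hreg.mem_omega hR).1 hg⟩, h8⟩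

end Cfsg.Agent.S0638
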