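import Cfsg.Statements.S0642
import Cfsg.Agent.H19.Regular2

set_option autoImplicit false
open Cfsg

namespace Cfsg.Agent.S0642

/-- Among finite 2-groups the regular ones are exactly the abelian ones. -/
theorem result {G : Type*} [Group G] [Finite G] (hG : IsPGroup 2 G) : Cfsg.IsRegularPGroup 2 G ↔ ∀ a b : G, a * b = b * a := by
  have hR1 : (∀ a b : G, a * b = b * a) → H19.RegAt 2 1 G := by
    intro h a b
    refine ⟨1, Subgroup.one_mem _, ?_⟩
    rw [mul_one]
    exact Commute.mul_pow (h a b) _
  refine ⟨fun h a b => ?_, fun h => (hR1 h).isRegular hG⟩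
  have hR := H19.regAt_of_regular h 1
  set L := Subgroup.closure {a, b} with hL
  have ha : a ∈ L := Subgroup.subset_closure (by simp)
  have hb : b ∈ L := Subgroup.subset_closure (by simp)
  have hgen : Subgroup.closure ({⟨a, ha⟩, ⟨b, hb⟩} : Set L) = ⊤ := by
    apply Subgroup.map_injective L.subtype_injective
    rw [MonoidHom.map_closure, Set.image_pair, ← MonoidHom.range_eq_map, Subgroup.range_subtype]
    rfl
  have hRL := hR.subgroup L
  have hGL := hG.to_subgroup L
  set x : L := ⟨a, ha⟩
  set y : L := ⟨b, hb⟩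
  obtain ⟨c, hc, e⟩ := hRL x y
  rw [hgen, ← commutator_def] at hc
  have h1 : commutator L ≤ powerClosure 2 1 (commutator L) := by
    apply H19.commutator_le_of_closure_pair hgen
    have hN : (powerClosure 2 1 (commutator L)).Normal := inferInstance
    have h2 := hN.conj_mem _ (Subgroup.inv_mem _ hc) y
    have h3 : c = (x ^ 2 * y ^ 2)⁻¹ * (x * y) ^ 2 := by
      rw [pow_one] at e
      rw [e]; group
    have h4 : y * c⁻¹ * y⁻¹ = x⁻¹ * y⁻¹ * x * y := by
      rw [h3]; simp only [sq]; group
    rwa [h4] at h2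
  have h2 : ∀ k, commutator L ≤ powerClosure 2 k (commutator L) := by
    intro k
    induction k with
    | zero => intro g hg; simpa using H19.pow_mem_powerClosure (p := 2) (n := 0) hg
    | succ k ih =>
      rw [add_comm, ← hRL.powerClosure_powerClosure hGL]
      exact ih.trans (H19.powerClosure_mono k h1)
  obtain ⟨k, hk⟩ := IsPGroup.iff_card.1 hGL
  have h3 : powerClosure 2 k (commutator L) = ⊥ :=
    H19.powerClosure_eq_bot_iff.2 fun g _ => by rw [← hk, pow_card_eq_one']
  have h4 : commutator L = ⊥ := eq_bot_iff.2 (h3 ▸ h2 k)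
  exact congrArg Subtype.val (((commutator_eq_bot_iff L).1 h4).is_comm.comm x y)

end Cfsg.Agent.S0642
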