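import Cfsg.Statements.S0657
import Cfsg.Agent.H11.QuadAct

set_option autoImplicit false
open Cfsg

namespace Cfsg.Agent.S0657

/-- For odd p, a group that fails to be p-stable modulo its largest normal subgroup of order prime to p, and whose upper p-series does not stop there, has a section isomorphic to SL(2, p). -/
theorem result {G : Type*} [Group G] [Finite G] {p : ℕ} [Fact p.Prime] (hp : p ≠ 2) (hO : Cfsg.pPrimeCore p G < Cfsg.pPrimePCore p G) (hns : ¬ Cfsg.IsPStable p (G ⧸ Cfsg.pPrimeCore p G)) : ∃ (K L : Subgroup G) (hL : (L.subgroupOf K).Normal), K ≤ ⊤ ∧ Nonempty ((K ⧸ L.subgroupOf K) ≃* Matrix.SpecialLinearGroup (Fin 2) (ZMod p)) := by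
  have h1 : Cfsg.Involves (Cfsg.qd p) (G ⧸ Cfsg.pPrimeCore p G) := by
    by_contra hcon
    refine hns ⟨(Fact.out : p.Prime).odd_of_ne_two hp, ?_, fun A P _ hP _ _ _ hq =>
      H11.map_le_pCore_of_not_involves_qd hp hcon P A hP hq⟩
    intro h
    apply hO.ne
    rw [Cfsg.pPrimePCore, h, MonoidHom.comap_bot, QuotientGroup.ker_mk']
  obtain ⟨K, L, hL, h⟩ := H94.involves_trans H11.involves_sl_qd
    (H94.involves_trans h1 (H94.involves_quotient _))
  exact ⟨K, L, hL, le_top, h⟩

end Cfsg.Agent.S0657
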