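import Cfsg.Statements.S0663
import Cfsg.Agent.H10.Uniserial

set_option autoImplicit false
open Cfsg

namespace Cfsg.Agent.S0663

/-- A p-group acts uniserially on a p-group N of order p^n exactly when the iterated commutator chain from N has length n; in that case the chain terms are all the invariant subgroups of N and they are normal in N. -/
theorem result {L : Type*} [Group L] [Finite L] {p : ℕ} [Fact p.Prime] (N G : Subgroup L) (hN : IsPGroup p N) (hG : IsPGroup p G) (hGN : G ≤ Subgroup.normalizer (N : Set L)) (n : ℕ) (hn : Nat.card N = p ^ n) : ((∀ H : Subgroup L, H ≤ N → G ≤ Subgroup.normalizer (H : Set L) → H ≠ ⊥ → (⁅H, G⁆).relIndex H = p) ↔ Cfsg.iterCommutator N G (n - 1) ≠ ⊥ ∨ n = 0) ∧ ((∀ H : Subgroup L, H ≤ N → G ≤ Subgroup.normalizer (H : Set L) → H ≠ ⊥ → (⁅H, G⁆).relIndex H = p) → ∀ H : Subgroup L, H ≤ N → G ≤ Subgroup.normalizer (H : Set L) → (∃ i ≤ n, H = Cfsg.iterCommutator N G i) ∧ N ≤ Subgroup.normalizer (H : Set L)) := by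
  refine ⟨⟨fun h => ?_, fun h => H10.uniserial_of_card hG hGN
    (H10.card_iterCommutator_of_ne_bot hn hG hGN h)⟩, fun h H hH hGH => ?_⟩
  · rcases Nat.eq_zero_or_pos n with h0 | h0
    · exact Or.inr h0
    · left
      rw [← Subgroup.one_lt_card_iff_ne_bot,
        H10.card_iterCommutator_of_uniserial hn hGN h _ (Nat.sub_le _ _)]
      exact Nat.one_lt_pow (by omega) (Fact.out : p.Prime).one_lt
  · have h1 := H10.card_iterCommutator_of_uniserial hn hGN h
    obtain ⟨i, hi, rfl⟩ := H10.exists_eq_iterCommutator hG hGN h1 hH hGH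
    exact ⟨⟨i, hi, rfl⟩, H10.le_normalizer_iterCommutator_of_card hG hGN h1 i hi⟩

end Cfsg.Agent.S0663
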