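import Cfsg.Agent.Base
import Cfsg.Statements.S0666
import Cfsg.Agent.H5.FrobAction

set_option autoImplicit false
open Cfsg

namespace Cfsg.Agent.S0666

/-- A Frobenius group acting on a nontrivial abelian group of order prime to that of its kernel, with the kernel acting without nontrivial fixed points, has a complement with a nontrivial fixed point. -/
theorem result {G : Type*} [Group G] [Finite G] (V F : Subgroup G) (hVab : IsMulCommutative V) (hV1 : V ≠ ⊥) (hFV : F ≤ Subgroup.normalizer (V : Set G)) (H : Subgroup ↥F) (hH : Cfsg.IsFrobeniusComplement H) (hcop : (Nat.card V).Coprime (Nat.card (Cfsg.frobeniusKernel H))) (hCK : V ⊓ Subgroup.centralizer (Subtype.val '' Cfsg.frobeniusKernel H : Set G) = ⊥) : V ⊓ Subgroup.centralizer ((H.map F.subtype : Subgroup G) : Set G) ≠ ⊥ := by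
  intro hCH
  apply hV1
  have hK : (((H5.frobKer hH).map F.subtype : Subgroup G) : Set G) =
      Subtype.val '' Cfsg.frobeniusKernel H := rfl
  apply H5.eq_bot_of_frob_action (K := (H5.frobKer hH).map F.subtype) (H := H.map F.subtype)
    ((Subgroup.map_subtype_le _).trans hFV) ((Subgroup.map_subtype_le _).trans hFV) _ _ _
    (by rw [hK]; exact hCK) hCH
  · apply H1.le_normalizer_of_conj_mem
    rintro _ ⟨a, -, rfl⟩ _ ⟨x, hx, rfl⟩
    exact ⟨a * x * a⁻¹, H5.conj_mem_frobeniusKernel hx a, rfl⟩
  · rintro _ ⟨h, hh, rfl⟩ hh1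
    rw [H5.inf_centralizer_eq_bot_iff]
    rintro _ ⟨k, hk, rfl⟩ hc
    have : k = 1 := H5.frob_eq_one_of_commute hH hh (fun h0 => hh1 (by rw [h0]; rfl)) hk
      (Subtype.ext hc.symm)
    rw [this]; rfl
  · rw [Subgroup.card_map_of_injective F.subtype_injective]
    exact hcop

end Cfsg.Agent.S0666
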