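import Cfsg.Agent.Base
import Cfsg.Agent.H90.PermMod
import Cfsg.Statements.S0668

set_option autoImplicit false
open Cfsg

namespace Cfsg.Agent.S0668

/-- The equivariant linear maps between the permutation modules of two finite `G`-sets form a space whose dimension is the number of `G`-orbits on the product of the two sets. -/
theorem result {G : Type*} [Group G] {K : Type*} [Field K] {Ω₁ Ω₂ : Type*} [Fintype Ω₁] [Fintype Ω₂] [MulAction G Ω₁] [MulAction G Ω₂] : Module.finrank K ((Cfsg.permRep K G Ω₁).linHom (Cfsg.permRep K G Ω₂)).invariants = Nat.card (MulAction.orbitRel.Quotient G (Ω₁ × Ω₂)) := by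
  classical
  -- the matrix of a linear map
  let e : ((Ω₁ → K) →ₗ[K] (Ω₂ → K)) →ₗ[K] (Ω₁ × Ω₂ → K) :=
    { toFun := fun T x => T (Pi.single x.1 1) x.2
      map_add' := fun S T => rfl
      map_smul' := fun c T => rfl }
  have he : Function.Injective e := by
    rw [injective_iff_map_eq_zero]
    intro T hT
    apply LinearMap.pi_ext'
    intro i
    ext j
    simpa [e] using congrFun hT (i, j)
  let q : (MulAction.orbitRel.Quotient G (Ω₁ × Ω₂) → K) →ₗ[K] (Ω₁ × Ω₂ → K) :=
    LinearMap.funLeft K K (Quotient.mk _)
  have hq : Function.Injective q := LinearMap.funLeft_injective_of_surjective K K _ Quotient.mk_surjective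
  have hsingle : ∀ (g : G) (x : Ω₁), Cfsg.permRep K G Ω₁ g (Pi.single x (1 : K)) = Pi.single (g • x) 1 := by
    intro g x
    ext y
    simp only [H90.permRep_apply, Pi.single_apply, inv_smul_eq_iff]
  have hrange : ((Cfsg.permRep K G Ω₁).linHom (Cfsg.permRep K G Ω₂)).invariants.map e
      = LinearMap.range q := by
    ext M
    constructor
    · rintro ⟨T, hT, rfl⟩
      refine ⟨Quotient.lift (e T) ?_, rfl⟩
      rintro x y ⟨g, rfl⟩
      have := hT g
      rw [Representation.linHom_apply] at this
      have h2 := congrFun (LinearMap.congr_fun this (Pi.single (g • y.1) 1)) (g • y.2)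
      simp only [LinearMap.comp_apply, hsingle, inv_smul_smul, H90.permRep_apply] at h2
      exact h2.symm
    · rintro ⟨F, rfl⟩
      let T : (Ω₁ → K) →ₗ[K] (Ω₂ → K) := Matrix.toLin' (Matrix.of fun j i => q F (i, j))
      have hT : e T = q F := by
        ext x
        simp [e, T]
      refine ⟨T, ?_, hT⟩
      intro g
      apply he
      ext x
      rw [Representation.linHom_apply]
      change T (Cfsg.permRep K G Ω₁ g⁻¹ (Pi.single x.1 1)) (g⁻¹ • x.2) = e T x
      rw [hsingle]
      change e T (g⁻¹ • x) = e T x
      rw [hT]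
      change F _ = F _
      congr 1
      exact Quotient.sound ⟨g⁻¹, rfl⟩
  rw [← (Submodule.equivMapOfInjective e he _).finrank_eq.symm, hrange,
    LinearMap.finrank_range_of_inj hq]
  have : Fintype (MulAction.orbitRel.Quotient G (Ω₁ × Ω₂)) := Fintype.ofFinite _
  simp

end Cfsg.Agent.S0668
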