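import Cfsg.Agent.Base
import Cfsg.Agent.H90.Fisher
import Cfsg.Agent.S0004
import Cfsg.Agent.S0676
import Cfsg.Statements.S0677

set_option autoImplicit false
open Cfsg

namespace Cfsg.Agent.S0677

open Pointwise

theorem aux {α : Type*} [Fintype α] {p : ℕ} [Fact p.Prime] (hα : Fintype.card α = p)
    {G : Type*} [Group G] [Finite G] [MulAction G α] [FaithfulSMul G α]
    [MulAction.IsPretransitive G α]
    (h3 : Group.IsSolvable G ∨ MulAction.IsMultiplyPretransitive G α 3)
    (H : Subgroup G) (hH : H.index = p) : ∃ a : α, H = MulAction.stabilizer G a := by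
  classical
  have hp : p.Prime := Fact.out
  have hα' : Nat.card α = p := by rw [Nat.card_eq_fintype_card, hα]
  obtain ⟨P⟩ : Nonempty (Sylow p G) := inferInstance
  obtain ⟨c, e, hcP, hc, -⟩ := H90.exists_cycle_mem_sylow hα' P
  have hP : Nat.card P = p := by rw [← hcP, Nat.card_zpowers, hc]
  have hHc : Nat.card H = (P : Subgroup G).index := by
    have h1 := H.card_mul_index
    have h2 := (P : Subgroup G).card_mul_index
    rw [hH] at h1
    rw [hP, ← h1, mul_comm] at h2
    exact (Nat.eq_of_mul_eq_mul_right hp.pos h2).symm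
  have hHp : ¬ p ∣ Nat.card H := hHc ▸ P.not_dvd_index
  have hst : ∀ a : α, (MulAction.stabilizer G a).index = p := fun a => by
    rw [MulAction.index_stabilizer_of_transitive, hα']
  have hstc : ∀ a : α, Nat.card (MulAction.stabilizer G a) = Nat.card H := by
    intro a
    have h1 := H.card_mul_index
    have h2 := (MulAction.stabilizer G a).card_mul_index
    rw [hH] at h1
    rw [hst, ← h1] at h2
    exact Nat.eq_of_mul_eq_mul_right hp.pos h2
  rcases h3 with h3 | h3
  · obtain ⟨g, hg⟩ := Cfsg.Agent.S0004.result (Nat.card H) p (by rw [← hH, H.card_mul_index])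
      ((Nat.Prime.coprime_iff_not_dvd hp).2 hHp).symm (MulAction.stabilizer G (e 0)) H (hstc _) rfl
    refine ⟨g • e 0, ?_⟩
    rw [← hg, MulAction.stabilizer_smul_eq_stabilizer_map_conj]
    rfl
  by_contra hcon
  push Not at hcon
  have hmove : ∀ a : α, ∃ h ∈ H, h • a ≠ a := by
    intro a
    by_contra h
    push Not at h
    exact hcon a (Subgroup.eq_of_le_of_card_ge (fun g hg => h g hg) (hstc a).le)
  let a₀ := e 0
  let I : α → G ⧸ H → Prop := fun x b => ∃ g : G, (g : G ⧸ H) = b ∧ g • a₀ = x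
  have hI : ∀ (g : G) x b, I (g • x) (g • b) ↔ I x b := by
    intro g x b
    constructor
    · rintro ⟨k, h1, h2⟩
      refine ⟨g⁻¹ * k, ?_, by rw [mul_smul, h2, inv_smul_smul]⟩
      rw [← smul_eq_mul, ← MulAction.Quotient.smul_mk, h1, inv_smul_smul]
    · rintro ⟨k, h1, h2⟩
      refine ⟨g * k, ?_, by rw [mul_smul, h2]⟩
      rw [← smul_eq_mul, ← MulAction.Quotient.smul_mk, h1]
  let b₀ : G ⧸ H := ((1 : G) : G ⧸ H)
  have hIb : ∀ x, I x b₀ ↔ ∃ h ∈ H, h • a₀ = x := by
    intro x
    simp only [I, b₀, QuotientGroup.eq, mul_one, inv_mem_iff]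
  obtain ⟨h₁, hh₁, ha₁⟩ := hmove a₀
  obtain ⟨z, hz⟩ : ∃ z, ¬ I z b₀ := by
    by_contra h
    push Not at h
    apply hHp
    have : MulAction.IsPretransitive H α := by
      rw [MulAction.isPretransitive_iff_base a₀]
      intro x
      obtain ⟨h, hh, hx⟩ := (hIb x).1 (h x)
      exact ⟨⟨h, hh⟩, hx⟩
    rw [← hα', ← MulAction.index_stabilizer_of_transitive H a₀]
    exact Subgroup.index_dvd_card _
  obtain ⟨h₂, hh₂, hz₂⟩ := hmove z
  have hz' : ¬ I (h₂ • z) b₀ := by
    rw [hIb] at hz ⊢
    rintro ⟨k, hk, hk'⟩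
    exact hz ⟨h₂⁻¹ * k, H.mul_mem (H.inv_mem hh₂) hk, by rw [mul_smul, hk', inv_smul_smul]⟩
  have i0 : I a₀ b₀ := (hIb _).2 ⟨1, H.one_mem, one_smul _ _⟩
  have i1 : I (h₁ • a₀) b₀ := (hIb _).2 ⟨h₁, hh₁, rfl⟩
  have hza : z ≠ a₀ := by rintro rfl; exact hz i0
  have : Fintype (G ⧸ H) := Fintype.ofFinite _
  have hcardB : Fintype.card (G ⧸ H) = p := by rw [← Nat.card_eq_fintype_card, ← hH]; rfl
  have hcount : ∀ a a' : α, (Finset.univ.filter (fun b => I a b)).card
      = (Finset.univ.filter (fun b => I a' b)).card := by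
    intro a a'
    obtain ⟨g, rfl⟩ := MulAction.exists_smul_eq G a a'
    apply Finset.card_bijective (MulAction.toPerm g) (MulAction.toPerm g).bijective
    intro b
    simp [hI]
  have f1 := H90.fisher_action (G := G) (Finset.univ.erase a₀) (Finset.univ.filter (fun b => I a₀ b))
    I hI (by
      intro x hx y hy x' hx' y' hy' hxy hxy'
      simp only [Finset.mem_erase, Finset.mem_univ, and_true] at hx hy hx' hy'
      obtain ⟨g, g1, g2, g3⟩ := H90.three_trans h3 hx.symm hy.symm hxy hx'.symm hy'.symm hxy'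
      refine ⟨g, g2, g3, fun b => ?_⟩
      simp only [Finset.mem_filter, Finset.mem_univ, true_and]
      conv_lhs => rw [← g1, hI])
    (x₀ := h₁ • a₀) (y₀ := z) (by simpa using ha₁) (by simpa using hza) (b₀ := b₀) (by simpa using i0)
    i1 hz
  have f2 := H90.fisher_action (G := G) (Finset.univ.erase z) (Finset.univ.filter (fun b => ¬ I z b))
    I hI (by
      intro x hx y hy x' hx' y' hy' hxy hxy'
      simp only [Finset.mem_erase, Finset.mem_univ, and_true] at hx hy hx' hy'
      obtain ⟨g, g1, g2, g3⟩ := H90.three_trans h3 hx.symm hy.symm hxy hx'.symm hy'.symm hxy'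
      refine ⟨g, g2, g3, fun b => ?_⟩
      simp only [Finset.mem_filter, Finset.mem_univ, true_and]
      conv_lhs => rw [← g1, hI])
    (x₀ := a₀) (y₀ := h₂ • z) (by simpa using hza.symm) (by simpa using hz₂) (b₀ := b₀)
    (by simpa using hz) i0 hz'
  have f3 := Finset.card_filter_add_card_filter_not (s := Finset.univ) (fun b => I z b)
  rw [Finset.card_erase_of_mem (Finset.mem_univ _), Finset.card_univ, hα] at f1 f2
  rw [Finset.card_univ, hcardB, hcount z a₀] at f3
  have h4 := Finset.card_le_univ ({a₀, h₁ • a₀, z} : Finset α)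
  rw [Finset.card_eq_three.2 ⟨_, _, _, ha₁.symm, hza.symm, by rintro rfl; exact hz i1, rfl⟩] at h4
  omega


/-- In a transitive permutation group of prime degree `p` whose Sylow `p`-normaliser has even order, the point stabilisers are the only subgroups of index `p`. -/
theorem result {α : Type*} [Fintype α] [DecidableEq α] {p : ℕ} [Fact p.Prime] (hα : Fintype.card α = p) (G : Subgroup (Equiv.Perm α)) [MulAction.IsPretransitive G α] (P : Sylow p G) (heven : Even (Nat.card (Subgroup.normalizer ((P : Subgroup G) : Set G)))) (H : Subgroup G) (hH : H.index = p) : ∃ a : α, H = MulAction.stabilizer G a := by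
  apply aux hα _ H hH
  by_cases h : Group.IsSolvable G
  · exact Or.inl h
  · exact Or.inr (Cfsg.Agent.S0676.result hα G h P heven)

end Cfsg.Agent.S0677
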