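import Cfsg.Agent.Base
import Cfsg.Agent.H90.Trans
import Cfsg.Statements.S0681

set_option autoImplicit false
open Cfsg

namespace Cfsg.Agent.S0681

variable {F : Type*} [Cfsg.NearField F]

theorem zero_mul' (a : F) : (0 : F) * a = 0 := by
  have := NearField.right_distrib (0 : F) 0 a
  rw [add_zero] at this
  exact left_eq_add.1 this

theorem neg_mul' (x a : F) : (-x) * a = -(x * a) := by
  have := NearField.right_distrib (-x) x a
  rw [neg_add_cancel, zero_mul'] at this
  exact eq_neg_of_add_eq_zero_left this.symm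

theorem sub_mul' (x y a : F) : (x - y) * a = x * a - y * a := by
  rw [sub_eq_add_neg, NearField.right_distrib, neg_mul', sub_eq_add_neg]

theorem mul_ne_zero' {a b : F} (ha : a ≠ 0) (hb : b ≠ 0) : a * b ≠ 0 := by
  intro h
  obtain ⟨c, -, hc⟩ := NearField.exists_inv a ha
  apply hb
  rw [← one_mul b, ← hc, mul_assoc, h, NearField.mul_zero]

theorem inv_ne_zero' {a b : F} (h : a * b = 1) : b ≠ 0 := by
  rintro rfl
  rw [NearField.mul_zero] at h
  exact NearField.zero_ne_one h

theorem exists_perm {a : F} (ha : a ≠ 0) (b : F) : ∃ σ : Equiv.Perm F, ∀ x, σ x = x * a + b := by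
  obtain ⟨c, hc, hc'⟩ := NearField.exists_inv a ha
  exact ⟨⟨fun x => x * a + b, fun y => (y - b) * c,
    fun x => by simp only [add_sub_cancel_right, mul_assoc, hc, mul_one],
    fun y => by simp only [mul_assoc, hc', mul_one, sub_add_cancel]⟩, fun x => rfl⟩


/-- The affine maps `x ↦ x * a + b`, `a ≠ 0`, of a near-field form a sharply doubly transitive permutation group. -/
theorem result {F : Type*} [Cfsg.NearField F] : ∃ H : Subgroup (Equiv.Perm F), (∀ σ : Equiv.Perm F, σ ∈ H ↔ ∃ a b : F, a ≠ 0 ∧ ∀ x : F, σ x = x * a + b) ∧ MulAction.IsMultiplyPretransitive H F 2 ∧ ∀ x : Fin 2 ↪ F, MulAction.stabilizer H x = ⊥ := by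
  let H : Subgroup (Equiv.Perm F) :=
    { carrier := {σ | ∃ a b : F, a ≠ 0 ∧ ∀ x : F, σ x = x * a + b}
      one_mem' := ⟨1, 0, NearField.zero_ne_one.symm, fun x => by simp⟩
      mul_mem' := by
        rintro σ τ ⟨a, b, ha, hσ⟩ ⟨c, d, hc, hτ⟩
        refine ⟨c * a, d * a + b, mul_ne_zero' hc ha, fun x => ?_⟩
        rw [Equiv.Perm.mul_apply, hτ, hσ, NearField.right_distrib, mul_assoc, add_assoc]
      inv_mem' := by
        rintro σ ⟨a, b, ha, hσ⟩
        obtain ⟨c, hc, hc'⟩ := NearField.exists_inv a ha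
        refine ⟨c, (-b) * c, inv_ne_zero' hc, fun x => ?_⟩
        rw [Equiv.Perm.inv_eq_iff_eq, hσ, ← NearField.right_distrib, mul_assoc, hc', mul_one,
          neg_add_cancel_right] }
  refine ⟨H, fun σ => Iff.rfl, ?_, ?_⟩
  · rw [MulAction.is_two_pretransitive_iff]
    intro x y x' y' hxy hxy'
    obtain ⟨c, hc, hc'⟩ := NearField.exists_inv (x - y) (sub_ne_zero.2 hxy)
    have ha : c * (x' - y') ≠ 0 := mul_ne_zero' (inv_ne_zero' hc) (sub_ne_zero.2 hxy')
    obtain ⟨σ, hσ⟩ := exists_perm ha (-(x * (c * (x' - y'))) + x')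
    refine ⟨⟨σ, _, _, ha, hσ⟩, ?_, ?_⟩
    · change σ x = x'
      rw [hσ, add_neg_cancel_left]
    · change σ y = y'
      have h1 : x * (c * (x' - y')) - y * (c * (x' - y')) = x' - y' := by
        rw [← sub_mul', ← mul_assoc, hc, one_mul]
      rw [hσ, ← add_assoc, ← sub_eq_add_neg, ← neg_sub, h1, neg_sub, sub_add_cancel]
  · refine (H90.sharp_two_iff (G := H) (α := F)).2 ?_
    rintro ⟨σ, a, b, ha, hσ⟩ x y hxy hx hy
    change σ x = x at hx
    change σ y = y at hy
    rw [hσ] at hx hy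
    obtain ⟨c, hc, hc'⟩ := NearField.exists_inv (x - y) (sub_ne_zero.2 hxy)
    have h1 : (x - y) * a = x - y := by
      rw [sub_mul', ← add_sub_add_right_eq_sub _ _ b, hx, hy]
    have h2 : a = 1 := by rw [← one_mul a, ← hc', mul_assoc, h1]
    rw [h2, mul_one, add_eq_left] at hx
    apply Subtype.ext
    ext z
    simp [hσ, h2, hx]

end Cfsg.Agent.S0681
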