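import Cfsg.Agent.Base
import Cfsg.Agent.S0681
import Cfsg.Statements.S0682

set_option autoImplicit false
open Cfsg

namespace Cfsg.Agent.S0682

open Cfsg.Agent.S0681


/-- A finite near-field has prime-power order; its additive group is commutative of prime exponent. -/
theorem result {F : Type*} [Cfsg.NearField F] [Finite F] : ∃ p j : ℕ, p.Prime ∧ 1 ≤ j ∧ Nat.card F = p ^ j ∧ (∀ x y : F, x + y = y + x) ∧ ∀ x : F, p • x = 0 := by
  have hnt : Nontrivial F := ⟨⟨0, 1, NearField.zero_ne_one⟩⟩
  have hc : Nat.card F ≠ 1 := Finite.one_lt_card.ne'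
  obtain ⟨p, hp, hpd⟩ := Nat.exists_prime_and_dvd hc
  have : Fact p.Prime := ⟨hp⟩
  obtain ⟨x, hx⟩ := exists_prime_addOrderOf_dvd_card' p hpd
  have hx0 : x ≠ 0 := by
    rintro rfl
    rw [addOrderOf_zero] at hx
    exact hp.one_lt.ne hx
  have hsm : ∀ (n : ℕ) (y c : F), (n • y) * c = n • (y * c) := by
    intro n y c
    induction n with
    | zero => simp [zero_mul']
    | succ n ih => rw [succ_nsmul, succ_nsmul, NearField.right_distrib, ih]
  have hpow : ∀ y : F, p • y = 0 := by
    intro y
    obtain ⟨c, hc, -⟩ := NearField.exists_inv x hx0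
    have : y = x * (c * y) := by rw [← mul_assoc, hc, one_mul]
    rw [this, ← hsm, ← hx, addOrderOf_nsmul_eq_zero, zero_mul']
  have hP : IsPGroup p (Multiplicative F) := fun y => ⟨1, by
    rw [pow_one]
    exact hpow (Multiplicative.toAdd y)⟩
  obtain ⟨j, hj0, hj⟩ := hP.nontrivial_iff_card.1 inferInstance
  refine ⟨p, j, hp, hj0, hj, ?_, hpow⟩
  have hZ := hP.center_nontrivial
  obtain ⟨z, hz⟩ := exists_ne (1 : Subgroup.center (Multiplicative F))
  have hz0 : Multiplicative.toAdd (z : Multiplicative F) ≠ 0 := fun h => hz (Subtype.ext h)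
  have hzc : ∀ y : F, y + Multiplicative.toAdd (z : Multiplicative F)
      = Multiplicative.toAdd (z : Multiplicative F) + y :=
    fun y => Subgroup.mem_center_iff.1 z.2 (Multiplicative.ofAdd y)
  generalize Multiplicative.toAdd (z : Multiplicative F) = w at hz0 hzc
  intro a b
  by_cases ha : a = 0
  · simp [ha]
  obtain ⟨c, hc, -⟩ := NearField.exists_inv w hz0
  obtain ⟨d, -, hd⟩ := NearField.exists_inv (c * a) (mul_ne_zero' (inv_ne_zero' hc) ha)
  have h1 : a = w * (c * a) := by rw [← mul_assoc, hc, one_mul]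
  have h2 : b = (b * d) * (c * a) := by rw [mul_assoc, hd, mul_one]
  generalize c * a = e at h1 h2
  rw [h1, h2, ← NearField.right_distrib, ← NearField.right_distrib, hzc]

end Cfsg.Agent.S0682
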