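import Cfsg.Agent.Base
import Cfsg.Agent.H90.Sharp2
import Cfsg.Statements.S0683

set_option autoImplicit false
open Cfsg

namespace Cfsg.Agent.S0683

/-- A finite sharply doubly transitive permutation group is the affine group of a near-field: the permuted set carries a near-field structure for which the group consists exactly of the maps `x ↦ x * a + b` with `a ≠ 0`. -/
theorem result {α : Type*} [Fintype α] [DecidableEq α] (H : Subgroup (Equiv.Perm α)) [MulAction.IsMultiplyPretransitive H α 2] (hsharp : ∀ x : Fin 2 ↪ α, MulAction.stabilizer H x = ⊥) (h2 : 2 ≤ Fintype.card α) : ∃ _ : Cfsg.NearField α, ∀ σ : Equiv.Perm α, σ ∈ H ↔ ∃ a b : α, a ≠ 0 ∧ ∀ x : α, σ x = x * a + b := by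
  classical
  have hnt : Nontrivial α := Fintype.one_lt_card_iff_nontrivial.1 h2
  have hs := H90.sharp_two_iff.1 hsharp
  obtain ⟨K, p, j, hN, hK, htr, -⟩ :=
    H90.exists_kernel_sharp_two (G := H) (Ω := α) inferInstance hs
  obtain ⟨o, u, hou⟩ := exists_pair_ne α
  choose τ hτK hτ using htr o
  have hτu : ∀ k ∈ K, τ (k • o) = k := by
    intro k hk
    have h1 := (hK _).1 (K.mul_mem (K.inv_mem hk) (hτK (k • o)))
    rcases h1 with h1 | h1
    · exact (inv_mul_eq_one.1 h1).symm
    · exact absurd (by rw [mul_smul, hτ, inv_smul_smul]) (h1 o)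
  have hμ' : ∀ a : α, ∃ g : H, g • o = o ∧ (a ≠ o → g • u = a) := by
    intro a
    by_cases ha : a = o
    · exact ⟨1, one_smul _ _, fun h => absurd ha h⟩
    · obtain ⟨g, h1, h2⟩ := H90.two_trans (G := H) inferInstance hou (Ne.symm ha)
      exact ⟨g, h1, fun _ => h2⟩
  choose μ hμo hμ using hμ'
  have hne : ∀ g : H, g • o = o → ∀ a, a ≠ o → g • a ≠ o := fun g hg a ha h =>
    ha (MulAction.injective g (h.trans hg.symm))
  have hμu : ∀ g : H, g • o = o → μ (g • u) = g := by
    intro g hg
    have := hs (g⁻¹ * μ (g • u)) o u hou (by rw [mul_smul, hμo, inv_smul_eq_iff, hg])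
      (by rw [mul_smul, hμ _ (hne g hg u hou.symm), inv_smul_smul])
    exact (inv_mul_eq_one.1 this).symm
  have hτo : τ o = 1 := by simpa using hτu 1 K.one_mem
  have hμ1 : μ u = 1 := by simpa using hμu 1 (one_smul _ _)
  have hττ : ∀ y z, τ (τ z • y) = τ z * τ y := by
    intro y z
    rw [← hτu _ (K.mul_mem (hτK z) (hτK y)), mul_smul, hτ]
  let _ : Add α := ⟨fun x y => τ y • x⟩
  let _ : Zero α := ⟨o⟩
  let _ : Neg α := ⟨fun x => (τ x)⁻¹ • o⟩
  let addG : AddGroup α := AddGroup.ofLeftAxioms
    (fun x y z => by
      change τ z • τ y • x = τ (τ z • y) • x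
      rw [hττ, mul_smul])
    (fun x => hτ x)
    (fun x => by
      change τ x • (τ x)⁻¹ • o = o
      rw [smul_inv_smul])
  let mul : α → α → α := fun x a => if a = o then o else μ a • x
  have hmo : ∀ a, mul o a = o := by
    intro a
    simp only [mul, hμo, ite_self]
  let mon : Monoid α :=
    { mul := mul
      one := u
      mul_assoc := by
        intro x a b
        change mul (mul x a) b = mul x (mul a b)
        by_cases hb : b = o
        · simp [mul, hb]
        by_cases ha : a = o
        · rw [ha, hmo]; simp [mul, hμo]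
        have h1 : μ b • a ≠ o := hne _ (hμo b) a ha
        simp only [mul, if_neg ha, if_neg hb, if_neg h1]
        rw [← mul_smul, ← hμu (μ b * μ a) (by rw [mul_smul, hμo, hμo]), mul_smul, hμ a ha]
      one_mul := by
        intro a
        change mul u a = a
        by_cases ha : a = o
        · simp [mul, ha]
        · simp only [mul, if_neg ha, hμ a ha]
      mul_one := by
        intro a
        change mul a u = a
        simp only [mul, if_neg hou.symm, hμ1, one_smul] }
  let nf : NearField α :=
    { addG, mon with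
      right_distrib := by
        intro x y c
        change mul (τ y • x) c = τ (mul y c) • mul x c
        by_cases hc : c = o
        · simp [mul, hc, hτo]
        simp only [mul, if_neg hc]
        have := hτu _ (hN.conj_mem _ (hτK y) (μ c))
        rw [mul_smul, mul_smul, inv_smul_eq_iff.2 (hμo c).symm, hτ] at this
        rw [this, mul_smul, mul_smul, inv_smul_smul]
      mul_zero := by
        intro a
        change mul a o = o
        simp [mul]
      zero_ne_one := hou
      exists_inv := by
        intro a ha
        have ha' : a ≠ o := ha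
        have h0 : (μ a)⁻¹ • o = o := inv_smul_eq_iff.2 (hμo a).symm
        refine ⟨(μ a)⁻¹ • u, ?_, ?_⟩
        · change mul a _ = u
          simp only [mul, if_neg (hne _ h0 u hou.symm), hμu _ h0]
          rw [inv_smul_eq_iff, hμ a ha']
        · change mul _ a = u
          simp only [mul, if_neg ha', smul_inv_smul] }
  refine ⟨nf, fun σ => ⟨fun hσ => ?_, ?_⟩⟩
  · let g : H := ⟨σ, hσ⟩
    have h0 : ((τ (g • o))⁻¹ * g) • o = o := by rw [mul_smul, inv_smul_eq_iff, hτ]
    refine ⟨((τ (g • o))⁻¹ * g) • u, g • o, hne _ h0 u hou.symm, fun x => ?_⟩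
    change g • x = τ (g • o) • mul x _
    simp only [mul, if_neg (hne _ h0 u hou.symm), hμu _ h0]
    rw [mul_smul, smul_inv_smul]
  · rintro ⟨a, b, ha, hσ⟩
    have ha' : a ≠ o := ha
    have : σ = ((τ b * μ a : H) : Equiv.Perm α) := by
      ext x
      rw [hσ]
      change τ b • mul x a = (τ b * μ a) • x
      simp only [mul, if_neg ha', mul_smul]
    rw [this]
    exact SetLike.coe_mem _

end Cfsg.Agent.S0683
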