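import Cfsg.Statements.S0691
import Cfsg.Agent.H40.Reg2Data

set_option autoImplicit false
open Cfsg

namespace Cfsg.Agent.S0691

/-- An exceptional sharply doubly transitive group of degree 5^2: the listed matrices generate a subgroup of GL(2,5) of order 24 acting regularly on the non-zero vectors. -/
theorem result (A : Matrix.GeneralLinearGroup (Fin 2) (ZMod 5)) (B : Matrix.GeneralLinearGroup (Fin 2) (ZMod 5)) (C : Matrix.GeneralLinearGroup (Fin 2) (ZMod 5)) (hA : (A : Matrix (Fin 2) (Fin 2) (ZMod 5)) = !![2, 0; 0, -2]) (hB : (B : Matrix (Fin 2) (Fin 2) (ZMod 5)) = !![0, -1; 1, 0]) (hC : (C : Matrix (Fin 2) (Fin 2) (ZMod 5)) = !![1, 2; 1, -2]) : Nat.card (Subgroup.closure ({A, B, C} : Set (Matrix.GeneralLinearGroup (Fin 2) (ZMod 5)))) = 24 ∧ ∀ v w : Fin 2 → ZMod 5, v ≠ 0 → w ≠ 0 → ∃! h : Subgroup.closure ({A, B, C} : Set (Matrix.GeneralLinearGroup (Fin 2) (ZMod 5))), Matrix.mulVec ((h : Matrix.GeneralLinearGroup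 (Fin 2) (ZMod 5)) : Matrix (Fin 2) (Fin 2) (ZMod 5)) v = w := by
  haveI : Fact (Nat.Prime 5) := ⟨by norm_num⟩
  have eA : H40.Reg2.ent A = H40.Reg2.castT 5 (2,0,0,3) := by
    simp only [H40.Reg2.ent, hA]; decide
  have eB : H40.Reg2.ent B = H40.Reg2.castT 5 (0,4,1,0) := by
    simp only [H40.Reg2.ent, hB]; decide
  have eC : H40.Reg2.ent C = H40.Reg2.castT 5 (1,2,1,3) := by
    simp only [H40.Reg2.ent, hC]; decide
  obtain ⟨hc, hm⟩ := H40.Reg2.clo_spec (p := 5) {A, B, C} H40.Reg2.Ga H40.Reg2.Wa H40.Reg2.La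
    (by
      rintro g (rfl | rfl | rfl)
      · exact ⟨_, by simp [H40.Reg2.Ga], eA⟩
      · exact ⟨_, by simp [H40.Reg2.Ga], eB⟩
      · exact ⟨_, by simp [H40.Reg2.Ga], eC⟩)
    (by
      intro x hx
      simp only [H40.Reg2.Ga, List.mem_cons, List.not_mem_nil, or_false] at hx
      rcases hx with rfl | rfl | rfl
      · exact ⟨A, by simp, eA⟩
      · exact ⟨B, by simp, eB⟩
      · exact ⟨C, by simp, eC⟩)
    H40.Reg2.oa H40.Reg2.wa H40.Reg2.ca H40.Reg2.na H40.Reg2.la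
  have hc' : Nat.card (Subgroup.closure ({A, B, C} : Set (Matrix.GeneralLinearGroup (Fin 2) (ZMod 5)))) = 24 := hc
  refine ⟨hc', H40.Reg2.regular _ ?_ hc'⟩
  intro h hh h1
  obtain ⟨x, hx, e⟩ := hm h hh
  have := H40.Reg2.ne_oneT h1
  rw [e] at this ⊢
  exact H40.Reg2.free_of (List.all_eq_true.1 H40.Reg2.fa x hx) this

end Cfsg.Agent.S0691
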