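import Cfsg.Statements.S0692
import Cfsg.Agent.H40.Reg2Data

set_option autoImplicit false
open Cfsg

namespace Cfsg.Agent.S0692

/-- An exceptional sharply doubly transitive group of degree 11^2: the listed matrices generate a subgroup of GL(2,11) of order 120 acting regularly on the non-zero vectors. -/
theorem result (A : Matrix.GeneralLinearGroup (Fin 2) (ZMod 11)) (B : Matrix.GeneralLinearGroup (Fin 2) (ZMod 11)) (hA : (A : Matrix (Fin 2) (Fin 2) (ZMod 11)) = !![0, -1; 1, 0]) (hB : (B : Matrix (Fin 2) (Fin 2) (ZMod 11)) = !![2, 4; 1, -3]) : Nat.card (Subgroup.closure ({A, B} : Set (Matrix.GeneralLinearGroup (Fin 2) (ZMod 11)))) = 120 ∧ ∀ v w : Fin 2 → ZMod 11, v ≠ 0 → w ≠ 0 → ∃! h : Subgroup.closure ({A, B} : Set (Matrix.GeneralLinearGroup (Fin 2) (ZMod 11))), Matrix.mulVec ((h : Matrix.GeneralLinearGroup (Fin 2) (ZMod 11)) : Matrix (Fin 2) (Fin 2) (ZMod 11)) v = w := by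
  haveI : Fact (Nat.Prime 11) := ⟨by norm_num⟩
  have eA : H40.Reg2.ent A = H40.Reg2.castT 11 (0,10,1,0) := by
    simp only [H40.Reg2.ent, hA]; decide
  have eB : H40.Reg2.ent B = H40.Reg2.castT 11 (2,4,1,8) := by
    simp only [H40.Reg2.ent, hB]; decide
  obtain ⟨hc, hm⟩ := H40.Reg2.clo_spec (p := 11) {A, B} H40.Reg2.Gb H40.Reg2.Wb H40.Reg2.Lb
    (by
      rintro g (rfl | rfl)
      · exact ⟨_, by simp [H40.Reg2.Gb], eA⟩
      · exact ⟨_, by simp [H40.Reg2.Gb], eB⟩)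
    (by
      intro x hx
      simp only [H40.Reg2.Gb, List.mem_cons, List.not_mem_nil, or_false] at hx
      rcases hx with rfl | rfl
      · exact ⟨A, by simp, eA⟩
      · exact ⟨B, by simp, eB⟩)
    H40.Reg2.ob H40.Reg2.wb H40.Reg2.cb H40.Reg2.nb H40.Reg2.lb
  have hc' : Nat.card (Subgroup.closure ({A, B} : Set (Matrix.GeneralLinearGroup (Fin 2) (ZMod 11)))) = 120 := hc
  refine ⟨hc', H40.Reg2.regular _ ?_ hc'⟩
  intro h hh h1
  obtain ⟨x, hx, e⟩ := hm h hh
  have := H40.Reg2.ne_oneT h1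
  rw [e] at this ⊢
  exact H40.Reg2.free_of (List.all_eq_true.1 H40.Reg2.fb x hx) this

end Cfsg.Agent.S0692
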