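import Cfsg.Statements.S0693
import Cfsg.Agent.H40.Reg2Data

set_option autoImplicit false
open Cfsg

namespace Cfsg.Agent.S0693

/-- An exceptional sharply doubly transitive group of degree 59^2: the listed matrices generate a subgroup of GL(2,59) of order 3480 acting regularly on the non-zero vectors. -/
theorem result (A : Matrix.GeneralLinearGroup (Fin 2) (ZMod 59)) (B : Matrix.GeneralLinearGroup (Fin 2) (ZMod 59)) (C : Matrix.GeneralLinearGroup (Fin 2) (ZMod 59)) (hA : (A : Matrix (Fin 2) (Fin 2) (ZMod 59)) = !![0, -1; 1, 0]) (hB : (B : Matrix (Fin 2) (Fin 2) (ZMod 59)) = !![9, 15; -10, -10]) (hC : (C : Matrix (Fin 2) (Fin 2) (ZMod 59)) = !![4, 0; 0, 4]) : Nat.card (Subgroup.closure ({A, B, C} : Set (Matrix.GeneralLinearGroup (Fin 2) (ZMod 59)))) = 3480 ∧ ∀ v w : Fin 2 → ZMod 59, v ≠ 0 → w ≠ 0 → ∃! h : Subgroup.closure ({A, B, C} : Set (Matrix.GeneralLinearGroup (Fin 2) (ZMod 59))), Matrix.mulVec ((h : Matrix.GeneralLinearGroup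 (Fin 2) (ZMod 59)) : Matrix (Fin 2) (Fin 2) (ZMod 59)) v = w := by
  have eA : H40.Reg2.ent A = H40.Reg2.castT 59 (0,58,1,0) := by
    simp only [H40.Reg2.ent, hA]; decide
  have eB : H40.Reg2.ent B = H40.Reg2.castT 59 (9,15,49,49) := by
    simp only [H40.Reg2.ent, hB]; decide
  have eC : H40.Reg2.ent C = H40.Reg2.smulT 4 H40.Reg2.oneT := by
    simp only [H40.Reg2.ent, hC]; decide
  obtain ⟨hc, -⟩ := H40.Reg2.clo_spec (p := 59) {A, B} H40.Reg2.Gc H40.Reg2.Wc H40.Reg2.Lc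
    (by
      rintro g (rfl | rfl)
      · exact ⟨_, by simp [H40.Reg2.Gc], eA⟩
      · exact ⟨_, by simp [H40.Reg2.Gc], eB⟩)
    (by
      intro x hx
      simp only [H40.Reg2.Gc, List.mem_cons, List.not_mem_nil, or_false] at hx
      rcases hx with rfl | rfl
      · exact ⟨A, by simp, eA⟩
      · exact ⟨B, by simp, eB⟩)
    H40.Reg2.oc H40.Reg2.wc H40.Reg2.cc H40.Reg2.nc H40.Reg2.lc
  have hc' : Nat.card (Subgroup.closure ({A, B} : Set (Matrix.GeneralLinearGroup (Fin 2) (ZMod 59)))) = 120 := hc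
  have hm : ∀ h ∈ Subgroup.closure ({A, B, C} : Set (Matrix.GeneralLinearGroup (Fin 2) (ZMod 59))),
      ∃ s : ZMod 59, s ^ 29 = 1 ∧ ∃ x ∈ H40.Reg2.Lc,
        H40.Reg2.ent h = H40.Reg2.smulT s (H40.Reg2.castT 59 x) := by
    intro h hh
    refine H40.Reg2.clo_ind _ (fun y => ∃ s : ZMod 59, s ^ 29 = 1 ∧ ∃ x ∈ H40.Reg2.Lc,
        y = H40.Reg2.smulT s (H40.Reg2.castT 59 x)) ?_ ?_ h hh
    · refine ⟨1, one_pow _, _, H40.Reg2.memB_iff.1 H40.Reg2.oc, ?_⟩
      simp [H40.Reg2.smulT, H40.Reg2.castT, H40.Reg2.oneT]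
    · have key : ∀ z ∈ H40.Reg2.Gc, ∀ x ∈ H40.Reg2.Lc, H40.Reg2.mulN 59 z x ∈ H40.Reg2.Lc :=
        fun z hz x hx => H40.Reg2.memB_iff.1
          (List.all_eq_true.1 (List.all_eq_true.1 H40.Reg2.cc z hz) x hx)
      rintro g (rfl | rfl | rfl) y ⟨s, hs, x, hx, rfl⟩
      · exact ⟨s, hs, _, key (0,58,1,0) (by simp [H40.Reg2.Gc]) x hx, by
          rw [H40.Reg2.mulT_smulT, H40.Reg2.cast_mulN, eA]⟩
      · exact ⟨s, hs, _, key (9,15,49,49) (by simp [H40.Reg2.Gc]) x hx, by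
          rw [H40.Reg2.mulT_smulT, H40.Reg2.cast_mulN, eB]⟩
      · refine ⟨4 * s, by rw [mul_pow, hs]; decide, x, hx, ?_⟩
        rw [eC]
        simp only [H40.Reg2.mulT, H40.Reg2.smulT, H40.Reg2.oneT, Prod.mk.injEq]
        refine ⟨?_, ?_, ?_, ?_⟩ <;> ring
  have hf : ∀ h ∈ Subgroup.closure ({A, B, C} : Set (Matrix.GeneralLinearGroup (Fin 2) (ZMod 59))),
      h ≠ 1 → H40.Reg2.det1 (H40.Reg2.ent h) ≠ 0 := by
    intro h hh h1
    obtain ⟨s, hs, x, hx, e⟩ := hm h hh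
    have h2 := H40.Reg2.ne_oneT h1
    have es : s = ((s.val : ℕ) : ZMod 59) := (ZMod.natCast_zmod_val s).symm
    rw [es, ← H40.Reg2.cast_smulN] at e
    rw [e] at h2 ⊢
    have h3 := List.all_eq_true.1 H40.Reg2.fc s.val (List.mem_range.2 (ZMod.val_lt s))
    have h4 : s.val ^ 29 % 59 = 1 := by
      have : ((s.val ^ 29 : ℕ) : ZMod 59) = ((1 : ℕ) : ZMod 59) := by
        push_cast; rw [← es, hs]
      exact (ZMod.natCast_eq_natCast_iff' _ _ _).1 this
    rw [h4] at h3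
    have h5 : (H40.Reg2.Lc.all fun x => H40.Reg2.freeB 59 (H40.Reg2.smulN 59 s.val x)) = true := h3
    exact H40.Reg2.free_of (List.all_eq_true.1 h5 x hx) h2
  have d1 : 120 ∣ Nat.card (Subgroup.closure ({A, B, C} : Set (Matrix.GeneralLinearGroup (Fin 2) (ZMod 59)))) := by
    rw [← hc']
    refine Subgroup.card_dvd_of_le (Subgroup.closure_mono ?_)
    rintro g (rfl | rfl) <;> simp
  have d2 : 29 ∣ Nat.card (Subgroup.closure ({A, B, C} : Set (Matrix.GeneralLinearGroup (Fin 2) (ZMod 59)))) := by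
    haveI : Fact (Nat.Prime 29) := ⟨by norm_num⟩
    have hpow : ∀ n : ℕ, H40.Reg2.ent (C ^ n) = H40.Reg2.smulT (4 ^ n) H40.Reg2.oneT := by
      intro n
      induction n with
      | zero => rw [pow_zero, H40.Reg2.ent_one]; simp [H40.Reg2.smulT]
      | succ n ih =>
        rw [pow_succ, H40.Reg2.ent_mul, ih, eC]
        simp only [H40.Reg2.mulT, H40.Reg2.smulT, H40.Reg2.oneT, Prod.mk.injEq]
        refine ⟨?_, ?_, ?_, ?_⟩ <;> ring
    have ho : orderOf C = 29 := by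
      refine orderOf_eq_prime (H40.Reg2.ent_inj ?_) ?_
      · rw [hpow, H40.Reg2.ent_one]; decide
      · intro e
        rw [e, H40.Reg2.ent_one] at eC
        exact absurd eC (by decide)
    rw [← ho]
    exact Subgroup.orderOf_dvd_natCard _ (Subgroup.subset_closure (by simp))
  have : Fact (Nat.Prime 59) := ⟨by norm_num⟩
  have hle := H40.Reg2.card_le _ hf
  have d3 := Nat.Coprime.mul_dvd_of_dvd_of_dvd (by norm_num) d1 d2
  have hcard : Nat.card (Subgroup.closure ({A, B, C} : Set (Matrix.GeneralLinearGroup (Fin 2) (ZMod 59)))) = 3480 :=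
    le_antisymm hle (Nat.le_of_dvd Nat.card_pos d3)
  exact ⟨hcard, H40.Reg2.regular _ hf hcard⟩

end Cfsg.Agent.S0693
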