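import Cfsg.Statements.S0694
import Cfsg.Agent.Base

set_option autoImplicit false
open Cfsg

namespace Cfsg.Agent.S0694

/-- The Dickson pair condition: for a prime power `q` and `n > 1`, (every prime factor of `n` divides `q - 1`, and `4 ∣ n → 4 ∣ q - 1`) holds exactly when `q ^ n ≡ 1` modulo `n * (q - 1)` but `q ^ i` is not, for `0 < i < n`. -/
theorem result (q n : ℕ) (hq : IsPrimePow q) (hn : 1 < n) : ((∀ r : ℕ, r.Prime → r ∣ n → r ∣ q - 1) ∧ (4 ∣ n → 4 ∣ q - 1)) ↔ (q ^ n ≡ 1 [MOD n * (q - 1)] ∧ ∀ i : ℕ, 0 < i → i < n → ¬ q ^ i ≡ 1 [MOD n * (q - 1)]) := by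
  have hq2 : 2 ≤ q := hq.two_le
  obtain ⟨c, rfl⟩ : ∃ c, q = c + 1 := ⟨q - 1, by omega⟩
  have hc : 0 < c := by omega
  simp only [Nat.add_sub_cancel]
  let S : ℕ → ℕ := fun i => ∑ j ∈ Finset.range i, (c + 1) ^ j
  have hS : ∀ i, S i * c + 1 = (c + 1) ^ i := fun i => geom_sum_mul_add c i
  have hS2 : ∀ i j, (c + 1) ^ i ≡ (c + 1) ^ j [MOD n * c] ↔ S i ≡ S j [MOD n] := fun i j => by
    rw [← hS, ← hS]
    exact ⟨fun h => Nat.ModEq.mul_right_cancel' hc.ne' (Nat.ModEq.add_right_cancel' 1 h),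
      fun h => (h.mul_right' c).add_right 1⟩
  have hS0 : ∀ i, (c + 1) ^ i ≡ 1 [MOD n * c] ↔ n ∣ S i := fun i => by
    have := hS2 i 0
    rw [pow_zero] at this
    rw [this]
    exact Nat.modEq_zero_iff_dvd
  have hmod : ∀ p i, p ∣ c → S i ≡ i [MOD p] := fun p i hp => by
    induction i with
    | zero => rfl
    | succ i ih =>
      simp only [S, Finset.sum_range_succ]
      refine ih.add ?_
      have : c + 1 ≡ 1 [MOD p] := by
        simpa using ((Nat.modEq_zero_iff_dvd.2 hp).add_right 1)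
      simpa using this.pow i
  simp only [hS0]
  constructor
  · rintro ⟨h1, h4⟩
    have key : ∀ i p k : ℕ, p.Prime → p ^ k ∣ n → (p ^ k ∣ S i ↔ p ^ k ∣ i) := by
      intro i p k hp hk
      rcases k with _ | k
      · simp
      have hpc : p ∣ c := h1 p hp ((dvd_pow_self p (by omega)).trans hk)
      by_cases hk0 : k = 0
      · subst hk0
        rw [zero_add, pow_one]
        exact (hmod p i hpc).dvd_iff dvd_rfl
      have hpq : ¬ (p : ℤ) ∣ (c + 1 : ℤ) := fun h => by
        have : p ∣ c + 1 := by exact_mod_cast h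
        exact hp.one_lt.ne' (Nat.dvd_one.1 ((Nat.dvd_add_right hpc).1 this))
      have e1 : emultiplicity (p : ℤ) ((c + 1 : ℤ) ^ i - 1 ^ i) =
          emultiplicity (p : ℤ) ((c + 1 : ℤ) - 1) + emultiplicity (p : ℤ) (i : ℤ) := by
        rcases hp.eq_two_or_odd' with rfl | ho
        · refine Int.two_pow_sub_pow' i ?_ hpq
          have : 4 ∣ c := h4 ((pow_dvd_pow 2 (by omega : 2 ≤ k + 1)).trans hk)
          simpa using (Int.natCast_dvd_natCast.2 this)
        · rw [Int.natCast_emultiplicity]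
          exact Int.emultiplicity_pow_sub_pow hp ho (by simpa using Int.natCast_dvd_natCast.2 hpc) hpq i
      have e2 : (c + 1 : ℤ) ^ i - 1 ^ i = (c : ℤ) * (S i : ℤ) := by
        have : ((S i * c + 1 : ℕ) : ℤ) = (((c + 1) ^ i : ℕ) : ℤ) := by rw [hS]
        push_cast at this
        rw [← this]; ring
      rw [e2, emultiplicity_mul (Nat.prime_iff_prime_int.1 hp), add_sub_cancel_right,
        Int.natCast_emultiplicity, Int.natCast_emultiplicity, Int.natCast_emultiplicity] at e1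
      have hfin : emultiplicity p c ≠ ⊤ :=
        finiteMultiplicity_iff_emultiplicity_ne_top.1 (Nat.finiteMultiplicity_iff.2 ⟨hp.ne_one, hc⟩)
      rw [pow_dvd_iff_le_emultiplicity, pow_dvd_iff_le_emultiplicity,
        WithTop.add_left_cancel hfin e1]
    refine ⟨(Nat.dvd_iff_prime_pow_dvd_dvd _ _).2 fun p k hp hk => (key n p k hp hk).2 hk,
      fun i hi hin h => ?_⟩
    have : n ∣ i := (Nat.dvd_iff_prime_pow_dvd_dvd _ _).2 fun p k hp hk =>
      (key i p k hp hk).1 (hk.trans h)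
    exact absurd (Nat.le_of_dvd hi this) (by omega)
  · rintro ⟨h1, h2⟩
    have : NeZero n := ⟨by omega⟩
    have ho : orderOf ((c + 1 : ℕ) : ZMod (n * c)) = n := by
      have e : ∀ i, ((c + 1 : ℕ) : ZMod (n * c)) ^ i = 1 ↔ n ∣ S i := fun i => by
        rw [← hS0, ← ZMod.natCast_eq_natCast_iff, Nat.cast_pow, Nat.cast_one]
      exact (orderOf_eq_iff (by omega)).2 ⟨(e n).2 h1, fun m hm hm0 h => h2 m hm0 hm ((e m).1 h)⟩
    have hinj : Function.Injective fun i : Fin n => ((S i : ℕ) : ZMod n) := fun i j e => by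
      have e1 := (hS2 i j).2 ((ZMod.natCast_eq_natCast_iff _ _ _).1 e)
      rw [← ZMod.natCast_eq_natCast_iff, Nat.cast_pow, Nat.cast_pow] at e1
      exact Fin.ext (pow_injOn_Iio_orderOf (by rw [ho]; exact i.2) (by rw [ho]; exact j.2) e1)
    have hsurj : ∀ k : ℕ, ∃ i, S i ≡ k [MOD n] := fun k => by
      obtain ⟨i, hi⟩ := (hinj.bijective_of_nat_card_le (by simp)).2 (k : ZMod n)
      exact ⟨i, (ZMod.natCast_eq_natCast_iff _ _ _).1 hi⟩
    have hr : ∀ r : ℕ, r.Prime → r ∣ n → r ∣ c := fun r hr hrn => by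
      by_contra hrc
      have : Fact r.Prime := ⟨hr⟩
      have hc0 : (c : ZMod r) ≠ 0 := fun h => hrc ((ZMod.natCast_eq_zero_iff _ _).1 h)
      obtain ⟨i, hi⟩ := hsurj (-(c : ZMod r)⁻¹).val
      have e1 := (ZMod.natCast_eq_natCast_iff _ _ _).2 (hi.of_dvd hrn)
      rw [ZMod.natCast_zmod_val] at e1
      have e2 := congrArg (Nat.cast : ℕ → ZMod r) (hS i)
      have e3 := congrArg (Nat.cast : ℕ → ZMod r) (hS n)
      rw [Nat.cast_add, Nat.cast_mul, Nat.cast_pow] at e2 e3
      rw [e1, neg_mul, inv_mul_cancel₀ hc0, Nat.cast_one, neg_add_cancel] at e2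
      rw [(ZMod.natCast_eq_zero_iff _ _).2 (hrn.trans h1), eq_zero_of_pow_eq_zero e2.symm,
        zero_pow (by omega)] at e3
      simp at e3
    refine ⟨hr, fun h4 => ?_⟩
    have h2c := hr 2 Nat.prime_two ((by norm_num : 2 ∣ 4).trans h4)
    by_contra h4c
    obtain ⟨i, hi⟩ := hsurj 2
    have e1 : S i % 4 = 2 := hi.of_dvd h4
    have e2 : ∀ i, S i % 4 = 0 ∨ S i % 4 = 1 := fun i => by
      induction i with
      | zero => left; rfl
      | succ i ih =>
        have : S (i + 1) = (c + 1) * S i + 1 := geom_sum_succ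
        have hc4 : (c + 1) % 4 = 3 := by omega
        rw [this, Nat.add_mod, Nat.mul_mod, hc4]
        rcases ih with h | h <;> simp [h]
    have := e2 i
    omega

end Cfsg.Agent.S0694
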