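import Cfsg.Agent.Base
import Cfsg.Agent.H89.Centralizer
import Cfsg.Statements.S0701

set_option autoImplicit false
open Cfsg

namespace Cfsg.Agent.S0701

/-- The centraliser in the full symmetric group of a transitive permutation group `G` is semiregular, and it is transitive if and only if `G` is regular. -/
theorem result {α : Type*} (G : Subgroup (Equiv.Perm α)) [MulAction.IsPretransitive G α] : (∀ c ∈ Subgroup.centralizer (G : Set (Equiv.Perm α)), ∀ a : α, c a = a → c = 1) ∧ (MulAction.IsPretransitive (Subgroup.centralizer (G : Set (Equiv.Perm α))) α ↔ ∀ a : α, MulAction.stabilizer G a = ⊥) := by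
  refine ⟨fun c hc a ha => ?_, ?_, ?_⟩
  · ext x
    exact H89.eq_self_of_commute_of_fix (G := G) c ((H89.mem_centralizer_perm_iff G c).1 hc) ha x
  · intro h a
    rw [H89.stabilizer_subgroup_eq_bot_iff]
    intro g hg ha
    exact H89.eq_one_of_commute_transitive (Subgroup.centralizer (G : Set (Equiv.Perm α)))
      (fun c hc => (hc g hg).symm) ha
  · intro h
    constructor
    intro a b
    obtain ⟨c, hc, hab⟩ := H89.exists_perm_commute_of_stabilizer_eq (G := G) (a := a) (b := b)
      (by rw [h a, h b])
    exact ⟨⟨c, (H89.mem_centralizer_perm_iff G c).2 hc⟩, hab⟩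

end Cfsg.Agent.S0701
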