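import Cfsg.Agent.Base
import Cfsg.Agent.H89.Centralizer
import Cfsg.Statements.S0702

set_option autoImplicit false
open Cfsg

namespace Cfsg.Agent.S0702

/-- For a transitive permutation group `G` on a finite set, the centraliser of `G` in the symmetric group is isomorphic to `N_G(G_ω)/G_ω`, and its orbit of `ω` is the set of fixed points of `G_ω`. -/
theorem result {α : Type*} [Finite α] (G : Subgroup (Equiv.Perm α)) [MulAction.IsPretransitive G α] (a : α) : Nonempty (Subgroup.centralizer (G : Set (Equiv.Perm α)) ≃* Subgroup.normalizer ((MulAction.stabilizer G a : Subgroup G) : Set G) ⧸ (MulAction.stabilizer G a).subgroupOf (Subgroup.normalizer ((MulAction.stabilizer G a : Subgroup G) : Set G))) ∧ MulAction.orbit (Subgroup.centralizer (G : Set (Equiv.Perm α))) a = MulAction.fixedPoints (MulAction.stabilizer G a) α := by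
  classical
  have hfix : ∀ c ∈ Subgroup.centralizer (G : Set (Equiv.Perm α)),
      MulAction.stabilizer G (c a) = MulAction.stabilizer G a := by
    intro c hc
    ext g
    rw [MulAction.mem_stabilizer_iff, MulAction.mem_stabilizer_iff,
      ← (H89.mem_centralizer_perm_iff G c).1 hc, c.apply_eq_iff_eq]
  have hn : ∀ n : G, n ∈ Subgroup.normalizer ((MulAction.stabilizer G a : Subgroup G) : Set G) ↔
      MulAction.stabilizer G a = MulAction.stabilizer G (n⁻¹ • a) := by
    intro n
    rw [Subgroup.mem_normalizer_iff]
    constructor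
    · intro h
      ext g
      rw [h g, MulAction.mem_stabilizer_iff, MulAction.mem_stabilizer_iff, mul_smul, mul_smul,
        smul_eq_iff_eq_inv_smul]
    · intro h g
      conv_lhs => rw [h]
      rw [MulAction.mem_stabilizer_iff, MulAction.mem_stabilizer_iff, mul_smul, mul_smul,
        smul_eq_iff_eq_inv_smul n]
  choose f hf hfa using fun n : Subgroup.normalizer ((MulAction.stabilizer G a : Subgroup G) : Set G) =>
    H89.exists_perm_commute_of_stabilizer_eq ((hn n).1 n.2)
  have huniq : ∀ c d : Subgroup.centralizer (G : Set (Equiv.Perm α)), c.1 a = d.1 a → c = d := by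
    intro c d h
    apply Subtype.ext
    ext x
    obtain ⟨g, rfl⟩ := MulAction.exists_smul_eq G a x
    rw [(H89.mem_centralizer_perm_iff G c).1 c.2, (H89.mem_centralizer_perm_iff G d).1 d.2, h]
  let φ : Subgroup.normalizer ((MulAction.stabilizer G a : Subgroup G) : Set G) →*
      Subgroup.centralizer (G : Set (Equiv.Perm α)) :=
    MonoidHom.mk' (fun n => ⟨f n, (H89.mem_centralizer_perm_iff G _).2 (hf n)⟩) (by
      intro n m
      apply huniq
      simp only [Subgroup.coe_mul, Equiv.Perm.coe_mul, Function.comp_apply]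
      rw [hfa, hfa, hf, hfa, Subgroup.coe_mul, mul_inv_rev, mul_smul])
  have hφ : ∀ n, (φ n).1 a = (n : G)⁻¹ • a := fun n => hfa n
  have hsurj : Function.Surjective φ := by
    intro c
    obtain ⟨g, hg⟩ := MulAction.exists_smul_eq G a (c.1 a)
    refine ⟨⟨g⁻¹, (hn _).2 ?_⟩, huniq _ _ ?_⟩
    · rw [inv_inv, hg, hfix c c.2]
    · rw [hφ, inv_inv, hg]
  have hker : φ.ker = (MulAction.stabilizer G a).subgroupOf _ := by
    ext n
    rw [MonoidHom.mem_ker, Subgroup.mem_subgroupOf, MulAction.mem_stabilizer_iff]
    constructor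
    · intro h
      have := hφ n
      rw [h] at this
      simp only [OneMemClass.coe_one, Equiv.Perm.coe_one, id_eq] at this
      rw [eq_inv_smul_iff] at this
      exact this
    · intro h
      apply huniq
      rw [hφ, inv_smul_eq_iff, OneMemClass.coe_one, Equiv.Perm.coe_one, id_eq, h]
  refine ⟨⟨((QuotientGroup.quotientMulEquivOfEq hker).symm.trans
    (QuotientGroup.quotientKerEquivOfSurjective φ hsurj)).symm⟩, ?_⟩
  ext b
  constructor
  · rintro ⟨c, rfl⟩ ⟨g, hg⟩
    rw [← hfix c c.2] at hg
    exact hg
  · intro hb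
    have hle : MulAction.stabilizer G a ≤ MulAction.stabilizer G b := fun g hg => hb ⟨g, hg⟩
    have : Finite G := inferInstance
    have heq : MulAction.stabilizer G a = MulAction.stabilizer G b := by
      apply Subgroup.eq_of_le_of_card_ge hle
      have h1 := H89.card_eq_card_mul_card_stabilizer (G := G) a
      have h2 := H89.card_eq_card_mul_card_stabilizer (G := G) b
      have h3 : 0 < Nat.card α := by
        have : Nonempty α := ⟨a⟩
        exact Nat.card_pos
      exact (Nat.eq_of_mul_eq_mul_left h3 (h2.symm.trans h1)).le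
    obtain ⟨c, hc, hab⟩ := H89.exists_perm_commute_of_stabilizer_eq heq
    exact ⟨⟨c, (H89.mem_centralizer_perm_iff G c).2 hc⟩, hab⟩

end Cfsg.Agent.S0702
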