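import Cfsg.Agent.Base
import Cfsg.Agent.H89.Centralizer
import Cfsg.Agent.H89.MinNormal
import Cfsg.Statements.S0703

set_option autoImplicit false
open Cfsg

namespace Cfsg.Agent.S0703

/-- An abelian transitive minimal normal subgroup `M` of a permutation group on a finite set is self-centralising in the symmetric group, regular, elementary abelian, and is the unique minimal normal subgroup. -/
theorem result {α : Type*} [Finite α] (G : Subgroup (Equiv.Perm α)) (M : Subgroup G) [M.Normal] (hM : M ≠ ⊥) (hmin : ∀ L : Subgroup G, L.Normal → L ≤ M → L = ⊥ ∨ L = M) (hab : IsMulCommutative M) (htrans : MulAction.IsPretransitive M α) : Subgroup.centralizer ((M.map G.subtype : Subgroup (Equiv.Perm α)) : Set (Equiv.Perm α)) = M.map G.subtype ∧ (∀ a : α, MulAction.stabilizer M a = ⊥) ∧ (∃ p : ℕ, p.Prime ∧ ∀ m ∈ M, m ^ p = 1) ∧ ∀ L : Subgroup G, L.Normal → L ≠ ⊥ → (∀ L' : Subgroup G, L'.Normal → L' ≤ L → L' = ⊥ ∨ L' = L) → L = M := by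
  have hMm : H89.IsMinNormal M := ⟨inferInstance, hM, hmin⟩
  have hne : Nonempty α := by
    by_contra h
    apply hM
    rw [Subgroup.eq_bot_iff_forall]
    intro x _
    ext a
    exact absurd ⟨a⟩ h
  refine ⟨?_, H89.stabilizer_eq_bot_of_comm_transitive M hab, hMm.exists_prime_pow_eq_one hab, ?_⟩
  · have := H89.isPretransitive_map_subtype (Ω := α) G M
    exact H89.centralizer_eq_of_comm_transitive (Ω := α) _ inferInstance
  · intro L hL hL1 hLmin
    have hLm : H89.IsMinNormal L := ⟨hL, hL1, hLmin⟩
    by_contra hne'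
    have h1 : L ≤ M := by
      rw [← H89.centralizer_eq_of_comm_transitive (Ω := α) M hab]
      intro x hx y hy
      exact (hLm.commute hMm hne' hx hy).eq.symm
    rcases hmin L hL h1 with h | h
    · exact hL1 h
    · exact hne' h

end Cfsg.Agent.S0703
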