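import Cfsg.Agent.Base
import Cfsg.Agent.H89.Centralizer
import Cfsg.Agent.H89.MinNormal
import Cfsg.Statements.S0704

set_option autoImplicit false
open Cfsg

namespace Cfsg.Agent.S0704

theorem aux {α : Type*} (G : Subgroup (Equiv.Perm α)) (M N : Subgroup G) (a : α)
    (hc : ∀ x ∈ M, ∀ y ∈ N, x * y = y * x)
    (hMt : MulAction.IsPretransitive M α) (hNt : MulAction.IsPretransitive N α) :
    Subgroup.centralizer ((M.map G.subtype : Subgroup (Equiv.Perm α)) : Set (Equiv.Perm α)) =
      N.map G.subtype := by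
  have h1 := H89.isPretransitive_map_subtype (Ω := α) G M
  have h2 := H89.isPretransitive_map_subtype (Ω := α) G N
  symm
  refine H89.eq_of_transitive_le_semiregular ?_ a ?_
  · rintro _ ⟨y, hy, rfl⟩ _ ⟨x, hx, rfl⟩
    exact congrArg Subtype.val (hc x hx y hy)
  · intro c hc' ha
    exact H89.eq_one_of_commute_transitive (M.map G.subtype) (fun m hm => hc' m hm) ha

/-- Two distinct transitive minimal normal subgroups `M`, `N` of a permutation group are regular, non-abelian, isomorphic, each other's centraliser in the symmetric group, and the only minimal normal subgroups. -/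
theorem result {α : Type*} (G : Subgroup (Equiv.Perm α)) (M N : Subgroup G) [M.Normal] [N.Normal] (hM : M ≠ ⊥) (hN : N ≠ ⊥) (hMmin : ∀ L : Subgroup G, L.Normal → L ≤ M → L = ⊥ ∨ L = M) (hNmin : ∀ L : Subgroup G, L.Normal → L ≤ N → L = ⊥ ∨ L = N) (hMN : M ≠ N) (hMt : MulAction.IsPretransitive M α) (hNt : MulAction.IsPretransitive N α) : (∀ a : α, MulAction.stabilizer M a = ⊥) ∧ (∀ a : α, MulAction.stabilizer N a = ⊥) ∧ ¬ IsMulCommutative M ∧ Nonempty (M ≃* N) ∧ Subgroup.centralizer ((M.map G.subtype : Subgroup (Equiv.Perm α)) : Set (Equiv.Perm α)) = N.map G.subtype ∧ Subgroup.centralizer ((N.map G.subtype : Subgroup (Equiv.Perm α)) : Set (Equiv.Perm α)) = M.map G.subtype ∧ ∀ L : Subgroup G, L.Normal → L ≠ ⊥ → (∀ L' : Subgroup G, L'.Normal → L' ≤ L → L' = ⊥ ∨ L' = L) → L = M ∨ L = N := by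
  have hMm : H89.IsMinNormal M := ⟨inferInstance, hM, hMmin⟩
  have hNm : H89.IsMinNormal N := ⟨inferInstance, hN, hNmin⟩
  obtain ⟨a⟩ : Nonempty α := by
    by_contra h
    apply hM
    rw [Subgroup.eq_bot_iff_forall]
    intro x _
    ext a
    exact absurd ⟨a⟩ h
  have hc : ∀ x ∈ M, ∀ y ∈ N, x * y = y * x := fun x hx y hy => (hMm.commute hNm hMN hx hy).eq
  have hc' : ∀ x ∈ N, ∀ y ∈ M, x * y = y * x := fun x hx y hy => (hc y hy x hx).symm
  have hMreg : ∀ b : α, ∀ x ∈ M, x • b = b → x = 1 := fun b x hx hb =>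
    H89.eq_one_of_commute_transitive N (fun n hn => hc' n hn x hx) hb
  have hNreg : ∀ b : α, ∀ x ∈ N, x • b = b → x = 1 := fun b x hx hb =>
    H89.eq_one_of_commute_transitive M (fun n hn => hc n hn x hx) hb
  have hCM : Subgroup.centralizer (M : Set G) = N := by
    symm
    refine H89.eq_of_transitive_le_semiregular ?_ a ?_
    · intro y hy x hx
      exact hc x hx y hy
    · intro c hc' ha
      exact H89.eq_one_of_commute_transitive M (fun m hm => hc' m hm) ha
  refine ⟨fun b => (H89.stabilizer_subgroup_eq_bot_iff M b).2 (hMreg b),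
    fun b => (H89.stabilizer_subgroup_eq_bot_iff N b).2 (hNreg b), ?_, ?_, aux G M N a hc hMt hNt,
    aux G N M a hc' hNt hMt, ?_⟩
  · intro hab
    have : Nonempty α := ⟨a⟩
    apply hMN
    rw [← hCM, H89.centralizer_eq_of_comm_transitive (Ω := α) M hab]
  · choose f hf using fun m : M => MulAction.exists_smul_eq N a (m⁻¹ • a)
    have hinj : ∀ n n' : N, n • a = n' • a → n = n' := by
      intro n n' h
      have : (n' : G)⁻¹ * n = 1 := hNreg a _ (N.mul_mem (N.inv_mem n'.2) n.2) (by
        rw [mul_smul, inv_smul_eq_iff]; exact h)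
      rw [inv_mul_eq_one] at this
      exact Subtype.ext this.symm
    have hcs : ∀ (m : M) (n : N) (b : α), m • n • b = n • m • b := by
      intro m n b
      change (m : G) • (n : G) • b = (n : G) • (m : G) • b
      rw [← mul_smul, ← mul_smul, hc _ m.2 _ n.2]
    let φ : M →* N := MonoidHom.mk' f (by
      intro m m'
      apply hinj
      rw [hf, mul_smul (f m), hf, ← hcs, hf, mul_inv_rev, mul_smul])
    refine ⟨MulEquiv.ofBijective φ ⟨?_, ?_⟩⟩
    · rw [injective_iff_map_eq_one]
      intro m hm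
      have h1 := hf m
      have h2 : f m = 1 := hm
      rw [h2, one_smul, eq_inv_smul_iff] at h1
      exact Subtype.ext (hMreg a m m.2 h1)
    · intro n
      obtain ⟨m, hm⟩ := MulAction.exists_smul_eq M a (n • a)
      refine ⟨m⁻¹, hinj _ _ ?_⟩
      change f m⁻¹ • a = _
      rw [hf, inv_inv, hm]
  · intro L hL hL1 hLmin
    have hLm : H89.IsMinNormal L := ⟨hL, hL1, hLmin⟩
    by_cases h : L = M
    · exact Or.inl h
    · right
      have h1 : L ≤ N := by
        rw [← hCM]
        intro x hx y hy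
        exact (hLm.commute hMm h hx hy).eq.symm
      exact (hNmin L hL h1).resolve_left hL1

end Cfsg.Agent.S0704
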