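import Cfsg.Agent.Base
import Cfsg.Agent.H89.Generous
import Cfsg.Statements.S0705

set_option autoImplicit false
open scoped Pointwise
open Cfsg

namespace Cfsg.Agent.S0705

/-- A generously `k`-transitive permutation group (every `(k+1)`-subset has its full symmetric group induced by the setwise stabiliser) of degree greater than `k` is `k`-transitive, and for a `k`-subset the setwise and pointwise stabilisers have the same orbits outside it. -/
theorem result {α : Type*} [Fintype α] [DecidableEq α] (G : Subgroup (Equiv.Perm α)) {k : ℕ} (hk : k < Fintype.card α) (hgen : ∀ s : Finset α, s.card = k + 1 → ∀ σ : Equiv.Perm ↥s, ∃ g ∈ G, ∀ x : ↥s, g (x : α) = σ x) : MulAction.IsMultiplyPretransitive G α k ∧ ∀ s : Finset α, s.card = k → ∀ a b : α, a ∉ s → b ∉ s → (∃ g ∈ G, g • s = s ∧ g a = b) → ∃ g ∈ G, (∀ x ∈ s, g x = x) ∧ g a = b := by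
  have h := H89.generous_of_subtype G hgen
  refine ⟨h.isMultiplyPretransitive hk, fun s hs a b ha hb ⟨g, hg, hgs, hab⟩ => ?_⟩
  have hgs' : ∀ x ∈ s, g x ∈ s := fun x hx => by
    rw [← hgs]; exact Finset.smul_mem_smul_finset hx
  have h1 : ∀ x ∈ s, (Equiv.swap (g b) b * g) x = g x := fun x hx => by
    rw [Equiv.Perm.mul_apply, Equiv.swap_apply_of_ne_of_ne]
    · intro h'; exact hb (g.injective h' ▸ hx)
    · intro h'; exact hb (h' ▸ hgs' x hx)
  have h2 : (Equiv.swap (g b) b * g) b = b := by rw [Equiv.Perm.mul_apply, Equiv.swap_apply_left]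
  obtain ⟨⟨k, hk⟩, hk'⟩ := h (insert b s) (by rw [Finset.card_insert_of_notMem hb, hs])
    (Equiv.swap (g b) b * g) (by
      intro x hx
      rcases Finset.mem_insert.1 hx with rfl | hx
      · rw [h2]; exact hx
      · rw [h1 x hx]; exact Finset.mem_insert_of_mem (hgs' x hx))
  refine ⟨k⁻¹ * g, G.mul_mem (G.inv_mem hk) hg, fun x hx => ?_, ?_⟩
  · rw [Equiv.Perm.mul_apply, Equiv.Perm.inv_eq_iff_eq, ← h1 x hx]
    exact (hk' x (Finset.mem_insert_of_mem hx)).symm
  · rw [Equiv.Perm.mul_apply, Equiv.Perm.inv_eq_iff_eq, hab]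
    have := hk' b (Finset.mem_insert_self _ _)
    rw [h2] at this
    exact this.symm

end Cfsg.Agent.S0705
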