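import Cfsg.Agent.Base
import Cfsg.Agent.H89.Centralizer
import Cfsg.Statements.S0707

set_option autoImplicit false
open Cfsg

namespace Cfsg.Agent.S0707

/-- In a primitive permutation group, distinct points have distinct stabilisers unless the group is regular of prime degree. -/
theorem result {α : Type*} (G : Subgroup (Equiv.Perm α)) [MulAction.IsPreprimitive G α] (h : ¬ (Nat.card α).Prime ∨ ∃ a : α, MulAction.stabilizer G a ≠ ⊥) {a b : α} (hab : a ≠ b) : MulAction.stabilizer G a ≠ MulAction.stabilizer G b := by
  intro heq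
  have hnt : Nontrivial α := ⟨a, b, hab⟩
  have hco := MulAction.IsPreprimitive.isCoatom_stabilizer_of_isPreprimitive G a
  obtain ⟨g, hg⟩ := MulAction.exists_smul_eq G a b
  have hn : (MulAction.stabilizer G a).Normal := by
    rw [← Subgroup.normalizer_eq_top_iff]
    refine hco.2 _ (lt_of_le_of_ne Subgroup.le_normalizer fun h' => hab ?_)
    have : g⁻¹ ∈ Subgroup.normalizer ((MulAction.stabilizer G a : Subgroup G) : Set G) := by
      rw [Subgroup.mem_normalizer_iff]
      intro x
      conv_lhs => rw [heq, ← hg]
      simp only [MulAction.mem_stabilizer_iff, mul_smul, inv_inv, inv_smul_eq_iff]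
    rw [← h', inv_mem_iff, MulAction.mem_stabilizer_iff] at this
    rw [← hg, this]
  have hbot : MulAction.stabilizer G a = ⊥ := by
    rw [Subgroup.eq_bot_iff_forall]
    intro x hx
    refine eq_of_smul_eq_smul (α := α) fun c => ?_
    obtain ⟨k, rfl⟩ := MulAction.exists_smul_eq G a c
    have := hn.conj_mem x hx k⁻¹
    rw [MulAction.mem_stabilizer_iff, inv_inv, mul_smul, mul_smul, inv_smul_eq_iff] at this
    rw [this, one_smul]
  have hall : ∀ c : α, MulAction.stabilizer G c = ⊥ := by
    intro c
    obtain ⟨k, rfl⟩ := MulAction.exists_smul_eq G a c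
    rw [MulAction.stabilizer_smul_eq_stabilizer_map_conj, hbot, Subgroup.map_bot]
  rcases h with h | ⟨c, hc⟩
  · apply h
    rw [← H89.card_eq_of_regular a hbot]
    rw [hbot] at hco
    have hso : IsSimpleOrder (Subgroup G) := isSimpleOrder_iff_isCoatom_bot.2 hco
    have hG : Nontrivial G := Subgroup.nontrivial_iff.1 inferInstance
    have hcomm : ∀ x y : G, x * y = y * x := by
      intro x y
      rcases eq_bot_or_eq_top (Subgroup.zpowers x) with h1 | h1
      · rw [Subgroup.zpowers_eq_bot] at h1
        rw [h1, one_mul, mul_one]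
      · obtain ⟨n, rfl⟩ : y ∈ Subgroup.zpowers x := h1 ▸ Subgroup.mem_top y
        exact (Commute.self_zpow x n).eq
    letI : CommGroup G := { (inferInstance : Group G) with mul_comm := hcomm }
    exact CommGroup.is_simple_iff_prime_card.1 ⟨fun H _ => eq_bot_or_eq_top H⟩
  · exact hc (hall c)

end Cfsg.Agent.S0707
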