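import Cfsg.Agent.Base
import Cfsg.Agent.H89.JordanSet
import Cfsg.Statements.S0709

set_option autoImplicit false
open Cfsg

namespace Cfsg.Agent.S0709

open MulAction

/-- The group-theoretic core of Witt's lemma. -/
theorem double_coset {Γ : Type*} [Group Γ] [Finite Γ] {A K : Subgroup Γ} (hAK : A ≤ K) {g h : Γ}
    (hg : g ∈ K) (hK : ∀ k ∈ K, k ∈ A ∨ ∃ a ∈ A, ∃ b ∈ A, k = a * g * b) (hh : h ^ 2 ∈ K)
    (hgh : (g * h) ^ 3 ∈ K) (hA : ∀ a ∈ A, h * a * h⁻¹ ∈ A) :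
    ∀ k ∈ Subgroup.closure ((K : Set Γ) ∪ {h}), k ∈ K ∨ ∃ a ∈ K, ∃ b ∈ K, k = a * h * b := by
  have hA' : ∀ a ∈ A, h⁻¹ * a * h ∈ A := fun a ha =>
    (Subgroup.mem_normalizer_iff''.1 (Subgroup.mem_normalizer_fintype hA) a).1 ha
  have h1 : ∀ x ∈ K, ∀ k, (k ∈ K ∨ ∃ a ∈ K, ∃ b ∈ K, k = a * h * b) →
      (x * k ∈ K ∨ ∃ a ∈ K, ∃ b ∈ K, x * k = a * h * b) := by
    rintro x hx k (hk | ⟨a, ha, b, hb, rfl⟩)
    · exact Or.inl (K.mul_mem hx hk)
    · exact Or.inr ⟨x * a, K.mul_mem hx ha, b, hb, by group⟩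
  have h2 : ∀ k, (k ∈ K ∨ ∃ a ∈ K, ∃ b ∈ K, k = a * h * b) →
      (h * k ∈ K ∨ ∃ a ∈ K, ∃ b ∈ K, h * k = a * h * b) := by
    rintro k (hk | ⟨a, ha, b, hb, rfl⟩)
    · exact Or.inr ⟨1, K.one_mem, k, hk, by group⟩
    rcases hK a ha with h3 | ⟨c, hc, d, hd, rfl⟩
    · left
      rw [show h * (a * h * b) = h * a * h⁻¹ * h ^ 2 * b by group]
      exact K.mul_mem (K.mul_mem (hAK (hA a h3)) hh) hb
    · refine Or.inr ⟨h * c * h⁻¹ * g⁻¹ * (g * h) ^ 3 * (h ^ 2)⁻¹, K.mul_mem (K.mul_mem (K.mul_mem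
        (hAK (hA c hc)) (K.inv_mem hg)) hgh) (K.inv_mem hh), g⁻¹ * (h⁻¹ * d * h) * b,
        K.mul_mem (K.mul_mem (K.inv_mem hg) (hAK (hA' d hd))) hb, ?_⟩
      simp only [pow_succ, pow_zero]
      group
  intro k hk
  induction hk using Subgroup.closure_induction_left with
  | one => exact Or.inl K.one_mem
  | mul_left x hx y _ ih =>
    rcases hx with hx | rfl
    exacts [h1 x hx y ih, h2 y ih]
  | inv_mul_cancel x hx y _ ih =>
    rcases hx with hx | rfl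
    · exact h1 _ (K.inv_mem hx) y ih
    · have := h1 _ (K.inv_mem hh) _ (h2 y ih)
      rwa [show (x ^ 2)⁻¹ * (x * y) = x⁻¹ * y by group] at this

/-- Witt's Lemma for constructing transitive extensions. Points `q 1, …, q t` (`t ≥ 2`) of a finite set are given; `G` fixes `q i` for `i ≥ 3` and is doubly transitive on the remaining points; `s 1 ∈ G` swaps `q 1, q 2`; for `2 ≤ i ≤ t-1`, `s i` swaps `q i, q (i+1)` and fixes the other `q j`; with `H` the stabiliser of `q 1, q 2` in `G`: `s i ^ 2 ∈ H`, `(s i * s (i+1)) ^ 3 ∈ H`, `(s i * s j) ^ 2 ∈ H` for `j ≥ i + 2`, and `s i` (`i ≥ 2`) normalises the stabiliser of `q 2` in `G`. Then `G` and the `s i` generate a `t`-transitive group whose pointwise stabiliser of the `q`'s is `H`. -/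
theorem result {α : Type*} [Fintype α] [DecidableEq α] (t : ℕ) (ht : 2 ≤ t) (q : ℕ → α) (hq : ∀ i j : ℕ, 1 ≤ i → i ≤ t → 1 ≤ j → j ≤ t → q i = q j → i = j) (G : Subgroup (Equiv.Perm α)) (hfix : ∀ g ∈ G, ∀ i : ℕ, 3 ≤ i → i ≤ t → g (q i) = q i) (h2 : ∀ a b c d : α, (∀ i, 3 ≤ i → i ≤ t → a ≠ q i ∧ b ≠ q i ∧ c ≠ q i ∧ d ≠ q i) → a ≠ b → c ≠ d → ∃ g ∈ G, g a = c ∧ g b = d) (s : ℕ → Equiv.Perm α) (hs1 : s 1 ∈ G) (hs1q : s 1 (q 1) = q 2 ∧ s 1 (q 2) = q 1) (hsq : ∀ i : ℕ, 2 ≤ i → i + 1 ≤ t → s i (q i) = q (i + 1) ∧ s i (q (i + 1)) = q i ∧ ∀ j : ℕ, 1 ≤ j → j ≤ t → j ≠ i → j ≠ i + 1 → s i (q j) = q j) (H : Subgroup (Equiv.Perm α)) (hH : H = G ⊓ MulAction.stabilizer (Equiv.Perm α) (q 1) ⊓ MulAction.stabilizer (Equiv.Perm α) (q 2)) (hsq2 : ∀ i : ℕ, 1 ≤ i → i + 1 ≤ t → s i ^ 2 ∈ H) (hbraid : ∀ i : ℕ, 1 ≤ i → i + 2 ≤ t → (s i * s (i + 1)) ^ 3 ∈ H) (hcomm : ∀ i j : ℕ, 1 ≤ i → i + 2 ≤ j → j + 1 ≤ t → (s i * s j) ^ 2 ∈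 H ∧ (s j * s i) ^ 2 ∈ H) (hnorm : ∀ i : ℕ, 2 ≤ i → i + 1 ≤ t → ∀ g ∈ G ⊓ MulAction.stabilizer (Equiv.Perm α) (q 2), s i * g * (s i)⁻¹ ∈ G ⊓ MulAction.stabilizer (Equiv.Perm α) (q 2)) : MulAction.IsMultiplyPretransitive ↥(Subgroup.closure ((G : Set (Equiv.Perm α)) ∪ {x | ∃ i : ℕ, 2 ≤ i ∧ i + 1 ≤ t ∧ x = s i})) α t ∧ Subgroup.closure ((G : Set (Equiv.Perm α)) ∪ {x | ∃ i : ℕ, 2 ≤ i ∧ i + 1 ≤ t ∧ x = s i}) ⊓ fixingSubgroup (Equiv.Perm α) {x | ∃ i : ℕ, 1 ≤ i ∧ i ≤ t ∧ x = q i} = H := by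
  set A := G ⊓ stabilizer (Equiv.Perm α) (q 2) with hA
  let B : ℕ → Subgroup (Equiv.Perm α) := fun i =>
    Subgroup.closure ((A : Set (Equiv.Perm α)) ∪ {x | ∃ j, 1 ≤ j ∧ j < i ∧ x = s j})
  have hAB : ∀ i, A ≤ B i := fun i x hx => Subgroup.subset_closure (Or.inl hx)
  have hsB : ∀ i j, 1 ≤ j → j < i → s j ∈ B i := fun i j h1 h2 =>
    Subgroup.subset_closure (Or.inr ⟨j, h1, h2, rfl⟩)
  have hHA : H ≤ A := by
    rw [hH]
    exact fun x hx => ⟨hx.1.1, hx.2⟩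
  have hmono : ∀ i j, i ≤ j → B i ≤ B j := fun i j hij => Subgroup.closure_mono <|
    Set.union_subset_union_right _ fun x ⟨k, h1, h2, h3⟩ => ⟨k, h1, by omega, h3⟩
  have hB1 : B 1 = A := le_antisymm ((Subgroup.closure_le _).2 (by
    rintro x (hx | ⟨j, h1, h2, -⟩)
    · exact hx
    · omega)) (hAB 1)
  have hq12 : ∀ i, 3 ≤ i → i ≤ t → q 1 ≠ q i ∧ q 2 ≠ q i := fun i h1 h2 =>
    ⟨fun h => by have := hq _ _ le_rfl (by omega) (by omega) h2 h; omega,
      fun h => by have := hq _ _ (by omega) ht (by omega) h2 h; omega⟩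
  have hne : q 1 ≠ q 2 := fun h => by have := hq _ _ le_rfl (by omega) (by omega) ht h; omega
  have hT1 : ∀ a b, (∀ j, 2 ≤ j → j ≤ t → a ≠ q j) → (∀ j, 2 ≤ j → j ≤ t → b ≠ q j) →
      ∃ g ∈ A, g a = b := fun a b ha hb => by
    obtain ⟨g, hg, h3, h4⟩ := h2 (q 2) a (q 2) b (fun i h1 h2 => ⟨(hq12 i h1 h2).2,
      ha i (by omega) h2, (hq12 i h1 h2).2, hb i (by omega) h2⟩) (ha 2 le_rfl ht).symm
      (hb 2 le_rfl ht).symm
    exact ⟨g, ⟨hg, h3⟩, h4⟩
  have hG : ∀ k ∈ G, k ∈ A ∨ ∃ a ∈ A, ∃ b ∈ A, k = a * s 1 * b := fun k hk => by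
    by_cases hk2 : k (q 2) = q 2
    · exact Or.inl ⟨hk, hk2⟩
    obtain ⟨a, ha, h3⟩ := hT1 (q 1) (k (q 2)) (fun j h1 h2 h => by
      have := hq _ _ le_rfl (by omega) (by omega) h2 h; omega) fun j h1 h2 h => by
      rcases h1.eq_or_lt with rfl | h1
      · exact hk2 h
      · exact (hq12 j h1 h2).2 (k.injective (h.trans (hfix k hk j h1 h2).symm))
    refine Or.inr ⟨a, ha, (a * s 1)⁻¹ * k, ⟨G.mul_mem (G.inv_mem (G.mul_mem ha.1 hs1)) hk, ?_⟩,
      by group⟩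
    change (a * s 1)⁻¹ (k (q 2)) = q 2
    rw [Equiv.Perm.inv_eq_iff_eq, Equiv.Perm.mul_apply, hs1q.2, h3]
  have hB2 : B 2 = G := by
    refine le_antisymm ((Subgroup.closure_le _).2 ?_) fun k hk => ?_
    · rintro x (hx | ⟨j, h1, h2, rfl⟩)
      · exact hx.1
      · rwa [show j = 1 by omega]
    · rcases hG k hk with h | ⟨a, ha, b, hb, rfl⟩
      · exact hAB 2 h
      · exact Subgroup.mul_mem _ (Subgroup.mul_mem _ (hAB 2 ha) (hsB 2 1 le_rfl (by omega)))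
          (hAB 2 hb)
  have hsucc : ∀ i, B (i + 1) ≤ Subgroup.closure ((B i : Set (Equiv.Perm α)) ∪ {s i}) :=
    fun i => (Subgroup.closure_le _).2 (by
      rintro x (hx | ⟨j, h1, h2, rfl⟩)
      · exact Subgroup.subset_closure (Or.inl (hAB i hx))
      · rcases (Nat.lt_succ_iff.1 h2).eq_or_lt with rfl | h2
        · exact Subgroup.subset_closure (Or.inr rfl)
        · exact Subgroup.subset_closure (Or.inl (hsB i j h1 h2)))
  have hP : ∀ i, 1 ≤ i → i + 1 ≤ t →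
      ∀ k ∈ B (i + 1), k ∈ B i ∨ ∃ a ∈ B i, ∃ b ∈ B i, k = a * s i * b := by
    intro i hi
    induction i, hi using Nat.le_induction with
    | base => intro _; rw [hB2, hB1]; exact hG
    | succ i hi ih =>
      intro hit k hk
      refine double_coset (hmono i (i + 1) (by omega)) (hsB _ i hi (by omega)) (ih (by omega))
        (hAB _ (hHA (hsq2 _ (by omega) hit))) (hAB _ (hHA (hbraid i hi hit))) (fun a ha => ?_) k
        (hsucc _ hk)
      refine (Subgroup.closure_le ((B i).comap (MulAut.conj (s (i + 1))).toMonoidHom)).2 ?_ ha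
      rintro x (hx | ⟨j, h1, h2, rfl⟩)
      · exact hAB i (hnorm (i + 1) (by omega) hit x hx)
      · change s (i + 1) * s j * (s (i + 1))⁻¹ ∈ B i
        rw [show s (i + 1) * s j * (s (i + 1))⁻¹ =
          (s (i + 1) * s j) ^ 2 * (s j)⁻¹ * (s (i + 1) ^ 2)⁻¹ by
            simp only [pow_succ, pow_zero]; group]
        exact Subgroup.mul_mem _ (Subgroup.mul_mem _
          (hAB i (hHA (hcomm j (i + 1) h1 (by omega) hit).2)) (Subgroup.inv_mem _ (hsB i j h1 h2)))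
          (Subgroup.inv_mem _ (hAB i (hHA (hsq2 _ (by omega) hit))))
  have hBfix : ∀ i j, 1 ≤ i → i < j → j ≤ t → B i ≤ stabilizer (Equiv.Perm α) (q j) :=
    fun i j hi hij hj => (Subgroup.closure_le _).2 (by
      rintro x (hx | ⟨k, h1, h2, rfl⟩)
      · rcases (show 2 ≤ j by omega).eq_or_lt with rfl | h
        exacts [hx.2, hfix x hx.1 j h hj]
      · rcases h1.eq_or_lt with rfl | h1
        · exact hfix _ hs1 j (by omega) hj
        · exact (hsq k h1 (by omega)).2.2 j (by omega) hj (by omega) (by omega))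
  have hsi : ∀ i, 1 ≤ i → i + 1 ≤ t → s i (q (i + 1)) = q i := fun i h1 h2 => by
    rcases h1.eq_or_lt with rfl | h1
    exacts [hs1q.2, (hsq i h1 h2).2.1]
  have hstab : ∀ i, 1 ≤ i → i ≤ t → ∀ k ∈ B i, (∀ j, 2 ≤ j → j ≤ i → k (q j) = q j) → k ∈ A := by
    intro i hi
    induction i, hi using Nat.le_induction with
    | base => intro _ k hk _; rwa [hB1] at hk
    | succ i hi ih =>
      intro hit k hk hkq
      rcases hP i hi hit k hk with h | ⟨a, ha, b, hb, rfl⟩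
      · exact ih (by omega) k h fun j h1 h2 => hkq j h1 (by omega)
      · have h3 := hkq (i + 1) (by omega) le_rfl
        rw [Equiv.Perm.mul_apply, Equiv.Perm.mul_apply,
          show b (q (i + 1)) = q (i + 1) from hBfix i _ hi (by omega) hit hb, hsi i hi hit] at h3
        have := hq _ _ hi (by omega) (by omega) hit
          (a.injective (h3.trans (hBfix i _ hi (by omega) hit ha).symm))
        omega
  have hT : ∀ i, 1 ≤ i → i ≤ t → ∀ a b, (∀ j, i < j → j ≤ t → a ≠ q j) →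
      (∀ j, i < j → j ≤ t → b ≠ q j) → ∃ g ∈ B i, g a = b := by
    intro i hi
    induction i, hi using Nat.le_induction with
    | base => intro _ a b ha hb; rw [hB1]; exact hT1 a b ha hb
    | succ i hi ih =>
      intro hit
      have key : ∀ a, (∀ j, i + 1 < j → j ≤ t → a ≠ q j) → ∃ g ∈ B (i + 1), g a = q i := by
        intro a ha
        by_cases h : a = q (i + 1)
        · exact ⟨s i, hsB _ i hi (by omega), h ▸ hsi i hi hit⟩
        · obtain ⟨g, hg, h3⟩ := ih (by omega) a (q i) (fun j h1 h2 => by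
            rcases (show i + 1 ≤ j by omega).eq_or_lt with rfl | h1
            exacts [h, ha j h1 h2]) fun j h1 h2 h => by
            have := hq _ _ hi (by omega) (by omega) h2 h; omega
          exact ⟨g, hmono _ _ (by omega) hg, h3⟩
      intro a b ha hb
      obtain ⟨g, hg, h3⟩ := key a ha
      obtain ⟨g', hg', h4⟩ := key b hb
      exact ⟨g'⁻¹ * g, Subgroup.mul_mem _ (Subgroup.inv_mem _ hg') hg, by
        rw [Equiv.Perm.mul_apply, h3, Equiv.Perm.inv_eq_iff_eq, h4]⟩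
  have hBt : Subgroup.closure ((G : Set (Equiv.Perm α)) ∪
      {x | ∃ i : ℕ, 2 ≤ i ∧ i + 1 ≤ t ∧ x = s i}) = B t := by
    refine le_antisymm ((Subgroup.closure_le _).2 ?_) ((Subgroup.closure_le _).2 ?_)
    · rintro x (hx | ⟨j, h1, h2, rfl⟩)
      · exact hmono 2 t ht (hB2 ▸ hx)
      · exact hsB t j (by omega) h2
    · rintro x (hx | ⟨j, h1, h2, rfl⟩)
      · exact Subgroup.subset_closure (Or.inl hx.1)
      · rcases h1.eq_or_lt with rfl | h1
        · exact Subgroup.subset_closure (Or.inl hs1)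
        · exact Subgroup.subset_closure (Or.inr ⟨j, h1, h2, rfl⟩)
  rw [hBt]
  constructor
  · have key : ∀ k, k ≤ t → IsMultiplyPretransitive (B t) α k := by
      intro k
      induction k with
      | zero => exact fun _ => is_zero_pretransitive
      | succ k ih =>
        intro hk
        have hc : (q '' (Finset.Ioc (t - k) t : Set ℕ)).ncard = k := by
          rw [Set.InjOn.ncard_image, Set.ncard_coe_finset, Nat.card_Ioc]
          · omega
          · intro i hi j hj h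
            simp only [Finset.coe_Ioc, Set.mem_Ioc] at hi hj
            exact hq i j (by omega) hi.2 (by omega) hj.2 h
        have h3 : H89.TransOff (B t) (q '' (Finset.Ioc (t - k) t : Set ℕ)) := by
          intro a ha b hb
          obtain ⟨g, hg, h3⟩ := hT (t - k) (by omega) (by omega) a b
            (fun j h1 h2 h => ha ⟨j, by simp [h1, h2], h.symm⟩)
            (fun j h1 h2 h => hb ⟨j, by simp [h1, h2], h.symm⟩)
          refine ⟨⟨g, hmono _ _ (by omega) hg⟩, ?_, h3⟩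
          rintro _ ⟨j, hj, rfl⟩
          simp only [Finset.coe_Ioc, Set.mem_Ioc] at hj
          exact hBfix _ j (by omega) hj.1 hj.2 hg
        have := h3.isMultiplyPretransitive_succ (hc.symm ▸ ih (by omega))
        rwa [hc] at this
    exact key t le_rfl
  · refine le_antisymm (fun k hk => ?_) fun k hk => ⟨hAB t (hHA hk), ?_⟩
    · have h3 := (mem_fixingSubgroup_iff _).1 hk.2
      have h4 := hstab t (by omega) le_rfl k hk.1 fun j h1 h2 => h3 _ ⟨j, by omega, h2, rfl⟩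
      rw [hH]
      exact ⟨⟨h4.1, h3 _ ⟨1, le_rfl, by omega, rfl⟩⟩, h4.2⟩
    · refine (mem_fixingSubgroup_iff _).2 ?_
      rintro _ ⟨j, h1, h2, rfl⟩
      rcases h1.eq_or_lt with rfl | h1
      · rw [hH] at hk
        exact hk.1.2
      · exact hBfix 1 j le_rfl h1 h2 (hAB 1 (hHA hk))

end Cfsg.Agent.S0709
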