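import Cfsg.Agent.Base
import Cfsg.Agent.H89.Centralizer
import Cfsg.Statements.S0710

set_option autoImplicit false
open Cfsg

namespace Cfsg.Agent.S0710

open MulAction

/-- No transitive permutation group on 13 points has order `13 * 12 * 11 * 10 * 9 * 8`. -/
theorem result {α : Type*} [Fintype α] [DecidableEq α] (hα : Fintype.card α = 13) (G : Subgroup (Equiv.Perm α)) [MulAction.IsPretransitive G α] : Nat.card G ≠ 13 * 12 * 11 * 10 * 9 * 8 := by
  intro hG
  have : Fact (Nat.Prime 13) := ⟨by norm_num⟩
  obtain ⟨P⟩ : Nonempty (Sylow 13 G) := inferInstance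
  have hP : Nat.card P = 13 := by
    rw [P.card_eq_multiplicity, hG]
    have : (13 * 12 * 11 * 10 * 9 * 8 : ℕ).factorization 13 = 1 := by
      rw [show (13 * 12 * 11 * 10 * 9 * 8 : ℕ) = 13 ^ 1 * 95040 by norm_num,
        Nat.factorization_mul (by norm_num) (by norm_num), Nat.Prime.factorization_pow (by norm_num),
        Finsupp.add_apply, Nat.factorization_eq_zero_of_not_dvd (by norm_num)]
      simp
    rw [this, pow_one]
  have hcyc : IsCyclic P := isCyclic_of_prime_card hP
  have hne : (P : Subgroup G) ≠ ⊥ := by
    intro h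
    have : Nat.card (P : Subgroup G) = 13 := hP
    rw [h, Subgroup.card_bot] at this
    omega
  obtain ⟨a, ha⟩ := (Set.ne_univ_iff_exists_notMem _).1
    (H89.fixedPoints_ne_univ_of_ne_bot (Ω := α) hne)
  have hstab : stabilizer (P : Subgroup G) a = ⊥ := by
    have hs : IsSimpleGroup (P : Subgroup G) := isSimpleGroup_of_prime_card hP
    refine (Subgroup.Normal.eq_bot_or_eq_top (Subgroup.normal_of_isMulCommutative _)).resolve_right
      fun h => ha fun g => ?_
    have : g ∈ stabilizer (P : Subgroup G) a := h ▸ Subgroup.mem_top g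
    exact this
  have htr : IsPretransitive (P : Subgroup G) α := by
    have h1 := H89.card_eq_card_orbit_mul_card_stabilizer (G := (P : Subgroup G)) a
    rw [hstab, Subgroup.card_bot, mul_one, Nat.card_coe_set_eq] at h1
    have h2 : orbit (P : Subgroup G) a = Set.univ := by
      rw [Set.eq_univ_iff_ncard, ← h1, Nat.card_eq_fintype_card (α := α), hα]
      exact hP
    exact (isPretransitive_iff_orbit_eq_univ a).2 h2
  have : Nonempty α := ⟨a⟩
  have hC := H89.centralizer_eq_of_comm_transitive (Ω := α) (P : Subgroup G) inferInstance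
  have h1 := Subgroup.card_dvd_of_injective _
    (QuotientGroup.kerLift_injective (P : Subgroup G).normalizerMonoidHom)
  rw [Subgroup.normalizerMonoidHom_ker, hC, IsCyclic.card_mulAut, ← Subgroup.index_eq_card] at h1
  have h2 := ((P : Subgroup G).subgroupOf
    (Subgroup.normalizer ((P : Subgroup G) : Set G))).index_mul_card
  rw [Nat.card_congr (Subgroup.subgroupOfEquivOfLe Subgroup.le_normalizer).toEquiv] at h2
  have h3 := (Subgroup.normalizer ((P : Subgroup G) : Set G)).index_mul_card
  have h4 := card_sylow_modEq_one 13 G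
  rw [P.card_eq_index_normalizer] at h4
  have hP' : Nat.card (P : Subgroup G) = 13 := hP
  rw [hP'] at h1 h2
  rw [← h2, hG] at h3
  have h5 : Nat.totient 13 = 12 := by decide
  rw [h5] at h1
  change (Subgroup.normalizer ((P : Subgroup G) : Set G)).index ≡ 1 [MOD 13] at h4
  generalize (Subgroup.normalizer ((P : Subgroup G) : Set G)).index = x at h3 h4
  generalize ((P : Subgroup G).subgroupOf
    (Subgroup.normalizer ((P : Subgroup G) : Set G))).index = d at h1 h3
  have h6 := Nat.le_of_dvd (by norm_num) h1
  unfold Nat.ModEq at h4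
  interval_cases d <;> omega

end Cfsg.Agent.S0710
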