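import Cfsg.Agent.Base
import Cfsg.Agent.H89.MultiTrans
import Cfsg.Statements.S0712

set_option autoImplicit false
open Cfsg

namespace Cfsg.Agent.S0712

open MulAction SubMulAction
open scoped Pointwise

/-- Jordan: a primitive group in which the pointwise stabiliser of a set `s` is doubly transitive on the complement of `s` (which has at least 2 points) is `(|s| + 2)`-transitive. -/
theorem result {α : Type*} [Fintype α] [DecidableEq α] (G : Subgroup (Equiv.Perm α)) (hG : MulAction.IsPreprimitive G α) (s : Set α) {m : ℕ} (hsm : s.ncard = m) (hm : m + 2 ≤ Fintype.card α) (h2 : MulAction.IsMultiplyPretransitive (fixingSubgroup G s) (SubMulAction.ofFixingSubgroup G s) 2) : MulAction.IsMultiplyPretransitive G α (m + 2) := by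
  have hn := Nat.card_eq_fintype_card (α := α)
  have h2' := h2
  rw [is_two_pretransitive_iff] at h2'
  have hoff : ∀ c, c ∉ s → H89.TransOff G (insert c s) := by
    intro c hc a ha b hb
    rw [Set.mem_insert_iff, not_or] at ha hb
    obtain ⟨⟨g, hg⟩, h3, h4⟩ := @h2' ⟨c, hc⟩ ⟨a, ha.2⟩
      ⟨c, hc⟩ ⟨b, hb.2⟩ (fun h => ha.1 (congrArg Subtype.val h).symm)
      (fun h => hb.1 (congrArg Subtype.val h).symm)
    refine ⟨g, ?_, congrArg Subtype.val h4⟩
    rintro x (rfl | hx)
    · exact congrArg Subtype.val h3
    · exact (mem_fixingSubgroup_iff G).1 hg x hx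
  have h1 : IsMultiplyPretransitive G α (m + 1) := by
    rcases Nat.eq_zero_or_pos m with rfl | hm0
    · exact is_one_pretransitive_iff.2 inferInstance
    · obtain ⟨m, rfl⟩ : ∃ j, m = j + 1 := ⟨m - 1, by omega⟩
      exact (hG.isMultiplyPreprimitive hsm (by omega)
        (isPreprimitive_of_is_two_pretransitive h2)).isMultiplyPretransitive
  obtain ⟨c, hc⟩ : ∃ c, c ∉ s := by
    by_contra! h
    rw [Set.eq_univ_iff_forall.2 h, Set.ncard_univ] at hsm
    omega
  refine H89.isMultiplyPretransitive_succ_of_transOff h1 fun t ht => ?_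
  have := Set.powersetCard.isPretransitive_of_isMultiplyPretransitive G h1
  obtain ⟨g, hg⟩ := this.exists_smul_eq ⟨(insert c s).toFinite.toFinset, by
    rw [Set.powersetCard.mem_iff, ← Set.ncard_eq_toFinset_card, Set.ncard_insert_of_notMem hc,
      hsm]⟩ ⟨t, ht⟩
  have hg' : g • (insert c s).toFinite.toFinset = t := congrArg Subtype.val hg
  rw [← hg', Finset.coe_smul_finset, Set.Finite.coe_toFinset]
  exact (hoff c hc).smul g

end Cfsg.Agent.S0712
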