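import Cfsg.Agent.Base
import Cfsg.Statements.S0714

set_option autoImplicit false
open Cfsg

namespace Cfsg.Agent.S0714

open MulAction Equiv

theorem three_cycle_step {α : Type*} [Fintype α] [DecidableEq α] {K : Type*} [Field K]
    (W : Subrepresentation (Cfsg.permRep K (alternatingGroup α) α)) {f : α → K}
    (hf : f ∈ W.toSubmodule) {a b c : α} (hab : a ≠ b) (hac : a ≠ c) (hbc : b ≠ c) :
    (fun x => f ((swap a b * swap a c) x)) ∈ W.toSubmodule := by
  have := W.apply_mem_toSubmodule
    (⟨swap a b * swap a c, by simp [Perm.mem_alternatingGroup, hab, hac]⟩ : alternatingGroup α)⁻¹ hf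
  exact this

/-- Over any field, the permutation module of the alternating group of degree at least 5 has exactly four invariant subspaces: zero, the constant functions, the functions with coordinate sum zero, and everything. -/
theorem result {α : Type*} [Fintype α] [DecidableEq α] (hα : 5 ≤ Fintype.card α) {K : Type*} [Field K] (W : Subrepresentation (Cfsg.permRep K (alternatingGroup α) α)) : W.toSubmodule = ⊥ ∨ W = Cfsg.permConstants K (alternatingGroup α) α ∨ W = Cfsg.permSumZero K (alternatingGroup α) α ∨ W.toSubmodule = ⊤ := by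
  by_cases hc : ∀ f ∈ W.toSubmodule, ∀ a b, f a = f b
  · by_cases h0 : W.toSubmodule = ⊥
    · exact Or.inl h0
    right; left
    obtain ⟨a⟩ : Nonempty α := Fintype.card_pos_iff.1 (by omega)
    obtain ⟨f, hf, hf0⟩ := Submodule.exists_mem_ne_zero_of_ne_bot h0
    have hfa : f a ≠ 0 := fun h => hf0 (funext fun x => (hc f hf x a).trans h)
    apply Subrepresentation.toSubmodule_injective
    apply le_antisymm
    · intro g hg
      exact Submodule.mem_span_singleton.2 ⟨g a, funext fun x => by simp [hc g hg x a]⟩
    · refine Submodule.span_le.2 (Set.singleton_subset_iff.2 ?_)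
      have h1 : (fun _ => 1 : α → K) = (f a)⁻¹ • f := by
        ext x
        simp [hc f hf x a, hfa]
      rw [h1]
      exact W.toSubmodule.smul_mem (f a)⁻¹ hf
  right; right
  push Not at hc
  obtain ⟨f, hf, a, b, hab⟩ := hc
  have hab' : a ≠ b := fun h => hab (h ▸ rfl)
  obtain ⟨c, d, e, hc, hd, he, hcd, hce, hde⟩ := (Finset.two_lt_card_iff
    (s := ({a, b} : Finset α)ᶜ)).1 (by rw [Finset.card_compl, Finset.card_pair hab']; omega)
  simp only [Finset.mem_compl, Finset.mem_insert, Finset.mem_singleton, not_or] at hc hd he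
  -- `g` is supported on `{a, b, c}`
  have h1 := W.toSubmodule.sub_mem hf (three_cycle_step W hf hab' (Ne.symm hc.1) (Ne.symm hc.2))
  set g : α → K := f - fun x => f ((swap a b * swap a c) x) with hg
  have hgx : ∀ x, x ≠ a → x ≠ b → x ≠ c → g x = 0 := fun x h1 h2 h3 => by
    simp [hg, swap_apply_of_ne_of_ne, h1, h2, h3]
  have hgb : g b ≠ 0 := by
    simp only [hg, Pi.sub_apply, Perm.mul_apply]
    rw [swap_apply_of_ne_of_ne hab'.symm (Ne.symm hc.2), swap_apply_right]
    exact sub_ne_zero.2 hab.symm
  have h2 := W.toSubmodule.sub_mem h1 (three_cycle_step W h1 (Ne.symm hd.2) (Ne.symm he.2) hde)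
  have h3 : (Pi.single b 1 - Pi.single d 1 : α → K) ∈ W.toSubmodule := by
    convert W.toSubmodule.smul_mem (g b)⁻¹ h2 using 1
    have hgd : g d = 0 := hgx d hd.1 hd.2 hcd.symm
    have hge : g e = 0 := hgx e he.1 he.2 hce.symm
    ext x
    simp only [Pi.sub_apply, Pi.smul_apply, Perm.mul_apply, smul_eq_mul]
    by_cases hxb : x = b
    · subst hxb
      rw [swap_apply_left, swap_apply_of_ne_of_ne he.2 hde.symm, hge]
      simp [Ne.symm hd.2, hgb]
    by_cases hxd : x = d
    · subst hxd
      rw [swap_apply_of_ne_of_ne hd.2 hde, swap_apply_right, hgd]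
      simp [hd.2, hgb]
    by_cases hxe : x = e
    · subst hxe
      rw [swap_apply_right, swap_apply_left, hgd, hge]
      simp [hxb, hxd]
    rw [swap_apply_of_ne_of_ne hxb hxe, swap_apply_of_ne_of_ne hxb hxd]
    simp [hxb, hxd]
  have h2t : IsMultiplyPretransitive (alternatingGroup α) α 2 := by
    have := alternatingGroup.isMultiplyPretransitive α
    rw [Nat.card_eq_fintype_card] at this
    exact isMultiplyPretransitive_of_le (n := Fintype.card α - 2) (by omega)
      (by rw [Nat.card_eq_fintype_card]; omega)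
  have h4 : ∀ x : α, (Pi.single x 1 - Pi.single a 1 : α → K) ∈ W.toSubmodule := by
    intro x
    by_cases hx : x = a
    · simp [hx]
    obtain ⟨σ, h5, h6⟩ := is_two_pretransitive_iff.1 h2t (Ne.symm hd.2) hx
    convert W.apply_mem_toSubmodule σ h3 using 1
    ext y
    change _ = (Pi.single b 1 - Pi.single d 1 : α → K) (σ⁻¹ • y)
    simp only [Pi.sub_apply, Pi.single_apply, inv_smul_eq_iff, h5, h6]
  have h5 : ∀ v : α → K, v - (∑ x, v x) • Pi.single a 1 ∈ W.toSubmodule := by
    intro v
    have : v - (∑ x, v x) • Pi.single a 1 = ∑ x, v x • (Pi.single x 1 - Pi.single a 1 : α → K) := by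
      simp only [smul_sub, Finset.sum_sub_distrib, ← Finset.sum_smul]
      congr 1
      ext y
      simp [Pi.single_apply]
    rw [this]
    exact Submodule.sum_mem _ fun x _ => W.toSubmodule.smul_mem _ (h4 x)
  by_cases hs : ∀ v ∈ W.toSubmodule, ∑ x, v x = 0
  · left
    apply Subrepresentation.toSubmodule_injective
    apply le_antisymm
    · exact hs
    · intro v hv
      have := h5 v
      rwa [show ∑ x, v x = 0 from hv, zero_smul, sub_zero] at this
  · right
    push Not at hs
    obtain ⟨w, hw, hw0⟩ := hs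
    have h6 : (Pi.single a 1 : α → K) ∈ W.toSubmodule := by
      have := W.toSubmodule.smul_mem (∑ x, w x)⁻¹ (W.toSubmodule.sub_mem hw (h5 w))
      rwa [sub_sub_cancel, smul_smul, inv_mul_cancel₀ hw0, one_smul] at this
    rw [eq_top_iff]
    intro v _
    have := W.toSubmodule.add_mem (h5 v) (W.toSubmodule.smul_mem (∑ x, v x) h6)
    rwa [sub_add_cancel] at this

end Cfsg.Agent.S0714
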