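import Cfsg.Statements.S0717
import Cfsg.Agent.Base
import Cfsg.Agent.H45.CentRing

set_option autoImplicit false
open Cfsg

namespace Cfsg.Agent.S0717

/-- All suborbits of a transitive group are self-paired (every pair of points is interchanged by some group element) if and only if the permutation character is multiplicity-free and each of its irreducible constituents is real-valued. -/
theorem result {G : Type*} [Group G] [Fintype G] {Ω : Type*} [Fintype Ω] [MulAction G Ω] [MulAction.IsPretransitive G Ω] : (∀ a b : Ω, ∃ g : G, g • a = b ∧ g • b = a) ↔ ∀ χ : G → ℂ, Cfsg.IsIrrCharacter G χ → Cfsg.classInner (fun g : G => (Nat.card (MulAction.fixedBy Ω g) : ℂ)) χ ≠ 0 → Cfsg.classInner (fun g : G => (Nat.card (MulAction.fixedBy Ω g) : ℂ)) χ = 1 ∧ ∀ g : G, (starRingEnd ℂ) (χ g) = χ g := by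
  classical
  change _ ↔ ∀ χ : G → ℂ, IsIrrCharacter G χ → classInner (H30.fixChar G Ω) χ ≠ 0 →
    classInner (H30.fixChar G Ω) χ = 1 ∧ _
  constructor
  · intro h χ hχ h0
    have hs : ∀ A : Matrix Ω Ω ℂ, H45.InvM G A → A.transpose = A := fun A hA => by
      ext u v
      obtain ⟨g, h1, h2⟩ := h u v
      rw [Matrix.transpose_apply, ← hA g u v, h1, h2]
    refine ⟨(H45.multFree_of_invM_comm (fun A B hA hB => ?_) hχ).resolve_left h0, ?_⟩
    · rw [← hs _ (hA.mul hB), Matrix.transpose_mul, hs A hA, hs B hB]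
    · by_contra h1
      have h2 := H45.pE_mul_of_ne (Ω := Ω) (H28.Cfsg.IsIrrCharacter.conj hχ) hχ
        fun h => h1 (congrFun h)
      rw [← H45.pE_transpose (H28.Cfsg.IsIrrCharacter.isCharacter hχ),
        hs _ (H45.invM_pE (H28.Cfsg.IsIrrCharacter.isClassFunction hχ)),
        H45.pE_mul_self hχ, H45.pE_eq_zero_iff hχ] at h2
      exact h0 h2
  · intro h a b
    obtain ⟨c, hc⟩ := (H45.invM_orbM (G := G) a b).exists_eq_sum fun χ hχ => by
      by_cases h0 : classInner (H30.fixChar G Ω) χ = 0
      · exact Or.inl h0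
      · exact Or.inr (h χ hχ h0).1
    have h1 : (H45.orbM G a b).transpose = H45.orbM G a b := by
      rw [hc, Matrix.transpose_sum]
      refine Finset.sum_congr rfl fun χ _ => ?_
      rw [Matrix.transpose_smul]
      by_cases h0 : classInner (H30.fixChar G Ω) χ = 0
      · rw [(H45.pE_eq_zero_iff χ.2).2 h0, Matrix.transpose_zero]
      · rw [H45.pE_transpose (H28.Cfsg.IsIrrCharacter.isCharacter χ.2), funext (h χ χ.2 h0).2]
    by_contra h2
    have h3 := H45.orbM_of_not h2
    rw [← h1, Matrix.transpose_apply, H45.orbM_self] at h3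
    exact one_ne_zero h3

end Cfsg.Agent.S0717
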