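import Cfsg.Agent.Base
import Cfsg.Agent.H89.Centralizer
import Cfsg.Statements.S0722

set_option autoImplicit false
open Cfsg

namespace Cfsg.Agent.S0722

/-- In a primitive group `H`, with `N` a minimal normal subgroup and `K` a point stabiliser, `K ⊓ N` is maximal among proper `K`-invariant subgroups of `N`. -/
theorem result {α : Type*} [Finite α] (H : Subgroup (Equiv.Perm α)) [MulAction.IsPreprimitive H α] (N : Subgroup H) [N.Normal] (hN : N ≠ ⊥) (hmin : ∀ M : Subgroup H, M.Normal → M ≤ N → M = ⊥ ∨ M = N) (a : α) (X : Subgroup H) (hX : X ≤ N) (hKX : MulAction.stabilizer H a ⊓ N ≤ X) (hinv : MulAction.stabilizer H a ≤ Subgroup.normalizer (X : Set H)) : X = MulAction.stabilizer H a ⊓ N ∨ X = N := by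
  have hNt : MulAction.IsPretransitive N α := H89.isPretransitive_of_normal_of_primitive N hN
  have hnt : Nontrivial α := by
    by_contra h
    rw [not_nontrivial_iff_subsingleton] at h
    apply hN
    rw [Subgroup.eq_bot_iff_forall]
    intro x _
    ext b
    exact Subsingleton.elim _ _
  have hco := MulAction.IsPreprimitive.isCoatom_stabilizer_of_isPreprimitive H a
  by_cases h : X ≤ MulAction.stabilizer H a
  · exact Or.inl (le_antisymm (le_inf h hX) hKX)
  · right
    have htop : MulAction.stabilizer H a ⊔ X = ⊤ :=
      hco.2 _ (lt_of_le_of_ne le_sup_left fun h' => h (h' ▸ le_sup_right))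
    have hXn : X.Normal := by
      rw [← Subgroup.normalizer_eq_top_iff, eq_top_iff, ← htop]
      exact sup_le hinv Subgroup.le_normalizer
    exact (hmin X hXn hX).resolve_left fun h' => h (h' ▸ bot_le)

end Cfsg.Agent.S0722
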