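import Cfsg.Agent.Base
import Cfsg.Agent.H89.Centralizer
import Cfsg.Statements.S0726

set_option autoImplicit false
open Cfsg

namespace Cfsg.Agent.S0726

/-- The left and right regular permutation representations of a group are each other's centralisers in the symmetric group: the centraliser of the left regular image is the right regular image, and a transitive subgroup centralising the left regular image is the whole right regular image. -/
theorem result {G : Type*} [Group G] : Subgroup.centralizer ((MulAction.toPermHom G G).range : Set (Equiv.Perm G)) = (MulAction.toPermHom Gᵐᵒᵖ G).range ∧ ∀ H : Subgroup (Equiv.Perm G), H ≤ Subgroup.centralizer ((MulAction.toPermHom G G).range : Set (Equiv.Perm G)) → MulAction.IsPretransitive H G → H = (MulAction.toPermHom Gᵐᵒᵖ G).range := by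
  have h1 : Subgroup.centralizer ((MulAction.toPermHom G G).range : Set (Equiv.Perm G)) =
      (MulAction.toPermHom Gᵐᵒᵖ G).range := by
    ext c
    rw [Subgroup.mem_centralizer_iff]
    constructor
    · intro h
      refine ⟨MulOpposite.op (c 1), ?_⟩
      ext x
      have := congrArg (fun p : Equiv.Perm G => p 1) (h (MulAction.toPermHom G G x) ⟨x, rfl⟩)
      simpa using this
    · rintro ⟨g, rfl⟩ _ ⟨x, rfl⟩
      ext y
      simp [mul_assoc]
  refine ⟨h1, fun H hH ht => ?_⟩
  rw [h1] at hH
  refine H89.eq_of_transitive_le_semiregular hH (1 : G) ?_
  rintro _ ⟨g, rfl⟩ hg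
  have : g = 1 := by
    apply MulOpposite.unop_injective
    simpa using hg
  rw [this, map_one]

end Cfsg.Agent.S0726
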