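import Cfsg.Agent.Base
import Cfsg.Agent.H89.Homog
import Cfsg.Statements.S0735

set_option autoImplicit false
open Cfsg

namespace Cfsg.Agent.S0735

open MulAction
open scoped Pointwise

/-- A 2-homogeneous permutation group (transitive on 2-subsets) of even order is doubly transitive; a non-trivial 2-homogeneous group is primitive. -/
theorem result {α : Type*} [Fintype α] [DecidableEq α] (G : Subgroup (Equiv.Perm α)) (h2 : MulAction.IsPretransitive G (Set.powersetCard α 2)) (hα : 3 ≤ Fintype.card α) : (Even (Nat.card G) → MulAction.IsMultiplyPretransitive G α 2) ∧ (G ≠ ⊥ → MulAction.IsPreprimitive G α) := by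
  refine ⟨fun he => ?_, fun _ => H89.isPreprimitive_of_two_homog h2 hα⟩
  rw [H89.homog_iff_perm] at h2
  obtain ⟨t, ht⟩ := exists_prime_orderOf_dvd_card' 2 he.two_dvd
  obtain ⟨x, hx⟩ : ∃ x : α, t • x ≠ x := by
    by_contra! h
    have : t = 1 := eq_of_smul_eq_smul (α := α) fun x => by rw [h, one_smul]
    rw [this, orderOf_one] at ht
    omega
  have htt : t • t • x = x := by rw [← mul_smul, ← sq, ← ht, pow_orderOf_eq_one, one_smul]
  have key : ∀ a b : α, a ≠ b → ∃ g : G, g • x = a ∧ g • t • x = b := by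
    intro a b hab
    obtain ⟨g, hg⟩ := h2 {x, t • x} {a, b} (Finset.card_pair hx.symm) (Finset.card_pair hab)
    rcases H89.smul_pair_eq hx.symm hg with h | ⟨h1, h3⟩
    · exact ⟨g, h⟩
    · exact ⟨g * t, by rw [mul_smul, h3], by rw [mul_smul, htt, h1]⟩
  rw [is_two_pretransitive_iff]
  intro a b c d hab hcd
  obtain ⟨g, rfl, rfl⟩ := key a b hab
  obtain ⟨k, rfl, rfl⟩ := key c d hcd
  exact ⟨k * g⁻¹, by rw [mul_smul, inv_smul_smul], by rw [mul_smul, inv_smul_smul]⟩

end Cfsg.Agent.S0735
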