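import Cfsg.Agent.Base
import Cfsg.Agent.H89.Homog
import Cfsg.Statements.S0736

set_option autoImplicit false
open Cfsg

namespace Cfsg.Agent.S0736

open MulAction Finset
open scoped Pointwise

theorem sum_erase_eq {α : Type*} [DecidableEq α] (S : Finset α) (j : ℕ) (F : Finset α → ℤ) :
    ∑ B ∈ powersetCard (j + 1) S, ∑ a ∈ B, F (B.erase a) =
      ∑ B ∈ powersetCard j S, ((S.card - j : ℕ) : ℤ) * F B := by
  have h1 : ∀ B ∈ powersetCard j S, ((S.card - j : ℕ) : ℤ) * F B = ∑ _a ∈ S \ B, F B := by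
    intro B hB
    rw [mem_powersetCard] at hB
    rw [sum_const, card_sdiff_of_subset hB.1, hB.2, nsmul_eq_mul]
  rw [sum_congr rfl h1, sum_sigma', sum_sigma']
  refine sum_bij' (fun x _ => ⟨x.1.erase x.2, x.2⟩) (fun x _ => ⟨insert x.2 x.1, x.2⟩)
    ?_ ?_ ?_ ?_ ?_
  · rintro ⟨B, a⟩ h
    simp only [mem_sigma, mem_powersetCard, mem_sdiff] at h ⊢
    refine ⟨⟨(erase_subset _ _).trans h.1.1, by rw [card_erase_of_mem h.2, h.1.2]; rfl⟩, h.1.1 h.2,
      notMem_erase _ _⟩
  · rintro ⟨B, a⟩ h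
    simp only [mem_sigma, mem_powersetCard, mem_sdiff] at h ⊢
    exact ⟨⟨insert_subset h.2.1 h.1.1, by rw [card_insert_of_notMem h.2.2, h.1.2]⟩,
      mem_insert_self _ _⟩
  · rintro ⟨B, a⟩ h
    simp only [mem_sigma] at h
    simp [insert_erase h.2]
  · rintro ⟨B, a⟩ h
    simp only [mem_sigma, mem_sdiff] at h
    simp [erase_insert h.2.2]
  · intro _ _
    rfl

theorem step {α : Type*} [DecidableEq α] (g : Finset α → ℤ) (m : ℕ)
    (hg : ∀ K : Finset α, K.card = m + 1 → ∑ x ∈ K, g (K.erase x) = 0) (S R : Finset α)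
    (hd : Disjoint S R) (j : ℕ) (hj : j + R.card = m + 1) :
    ∑ x ∈ R, ∑ B ∈ powersetCard j S, g (B ∪ R.erase x) +
      ∑ B ∈ powersetCard j S, ∑ a ∈ B, g (B.erase a ∪ R) = 0 := by
  rw [sum_comm, ← sum_add_distrib]
  refine sum_eq_zero fun B hB => ?_
  rw [mem_powersetCard] at hB
  have hd' : Disjoint B R := hd.mono_left hB.1
  rw [← hg (B ∪ R) (by rw [card_union_of_disjoint hd', hB.2, hj]), sum_union hd', add_comm]
  congr 1
  · refine sum_congr rfl fun a ha => ?_
    rw [erase_union_distrib, erase_eq_of_notMem (disjoint_left.1 hd' ha)]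
  · refine sum_congr rfl fun a ha => ?_
    rw [erase_union_distrib, erase_eq_of_notMem (disjoint_right.1 hd' ha)]

theorem sum_eq_sign {α : Type*} [DecidableEq α] (g : Finset α → ℤ) (m : ℕ)
    (hg : ∀ K : Finset α, K.card = m + 1 → ∑ x ∈ K, g (K.erase x) = 0) (S : Finset α)
    (hS : S.card = m) (q : ℕ) : ∀ (R : Finset α) (j : ℕ), R.card = q → Disjoint S R → j + q = m →
      ∑ B ∈ powersetCard j S, g (B ∪ R) = (-1) ^ q * g S := by
  induction q with
  | zero =>
    intro R j hR _ hj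
    rw [card_eq_zero.1 hR, show j = S.card by omega, powersetCard_self]
    simp
  | succ q ih =>
    intro R j hR hd hj
    have h := step g m hg S R hd (j + 1) (by omega)
    rw [sum_congr rfl fun x hx => ih (R.erase x) (j + 1) (by rw [card_erase_of_mem hx, hR]; rfl)
      (hd.mono_right (erase_subset _ _)) (by omega), sum_erase_eq S j fun B => g (B ∪ R),
      sum_const, ← mul_sum, hR, hS, show m - j = q + 1 by omega, nsmul_eq_mul, ← mul_add] at h
    have := (mul_eq_zero.1 h).resolve_left (by positivity)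
    rw [pow_succ]
    linarith

theorem eq_zero_of_card {α : Type*} [DecidableEq α] (g : Finset α → ℤ) (m : ℕ)
    (hg : ∀ K : Finset α, K.card = m + 1 → ∑ x ∈ K, g (K.erase x) = 0) (S : Finset α)
    (hS : S.card = m) (R : Finset α) (hR : R.card = m + 1) (hd : Disjoint S R) : g S = 0 := by
  have h := step g m hg S R hd 0 (by omega)
  rw [sum_congr rfl fun x hx => sum_eq_sign g m hg S hS m (R.erase x) 0
    (by rw [card_erase_of_mem hx, hR]; rfl) (hd.mono_right (erase_subset _ _)) (by omega)] at h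
  simp only [sum_const, hR, nsmul_eq_mul, powersetCard_zero, sum_singleton, sum_empty,
    add_zero] at h
  have h1 := (mul_eq_zero.1 h).resolve_left (by positivity)
  exact (mul_eq_zero.1 h1).resolve_left (by positivity)

theorem choose_mod (p : ℕ) [Fact p.Prime] (a r : ℕ) :
    (((p ^ a * (r + 1) - 1).choose (p ^ a) : ℕ) : ZMod p) = r := by
  have hp : 0 < p := (Fact.out : p.Prime).pos
  induction a with
  | zero => simp
  | succ a ih =>
    rw [← ih, ZMod.natCast_eq_natCast_iff]
    refine Choose.choose_modEq_choose_mod_mul_choose_div_nat.trans ?_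
    have h1 : 0 < p ^ a * (r + 1) := by positivity
    obtain ⟨t, ht⟩ : ∃ t, p ^ a * (r + 1) = t + 1 := ⟨_, (Nat.succ_pred_eq_of_pos h1).symm⟩
    have h2 : p ^ (a + 1) * (r + 1) - 1 = (p - 1) + p * t := by
      rw [pow_succ', mul_assoc, ht, mul_add]; omega
    rw [h2, ht, pow_succ', Nat.mul_mod_right, Nat.choose_zero_right, one_mul,
      Nat.mul_div_cancel_left _ hp, Nat.add_mul_div_left _ _ hp, Nat.div_eq_of_lt (by omega)]
    simp [Nat.ModEq]

/-- A `k`-homogeneous permutation group of degree `n`, `k ≥ 2`, with `k + q - 1 ≤ n` for every prime power `q` dividing `k`, is `(k-1)`-homogeneous. -/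
theorem result {α : Type*} [Fintype α] [DecidableEq α] (G : Subgroup (Equiv.Perm α)) {k : ℕ} (hk : 2 ≤ k) (hG : MulAction.IsPretransitive G (Set.powersetCard α k)) (hq : ∀ q : ℕ, IsPrimePow q → q ∣ k → k + q - 1 ≤ Fintype.card α) : MulAction.IsPretransitive G (Set.powersetCard α (k - 1)) := by
  classical
  rw [H89.homog_iff_perm] at hG ⊢
  obtain ⟨m, rfl⟩ : ∃ m, k = m + 1 := ⟨k - 1, by omega⟩
  simp only [Nat.add_sub_cancel]
  intro S₀ T hS₀ hT
  have hq' : ∀ q, IsPrimePow q → q ∣ m + 1 → ∀ S : Finset α, S.card = m →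
      ∃ R : Finset α, R.card = q ∧ Disjoint S R := by
    intro q h1 h2 S hS
    obtain ⟨R, hR, hRc⟩ := exists_subset_card_eq (s := Sᶜ) (n := q) (by
      have := hq q h1 h2
      rw [card_compl]; omega)
    exact ⟨R, hRc, disjoint_compl_right.mono_right hR⟩
  have hext : ∀ S : Finset α, S.card = m → ∃ x, x ∉ S := by
    intro S hS
    obtain ⟨R, hR, hd⟩ := hq' _ (Nat.minFac_prime (n := m + 1) (by omega)).isPrimePow
      (Nat.minFac_dvd _) S hS
    obtain ⟨x, hx⟩ : R.Nonempty := card_pos.1 (hR ▸ Nat.minFac_pos _)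
    exact ⟨x, disjoint_right.1 hd hx⟩
  let P : Finset α → Prop := fun S => ∃ g : G, g • S₀ = S
  let c : Finset α → ℕ := fun K => (K.filter fun x => P (K.erase x)).card
  have hc : ∀ K K' : Finset α, K.card = m + 1 → K'.card = m + 1 → c K = c K' := by
    intro K K' hK hK'
    obtain ⟨g, rfl⟩ := hG K K' hK hK'
    have : (g • K).filter (fun x => P ((g • K).erase x)) =
        g • K.filter fun x => P (K.erase x) := by
      ext x
      rw [mem_filter, ← inv_smul_mem_iff, ← inv_smul_mem_iff, mem_filter]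
      refine and_congr_right fun hx => ?_
      have h1 : (g • K).erase x = g • K.erase (g⁻¹ • x) := by
        ext y
        simp only [mem_erase, ← inv_smul_mem_iff, ne_eq, smul_left_cancel_iff]
      rw [h1]
      constructor
      · rintro ⟨u, hu⟩
        exact ⟨g⁻¹ * u, by rw [mul_smul, hu, inv_smul_smul]⟩
      · rintro ⟨u, hu⟩
        exact ⟨g * u, by rw [mul_smul, hu]⟩
    simp only [c, this, card_smul_finset]
  obtain ⟨x₀, hx₀⟩ := hext S₀ hS₀
  have hK₀ : (insert x₀ S₀).card = m + 1 := by rw [card_insert_of_notMem hx₀, hS₀]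
  set c₀ := c (insert x₀ S₀) with hc₀
  have hpos : 0 < c₀ := card_pos.2 ⟨x₀, mem_filter.2 ⟨mem_insert_self _ _, 1, by
    rw [erase_insert hx₀, one_smul]⟩⟩
  have hle : c₀ ≤ m + 1 := hK₀ ▸ card_filter_le _ _
  let g : Finset α → ℤ := fun S => (m + 1) * (if P S then 1 else 0) - c₀
  have hg : ∀ K : Finset α, K.card = m + 1 → ∑ x ∈ K, g (K.erase x) = 0 := by
    intro K hK
    simp only [g, sum_sub_distrib, ← mul_sum, sum_const, hK, nsmul_eq_mul, sum_boole]
    rw [hc₀, hc _ K hK₀ hK]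
    simp only [c, card_filter]
    push_cast
    ring
  have hdvd : m + 1 ∣ c₀ := by
    rw [← Nat.factorization_prime_le_iff_dvd (by omega) hpos.ne']
    intro p hp
    rw [← hp.pow_dvd_iff_le_factorization hpos.ne']
    set a := (m + 1).factorization p with ha
    rcases Nat.eq_zero_or_pos a with h0 | h0
    · simp [h0]
    have hpp : IsPrimePow (p ^ a) := hp.isPrimePow.pow h0.ne'
    have h1 : p ^ a ∣ m + 1 := Nat.ordProj_dvd _ _
    obtain ⟨R, hR, hd⟩ := hq' _ hpp h1 S₀ hS₀
    have hP : P S₀ := ⟨1, one_smul _ _⟩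
    obtain ⟨r, hr⟩ := h1
    by_cases hm : p ^ a = m + 1
    · have := eq_zero_of_card g m hg S₀ hS₀ R (hR.trans hm) hd
      simp only [g, hP, if_true] at this
      rw [hm]
      exact ⟨1, by omega⟩
    have hlt : p ^ a ≤ m := by
      have := Nat.le_of_dvd (by omega) (Dvd.intro _ hr.symm)
      omega
    have h2 := sum_eq_sign g m hg S₀ hS₀ (p ^ a) R (m - p ^ a) hR hd (by omega)
    simp only [g, hP, if_true, sum_sub_distrib, ← mul_sum, sum_const, card_powersetCard, hS₀,
      nsmul_eq_mul, Nat.choose_symm hlt] at h2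
    have h3 : ((p ^ a : ℕ) : ℤ) ∣ ((m.choose (p ^ a) : ℤ) - (-1) ^ p ^ a) * c₀ := by
      have h4 : ((m : ℤ) + 1) = ((p ^ a : ℕ) : ℤ) * r := by exact_mod_cast hr
      rw [h4] at h2
      exact ⟨r * (∑ B ∈ powersetCard (m - p ^ a) S₀, if P (B ∪ R) then 1 else 0) -
        (-1) ^ p ^ a * r, by linear_combination -h2⟩
    have : Fact p.Prime := ⟨hp⟩
    have hr0 : ¬ p ∣ r := by
      intro h
      apply Nat.pow_succ_factorization_not_dvd (n := m + 1) (by omega) hp
      rw [← ha, pow_succ, hr]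
      exact Nat.mul_dvd_mul_left _ h
    obtain ⟨r, rfl⟩ : ∃ s, r = s + 1 := ⟨r - 1, by
      rcases r with _ | r
      · simp at hr0
      · rfl⟩
    have h5 : ¬ (p : ℤ) ∣ (m.choose (p ^ a) : ℤ) - (-1) ^ p ^ a := by
      rw [← ZMod.intCast_zmod_eq_zero_iff_dvd]
      push_cast
      rw [show m = p ^ a * (r + 1) - 1 by omega, choose_mod, ZMod.pow_card_pow, sub_neg_eq_add]
      intro h
      apply hr0
      rw [← ZMod.natCast_eq_zero_iff]
      exact_mod_cast h
    have h6 : IsCoprime ((p ^ a : ℕ) : ℤ) ((m.choose (p ^ a) : ℤ) - (-1) ^ p ^ a) := by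
      push_cast
      exact ((Nat.prime_iff_prime_int.1 hp).irreducible.coprime_iff_not_dvd.2 h5).pow_left
    exact_mod_cast h6.dvd_of_dvd_mul_left h3
  have heq : c₀ = m + 1 := le_antisymm hle (Nat.le_of_dvd hpos hdvd)
  obtain ⟨x, hx⟩ := hext T hT
  have hK : (insert x T).card = m + 1 := by rw [card_insert_of_notMem hx, hT]
  have h1 : c (insert x T) = (insert x T).card := by rw [← hc _ _ hK₀ hK, ← hc₀, heq, hK]
  have h2 := card_filter_eq_iff.1 h1 x (mem_insert_self _ _)
  rwa [erase_insert hx] at h2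

end Cfsg.Agent.S0736
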