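import Cfsg.Agent.Base
import Cfsg.Agent.H89.Generous
import Cfsg.Statements.S0743

set_option autoImplicit false
open Cfsg

namespace Cfsg.Agent.S0743

open MulAction

/-- Gleason's Lemma: let `p` be a prime and `1 ≤ k < n`; if every `k`-subset of the `n` points is exactly the fixed-point set of some `p`-subgroup of `G`, then `G` is `k`-transitive. -/
theorem result {α : Type*} [Fintype α] [DecidableEq α] (G : Subgroup (Equiv.Perm α)) {p k : ℕ} (hp : p.Prime) (hk : 1 ≤ k) (hkn : k < Fintype.card α) (h : ∀ s : Finset α, s.card = k → ∃ P : Subgroup G, IsPGroup p P ∧ MulAction.fixedPoints P α = (s : Set α)) : MulAction.IsMultiplyPretransitive G α k := by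
  obtain ⟨k, rfl⟩ : ∃ j, k = j + 1 := ⟨k - 1, by omega⟩
  refine H89.isMultiplyPretransitive_of_transOff_card (by omega) fun s hs a ha b hb => ?_
  by_contra hab
  set K := fixingSubgroup G (s : Set α) with hK
  have hb' : b ∉ orbit K a := by
    rintro ⟨⟨g, hg⟩, h1⟩
    exact hab ⟨g, (mem_fixingSubgroup_iff G).1 hg, h1⟩
  have hoff : ∀ x ∈ orbit K a, x ∉ s := by
    rintro _ ⟨⟨g, hg⟩, rfl⟩ hx
    have := (mem_fixingSubgroup_iff G).1 hg _ hx
    have h2 : g • a = a := smul_left_cancel g this
    change g • a ∈ s at hx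
    exact ha (h2 ▸ hx)
  have key : ∀ c, c ∉ (s : Set α) → p ∣ (orbit K a \ {c}).ncard := by
    intro c hc
    obtain ⟨P, hP, hfix⟩ := h (insert c s) (by rw [Finset.card_insert_of_notMem hc, hs])
    have hPc : ∀ g : P, g • c = c := by
      have : c ∈ fixedPoints P α := by rw [hfix]; simp
      exact this
    have hPK : P ≤ K := fun g hg => (mem_fixingSubgroup_iff G).2 fun x hx => by
      have : x ∈ fixedPoints P α := by rw [hfix]; simp [Finset.mem_coe.1 hx]
      exact this ⟨g, hg⟩
    by_contra hnd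
    obtain ⟨x, hx, hx'⟩ := H89.exists_fixed_of_not_dvd_ncard hp hP _ (Set.toFinite _) (by
      rintro g x ⟨hx, hxc⟩
      refine ⟨mem_orbit_of_mem_orbit (⟨g, hPK g.2⟩ : K) hx, fun h' => hxc ?_⟩
      exact smul_left_cancel g (h'.trans (hPc g).symm)) hnd
    have : x ∈ fixedPoints P α := hx'
    rw [hfix, Finset.coe_insert] at this
    rcases this with h1 | h1
    · exact hx.2 h1
    · exact hoff x hx.1 h1
  have h1 := key a ha
  have h2 := key b hb
  rw [Set.sdiff_singleton_eq_self hb', ← Set.ncard_sdiff_singleton_add_one (mem_orbit_self a)] at h2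
  exact hp.one_lt.ne' (Nat.dvd_one.1 ((Nat.dvd_add_right h1).1 h2))

end Cfsg.Agent.S0743
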