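import Cfsg.Agent.Base
import Cfsg.Agent.H89.Generous
import Cfsg.Statements.S0744

set_option autoImplicit false
open Cfsg

namespace Cfsg.Agent.S0744

open MulAction

/-- If for some `k > 1` the pointwise stabilisers of all `(k-1)`-subsets have the same order `> 1` and those of all `k`-subsets have the same order, then the group is `(k-1)`-transitive. -/
theorem result {α : Type*} [Fintype α] [DecidableEq α] (G : Subgroup (Equiv.Perm α)) {k : ℕ} (hk : 1 < k) (hkn : k ≤ Fintype.card α) (l m : ℕ) (hl : 1 < l) (hkm1 : ∀ s : Finset α, s.card = k - 1 → Nat.card (fixingSubgroup G (s : Set α)) = l) (hkm : ∀ s : Finset α, s.card = k → Nat.card (fixingSubgroup G (s : Set α)) = m) : MulAction.IsMultiplyPretransitive G α (k - 1) := by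
  obtain ⟨k, rfl⟩ : ∃ j, k = j + 2 := ⟨k - 2, by omega⟩
  refine H89.isMultiplyPretransitive_of_transOff_card hkn fun s hs a ha b hb => ?_
  change ∀ s : Finset α, s.card = k + 1 → _ at hkm1
  have horb : ∀ t : Finset α, t.card = k + 1 → ∀ x, x ∉ t →
      (orbit (fixingSubgroup G (t : Set α)) x).ncard * m = l := by
    intro t ht x hx
    have h1 := H89.card_eq_card_orbit_mul_card_stabilizer (G := fixingSubgroup G (t : Set α)) x
    rw [hkm1 t ht, Nat.card_coe_set_eq] at h1
    rw [h1, ← hkm (insert x t) (by rw [Finset.card_insert_of_notMem hx, ht])]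
    congr 1
    rw [← Subgroup.card_map_of_injective (K := stabilizer (fixingSubgroup G (t : Set α)) x)
      (Subgroup.subtype_injective _)]
    congr 2
    ext g
    simp only [mem_fixingSubgroup_iff, Finset.coe_insert, Set.mem_insert_iff, forall_eq_or_imp,
      Subgroup.mem_map, mem_stabilizer_iff]
    constructor
    · rintro ⟨h1, h2⟩
      exact ⟨⟨g, (mem_fixingSubgroup_iff G).2 h2⟩, h1, rfl⟩
    · rintro ⟨⟨g, hg⟩, h1, rfl⟩
      exact ⟨h1, (mem_fixingSubgroup_iff G).1 hg⟩
  have hm : 0 < m := by
    obtain ⟨t, -, ht⟩ := Finset.exists_subset_card_eq (s := (Finset.univ : Finset α)) hkn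
    rw [← hkm t ht]
    exact Nat.card_pos
  have horb' : ∀ t : Finset α, t.card = k + 1 → ∀ x, x ∉ t →
      (orbit (fixingSubgroup G (t : Set α)) x).ncard = l / m := fun t ht x hx => by
    rw [← horb t ht x hx, Nat.mul_div_cancel _ hm]
  have hr : l / m ≠ 1 := by
    intro h1
    have hat : (insert a s).card = k + 1 := by rw [Finset.card_insert_of_notMem ha, hs]
    have h2 := hkm1 _ hat
    have : fixingSubgroup G ((insert a s : Finset α) : Set α) = ⊥ := by
      rw [Subgroup.eq_bot_iff_forall]
      intro g hg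
      refine eq_of_smul_eq_smul (α := α) fun x => ?_
      rw [one_smul]
      by_cases hx : x ∈ insert a s
      · exact (mem_fixingSubgroup_iff G).1 hg x hx
      · have h3 := horb' _ hat x hx
        rw [h1, Set.ncard_eq_one] at h3
        obtain ⟨y, hy⟩ := h3
        have h4 := mem_orbit x (⟨g, hg⟩ : fixingSubgroup G ((insert a s : Finset α) : Set α))
        have h5 := mem_orbit_self (M := fixingSubgroup G ((insert a s : Finset α) : Set α)) x
        rw [hy] at h4 h5
        exact h4.trans h5.symm
    rw [this, Subgroup.card_bot] at h2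
    omega
  by_contra hab
  set K := fixingSubgroup G (s : Set α) with hK
  have hb' : b ∉ orbit K a := by
    rintro ⟨⟨g, hg⟩, h1⟩
    exact hab ⟨g, (mem_fixingSubgroup_iff G).1 hg, h1⟩
  have hoff : ∀ x ∈ orbit K a, x ∉ s := by
    rintro _ ⟨⟨g, hg⟩, rfl⟩ hx
    have := (mem_fixingSubgroup_iff G).1 hg _ hx
    have h2 : g • a = a := smul_left_cancel g this
    change g • a ∈ s at hx
    exact ha (h2 ▸ hx)
  have key : ∀ c, c ∉ (s : Set α) → l / m ∣ (orbit K a \ {c}).ncard := by
    intro c hc
    refine H89.dvd_ncard_of_forall_dvd_orbit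
      (H := fixingSubgroup G ((insert c s : Finset α) : Set α)) _ _ (Set.toFinite _) ?_ ?_
    · rintro ⟨g, hg⟩ x ⟨hx, hxc⟩
      rw [mem_fixingSubgroup_iff] at hg
      refine ⟨mem_orbit_of_mem_orbit (⟨g, (mem_fixingSubgroup_iff G).2 fun y hy =>
        hg y (by simp [Finset.mem_coe.1 hy])⟩ : K) hx, fun h' => hxc ?_⟩
      exact smul_left_cancel g (h'.trans (hg c (by simp)).symm)
    · rintro x ⟨hx, hxc⟩
      rw [horb' _ (by rw [Finset.card_insert_of_notMem hc, hs]) x]
      rw [Finset.mem_insert, not_or]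
      exact ⟨hxc, hoff x hx⟩
  have h1 := key a ha
  have h2 := key b hb
  rw [Set.sdiff_singleton_eq_self hb', ← Set.ncard_sdiff_singleton_add_one (mem_orbit_self a)] at h2
  exact hr (Nat.dvd_one.1 ((Nat.dvd_add_right h1).1 h2))

end Cfsg.Agent.S0744
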