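import Cfsg.Statements.S0753
import Cfsg.Agent.Base
import Cfsg.Agent.H59.Herm

set_option autoImplicit false
open Cfsg

namespace Cfsg.Agent.S0753

/-- If σ is a ring endomorphism of the field F other than the identity and B is a σ-sesquilinear conjugate-symmetric form with B v v = 0 for every v, then B = 0. -/
theorem result {F V : Type*} [Field F] [AddCommGroup V] [Module F V] (σ : F →+* F) (hσ : σ ≠ RingHom.id F) (B : V →ₛₗ[σ] V →ₗ[F] F) (hS : B.IsSymm) (h0 : ∀ v : V, B v v = 0) : B = 0 := by
  have _ := hS
  ext x y
  exact H59.form_eq_zero_of_diag hσ (W := ⊤) (fun v _ => h0 v) trivial trivial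

end Cfsg.Agent.S0753
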