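import Cfsg.Statements.S0756
import Cfsg.Agent.H58.QDisc

set_option autoImplicit false
open Cfsg

namespace Cfsg.Agent.S0756

/-- Classification of symmetric bilinear forms over finite fields of odd characteristic: if B is non-degenerate symmetric on V of dimension n + 1 and α is a fixed non-square of F, there is an orthogonal basis b_0, ..., b_n with B(b_i, b_i) = 1 for i < n and B(b_n, b_n) ∈ {1, α}. -/
theorem result {F V : Type*} [Field F] [Finite F] [AddCommGroup V] [Module F V] [FiniteDimensional F V] (h2 : (2 : F) ≠ 0) (B : LinearMap.BilinForm F V) (hS : B.IsSymm) (hB : B.Nondegenerate) {n : ℕ} (hn : Module.finrank F V = n + 1) (α : F) (hα : ¬ IsSquare α) : ∃ b : Module.Basis (Fin (n + 1)) F V, (∀ i j, i ≠ j → B (b i) (b j) = 0) ∧ (∀ i, i ≠ Fin.last n → B (b i) (b i) = 1) ∧ (B (b (Fin.last n)) (b (Fin.last n)) = 1 ∨ B (b (Fin.last n)) (b (Fin.last n)) = α) := by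
  have hα0 : α ≠ 0 := fun h => hα (h ▸ IsSquare.zero)
  have key : ∀ c : F, c ≠ 0 → IsSquare (c * H58.gramB B (Module.finBasisOfFinrankEq F V hn)) →
      ∃ b : Module.Basis (Fin (n + 1)) F V, (∀ i j, i ≠ j → B (b i) (b j) = 0) ∧
        (∀ i, i ≠ Fin.last n → B (b i) (b i) = 1) ∧ B (b (Fin.last n)) (b (Fin.last n)) = c := by
    intro c hc hsq
    let w : Fin (n + 1) → F := fun i => if i = Fin.last n then c else 1
    have hw : ∀ i, w i ≠ 0 := fun i => by
      simp only [w]
      split_ifs
      exacts [hc, one_ne_zero]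
    obtain ⟨g, hg⟩ := H58.exists_equiv_of_isSquare_gram h2 (H58.wss_nondeg h2 hw)
      (H58.toQuad_nondeg h2 hS hB) (by simp [hn]) (Pi.basisFun F _)
      (Module.finBasisOfFinrankEq F V hn) (by
        rw [H58.gram_wss, H58.gram_toQuad hS]
        rw [← H58.isSquare_sq_mul (pow_ne_zero (Fintype.card (Fin (n + 1))) h2)] at hsq
        convert hsq using 1
        simp [w, Finset.prod_ite_eq']
        ring)
    have hp : ∀ i j, B (g (Pi.single i 1)) (g (Pi.single j 1)) = if i = j then w i else 0 := by
      intro i j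
      have := H58.polar_equiv g hg (Pi.single i 1) (Pi.single j 1)
      rw [H58.polar_toQuad hS, H58.polar_wss] at this
      apply mul_left_cancel₀ h2
      rw [this]
      by_cases h : i = j
      · subst h
        simp [Pi.single_apply]
      · simp [Pi.single_apply, h, Ne.symm h]
    refine ⟨(Pi.basisFun F _).map g, fun i j hij => ?_, fun i hi => ?_, ?_⟩
    · simp [hp, hij]
    · simp [hp, w, hi]
    · simp [hp, w]
  have h0 := H58.gramB_ne_zero hB (Module.finBasisOfFinrankEq F V hn)
  by_cases h : IsSquare (H58.gramB B (Module.finBasisOfFinrankEq F V hn))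
  · obtain ⟨b, h1, h3, h4⟩ := key 1 one_ne_zero (by simpa using h)
    exact ⟨b, h1, h3, Or.inl h4⟩
  · obtain ⟨b, h1, h3, h4⟩ := key α hα0 (H58.isSquare_mul_of_not_isSquare hα h)
    exact ⟨b, h1, h3, Or.inr h4⟩

end Cfsg.Agent.S0756
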