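import Cfsg.Statements.S0757
import Cfsg.Agent.H58.QDisc

set_option autoImplicit false
open Cfsg

namespace Cfsg.Agent.S0757

/-- The two diagonal forms Σ x_i^2 and Σ_(i<n) x_i^2 + α x_n^2 on F^(n+1), with α a non-square and 2 ≠ 0 in F, are inequivalent quadratic forms (so over a finite field of odd order there are exactly two classes of non-singular symmetric bilinear forms in each dimension). -/
theorem result {F : Type*} [Field F] (h2 : (2 : F) ≠ 0) (n : ℕ) (α : F) (hα : ¬ IsSquare α) : ¬ (QuadraticMap.weightedSumSquares F (fun _ : Fin (n + 1) => (1 : F))).Equivalent (QuadraticMap.weightedSumSquares F (fun i : Fin (n + 1) => if i = Fin.last n then α else (1 : F))) := by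
  rintro ⟨g⟩
  have h := H58.isSquare_gram_mul_of_equiv (Q := QuadraticMap.weightedSumSquares F (fun _ : Fin (n + 1) => (1 : F)))
    (Q' := QuadraticMap.weightedSumSquares F (fun i : Fin (n + 1) => if i = Fin.last n then α else (1 : F)))
    g.toLinearEquiv (fun v => g.map_app v) (Pi.basisFun F _) (Pi.basisFun F _)
  rw [H58.gram_wss, H58.gram_wss] at h
  apply hα
  rw [← H58.isSquare_sq_mul (pow_ne_zero (Fintype.card (Fin (n + 1))) h2)]
  convert h using 1
  simp [Finset.prod_ite_eq']
  ring

end Cfsg.Agent.S0757
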