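import Cfsg.Statements.S0759
import Cfsg.Agent.H58.QDisc

set_option autoImplicit false
open Cfsg

namespace Cfsg.Agent.S0759

/-- Type of the orthonormal form: over a finite field of odd order q and for m ≥ 1, the quadratic form Σ_(i<2m) x_i² on F^(2m) admits an m-dimensional subspace on which it vanishes identically if and only if it is not the case that q ≡ 3 (mod 4) and m is odd. -/
theorem result {F : Type*} [Field F] [Fintype F] (h2 : (2 : F) ≠ 0) (m : ℕ) (hm : 1 ≤ m) : (∃ W : Submodule F (Fin (2 * m) → F), Module.finrank F W = m ∧ ∀ w ∈ W, ∑ i, w i ^ 2 = 0) ↔ ¬ (Fintype.card F % 4 = 3 ∧ Odd m) := by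
  have hV : Module.finrank F (Fin (2 * m) → F) = 2 * m := by simp
  have h := H58.isPlus_iff_isSquare h2 (H58.wss_nondeg h2 (w := fun _ : Fin (2 * m) => (1 : F))
    (fun _ => one_ne_zero)) hV (Pi.basisFun F _)
  rw [H58.gram_wss] at h
  rw [← H58.isSquare_neg_one_pow_iff, ← H58.isSquare_sq_mul (pow_ne_zero m h2)]
  have e : ((2 : F) ^ m) ^ 2 * (-1) ^ m =
      (-1) ^ m * (2 ^ Fintype.card (Fin (2 * m)) * ∏ _i : Fin (2 * m), (1 : F)) := by
    simp
    ring
  rw [e, ← h]
  unfold H58.IsPlus
  rw [hV]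
  refine exists_congr fun W => and_congr (by omega) (forall₂_congr fun w _ => ?_)
  simp [QuadraticMap.weightedSumSquares_apply, pow_two]

end Cfsg.Agent.S0759
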