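import Cfsg.Statements.S0763
import Cfsg.Agent.H58.QNormal

set_option autoImplicit false
open Cfsg

namespace Cfsg.Agent.S0763

/-- Binary quadratic forms in characteristic two over a finite field: if Q is a quadratic form on a 2-dimensional space whose polar form is non-degenerate, then either there are vectors v, w with Q v = Q w = 0 and polar value 1 (Q is xy in these coordinates), or there are v, w and μ with Q v = 1, Q w = μ, polar value 1 and x² + x + μ without roots in F (Q is x² + xy + μy²). -/
theorem result {F V : Type*} [Field F] [Finite F] [CharP F 2] [AddCommGroup V] [Module F V] (Q : QuadraticForm F V) (h2 : Module.finrank F V = 2) (hQ : (QuadraticMap.polarBilin Q).Nondegenerate) : (∃ v w : V, LinearIndependent F ![v, w] ∧ Q v = 0 ∧ Q w = 0 ∧ QuadraticMap.polar Q v w = 1) ∨ (∃ (v w : V) (μ : F), LinearIndependent F ![v, w] ∧ (∀ x : F, x ^ 2 + x + μ ≠ 0) ∧ Q v = 1 ∧ Q w = μ ∧ QuadraticMap.polar Q v w = 1) := by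
  by_cases ha : ∀ v, Q v = 0 → v = 0
  · obtain ⟨ζ, hζ⟩ := H58.exists_irreducible_quad F
    obtain ⟨x, y, h1, h3, h4, h5⟩ := H58.exists_aniso_basis Q h2 ha (H58.aniso_one_of_no_root hζ)
    exact Or.inr ⟨x, y, ζ, h1, hζ, h3, h5, h4⟩
  · push Not at ha
    obtain ⟨u, hu, hu0⟩ := ha
    obtain ⟨w, hw, huw⟩ := H58.exists_hyp_partner hQ hu0 hu
    refine Or.inl ⟨u, w, ?_, hu, hw, huw⟩
    rw [LinearIndependent.pair_iff]
    intro s t hst
    have e1 := congrArg (QuadraticMap.polar Q u) hst
    have e2 := congrArg (QuadraticMap.polar Q w) hst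
    rw [QuadraticMap.polar_add_right, QuadraticMap.polar_smul_right,
      QuadraticMap.polar_smul_right, H58.polar_self'] at e1 e2
    rw [QuadraticMap.polar_comm, huw, hw] at e2
    rw [huw, hu] at e1
    exact ⟨by simpa using e2, by simpa using e1⟩

end Cfsg.Agent.S0763
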