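import Cfsg.Statements.S0769
import Cfsg.Agent.Base
import Cfsg.Agent.H57.Unitri

set_option autoImplicit false
open Cfsg

namespace Cfsg.Agent.S0769

/-- Order of the Borel subgroup of GL_n(q): the invertible lower-triangular n × n matrices over a field with q elements number q^(n(n-1)/2) (q-1)^n (unitriangular part times the diagonal torus). -/
theorem result {F : Type*} [Field F] [Fintype F] {q : ℕ} (hF : Fintype.card F = q) (n : ℕ) : Nat.card {g : Matrix.GeneralLinearGroup (Fin n) F // ∀ i j : Fin n, i < j → (g : Matrix (Fin n) (Fin n) F) i j = 0} = q ^ (n * (n - 1) / 2) * (q - 1) ^ n := by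
  subst hF
  classical
  let S : Fin n → Fin n → F → Prop := fun i j x => (i < j → x = 0) ∧ (i = j → x ≠ 0)
  have e : {g : Matrix.GeneralLinearGroup (Fin n) F //
      ∀ i j : Fin n, i < j → (g : Matrix (Fin n) (Fin n) F) i j = 0} ≃
      {M : Matrix (Fin n) (Fin n) F // ∀ i j, S i j (M i j)} :=
    { toFun := fun g => ⟨g.1.1, fun i j => ⟨g.2 i j, fun h => h ▸ (by
        have := g.1.det_ne_zero
        rw [Matrix.det_of_isLowerTriangular _ (fun i j h => g.2 i j h)] at this
        exact Finset.prod_ne_zero_iff.1 this i (Finset.mem_univ i))⟩⟩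
      invFun := fun M => ⟨Matrix.GeneralLinearGroup.mkOfDetNeZero M.1 (by
        rw [Matrix.det_of_isLowerTriangular _ (fun i j h => (M.2 i j).1 h)]
        exact Finset.prod_ne_zero_iff.2 fun i _ => (M.2 i i).2 rfl), fun i j h => (M.2 i j).1 h⟩
      left_inv := fun _ => Subtype.ext (Units.ext rfl)
      right_inv := fun _ => rfl }
  rw [Nat.card_congr e, H57.card_matrix_entrywise, Finset.prod_comm]
  have : ∀ i j : Fin n, Nat.card {x : F // S j i x} =
      if j < i then 1 else if i = j then (Fintype.card F - 1) else Fintype.card F := by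
    intro i j
    split_ifs with h1 h2
    · simp [S, h1, h1.ne]
    · simp [S, h2]
    · simp [S, h1, Ne.symm h2]
  simp_rw [this]
  rw [H57.prod_prod_ite_lt]

end Cfsg.Agent.S0769
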