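import Cfsg.Statements.S0770
import Cfsg.Agent.Base
import Cfsg.Agent.H57.Transv

set_option autoImplicit false
open Cfsg

namespace Cfsg.Agent.S0770

lemma mem_range_iff {F : Type*} [Field F] {n : ℕ} (x : Matrix.GeneralLinearGroup (Fin n) F) :
    x ∈ (Units.map (Matrix.diagonalRingHom (Fin n) F).toMonoidHom).range ↔
      ∃ d : Fin n → F, (x : Matrix (Fin n) (Fin n) F) = Matrix.diagonal d := by
  constructor
  · rintro ⟨d, rfl⟩
    exact ⟨d, rfl⟩
  · rintro ⟨d, hd⟩
    have h0 := x.det_ne_zero
    rw [hd, Matrix.det_diagonal, Finset.prod_ne_zero_iff] at h0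
    have : IsUnit d := Pi.isUnit_iff.2 fun i => isUnit_iff_ne_zero.2 (h0 i (Finset.mem_univ i))
    exact ⟨this.unit, Units.ext hd.symm⟩

/-- For a field with at least 3 elements, an invertible matrix normalises the subgroup of invertible diagonal matrices of GL_n if and only if it is monomial (exactly one non-zero entry in each row). -/
theorem result {F : Type*} [Field F] (hF : ∃ a : F, a ≠ 0 ∧ a ≠ 1) (n : ℕ) (g : Matrix.GeneralLinearGroup (Fin n) F) : g ∈ Subgroup.normalizer ((Units.map (Matrix.diagonalRingHom (Fin n) F).toMonoidHom).range : Subgroup (Matrix.GeneralLinearGroup (Fin n) F)) ↔ ∀ i : Fin n, ∃! j : Fin n, (g : Matrix (Fin n) (Fin n) F) i j ≠ 0 := by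
  obtain ⟨a, ha0, ha1⟩ := hF
  have hrow : ∀ i, ∃ j, (g : Matrix (Fin n) (Fin n) F) i j ≠ 0 := by
    intro i
    by_contra hc
    push Not at hc
    exact g.det_ne_zero (Matrix.det_eq_zero_of_row_eq_zero i hc)
  have hcol : ∀ j, ∃ i, (g : Matrix (Fin n) (Fin n) F) i j ≠ 0 := by
    intro j
    by_contra hc
    push Not at hc
    exact g.det_ne_zero (Matrix.det_eq_zero_of_column_eq_zero j hc)
  constructor
  · intro hg i
    obtain ⟨j, hj⟩ := hrow i
    refine ⟨j, hj, fun k hk => ?_⟩
    by_contra hkj
    have h1 : H57.diagAt j (Units.mk0 a ha0) ∈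
        (Units.map (Matrix.diagonalRingHom (Fin n) F).toMonoidHom).range :=
      (mem_range_iff _).2 ⟨_, H57.diagAt_coe _ _⟩
    obtain ⟨d, hd⟩ := (mem_range_iff _).1 ((Subgroup.mem_normalizer_iff.1 hg _).1 h1)
    have h2 : (g : Matrix (Fin n) (Fin n) F) * Matrix.diagonal (Function.update 1 j a) =
        Matrix.diagonal d * g := by
      rw [← hd, ← Units.val_mul, inv_mul_cancel_right]; rfl
    have e1 := congrFun (congrFun h2 i) j
    have e2 := congrFun (congrFun h2 i) k
    simp only [Matrix.mul_diagonal, Matrix.diagonal_mul, Function.update_self,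
      Function.update_of_ne hkj, Pi.one_apply] at e1 e2
    have e3 : d i = a := by apply mul_right_cancel₀ hj; rw [← e1, mul_comm]
    have e4 : d i = 1 := by apply mul_right_cancel₀ hk; rw [← e2, mul_comm]
    exact ha1 (e3.symm.trans e4)
  · intro h
    choose σ hσ hσ' using h
    have hsurj : Function.Surjective σ := fun j => by
      obtain ⟨i, hi⟩ := hcol j
      exact ⟨i, (hσ' i j hi).symm⟩
    have hbij : Function.Bijective σ := Finite.surjective_iff_bijective.1 hsurj
    have key : ∀ d : Fin n → F, (g : Matrix (Fin n) (Fin n) F) * Matrix.diagonal d =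
        Matrix.diagonal (d ∘ σ) * g := by
      intro d
      ext i j
      rw [Matrix.mul_diagonal, Matrix.diagonal_mul]
      by_cases hij : (g : Matrix (Fin n) (Fin n) F) i j = 0
      · simp [hij]
      · rw [Function.comp_apply, ← hσ' i j hij, mul_comm]
    rw [Subgroup.mem_normalizer_iff]
    intro x
    rw [mem_range_iff, mem_range_iff]
    constructor
    · rintro ⟨d, hd⟩
      refine ⟨d ∘ σ, ?_⟩
      rw [Units.val_mul, Units.val_mul, hd, key, mul_assoc, Units.mul_inv, mul_one]
    · rintro ⟨d, hd⟩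
      refine ⟨d ∘ (Equiv.ofBijective σ hbij).symm, ?_⟩
      have h1 := key (d ∘ (Equiv.ofBijective σ hbij).symm)
      have h2 : (d ∘ (Equiv.ofBijective σ hbij).symm) ∘ σ = d := by
        ext i
        exact congrArg d ((Equiv.ofBijective σ hbij).symm_apply_apply i)
      rw [h2, ← hd, ← Units.val_mul, inv_mul_cancel_right, Units.val_mul] at h1
      exact ((Units.mul_right_inj g).1 h1).symm

end Cfsg.Agent.S0770
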