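import Cfsg.Statements.S0771
import Cfsg.Agent.Base
import Cfsg.Agent.H57.Parabolic

set_option autoImplicit false
open Cfsg

namespace Cfsg.Agent.S0771

/-- Maximal parabolic of GL_n(q): the stabiliser of the coordinate subspace spanned by the first k basis vectors has order q^(k(n-k)) · |GL_k(q)| · |GL_(n-k)(q)| (unipotent radical of order q^(k(n-k)) and Levi complement GL_k × GL_(n-k)). -/
theorem result {F : Type*} [Field F] [Fintype F] {q : ℕ} (hF : Fintype.card F = q) (n k : ℕ) (hk : k ≤ n) : Nat.card ↥(Cfsg.stabilizing (Cfsg.glToMat (Fin n) F) {v : Fin n → F | ∀ i : Fin n, k ≤ (i : ℕ) → v i = 0}) = q ^ (k * (n - k)) * (∏ i : Fin k, (q ^ k - q ^ (i : ℕ))) * ∏ i : Fin (n - k), (q ^ (n - k) - q ^ (i : ℕ)) := by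
  subst hF
  rw [H57.stabilizing_coord_eq]
  let b : Fin n → Bool := fun i => decide (k ≤ (i : ℕ))
  have e : Cfsg.Geo.subspaceStabilizer (H57.coordSub F fun i : Fin n => (i : ℕ) < k) ≃
      {g : Matrix.GeneralLinearGroup (Fin n) F // (g : Matrix (Fin n) (Fin n) F).BlockTriangular b} :=
    Equiv.subtypeEquivRight fun g => by
      rw [H57.mem_stab_coordSub_iff]
      constructor
      · intro h i j hij
        simp only [b, Bool.lt_iff, decide_eq_false_iff_not, decide_eq_true_eq] at hij
        exact h i j (by omega) (by omega)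
      · intro h i j hi hj
        apply h
        simp only [b, Bool.lt_iff, decide_eq_false_iff_not, decide_eq_true_eq]
        omega
  rw [Nat.card_congr e, H57.card_blockTriangular_gl]
  have hc0 : Fintype.card {i // b i = false} = k := by
    rw [← H57.card_fin_lt hk]
    exact Fintype.card_congr (Equiv.subtypeEquivRight fun i => by simp [b])
  have hc1 : Fintype.card {i // b i = true} = n - k := by
    have := Fintype.card_subtype_compl (fun i => b i = false)
    rw [hc0, Fintype.card_fin] at this
    rw [← this]
    exact Fintype.card_congr (Equiv.subtypeEquivRight fun i => by simp)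
  have h1 : Fintype.card {p : Fin n × Fin n // b p.1 < b p.2} = k * (n - k) := by
    rw [← hc1]
    conv_rhs => rw [← hc0]
    rw [← Fintype.card_prod]
    exact Fintype.card_congr ((Equiv.subtypeEquivRight fun p => Bool.lt_iff).trans
      (Equiv.subtypeProdEquivProd (p := fun i => b i = false) (q := fun i => b i = true)))
  have h2 : ∏ a ∈ Finset.univ.image b, Nat.card (Matrix.GeneralLinearGroup {i // b i = a} F) =
      ∏ a : Bool, Nat.card (Matrix.GeneralLinearGroup {i // b i = a} F) := by
    apply Finset.prod_subset (Finset.subset_univ _)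
    intro a _ ha
    have : IsEmpty {i // b i = a} := ⟨fun i => ha (Finset.mem_image.2 ⟨i.1, Finset.mem_univ _, i.2⟩)⟩
    exact Nat.card_eq_one_iff_unique.2 ⟨inferInstance, ⟨1⟩⟩
  rw [h1, h2, Fintype.prod_bool, H57.card_gl_eq_prod, H57.card_gl_eq_prod, hc0, hc1]
  ring

end Cfsg.Agent.S0771
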