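import Cfsg.Statements.S0772
import Cfsg.Agent.Base
import Cfsg.Agent.H57.Parabolic

set_option autoImplicit false
open Cfsg

namespace Cfsg.Agent.S0772

/-- Maximal parabolics are maximal: over a finite field, for 0 < k < n the stabiliser in GL_n of the span of the first k coordinate vectors is a maximal proper subgroup. -/
theorem result {F : Type*} [Field F] [Finite F] (n k : ℕ) (hk0 : 0 < k) (hkn : k < n) : IsCoatom (Cfsg.stabilizing (Cfsg.glToMat (Fin n) F) {v : Fin n → F | ∀ i : Fin n, k ≤ (i : ℕ) → v i = 0}) := by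
  rw [H57.stabilizing_coord_eq]
  have h0 : H57.coordSub F (fun i : Fin n => (i : ℕ) < k) ≠ ⊥ := by
    intro h
    have := H57.finrank_coordSub (F := F) (fun i : Fin n => (i : ℕ) < k)
    rw [h, H57.card_fin_lt hkn.le, finrank_bot] at this
    omega
  have h1 : H57.coordSub F (fun i : Fin n => (i : ℕ) < k) ≠ ⊤ := by
    intro h
    have := H57.finrank_coordSub (F := F) (fun i : Fin n => (i : ℕ) < k)
    rw [h, H57.card_fin_lt hkn.le] at this
    simp at this
    omega
  constructor
  · intro h
    obtain ⟨g, -, hg⟩ := H57.exists_sl_notMem_stab h0 h1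
    exact hg (h.ge trivial)
  · intro H hH
    obtain ⟨g, hg, hg'⟩ := SetLike.exists_of_lt hH
    have hSL := H57.ker_det_le_of_stab_le (inf_le_left.trans hH.le) hg hg'
    rw [eq_top_iff]
    intro x _
    obtain ⟨s, c, hs⟩ := H57.exists_sl_eq_mul_diagAt x ⟨0, by omega⟩
    have hd : H57.diagAt (⟨0, by omega⟩ : Fin n) c ∈ H := by
      apply hH.le
      rw [H57.mem_stab_coordSub_iff]
      intro i j hi hj
      rw [H57.diagAt_coe, Matrix.diagonal_apply_ne]
      rintro rfl
      exact hi hj
    have := H.mul_mem (hSL (H57.toGL_mem_ker_det s)) (H.inv_mem hd)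
    rwa [hs, mul_inv_cancel_right] at this

end Cfsg.Agent.S0772
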