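import Cfsg.Statements.S0773
import Cfsg.Agent.Base
import Cfsg.Agent.H57.Parabolic

set_option autoImplicit false
open Cfsg

namespace Cfsg.Agent.S0773

open Matrix in
/-- `g ↦ (g⁻¹)ᵀ` followed by reversing the indices. -/
noncomputable def flip (n : ℕ) (F : Type*) [Field F] :
    Matrix.GeneralLinearGroup (Fin n) F →* Matrix.GeneralLinearGroup (Fin n) F where
  toFun g := ⟨((g⁻¹ : GL (Fin n) F) : Matrix (Fin n) (Fin n) F)ᵀ.submatrix Fin.revPerm Fin.revPerm,
    (g : Matrix (Fin n) (Fin n) F)ᵀ.submatrix Fin.revPerm Fin.revPerm, by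
      rw [submatrix_mul_equiv _ _ _ Fin.revPerm, ← transpose_mul, Units.mul_inv, transpose_one]
      exact submatrix_one_equiv Fin.revPerm, by
      rw [submatrix_mul_equiv _ _ _ Fin.revPerm, ← transpose_mul, Units.inv_mul, transpose_one]
      exact submatrix_one_equiv Fin.revPerm⟩
  map_one' := Units.ext (by simp)
  map_mul' a b := Units.ext (by
    simp only [Units.val_mul, _root_.mul_inv_rev, transpose_mul]
    exact (submatrix_mul_equiv _ _ _ Fin.revPerm _).symm)

lemma flip_flip {n : ℕ} {F : Type*} [Field F] (g : Matrix.GeneralLinearGroup (Fin n) F) :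
    flip n F (flip n F g) = g := by
  ext i j
  change (g : Matrix (Fin n) (Fin n) F) i.rev.rev j.rev.rev = _
  simp

lemma flip_mem {n : ℕ} {F : Type*} [Field F] {k l : ℕ} (hkl : k + l = n)
    {g : Matrix.GeneralLinearGroup (Fin n) F}
    (hg : g ∈ Cfsg.Geo.subspaceStabilizer (H57.coordSub F fun i : Fin n => (i : ℕ) < k)) :
    flip n F g ∈ Cfsg.Geo.subspaceStabilizer (H57.coordSub F fun i : Fin n => (i : ℕ) < l) := by
  have := H57.mem_stab_coordSub_iff.1 (inv_mem hg)
  rw [H57.mem_stab_coordSub_iff]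
  intro i j hi hj
  apply this j.rev i.rev
  · simp only [Fin.val_rev]; omega
  · simp only [Fin.val_rev]; have := i.2; omega

/-- The stabilisers in GL_n(F), F finite, of the coordinate subspaces of dimensions k and n − k are isomorphic groups, but when 2k ≠ n (and 0 < k < n) no element of GL_n conjugates one onto the other. -/
theorem result {F : Type*} [Field F] [Finite F] (n k : ℕ) (hk0 : 0 < k) (hkn : k < n) (h2 : 2 * k ≠ n) : Nonempty (↥(Cfsg.stabilizing (Cfsg.glToMat (Fin n) F) {v : Fin n → F | ∀ i : Fin n, k ≤ (i : ℕ) → v i = 0}) ≃* ↥(Cfsg.stabilizing (Cfsg.glToMat (Fin n) F) {v : Fin n → F | ∀ i : Fin n, n - k ≤ (i : ℕ) → v i = 0})) ∧ ∀ g : Matrix.GeneralLinearGroup (Fin n) F, (Cfsg.stabilizing (Cfsg.glToMat (Fin n) F) {v : Fin n → F | ∀ i : Fin n, k ≤ (i : ℕ) → v i = 0}).map (MulAut.conj g).toMonoidHom ≠ Cfsg.stabilizing (Cfsg.glToMat (Fin n) F) {v : Fin n → F | ∀ i : Fin n, n - k ≤ (i : ℕ) → v i = 0} := by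
  rw [H57.stabilizing_coord_eq, H57.stabilizing_coord_eq]
  constructor
  · exact ⟨{ toFun := fun g => ⟨flip n F g, flip_mem (by omega) g.2⟩
             invFun := fun g => ⟨flip n F g, flip_mem (by omega) g.2⟩
             left_inv := fun g => Subtype.ext (flip_flip _)
             right_inv := fun g => Subtype.ext (flip_flip _)
             map_mul' := fun a b => Subtype.ext (map_mul _ _ _) }⟩
  · intro g hg
    set W := H57.coordSub F fun i : Fin n => (i : ℕ) < k
    set U := H57.coordSub F fun i : Fin n => (i : ℕ) < n - k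
    have hW : Module.finrank F W = k := by rw [H57.finrank_coordSub, H57.card_fin_lt hkn.le]
    have hU : Module.finrank F U = n - k := by rw [H57.finrank_coordSub, H57.card_fin_lt (by omega)]
    set W' := W.map (Matrix.toLin' (g : Matrix (Fin n) (Fin n) F))
    have hinj : Function.Injective (Matrix.toLin' (g : Matrix (Fin n) (Fin n) F)) := by
      intro x y hxy
      have := congrArg (fun z => Matrix.mulVec ((g⁻¹ : Matrix.GeneralLinearGroup (Fin n) F) : Matrix (Fin n) (Fin n) F) z) hxy
      simpa [Matrix.mulVec_mulVec] using this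
    have hW' : Module.finrank F W' = k := by
      rw [← hW]; exact (LinearEquiv.finrank_eq (Submodule.equivMapOfInjective _ hinj W)).symm
    have hst : Cfsg.Geo.subspaceStabilizer U ≤ Cfsg.Geo.subspaceStabilizer W' := by
      intro x hx
      rw [← hg] at hx
      obtain ⟨y, hy, rfl⟩ := hx
      rw [H57.mem_subspaceStabilizer_iff]
      rintro _ ⟨w, hw, rfl⟩
      refine ⟨_, H57.mem_subspaceStabilizer_iff.1 hy w hw, ?_⟩
      simp [Matrix.mulVec_mulVec]
    have hne : W' ≠ U := by intro h; rw [h, hU] at hW'; omega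
    have hU0 : U ≠ ⊥ := by intro h; rw [h, finrank_bot] at hU; omega
    have hU1 : U ≠ ⊤ := by
      intro h; rw [h, finrank_top, Module.finrank_fintype_fun_eq_card, Fintype.card_fin] at hU; omega
    have hW0 : W' ≠ ⊥ := by intro h; rw [h, finrank_bot] at hW'; omega
    have hW1 : W' ≠ ⊤ := by
      intro h; rw [h, finrank_top, Module.finrank_fintype_fun_eq_card, Fintype.card_fin] at hW'; omega
    -- either `W' ⊄ U` or `W' < U`
    by_cases hle : W' ≤ U
    · obtain ⟨u, hu, huW⟩ := SetLike.exists_of_lt (lt_of_le_of_ne hle hne)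
      obtain ⟨w, hw, hw0⟩ := Submodule.exists_mem_ne_zero_of_ne_bot hW0
      have : w ∉ Submodule.span F {u} := by
        intro hc
        obtain ⟨c, rfl⟩ := Submodule.mem_span_singleton.1 hc
        have hc : c ≠ 0 := by rintro rfl; simp at hw0
        exact huW ((W'.smul_mem_iff hc).1 hw)
      obtain ⟨φ, h2, h3⟩ := H57.exists_dot_of_notMem this
      exact H57.tv_notMem_stab (h3 u (Submodule.mem_span_singleton_self u)) huW hw h2
        (hst (H57.tv_mem_stab_of_mem _ hu))
    · obtain ⟨w, hw, hwU⟩ := SetLike.not_le_iff_exists.1 hle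
      -- every vector `x` lies in `W'`
      apply hW1
      rw [eq_top_iff]
      intro x _
      by_contra hx
      by_cases hxw : w ∈ U ⊔ Submodule.span F {x}
      · -- use a vector of `U` instead, or a third vector
        obtain ⟨y, hy, z, hz, hyz⟩ := Submodule.mem_sup.1 hxw
        obtain ⟨c, rfl⟩ := Submodule.mem_span_singleton.1 hz
        have hyW : y ∉ W' := by
          intro hyW
          have hc : c ≠ 0 := by rintro rfl; apply hwU; rw [← hyz]; simpa using hy
          apply hx
          rw [← W'.smul_mem_iff hc, ← W'.add_mem_iff_right hyW, hyz]; exact hw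
        obtain ⟨φ, h2, h3⟩ := H57.exists_dot_of_notMem hwU
        exact H57.tv_notMem_stab (h3 y hy) hyW hw h2 (hst (H57.tv_mem_stab_of_mem _ hy))
      · obtain ⟨φ, h1, h2, h3⟩ := H57.exists_dot_of_notMem_sup hxw
        exact H57.tv_notMem_stab h2 hx hw h1 (hst (H57.tv_mem_stab_of_dot h2 h3))

end Cfsg.Agent.S0773
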