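import Cfsg.Statements.S0774
import Cfsg.Agent.Base
import Cfsg.Agent.H54.SpBlocks
import Cfsg.Agent.H57.Unitri

set_option autoImplicit false
open Cfsg

namespace Cfsg.Agent.S0774

open Matrix in
theorem upper_mulVec {F : Type*} [Field F] {m : ℕ} {A : Matrix (Fin m) (Fin m) F}
    (hA : A.BlockTriangular id) (k : Fin m) (x : Fin m → F)
    (hx : ∀ i : Fin m, (k : ℕ) < (i : ℕ) → x i = 0) (i : Fin m) (hi : (k : ℕ) < (i : ℕ)) :
    (A *ᵥ x) i = 0 := by
  change ∑ j, A i j * x j = 0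
  refine Finset.sum_eq_zero fun j _ => ?_
  by_cases hj : j < i
  · simp [hA hj]
  · simp [hx j (by have := Fin.lt_def.not.1 hj; omega)]

/-- Borel subgroup of the symplectic group: the elements of Sp_2m(q) stabilising each of the totally isotropic coordinate subspaces ⟨e_0, ..., e_k⟩ (k < m) form a subgroup of order q^(m²) (q − 1)^m. -/
theorem result {F : Type*} [Field F] [Fintype F] {q : ℕ} (hF : Fintype.card F = q) (m : ℕ) : Nat.card ↥(⨅ k : Fin m, Cfsg.stabilizing (Cfsg.spToMat m F) {v : Fin m ⊕ Fin m → F | (∀ i : Fin m, (k : ℕ) < (i : ℕ) → v (Sum.inl i) = 0) ∧ ∀ i : Fin m, v (Sum.inr i) = 0}) = q ^ (m ^ 2) * (q - 1) ^ m := by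
  subst hF
  classical
  set K := ⨅ k : Fin m, Cfsg.stabilizing (Cfsg.spToMat m F) {v : Fin m ⊕ Fin m → F |
    (∀ i : Fin m, (k : ℕ) < (i : ℕ) → v (Sum.inl i) = 0) ∧ ∀ i : Fin m, v (Sum.inr i) = 0} with hK
  have h1 : ∀ (S : Matrix (Fin m) (Fin m) F) (hS : S.IsSymm), H54.spUpper S hS ∈ K := by
    intro S hS
    refine Subgroup.mem_iInf.2 fun k => H54.mem_stabilizing_sp.2 fun v => ?_
    simp only [Set.mem_ofPred_eq, H54.spUpper_smul, Sum.elim_inl, Sum.elim_inr, Function.comp_apply]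
    refine and_congr_left fun h => ?_
    have : v ∘ Sum.inr = 0 := funext h
    simp [this]
  have h2 : ∀ A ∈ Cfsg.upperTriangularGL m F, H54.spLevi A ∈ K := by
    intro A hA
    refine Subgroup.mem_iInf.2 fun k => H54.mem_stabilizing_sp.2 fun v =>
      H54.iff_smul_mem_of_forall_maps ((Cfsg.upperTriangularGL m F).map H54.spLevi) _ ?_
        ⟨A, hA, rfl⟩ v
    rintro _ ⟨A, hA, rfl⟩ v ⟨hv1, hv2⟩
    have : v ∘ Sum.inr = 0 := funext hv2
    rw [H54.spLevi_smul, this]
    exact ⟨upper_mulVec hA k _ hv1, by simp⟩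
  let φ : {S : Matrix (Fin m) (Fin m) F // S.IsSymm} × Cfsg.upperTriangularGL m F → K :=
    fun x => ⟨H54.spUpper x.1.1 x.1.2 * H54.spLevi x.2.1, K.mul_mem (h1 _ _) (h2 _ x.2.2)⟩
  have hφ : Function.Bijective φ := by
    constructor
    · intro x y h
      obtain ⟨e1, e2⟩ := H54.spUpper_mul_spLevi_inj (congrArg Subtype.val h)
      exact Prod.ext (Subtype.ext e1) (Subtype.ext e2)
    · rintro ⟨g, hg⟩
      have h3 : ∀ j : Fin m, (∀ i : Fin m, (j : ℕ) < (i : ℕ) → g.1 (Sum.inl i) (Sum.inl j) = 0) ∧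
          ∀ i : Fin m, g.1 (Sum.inr i) (Sum.inl j) = 0 := by
        intro j
        have := (H54.mem_stabilizing_sp.1 (Subgroup.mem_iInf.1 hg j) (Pi.single (Sum.inl j) 1)).1
          ⟨fun i hi => by
            have : i ≠ j := by rintro rfl; omega
            simp [this], by simp⟩
        simpa [H54.sp_smul_def] using this
      obtain ⟨S, hS, A, rfl⟩ := H54.exists_eq_spUpper_mul_spLevi g
        (by ext i j; exact (h3 j).2 i)
      refine ⟨(⟨S, hS⟩, ⟨A, fun i j hij => ?_⟩), rfl⟩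
      have := (h3 j).1 i hij
      rwa [H54.spUpper_mul_spLevi_coe] at this
  rw [← Nat.card_eq_of_bijective φ hφ, Nat.card_prod, H54.card_symm_matrix,
    H57.card_upperTriangularGL, Nat.card_eq_fintype_card, Fintype.card_fin, ← mul_assoc, ← pow_add]
  congr 2
  rcases m with _ | m
  · simp
  · have e1 : (m + 1) * (m + 1 + 1) = (m + 1) * m + (m + 1) * 2 := by ring
    have e2 : 2 ∣ (m + 1) * m := by
      rw [mul_comm]; exact (Nat.even_mul_succ_self m).two_dvd
    obtain ⟨t, ht⟩ := e2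
    rw [e1, Nat.add_sub_cancel, ht, Nat.add_mul_div_right _ _ two_pos,
      Nat.mul_div_cancel_left _ two_pos]
    nlinarith

end Cfsg.Agent.S0774
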