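import Cfsg.Statements.S0776
import Cfsg.Agent.Base
import Cfsg.Agent.H54.SpDecomp

set_option autoImplicit false
open Cfsg

namespace Cfsg.Agent.S0776

/-- If W ≤ F^(2m) is a 2k-dimensional subspace on which the symplectic form is non-degenerate, then the stabiliser of W in Sp_2m(F) is isomorphic to Sp_2k(F) × Sp_(2m−2k)(F). -/
theorem result {F : Type*} [Field F] (m k : ℕ) (hk : k ≤ m) (W : Submodule F (Fin m ⊕ Fin m → F)) (hWk : Module.finrank F W = 2 * k) (hW : ∀ u ∈ W, (∀ v ∈ W, Cfsg.sympForm m F u v = 0) → u = 0) : Nonempty (↥(Cfsg.stabilizing (Cfsg.spToMat m F) (W : Set (Fin m ⊕ Fin m → F))) ≃* Matrix.symplecticGroup (Fin k) F × Matrix.symplecticGroup (Fin (m - k)) F) := by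
  have hR : (H54.spB (Fin m) F).IsRefl := H54.spB_isAlt.isRefl
  have hW' : ((H54.spB (Fin m) F).restrict W).Nondegenerate :=
    (H54.restrict_nondegenerate_iff hR).2 (by simpa only [H54.sympForm_eq] using hW)
  obtain ⟨e1⟩ := H54.nonempty_isom_equiv_sp hW' (H54.restrict_isAlt H54.spB_isAlt W) (Fin k)
    (by simpa using hWk)
  obtain ⟨e2⟩ := H54.nonempty_isom_equiv_sp
    (H54.restrict_orthogonal_nondegenerate H54.spB_nondegenerate hR hW')
    (H54.restrict_isAlt H54.spB_isAlt _) (Fin (m - k)) (by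
      rw [LinearMap.BilinForm.finrank_orthogonal H54.spB_nondegenerate, hWk]
      simp
      omega)
  exact ⟨(H54.stabilizingEquivIsomStab m W).trans
    ((H54.isomStabEquivProd hR hW').symm.trans (e1.prodCongr e2))⟩

end Cfsg.Agent.S0776
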