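import Cfsg.Statements.S0777
import Cfsg.Agent.Base
import Cfsg.Agent.H54.SpMonomial

set_option autoImplicit false
open Cfsg

namespace Cfsg.Agent.S0777

/-- Weyl group of type C_m: for q ≥ 4 the diagonal matrices of Sp_2m(q) form a torus T ≅ (C_(q−1))^m (the elements stabilising every coordinate axis), and the normaliser of T in Sp_2m(q) has order 2^m · m! · (q − 1)^m. -/
theorem result {F : Type*} [Field F] [Fintype F] {q : ℕ} (hF : Fintype.card F = q) (hq : 4 ≤ q) (m : ℕ) : Nat.card ↥(Subgroup.normalizer (⨅ i : Fin m ⊕ Fin m, Cfsg.stabilizing (Cfsg.spToMat m F) ((Submodule.span F {(Pi.single i (1 : F) : Fin m ⊕ Fin m → F)} : Submodule F (Fin m ⊕ Fin m → F)) : Set (Fin m ⊕ Fin m → F)) : Set (Matrix.symplecticGroup (Fin m) F))) = 2 ^ m * Nat.factorial m * (q - 1) ^ m := by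
  subst hF
  have h0 := H54.card_sp_monomial (l := Fin m) (F := F)
  rw [Fintype.card_fin, Nat.card_eq_fintype_card (α := F)] at h0
  rw [← h0]
  refine Nat.card_congr (Equiv.subtypeEquivRight fun g => ?_)
  have hT : ∀ t : Matrix.symplecticGroup (Fin m) F,
      t ∈ (⨅ i : Fin m ⊕ Fin m, Cfsg.stabilizing (Cfsg.spToMat m F) ((Submodule.span F
        {(Pi.single i (1 : F) : Fin m ⊕ Fin m → F)} : Submodule F (Fin m ⊕ Fin m → F)) :
          Set (Fin m ⊕ Fin m → F)) : Set (Matrix.symplecticGroup (Fin m) F)) ↔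
        ∀ i, t • (Pi.single i (1 : F) : Fin m ⊕ Fin m → F) ∈
          Submodule.span F {(Pi.single i (1 : F) : Fin m ⊕ Fin m → F)} := by
    intro t
    simp only [Set.iInf_eq_iInter, Set.mem_iInter, SetLike.mem_coe,
      H54.mem_stabilizing_span_singleton_iff]
  have aux : ∀ g : Matrix.symplecticGroup (Fin m) F,
      (∀ b, ∃ a c, g • (Pi.single b 1 : Fin m ⊕ Fin m → F) = Pi.single a c) →
      (∀ b, ∃ a c, g⁻¹ • (Pi.single b 1 : Fin m ⊕ Fin m → F) = Pi.single a c) := by
    intro g hg b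
    choose j c h using hg
    obtain ⟨hc, hj⟩ := H54.index_injective_of_monomial h
    obtain ⟨a, rfl⟩ := Finite.injective_iff_surjective.1 hj b
    refine ⟨a, (c a)⁻¹, ?_⟩
    rw [inv_smul_eq_iff, ← mul_one (c a)⁻¹, ← smul_eq_mul, Pi.single_smul, H54.sp_smul_smul, h,
      ← Pi.single_smul, smul_eq_mul, inv_mul_cancel₀ (hc a)]
  have aux2 : ∀ g t : Matrix.symplecticGroup (Fin m) F,
      (∀ b, ∃ a c, g⁻¹ • (Pi.single b 1 : Fin m ⊕ Fin m → F) = Pi.single a c) →
      (∀ i, t • (Pi.single i (1 : F) : Fin m ⊕ Fin m → F) ∈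
          Submodule.span F {(Pi.single i (1 : F) : Fin m ⊕ Fin m → F)}) →
      ∀ i, (g * t * g⁻¹) • (Pi.single i (1 : F) : Fin m ⊕ Fin m → F) ∈
          Submodule.span F {(Pi.single i (1 : F) : Fin m ⊕ Fin m → F)} := by
    intro g t hg ht i
    obtain ⟨a, c, h⟩ := hg i
    obtain ⟨d, hd⟩ := Submodule.mem_span_singleton.1 (ht a)
    refine Submodule.mem_span_singleton.2 ⟨d, ?_⟩
    have h1 : (Pi.single a c : Fin m ⊕ Fin m → F) =
        c • (Pi.single a 1 : Fin m ⊕ Fin m → F) := by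
      rw [← Pi.single_smul, smul_eq_mul, mul_one]
    rw [mul_smul, mul_smul, h, h1, H54.sp_smul_smul, ← hd, smul_comm c d, ← h1, ← h,
      H54.sp_smul_smul, smul_inv_smul]
  rw [Subgroup.mem_set_normalizer_iff'']
  simp only [hT]
  constructor
  · intro h b
    refine H54.eq_single_of_forall_spDiag (H54.exists_sq_ne_one_of_four_le (by simpa using hq))
      ((smul_ne_zero_iff_ne g).2 (by simp)) fun t => ?_
    have h1 := (h (H54.spDiag t)).1 (fun i => by
      rw [H54.spDiag_smul_single]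
      exact Submodule.smul_mem _ _ (Submodule.mem_span_singleton_self _)) b
    obtain ⟨d, hd⟩ := Submodule.mem_span_singleton.1 h1
    refine Submodule.mem_span_singleton.2 ⟨d, ?_⟩
    rw [← H54.sp_smul_smul, hd, mul_smul, mul_smul, smul_inv_smul]
  · intro h t
    refine ⟨fun ht => ?_, fun ht => ?_⟩
    · simpa using aux2 g⁻¹ t (by simpa using h) ht
    · simpa [mul_assoc] using aux2 g _ (aux g h) ht

end Cfsg.Agent.S0777
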