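import Cfsg.Statements.S0778
import Cfsg.Agent.Base
import Cfsg.Agent.H54.SpBlocks

set_option autoImplicit false
open Cfsg

namespace Cfsg.Agent.S0778

/-- The elements of Sp_2m(F) stabilising both W = ⟨e_1..e_m⟩ and U = ⟨f_1..f_m⟩ form a subgroup isomorphic to GL_m(F) (block-diagonal matrices diag(X, X^(−ᵀ)) up to the sign convention of J), for m ≥ 1 or m = 0 alike. -/
theorem result {F : Type*} [Field F] (m : ℕ) : Nonempty (↥(Cfsg.stabilizing (Cfsg.spToMat m F) {v : Fin m ⊕ Fin m → F | ∀ i : Fin m, v (Sum.inr i) = 0} ⊓ Cfsg.stabilizing (Cfsg.spToMat m F) {v : Fin m ⊕ Fin m → F | ∀ i : Fin m, v (Sum.inl i) = 0}) ≃* Matrix.GeneralLinearGroup (Fin m) F) := by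
  refine ⟨((MonoidHom.ofInjective (H54.spLevi_injective (l := Fin m) (R := F))).trans
    (MulEquiv.subgroupCongr ?_)).symm⟩
  ext g
  constructor
  · intro hg
    refine ⟨fun v => H54.iff_smul_mem_of_forall_maps _ _ ?_ hg v,
      fun v => H54.iff_smul_mem_of_forall_maps _ _ ?_ hg v⟩
    · intro g hg v hv
      exact (H54.toBlocks₂₁_eq_zero_iff _).1 (H54.mem_range_spLevi_iff.1 hg).1 v hv
    · intro g hg v hv
      exact (H54.toBlocks₁₂_eq_zero_iff _).1 (H54.mem_range_spLevi_iff.1 hg).2 v hv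
  · rintro ⟨h1, h2⟩
    exact H54.mem_range_spLevi_iff.2 ⟨(H54.toBlocks₂₁_eq_zero_iff _).2 fun v hv => (h1 v).1 hv,
      (H54.toBlocks₁₂_eq_zero_iff _).2 fun v hv => (h2 v).1 hv⟩

end Cfsg.Agent.S0778
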