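import Cfsg.Statements.S0779
import Cfsg.Agent.Base
import Cfsg.Agent.H59.Std

set_option autoImplicit false
open Cfsg

namespace Cfsg.Agent.S0779

/-- Unitary transvections: let |F| = q², h the standard Hermitian form Σ x_i y_i^q and v ≠ 0 with h(v, v) = 0. The linear map x ↦ x + c h(x, v) v is an isometry of h if and only if c = 0 or c^(q−1) = −1. -/
theorem result {F : Type*} [Field F] [Fintype F] {q : ℕ} (hF : Fintype.card F = q ^ 2) (n : ℕ) (v : Fin n → F) (hv : v ≠ 0) (hv0 : Cfsg.hermForm n F q v v = 0) (c : F) : (∀ x y : Fin n → F, Cfsg.hermForm n F q ((Cfsg.unitaryTransvection n q v c).mulVec x) ((Cfsg.unitaryTransvection n q v c).mulVec y) = Cfsg.hermForm n F q x y) ↔ (c = 0 ∨ c ^ (q - 1) = -1) := by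
  have h := H59.isHerm_uForm hF n
  have hq := H59.two_le_q hF
  simp only [H59.hermForm_eq hF, H59.unitaryTransvection_mulVec hF] at hv0 ⊢
  have key : ∀ x y : Fin n → F, H59.uForm hF n (y + (c * H59.uForm hF n v y) • v)
      (x + (c * H59.uForm hF n v x) • v) = H59.uForm hF n y x +
        (c + c ^ q) * (H59.uForm hF n y v * H59.uForm hF n v x) := fun x y => by
    simp only [map_add, LinearMap.add_apply, H59.form_smul_left, H59.form_smul_right, map_mul,
      h.symm, hv0, ← H59.frob_apply hF]
    ring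
  have h2 : c + c ^ q = 0 ↔ (c = 0 ∨ c ^ (q - 1) = -1) := by
    obtain ⟨r, rfl⟩ : ∃ r, q = r + 1 := ⟨q - 1, by omega⟩
    rw [Nat.add_sub_cancel, ← add_eq_zero_iff_eq_neg, ← mul_eq_zero]
    constructor <;> intro h' <;> linear_combination h'
  simp only [key, ← h2, add_eq_left]
  constructor
  · intro h'
    obtain ⟨f, hf, -⟩ := h.exists_partner hv0 hv
    have := h' f f
    rw [← h.symm v f, hf] at this
    simpa using this
  · intro h' x y
    rw [h', zero_mul]

end Cfsg.Agent.S0779
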