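import Cfsg.Statements.S0783
import Cfsg.Agent.Base
import Cfsg.Agent.H59.SU

set_option autoImplicit false
open Cfsg

namespace Cfsg.Agent.S0783

/-- PGU_n(q)/PSU_n(q) is cyclic of order (n, q+1): for n ≥ 2 and |F| = q² there is a surjective homomorphism from GU_n(q) onto the cyclic group of order gcd(n, q + 1) whose kernel is generated by the determinant-one elements together with the centre. -/
theorem result {F : Type*} [Field F] [Fintype F] {q : ℕ} (hF : Fintype.card F = q ^ 2) (n : ℕ) (hn : 2 ≤ n) : ∃ φ : ↥(Cfsg.GU n F q) →* Multiplicative (ZMod (Nat.gcd n (q + 1))), Function.Surjective φ ∧ φ.ker = (Matrix.GeneralLinearGroup.det : Matrix.GeneralLinearGroup (Fin n) F →* Fˣ).ker.subgroupOf (Cfsg.GU n F q) ⊔ Subgroup.center ↥(Cfsg.GU n F q) := by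
  have h := H59.isHerm_uForm hF n
  have hr := h.range_det hF (by simp; omega)
  have hmem : ∀ g : Cfsg.GU n F q, Matrix.GeneralLinearGroup.det g.1 ∈ H59.normOne F q := fun g =>
    hr ▸ ⟨H59.guEquiv hF n g, H59.det_guEquiv hF n g⟩
  let d : Cfsg.GU n F q →* H59.normOne F q :=
    (Matrix.GeneralLinearGroup.det.comp (Cfsg.GU n F q).subtype).codRestrict _ hmem
  have hd : Function.Surjective d := by
    rintro ⟨u, hu⟩
    rw [← hr] at hu
    obtain ⟨g, rfl⟩ := hu
    obtain ⟨g, rfl⟩ := (H59.guEquiv hF n).surjective g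
    exact ⟨g, Subtype.ext (H59.det_guEquiv hF n g).symm⟩
  let R := (powMonoidHom n : H59.normOne F q →* H59.normOne F q).range
  have hc : Nat.card (H59.normOne F q ⧸ R) = Nat.card (Multiplicative (ZMod (Nat.gcd n (q + 1)))) := by
    rw [← Subgroup.index_eq_card, IsCyclic.index_powMonoidHom_range, H59.card_normOne hF,
      Nat.gcd_comm, Nat.card_congr Multiplicative.toAdd, Nat.card_zmod]
  have : IsCyclic (H59.normOne F q ⧸ R) :=
    isCyclic_of_surjective _ (QuotientGroup.mk'_surjective R)
  let e := mulEquivOfCyclicCardEq hc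
  refine ⟨e.toMonoidHom.comp ((QuotientGroup.mk' R).comp d),
    e.surjective.comp ((QuotientGroup.mk'_surjective R).comp hd), ?_⟩
  have hk : ∀ g, g ∈ (e.toMonoidHom.comp ((QuotientGroup.mk' R).comp d)).ker ↔ d g ∈ R := by
    intro g
    simp [MonoidHom.mem_ker]
  apply le_antisymm
  · intro g hg
    obtain ⟨⟨a, ha⟩, hga⟩ := (hk g).1 hg
    let z : Cfsg.GU n F q := (H59.guEquiv hF n).symm ⟨H59.scalarEquiv _ a,
      H59.scalarEquiv_mem_isom ((H59.mem_normOne' hF).1 ha)⟩
    have hz : z ∈ Subgroup.center (Cfsg.GU n F q) := by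
      rw [H59.mem_center_congr (H59.guEquiv hF n), MulEquiv.apply_symm_apply,
        h.mem_center_isom_iff (by simpa)]
      exact ⟨a, H59.scalarEquiv_apply a⟩
    have hdz : Matrix.GeneralLinearGroup.det z.1 = a ^ n := by
      rw [← H59.det_guEquiv hF, MulEquiv.apply_symm_apply]
      ext
      simpa using H59.det_of_scalar (H59.scalarEquiv_apply (V := Fin n → F) a)
    have : g = (g * z⁻¹) * z := by group
    rw [this]
    refine Subgroup.mul_mem_sup ?_ hz
    have h2 : a ^ n = Matrix.GeneralLinearGroup.det g.1 := congrArg Subtype.val hga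
    simp [Subgroup.mem_subgroupOf, hdz, h2]
  · refine sup_le (fun g hg => (hk g).2 ?_) (fun g hg => (hk g).2 ?_)
    · have : d g = 1 := Subtype.ext hg
      exact this ▸ R.one_mem
    · rw [H59.mem_center_congr (H59.guEquiv hF n), h.mem_center_isom_iff (by simpa)] at hg
      obtain ⟨a, ha⟩ := hg
      have h1 := h.norm_one_of_scalar (by simp; omega) (H59.guEquiv hF n g).2 ha
      refine ⟨⟨Units.mk0 a (by rintro rfl; simp at h1), (H59.mem_normOne' hF).2 h1⟩, ?_⟩
      have h2 := H59.det_of_scalar ha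
      rw [H59.det_guEquiv] at h2
      ext
      change _ = ((Matrix.GeneralLinearGroup.det g.1 : Fˣ) : F)
      simpa using h2.symm

end Cfsg.Agent.S0783
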