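import Cfsg.Statements.S0787
import Cfsg.Agent.H56.OmegaFin

set_option autoImplicit false
open Cfsg

namespace Cfsg.Agent.S0787

/-- Existence and uniqueness of Ω: if F is finite, n ≥ 2, Q is a quadratic form on F^n with non-degenerate polar form and (|F|, n) ≠ (2, 4), then the group of isometries of determinant one has a unique subgroup of index 2. -/
theorem result {F : Type*} [Field F] [Fintype F] {n : ℕ} (hn : 2 ≤ n) (Q : QuadraticForm F (Fin n → F)) (hQ : (QuadraticMap.polarBilin Q).Nondegenerate) (h : Fintype.card F ≠ 2 ∨ n ≠ 4) : ∃! H : Subgroup ↥(Cfsg.specialIsometryGroup F ⇑Q), H.index = 2 := by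
  have hE : ¬ H56.IsExc Q := H56.not_isExc_of_card (by simpa using h)
  have hn' : 2 ≤ Module.finrank F (Fin n → F) := by simpa using hn
  let e := H56.toO Q rfl
  let j : Cfsg.specialIsometryGroup F ⇑Q →* H56.O Q :=
    (e : Cfsg.isometryGroup F ⇑Q →* H56.O Q).comp (Cfsg.specialIsometryGroup F ⇑Q).subtype
  have hj : ∀ g, LinearMap.det (j g).lin = 1 := fun g =>
    (H56.mem_specialIsometryGroup_iff Q rfl).1 g.2
  have hj' : ∀ k : H56.O Q, LinearMap.det k.lin = 1 → ∃ g, j g = k := fun k hk =>
    ⟨⟨e.symm k, (H56.mem_specialIsometryGroup_iff Q rfl).2 (by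
      rwa [show H56.toO Q rfl (e.symm k) = k from e.apply_symm_apply k])⟩, e.apply_symm_apply k⟩
  have hji : Function.Injective j := e.injective.comp Subtype.val_injective
  have hidx : ((commutator (H56.O Q)).comap j).index = 2 := by
    by_cases h2 : (2 : F) = 0
    · have h1 : (-1 : F) = 1 := by linear_combination -h2
      rw [Subgroup.index_comap_of_surjective, H56.index_commutator_of_char_two hQ h2 hE hn']
      intro k
      exact hj' k (by rcases k.det_eq_or hQ with h | h <;> simp [h, h1])
    · have : (commutator (H56.O Q)).comap j = ((H56.spinor hQ).comp j).ker := by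
        ext g
        simp [H56.mem_commutator_iff_of_two_ne hQ h2, hj]
      rw [this, Subgroup.index_ker, MonoidHom.range_eq_top.2, Subgroup.card_top, H56.card_SqCl h2]
      intro s
      obtain ⟨k, hk⟩ := H56.dickson_prod_spinor_surjective hQ hn' (1, s)
      obtain ⟨g, rfl⟩ := hj' k ((H56.dickson_eq_one_iff_det hQ h2 k).1 (congrArg Prod.fst hk))
      exact ⟨g, congrArg Prod.snd hk⟩
  refine ⟨_, hidx, fun H hH => ?_⟩
  have hle : (commutator (H56.O Q)).comap j ≤ H := by
    have := H56.commutator_le_of_sq_mem hQ hE (H.map j).normalCore fun u v hu hv k => by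
      obtain ⟨g, hg⟩ := hj' (k * (H56.refl Q u * H56.refl Q v) * k⁻¹) (by
        rw [← H56.O.det_eq_one_iff]
        simp [H56.O.det_refl hu, H56.O.det_refl hv])
      exact ⟨g * g, Subgroup.mul_self_mem_of_index_two hH g, by rw [map_mul, hg]; group⟩
    intro g hg
    exact (Subgroup.mem_map_iff_mem hji).1 (Subgroup.normalCore_le _ (this hg))
  have := Subgroup.relIndex_mul_index hle
  rw [hidx, hH] at this
  exact le_antisymm (Subgroup.relIndex_eq_one.1 (by omega)) hle

end Cfsg.Agent.S0787
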