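import Cfsg.Statements.S0792
import Cfsg.Agent.H56.OmegaFin

set_option autoImplicit false
open Cfsg

namespace Cfsg.Agent.S0792

/-- For q odd and Q with non-degenerate polar form on F^n, the determinant-one isometries form the subgroup generated by all products r_u r_v of two reflections (Q(u), Q(v) ≠ 0). -/
theorem result {F : Type*} [Field F] [Fintype F] (h2 : (2 : F) ≠ 0) {n : ℕ} (Q : QuadraticForm F (Fin n → F)) (hQ : (QuadraticMap.polarBilin Q).Nondegenerate) : Cfsg.specialIsometryGroup F ⇑Q = Subgroup.closure {g : ↥(Cfsg.isometryGroup F ⇑Q) | ∃ u v : Fin n → F, Q u ≠ 0 ∧ Q v ≠ 0 ∧ ((g : Matrix.GeneralLinearGroup (Fin n) F) : Matrix (Fin n) (Fin n) F) = Cfsg.reflectionMatrix ⇑Q u * Cfsg.reflectionMatrix ⇑Q v} := by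
  let e := H56.toO Q rfl
  have hm : ∀ u v : Fin n → F, ((e.symm (H56.refl Q u * H56.refl Q v) :
      Matrix.GeneralLinearGroup (Fin n) F) : Matrix (Fin n) (Fin n) F) =
      Cfsg.reflectionMatrix ⇑Q u * Cfsg.reflectionMatrix ⇑Q v := fun u v =>
    (H56.coe_eq_iff_toO Q rfl fun x => by
      rw [← Matrix.mulVec_mulVec, H56.reflectionMatrix_mulVec, H56.reflectionMatrix_mulVec,
        ← H56.O.mul_apply]).2 (e.apply_symm_apply _)
  apply le_antisymm
  · intro g hg
    rw [H56.mem_specialIsometryGroup_iff Q rfl] at hg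
    obtain ⟨k, rfl⟩ := e.symm.surjective g
    rw [show H56.toO Q rfl (e.symm k) = k from e.apply_symm_apply k] at hg
    set S := Subgroup.closure {g : ↥(Cfsg.isometryGroup F ⇑Q) | ∃ u v : Fin n → F, Q u ≠ 0 ∧ Q v ≠ 0 ∧ ((g : Matrix.GeneralLinearGroup (Fin n) F) : Matrix (Fin n) (Fin n) F) = Cfsg.reflectionMatrix ⇑Q u * Cfsg.reflectionMatrix ⇑Q v} with hS
    have h1 : (1 : F) ≠ -1 := fun h => h2 (by linear_combination h)
    have key : ∀ k : H56.O Q, (LinearMap.det k.lin = 1 → e.symm k ∈ S) ∧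
        (LinearMap.det k.lin = -1 → ∀ u, Q u ≠ 0 → e.symm (H56.refl Q u * k) ∈ S) := by
      intro k
      induction k using H56.O.refl_induction hQ (H56.not_isExc_of_two_ne h2) with
      | h1 => exact ⟨fun _ => by rw [map_one]; exact S.one_mem, fun h => absurd (by simpa using h) h1⟩
      | hmul v hv k ih =>
        rw [H56.O.lin_mul, LinearMap.det_comp, H56.det_refl hv]
        refine ⟨fun h => ih.2 (by linear_combination -h) v hv, fun h u hu => ?_⟩
        rw [← mul_assoc, map_mul]
        exact S.mul_mem (Subgroup.subset_closure ⟨u, v, hu, hv, hm u v⟩)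
          (ih.1 (by linear_combination -h))
    exact (key k).1 hg
  · rw [Subgroup.closure_le]
    rintro g ⟨u, v, hu, hv, hg⟩
    have : g = e.symm (H56.refl Q u * H56.refl Q v) := Subtype.ext (Units.ext (hg.trans (hm u v).symm))
    rw [SetLike.mem_coe, H56.mem_specialIsometryGroup_iff Q rfl, this,
      show H56.toO Q rfl (e.symm _) = _ from e.apply_symm_apply _, H56.O.lin_mul,
      LinearMap.det_comp, H56.det_refl hu, H56.det_refl hv]
    simp

end Cfsg.Agent.S0792
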