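import Cfsg.Statements.S0794
import Cfsg.Agent.H56.OmegaGen

set_option autoImplicit false
open Cfsg

namespace Cfsg.Agent.S0794

/-- For q odd, n ≥ 5 and Q with non-degenerate polar form: an isometry whose matrix is a Siegel transformation T_(u,v)(c) (u, v singular and orthogonal) is a commutator in the isometry group, so lies in Ω. -/
theorem result {F : Type*} [Field F] [Fintype F] (h2 : (2 : F) ≠ 0) {n : ℕ} (hn : 5 ≤ n) (Q : QuadraticForm F (Fin n → F)) (hQ : (QuadraticMap.polarBilin Q).Nondegenerate) (u v : Fin n → F) (hu : Q u = 0) (hv : Q v = 0) (huv : QuadraticMap.polar ⇑Q u v = 0) (c : F) (g : ↥(Cfsg.isometryGroup F ⇑Q)) (hg : ((g : Matrix.GeneralLinearGroup (Fin n) F) : Matrix (Fin n) (Fin n) F) = Cfsg.siegelMatrix ⇑Q u v c) : g ∈ commutatorSet ↥(Cfsg.isometryGroup F ⇑Q) ∧ g ∈ Cfsg.Omega F ⇑Q := by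
  have h5 : 5 ≤ Module.finrank F (Fin n → F) := by simpa using hn
  let e := H56.toO Q rfl
  have hg' : e g = H56.eich Q v (c • u) := (H56.coe_eq_siegelMatrix_iff Q rfl hu hv huv c).1 hg
  have key : g ∈ commutatorSet ↥(Cfsg.isometryGroup F ⇑Q) := by
    obtain ⟨x, y, h1, h2, h3, h4, h⟩ := H56.exists_perp_pair_polar hQ h5 v (c • u)
    have hcu : Q (c • u) = 0 := by simp [H56.Q_smul, hu]
    have hv' : QuadraticMap.polar Q (c • u) v = 0 := by simp [huv]
    refine ⟨e.symm (H56.eich Q (c • u) y), e.symm (H56.eich Q v x), e.injective ?_⟩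
    rw [commutatorElement_def, map_mul, map_mul, map_mul, map_inv, map_inv, e.apply_symm_apply,
      e.apply_symm_apply, hg', H56.conj_eich, H56.eich_apply_of_orth_orth hv' (H60.pc h3),
      H56.eich_apply_of_orth hcu h4 h2, QuadraticMap.polar_comm Q y x, h, one_smul,
      add_comm, H56.eich_add hv (H60.pc hv') h1, mul_inv_cancel_right]
  exact ⟨key, by rw [Cfsg.Omega, commutator_eq_closure]; exact Subgroup.subset_closure key⟩

end Cfsg.Agent.S0794
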