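import Cfsg.Statements.S0795
import Cfsg.Agent.H56.OmegaGen

set_option autoImplicit false
open Cfsg

namespace Cfsg.Agent.S0795

/-- Generation of Ω by root elements: for q odd, n ≥ 5 and Q with non-degenerate polar form on F^n, the commutator subgroup of the isometry group equals the subgroup generated by the isometries whose matrices are Siegel transformations T_(u,v)(c) with u, v singular and orthogonal. -/
theorem result {F : Type*} [Field F] [Fintype F] (h2 : (2 : F) ≠ 0) {n : ℕ} (hn : 5 ≤ n) (Q : QuadraticForm F (Fin n → F)) (hQ : (QuadraticMap.polarBilin Q).Nondegenerate) : Cfsg.Omega F ⇑Q = Subgroup.closure {g : ↥(Cfsg.isometryGroup F ⇑Q) | ∃ (u v : Fin n → F) (c : F), Q u = 0 ∧ Q v = 0 ∧ QuadraticMap.polar ⇑Q u v = 0 ∧ ((g : Matrix.GeneralLinearGroup (Fin n) F) : Matrix (Fin n) (Fin n) F) = Cfsg.siegelMatrix ⇑Q u v c} := by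
  have h5 : 5 ≤ Module.finrank F (Fin n → F) := by simpa using hn
  have hE : ¬ H56.IsExc Q := H56.not_isExc_of_two_ne h2
  let e := H56.toO Q rfl
  apply le_antisymm
  · intro g hg
    rw [H56.mem_Omega_iff Q rfl, H56.commutator_eq_EG_fin hQ hE (by omega)] at hg
    have := H56.EG_le_of_long (H56.idx2_of_five_le hQ h5) (M := Subgroup.comap
      (e.symm : H56.O Q →* Cfsg.isometryGroup F ⇑Q) (Subgroup.closure {g : ↥(Cfsg.isometryGroup F ⇑Q) | ∃ (u v : Fin n → F) (c : F), Q u = 0 ∧ Q v = 0 ∧ QuadraticMap.polar ⇑Q u v = 0 ∧ ((g : Matrix.GeneralLinearGroup (Fin n) F) : Matrix (Fin n) (Fin n) F) = Cfsg.siegelMatrix ⇑Q u v c}))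
      (fun u v _ hu hv huv => Subgroup.subset_closure ⟨v, u, 1, hv, hu, H60.pc huv,
        (H56.coe_eq_siegelMatrix_iff Q rfl hv hu (H60.pc huv) 1).2 (by
          rw [one_smul]; exact e.apply_symm_apply _)⟩) hg
    rwa [Subgroup.mem_comap, MonoidHom.coe_coe, MulEquiv.symm_apply_apply] at this
  · rw [Subgroup.closure_le]
    rintro g ⟨u, v, c, hu, hv, huv, hg⟩
    rw [SetLike.mem_coe, H56.mem_Omega_iff Q rfl, (H56.coe_eq_siegelMatrix_iff Q rfl hu hv huv c).1 hg]
    exact H56.eich_mem_commutator hQ hE _ _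

end Cfsg.Agent.S0795
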