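import Cfsg.Statements.S0796
import Cfsg.Agent.Base

set_option autoImplicit false
open Cfsg

namespace Cfsg.Agent.S0796

/-- If G is finite and acts faithfully and primitively on X, H is the stabiliser of a point, A is a normal subgroup of H whose normal closure in G is G, then for every non-trivial normal subgroup K of G the quotient G ⧸ K is isomorphic to A ⧸ B for some normal subgroup B of A. -/
theorem result {G X : Type*} [Group G] [Finite G] [MulAction G X] [FaithfulSMul G X] (hprim : MulAction.IsPreprimitive G X) (x : X) (A : Subgroup G) (hA : A ≤ MulAction.stabilizer G x) (hAn : (A.subgroupOf (MulAction.stabilizer G x)).Normal) (hgen : Subgroup.normalClosure (A : Set G) = ⊤) (K : Subgroup G) [K.Normal] (hK : K ≠ ⊥) : ∃ (B : Subgroup A) (_ : B.Normal), Nonempty (G ⧸ K ≃* A ⧸ B) := by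
  -- K is transitive, so G = K H; K A is normal in G, contains A, hence is G.
  have hKA : K ⊔ A = ⊤ := by
    have htr : MulAction.IsPretransitive K X := by
      apply MulAction.IsQuasiPreprimitive.isPretransitive_of_normal
      intro h
      apply hK
      rw [eq_bot_iff]
      intro k hk
      rw [Subgroup.mem_bot]
      apply FaithfulSMul.eq_of_smul_eq_smul (α := X)
      intro y
      have : y ∈ MulAction.fixedPoints K X := by rw [h]; trivial
      rw [one_smul]
      exact this ⟨k, hk⟩
    have hnorm : (K ⊔ A).Normal := by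
      constructor
      intro n hn g
      obtain ⟨k, hk⟩ := htr.exists_smul_eq x (g • x)
      have hh : (k : G)⁻¹ * g ∈ MulAction.stabilizer G x := by
        rw [MulAction.mem_stabilizer_iff, mul_smul, ← hk]
        exact inv_smul_smul (k : G) x
      set h := (k : G)⁻¹ * g with hhdef
      have hg : g = k * h := by simp [hhdef]
      have hn' : n ∈ ((K ⊔ A : Subgroup G) : Set G) := hn
      rw [Subgroup.normal_mul] at hn'
      obtain ⟨k', hk', a, ha, rfl⟩ := hn'
      have h1 : h * a * h⁻¹ ∈ A := hAn.conj_mem ⟨a, hA ha⟩ ha ⟨h, hh⟩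
      have h2 : h * k' * h⁻¹ ∈ K := ‹K.Normal›.conj_mem _ hk' h
      have : g * (k' * a) * g⁻¹ = k * ((h * k' * h⁻¹) * (h * a * h⁻¹)) * (k : G)⁻¹ := by
        rw [hg]; group
      rw [this]
      exact mul_mem (mul_mem (Subgroup.mem_sup_left k.2)
        (mul_mem (Subgroup.mem_sup_left h2) (Subgroup.mem_sup_right h1)))
        (inv_mem (Subgroup.mem_sup_left k.2))
    rw [eq_top_iff, ← hgen]
    exact Subgroup.normalClosure_le_normal (fun a ha => Subgroup.mem_sup_right ha)
  let φ : A →* G ⧸ K := (QuotientGroup.mk' K).comp A.subtype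
  have hφ : Function.Surjective φ := by
    intro y
    obtain ⟨g, rfl⟩ := QuotientGroup.mk'_surjective K y
    have hg : g ∈ ((K ⊔ A : Subgroup G) : Set G) := by rw [hKA]; trivial
    rw [Subgroup.normal_mul] at hg
    obtain ⟨k, hk, a, ha, rfl⟩ := hg
    refine ⟨⟨a, ha⟩, ?_⟩
    simp [φ, (QuotientGroup.eq_one_iff k).2 hk]
  exact ⟨φ.ker, inferInstance, ⟨(QuotientGroup.quotientKerEquivOfSurjective φ hφ).symm⟩⟩

end Cfsg.Agent.S0796
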