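import Cfsg.Statements.S0797
import Cfsg.Agent.H56.OmegaFin

set_option autoImplicit false
open Cfsg

namespace Cfsg.Agent.S0797

theorem card_index_two_klein (K : Type*) [Group K] [hK : IsKleinFour K] :
    Nat.card {H : Subgroup K // H.index = 2} = 3 := by
  have : Finite K := Nat.finite_of_card_ne_zero (by simp)
  have : Fact (Nat.Prime 2) := ⟨Nat.prime_two⟩
  have ho : ∀ x : K, x ≠ 1 → orderOf x = 2 := fun x hx =>
    orderOf_eq_prime (by rw [pow_two, IsKleinFour.mul_self]) hx
  have h3 : Nat.card {x : K // x ≠ 1} = 3 := by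
    classical
    have := Fintype.ofFinite K
    rw [Nat.card_eq_fintype_card, Fintype.card_subtype_compl, Fintype.card_subtype_eq,
      ← Nat.card_eq_fintype_card, IsKleinFour.card_four]
  rw [← h3]
  have hi : ∀ x : {x : K // x ≠ 1}, (Subgroup.zpowers x.1).index = 2 := fun x => by
    have := (Subgroup.zpowers x.1).index_mul_card
    rw [Nat.card_zpowers, ho _ x.2, IsKleinFour.card_four] at this
    omega
  refine (Nat.card_congr (Equiv.ofBijective (fun x => ⟨Subgroup.zpowers x.1, hi x⟩) ⟨?_, ?_⟩)).symm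
  · rintro ⟨x, hx⟩ ⟨y, hy⟩ h
    have h' : Subgroup.zpowers x = Subgroup.zpowers y := congrArg Subtype.val h
    have : x ∈ Subgroup.zpowers y := h' ▸ Subgroup.mem_zpowers x
    obtain ⟨k, rfl⟩ := (Subgroup.mem_zpowers_iff).1 this
    have h2 : y ^ (2 : ℤ) = 1 := by rw [zpow_two, IsKleinFour.mul_self]
    rcases Int.even_or_odd' k with ⟨j, rfl | rfl⟩
    · exact absurd (by rw [zpow_mul, h2, one_zpow]) hx
    · exact Subtype.ext (by simp [zpow_add, zpow_mul, h2])
  · rintro ⟨H, hH⟩
    have hc : Nat.card H = 2 := by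
      have := H.index_mul_card
      rw [hH, hK.card_four] at this
      omega
    obtain ⟨x, hx, -⟩ := (Nat.card_eq_two_iff' (1 : H)).1 hc
    have hx1 : (x : K) ≠ 1 := fun h => hx (Subtype.ext h)
    refine ⟨⟨x, hx1⟩, Subtype.ext (Subgroup.eq_of_le_of_card_ge ?_ ?_)⟩
    · exact (Subgroup.zpowers_le_of_mem x.2)
    · rw [Nat.card_zpowers, ho _ hx1, hc]


/-- O^ε_2m(q) ≅ Ω.2² for q odd: if F is finite of odd characteristic, n ≥ 2 is even and Q has non-degenerate polar form on F^n, the isometry group of Q has exactly three subgroups of index 2. -/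
theorem result {F : Type*} [Field F] [Fintype F] (h2 : (2 : F) ≠ 0) {n : ℕ} (hn : 2 ≤ n) (heven : Even n) (Q : QuadraticForm F (Fin n → F)) (hQ : (QuadraticMap.polarBilin Q).Nondegenerate) : Nat.card {H : Subgroup ↥(Cfsg.isometryGroup F ⇑Q) // H.index = 2} = 3 := by
  let φ : Cfsg.isometryGroup F ⇑Q →* ℤˣ × H56.SqCl F :=
    ((H56.dickson hQ).prod (H56.spinor hQ)).comp (H56.toO Q rfl : _ →* H56.O Q)
  have hφ : Function.Surjective φ :=
    (H56.dickson_prod_spinor_surjective hQ (by simpa using hn)).comp (H56.toO Q rfl).surjective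
  have hker : φ.ker = commutator _ := by
    ext g
    rw [H56.mem_Omega_iff Q rfl, H56.commutator_eq_ker hQ (H56.not_isExc_of_two_ne h2)]
    rfl
  have hK : IsKleinFour (ℤˣ × H56.SqCl F) :=
    ⟨by simp [H56.card_SqCl h2], by
      have : Nontrivial (ℤˣ × H56.SqCl F) := ⟨⟨(1, 1), (-1, 1), by simp⟩⟩
      refine (Monoid.exponent_eq_prime_iff Nat.prime_two).2 fun g hg => orderOf_eq_prime ?_ hg
      ext
      · simp
      · simp [pow_two]⟩
  rw [← card_index_two_klein (ℤˣ × H56.SqCl F)]
  refine (Nat.card_congr (Equiv.ofBijective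
    (fun H => ⟨H.1.comap φ, by rw [Subgroup.index_comap_of_surjective _ hφ, H.2]⟩) ⟨?_, ?_⟩)).symm
  · intro H K h
    exact Subtype.ext (Subgroup.comap_injective hφ (congrArg Subtype.val h))
  · rintro ⟨H, hH⟩
    have hle : φ.ker ≤ H := by
      rw [hker]
      have := Subgroup.normal_of_index_eq_two hH
      have : Fact (Nat.Prime 2) := ⟨Nat.prime_two⟩
      have : IsCyclic (_ ⧸ H) := isCyclic_of_prime_card (p := 2) hH
      let : CommGroup (_ ⧸ H) := IsCyclic.commGroup
      exact (Abelianization.commutator_subset_ker (QuotientGroup.mk' H)).trans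
        (QuotientGroup.ker_mk' H).le
    have e : (H.map φ).comap φ = H := Subgroup.comap_map_eq_self hle
    exact ⟨⟨H.map φ, by rw [← Subgroup.index_comap_of_surjective _ hφ, e, hH]⟩, Subtype.ext e⟩

end Cfsg.Agent.S0797
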