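import Cfsg.Statements.S0798
import Cfsg.Agent.H19.ReflCl

set_option autoImplicit false
open Cfsg

namespace Cfsg.Agent.S0798

/-- For q odd, n ≥ 2 even, Q with non-degenerate polar form (n, |F|) ≠ (4, 3), and a fixed c ≠ 0: the subgroup of the isometry group generated by the reflections r_v with Q(v) ∈ c·(F^×)² has index 2. -/
theorem result {F : Type*} [Field F] [Fintype F] (h2 : (2 : F) ≠ 0) {n : ℕ} (hn : 2 ≤ n) (heven : Even n) (Q : QuadraticForm F (Fin n → F)) (hQ : (QuadraticMap.polarBilin Q).Nondegenerate) (h43 : ¬ (n = 4 ∧ Fintype.card F = 3)) (c : F) (hc : c ≠ 0) : (Subgroup.closure {g : ↥(Cfsg.isometryGroup F ⇑Q) | ∃ (v : Fin n → F) (t : F), t ≠ 0 ∧ Q v = c * t ^ 2 ∧ ((g : Matrix.GeneralLinearGroup (Fin n) F) : Matrix (Fin n) (Fin n) F) = Cfsg.reflectionMatrix ⇑Q v}).index = 2 := by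
  classical
  have hn' : (∃ k : F, k ≠ 0 ∧ k * k ≠ 4) ∨ Module.finrank F (Fin n → F) ≤ 2 ∨
      5 ≤ Module.finrank F (Fin n → F) := by
    by_cases h : ∃ k : F, k ∉ ({0, 2, -2} : Finset F)
    · obtain ⟨k, hk⟩ := h
      simp only [Finset.mem_insert, Finset.mem_singleton, not_or] at hk
      refine Or.inl ⟨k, hk.1, fun e => ?_⟩
      rcases mul_self_eq_mul_self_iff.1 (e.trans (by norm_num : (4 : F) = 2 * 2)) with e | e
      · exact hk.2.1 e
      · exact hk.2.2 e
    · push Not at h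
      have h1 := Finset.card_le_card
        (show (Finset.univ : Finset F) ⊆ {0, 2, -2} from fun a _ => h a)
      have h3 := Finset.card_le_three (a := (0 : F)) (b := 2) (c := -2)
      have h4 := Fintype.one_lt_card (α := F)
      have h5 : Fintype.card F ≠ 2 := fun e => h2 (by
        simpa [e] using FiniteField.cast_card_eq_zero F)
      rw [Finset.card_univ] at h1
      obtain ⟨k, hk⟩ := heven
      simp only [Module.finrank_fintype_fun_eq_card, Fintype.card_fin]
      omega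
  refine Eq.trans ?_ (H19.RC.index_RG h2 hQ (by simpa using hn) hn' hc)
  rw [← Subgroup.index_map_equiv _ (H56.toO Q rfl), MonoidHom.map_closure, H19.RC.RG]
  congr 2
  ext g
  constructor
  · rintro ⟨g, ⟨v, t, t0, e, h⟩, rfl⟩
    have e' : Q v = t * t * c := by rw [e]; ring
    exact ⟨v, e' ▸ mul_ne_zero (mul_ne_zero t0 t0) hc, by rw [e', H56.sqcl_mul_self_mul t0],
      (H56.coe_eq_reflectionMatrix_iff Q rfl).1 h⟩
  · rintro ⟨v, v0, h, rfl⟩
    obtain ⟨t, t0, e⟩ := (H56.sqcl_eq_iff hc v0).1 h.symm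
    exact ⟨(H56.toO Q rfl).symm _, ⟨v, t, t0, by rw [e]; ring,
      (H56.coe_eq_reflectionMatrix_iff Q rfl).2 (MulEquiv.apply_symm_apply ..)⟩,
      MulEquiv.apply_symm_apply ..⟩

end Cfsg.Agent.S0798
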