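import Cfsg.Agent.Base
import Cfsg.Statements.S0800
import Cfsg.Agent.H61.SL2Lift

set_option autoImplicit false
open Cfsg

namespace Cfsg.Agent.S0800

open H61

/-- Tori of SL_2(q): if g ∈ SL_2(q) has order coprime to the characteristic p, then the order of g divides q − 1 or q + 1. -/
theorem result {F : Type*} [Field F] [Fintype F] {q : ℕ} (hF : Fintype.card F = q) (p : ℕ) [Fact p.Prime] [CharP F p] (g : Matrix.SpecialLinearGroup (Fin 2) F) (hg : Nat.Coprime (orderOf g) p) : orderOf g ∣ q - 1 ∨ orderOf g ∣ q + 1 := by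
  have hq : Nat.card F = q := by rw [Nat.card_eq_fintype_card, hF]
  rcases sl_orderOf_cases p g with h | h
  · left
    have h1 : orderOf (proj F g) = 1 := Nat.eq_one_of_dvd_coprimes hg (orderOf_proj_dvd g)
      (orderOf_dvd_of_pow_eq_one h)
    have h2 := orderOf_dvd_gcd_mul g
    rw [h1, mul_one, hq] at h2
    exact h2.trans (Nat.gcd_dvd_right _ _)
  · rwa [hq] at h

end Cfsg.Agent.S0800
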