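import Cfsg.Agent.Base
import Cfsg.Statements.S0801
import Cfsg.Agent.H61.DicksonGen

set_option autoImplicit false
open Cfsg

namespace Cfsg.Agent.S0801

open H61 MulAction Matrix MatrixGroups

/-- Let F be a finite field of odd characteristic and λ ≠ 0 an element generating F as a field. Then the lower and upper unitriangular matrices with off-diagonal entries 1 and λ generate SL_2(F), unless |F| = 9 and λ² = −1, in which case they generate a subgroup of order 120. -/
theorem result {F : Type*} [Field F] [Fintype F] (h2 : (2 : F) ≠ 0) (lam : F) (hlam : lam ≠ 0) (hgen : Subfield.closure ({lam} : Set F) = ⊤) : (Subgroup.closure {g : Matrix.SpecialLinearGroup (Fin 2) F | (g : Matrix (Fin 2) (Fin 2) F) = !![1, 0; 1, 1] ∨ (g : Matrix (Fin 2) (Fin 2) F) = !![1, lam; 0, 1]} = ⊤ ∧ ¬ (Fintype.card F = 9 ∧ lam ^ 2 = -1)) ∨ (Fintype.card F = 9 ∧ lam ^ 2 = -1 ∧ Nat.card ↥(Subgroup.closure {g : Matrix.SpecialLinearGroup (Fin 2) F | (g : Matrix (Fin 2) (Fin 2) F) = !![1, 0; 1, 1]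 ∨ (g : Matrix (Fin 2) (Fin 2) F) = !![1, lam; 0, 1]}) = 120) := by
  have hS : {g : SL(2, F) | (g : Matrix (Fin 2) (Fin 2) F) = !![1, 0; 1, 1] ∨
      (g : Matrix (Fin 2) (Fin 2) F) = !![1, lam; 0, 1]} = {lower 1, upper lam} := by
    ext g
    exact or_congr ⟨fun h => Subtype.ext h, fun h => by rw [h]; rfl⟩
      ⟨fun h => Subtype.ext h, fun h => by rw [h]; rfl⟩
  rw [hS, ← Nat.card_eq_fintype_card]
  have hodd := two_ne_zero_iff_odd.1 h2
  set G := Subgroup.closure ({lower 1, upper lam} : Set SL(2, F)) with hG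
  have hm : G.map (proj F) = Subgroup.closure {proj F (lower 1), proj F (upper lam)} := by
    rw [hG, MonoidHom.map_closure, Set.image_pair]
  have key : 2 ∣ Nat.card (G.map (proj F)) → -1 ∈ G := fun h =>
    neg_one_mem_of_even h2 (h.trans (G.card_map_dvd _))
  rcases dickson_gen_psl h2 hlam hgen with h | ⟨h3, h4, ⟨φ⟩⟩
  · left
    have h1 : -1 ∈ G := key (by
      obtain ⟨p, hp, hc, y, d, -, -, m⟩ := main_psl_odd hodd
      obtain ⟨t, h3, h4⟩ := m.exists_inv
      rw [hm, h, Subgroup.card_top]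
      exact (orderOf_eq_two_iff'.2 ⟨h3, h4⟩).symm.dvd.trans (orderOf_dvd_natCard t))
    refine ⟨by rw [← comap_map_proj h1, hm, h, Subgroup.comap_top], fun ⟨h3, h4⟩ => ?_⟩
    obtain ⟨p, hp, hc⟩ := exists_char F
    obtain rfl := eq_char_of_prime_dvd (F := F) p Nat.prime_three (by rw [h3]; norm_num)
    have h5 := (card_closure_le_of_nine (by simpa using CharP.cast_eq_zero F 3) h4).2
    rw [h, Subgroup.card_top] at h5
    have := sixty_lt_card_psl (F := F) (by omega)
    omega
  · rw [← hm] at φ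
    refine Or.inr ⟨h3, h4, ?_⟩
    rw [← two_mul_card_map_proj hodd (key (by rw [card_of_alt5 φ]; norm_num)), card_of_alt5 φ]

end Cfsg.Agent.S0801
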