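import Cfsg.Agent.Base
import Cfsg.Statements.S0805
import Cfsg.Agent.H61.SubField

set_option autoImplicit false
open Cfsg

namespace Cfsg.Agent.S0805

open H61

/-- Subfield subgroups: let F be a finite field of odd order q and K a finite field with |K|^m = q, m ≥ 1. Then PSL_2(F) has a subgroup isomorphic to PSL_2(K), and has a subgroup isomorphic to PGL_2(K) if and only if m is even. -/
theorem result {F K : Type*} [Field F] [Fintype F] [Field K] [Fintype K] {q : ℕ} (hF : Fintype.card F = q) (hodd : Odd q) (m : ℕ) (hm : 1 ≤ m) (hK : Fintype.card K ^ m = q) : (∃ H : Subgroup (Matrix.ProjectiveSpecialLinearGroup (Fin 2) F), Nonempty (H ≃* Matrix.ProjectiveSpecialLinearGroup (Fin 2) K)) ∧ ((∃ H : Subgroup (Matrix.ProjectiveSpecialLinearGroup (Fin 2) F), Nonempty (H ≃* Matrix.ProjGenLinGroup (Fin 2) K)) ↔ Even m) := by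
  rw [← hF, ← Nat.card_eq_fintype_card, ← Nat.card_eq_fintype_card] at hK
  rw [← hF, ← Nat.card_eq_fintype_card] at hodd
  obtain ⟨f⟩ := nonempty_ringHom_of_card_pow hK
  refine ⟨⟨(pslMap f).range, ⟨(MonoidHom.ofInjective (pslMap_injective f)).symm⟩⟩, ?_, fun h => ?_⟩
  · rintro ⟨H, ⟨e⟩⟩
    exact even_of_card_pgl_dvd hodd hK (Nat.card_congr e.toEquiv ▸ H.card_subgroup_dvd_card)
  · exact ⟨_, pglSub_equiv (range_pgl_map_le_of_isSquare (isSquare_map_of_even f hK h))⟩

end Cfsg.Agent.S0805
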