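import Cfsg.Agent.Base
import Cfsg.Statements.S0807
import Cfsg.Agent.H61.PSLOdd

set_option autoImplicit false
open Cfsg

namespace Cfsg.Agent.S0807

open H61 MulAction Matrix MatrixGroups

/-- For q odd, twelve times the number of Klein four-subgroups of PSL_2(q) equals the order of PSL_2(q). -/
theorem result {F : Type*} [Field F] [Fintype F] {q : ℕ} (hF : Fintype.card F = q) (hodd : Odd q) : 12 * Nat.card {V : Subgroup (Matrix.ProjectiveSpecialLinearGroup (Fin 2) F) // IsKleinFour V} = Nat.card (Matrix.ProjectiveSpecialLinearGroup (Fin 2) F) := by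
  rw [← hF, ← Nat.card_eq_fintype_card] at hodd
  obtain ⟨p, hp, hc, y, d, hp2, -, m⟩ := main_psl_odd hodd
  exact m.twelve_mul_card_four hp2 rfl

end Cfsg.Agent.S0807
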