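import Cfsg.Agent.Base
import Cfsg.Statements.S0809
import Cfsg.Agent.H61.PSLOdd

set_option autoImplicit false
open Cfsg

namespace Cfsg.Agent.S0809

open H61 MulAction Matrix MatrixGroups

/-- In SL_2(q), q odd: any two subgroups of order 4 are conjugate, and the normaliser of a subgroup of order 4 has order 2(q − 1) if q ≡ 1 (mod 4) and 2(q + 1) if q ≡ 3 (mod 4); consequently all involutions of PSL_2(q) are conjugate. -/
theorem result {F : Type*} [Field F] [Fintype F] {q : ℕ} (hF : Fintype.card F = q) (hodd : Odd q) (A : Subgroup (Matrix.SpecialLinearGroup (Fin 2) F)) (hA : Nat.card A = 4) : (∀ B : Subgroup (Matrix.SpecialLinearGroup (Fin 2) F), Nat.card B = 4 → ∃ g : Matrix.SpecialLinearGroup (Fin 2) F, B = A.map (MulAut.conj g).toMonoidHom) ∧ (q % 4 = 1 → Nat.card ↥(Subgroup.normalizer (A : Set (Matrix.SpecialLinearGroup (Fin 2) F))) = 2 * (q - 1)) ∧ (q % 4 = 3 → Nat.card ↥(Subgroup.normalizer (A : Set (Matrix.SpecialLinearGroup (Fin 2) F))) = 2 * (q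 + 1)) ∧ (∀ x y : Matrix.ProjectiveSpecialLinearGroup (Fin 2) F, orderOf x = 2 → orderOf y = 2 → IsConj x y) := by
  rw [← Nat.card_eq_fintype_card] at hF
  subst hF
  obtain ⟨t, ht, rfl⟩ := exists_eq_comap_of_card_four hodd hA
  obtain ⟨p, hp, hc, y, d, hp2, hd, m⟩ := main_psl_odd hodd
  have key : ∀ e, e = d ∨ e = d + 1 → Even e → Nat.card (Subgroup.normalizer
      (((Subgroup.zpowers t).comap (proj F) : Subgroup SL(2, F)) : Set SL(2, F))) = 2 * (2 * e) := by
    intro e he he2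
    obtain ⟨h1, h2⟩ := orderOf_eq_two_iff'.1 ht
    obtain ⟨a, b, hab, h3, h4⟩ := m.exists_tor_inv hp2 rfl he he2 h1 h2
    obtain ⟨w, hw1, hw2⟩ := m.exists_swap hab (fun hb => h1 (by rwa [hb] at h3))
    rw [← Subgroup.comap_normalizer_eq_of_surjective _ proj_surjective, card_comap_proj,
      gcd_two_of_odd hodd, (hur_psl F p).normalizer_eq_pairStab hab (Subgroup.zpowers_le.2 h3)
        (by simpa using h1), card_pairStab hab hw1 hw2, h4]
  refine ⟨fun B hB => ?_, fun h => ?_, fun h => ?_, fun x y => psl_isConj_inv hodd⟩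
  · obtain ⟨s, hs, rfl⟩ := exists_eq_comap_of_card_four hodd hB
    obtain ⟨g, rfl⟩ := isConj_iff.1 (psl_isConj_inv hodd ht hs)
    obtain ⟨g, rfl⟩ := proj_surjective g
    exact ⟨g, by rw [← comap_proj_conj, MonoidHom.map_zpowers]; rfl⟩
  · rw [key d (Or.inl rfl) (Nat.even_iff.2 (by omega))]; omega
  · rw [key (d + 1) (Or.inr rfl) (Nat.even_iff.2 (by omega))]; omega

end Cfsg.Agent.S0809
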