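import Cfsg.Agent.Base
import Cfsg.Statements.S0810
import Cfsg.Agent.H61.PSLMin

set_option autoImplicit false
open Cfsg

namespace Cfsg.Agent.S0810

open H61 MulAction Matrix MatrixGroups

/-- PSL_2(q) is minimal simple iff q is 2^r (r prime), 3^r (r an odd prime), a prime greater than 5 congruent to 2 or 3 mod 5, or 5. -/
theorem result {F : Type*} [Field F] [Fintype F] {q : ℕ} (hF : Fintype.card F = q) : Cfsg.IsMinimalSimple (Matrix.ProjectiveSpecialLinearGroup (Fin 2) F) ↔ ((∃ r : ℕ, r.Prime ∧ q = 2 ^ r) ∨ (∃ r : ℕ, r.Prime ∧ r ≠ 2 ∧ q = 3 ^ r) ∨ (q.Prime ∧ 5 < q ∧ (q % 5 = 2 ∨ q % 5 = 3)) ∨ q = 5) := by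
  rw [← Nat.card_eq_fintype_card] at hF
  subst hF
  exact isMinimalSimple_psl_iff

end Cfsg.Agent.S0810
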