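import Cfsg.Agent.Base
import Cfsg.Statements.S0811
import Cfsg.Agent.H61.PSLMax

set_option autoImplicit false
open Cfsg

namespace Cfsg.Agent.S0811

open H61 MulAction Matrix MatrixGroups

/-- For q ∉ {2, 7, 9}, PSL_2(q) has a maximal subgroup isomorphic to the dihedral group of order 2(q + 1)/d, d = gcd(2, q − 1). -/
theorem result {F : Type*} [Field F] [Fintype F] {q : ℕ} (hF : Fintype.card F = q) (hq : q ∉ ({2, 7, 9} : Finset ℕ)) : ∃ H : Subgroup (Matrix.ProjectiveSpecialLinearGroup (Fin 2) F), IsCoatom H ∧ Nonempty (H ≃* DihedralGroup ((q + 1) / Nat.gcd 2 (q - 1))) := by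
  rw [← Nat.card_eq_fintype_card] at hF
  subst hF
  obtain ⟨p, hp, hc⟩ := exists_char F
  obtain ⟨y, m⟩ := main_psl (F := F) p
  obtain ⟨b, -, hb, h1, h2⟩ := m.exists_nonsplit (mem_orbit_self y)
  obtain ⟨w, hw1, hw2⟩ := m.exists_swap hb (h1 ▸ m.stabilizer_y_ne_bot (mem_orbit_self y))
  exact ⟨_, isCoatom_pairStab_nonsplit m hq hb h2, h2 ▸ (hur_psl F p).pairStab_dihedral hb hw1 hw2⟩

end Cfsg.Agent.S0811
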