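import Cfsg.Statements.S0819
import Cfsg.Agent.Base
import Cfsg.Agent.H55.SL2Link

set_option autoImplicit false
open Cfsg

namespace Cfsg.Agent.S0819

open Matrix H55

/-- Multiplication modulo `X³ - a X² - b X - 1`. -/
def mul3 (a b : F4) (x y : F4 × F4 × F4) : F4 × F4 × F4 :=
  let c3 := x.2.1 * y.2.2 + x.2.2 * y.2.1
  let c4 := x.2.2 * y.2.2
  (x.1 * y.1 + c3 + c4 * a,
    x.1 * y.2.1 + x.2.1 * y.1 + c3 * b + c4 * (a * b + 1),
    x.1 * y.2.2 + x.2.1 * y.2.1 + x.2.2 * y.1 + c3 * a + c4 * (a * a + b))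

/-- Evaluation at a matrix. -/
def ev (A : Matrix (Fin 3) (Fin 3) F4) (x : F4 × F4 × F4) : Matrix (Fin 3) (Fin 3) F4 :=
  x.1 • 1 + x.2.1 • A + x.2.2 • (A * A)

theorem ev_mul {A : Matrix (Fin 3) (Fin 3) F4} {a b : F4}
    (h : A * A * A = a • (A * A) + b • A + 1) (x y : F4 × F4 × F4) :
    ev A (mul3 a b x y) = ev A x * ev A y := by
  have h3 : A * (A * A) = a • (A * A) + b • A + 1 := by rw [← mul_assoc, h]
  have h4 : A * A * (A * A) = (a * a + b) • (A * A) + (a * b + 1) • A + a • 1 := by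
    rw [← mul_assoc, h, add_mul, add_mul, smul_mul_assoc, smul_mul_assoc, h, one_mul]
    module
  simp only [ev, mul3, add_mul, mul_add, smul_mul_assoc, mul_smul_comm, one_mul, mul_one, h, h3, h4]
  module

/-- The fifth power of `X`. -/
def x5 (a b : F4) : F4 × F4 × F4 := mul3 a b (1, b, a) (0, 0, 1)

/-- The fifteenth power of `X`. -/
def x15 (a b : F4) : F4 × F4 × F4 := mul3 a b (x5 a b) (mul3 a b (x5 a b) (x5 a b))

set_option synthInstance.maxSize 2048 in
theorem key : ∀ a b c : F4, c ^ 3 = 1 → ∃ d : F4, d ^ 3 = 1 ∧ ∃ v : F4 × F4 × F4,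
    mul3 a b v (x15 a b - (c, 0, 0)) = (1, b, a) - (d, 0, 0) ∨
    mul3 a b v (x15 a b - (c, 0, 0)) = x5 a b - (d, 0, 0) := by
  decide +kernel

theorem ev_sub (A : Matrix (Fin 3) (Fin 3) F4) (x : F4 × F4 × F4) (c : F4) :
    ev A (x - (c, 0, 0)) = ev A x - scalar (Fin 3) c := by
  simp only [ev, Prod.fst_sub, Prod.snd_sub, sub_zero, scalar_apply, ← smul_one_eq_diagonal]
  module

theorem main (g : ProjectiveSpecialLinearGroup (Fin 3) F4) : orderOf g ≠ 15 := by
  intro hg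
  obtain ⟨B, rfl⟩ := QuotientGroup.mk_surjective g
  have h1 : B ^ 15 ∈ Subgroup.center (SpecialLinearGroup (Fin 3) F4) := by
    rw [← QuotientGroup.eq_one_iff, QuotientGroup.mk_pow, ← hg, pow_orderOf_eq_one]
  obtain ⟨c, hc, hB⟩ := Matrix.SpecialLinearGroup.mem_center_iff.1 h1
  obtain ⟨a, b, h⟩ : ∃ a b : F4, B.1 * B.1 * B.1 = a • (B.1 * B.1) + b • B.1 + 1 := by
    have hd := B.det_coe
    rw [det_fin_three] at hd
    refine ⟨B.1 0 0 + B.1 1 1 + B.1 2 2, -(B.1 0 0 * B.1 1 1 + B.1 0 0 * B.1 2 2 + B.1 1 1 * B.1 2 2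
      - B.1 0 1 * B.1 1 0 - B.1 0 2 * B.1 2 0 - B.1 1 2 * B.1 2 1), ?_⟩
    generalize B.1 = A at hd ⊢
    ext1 i j
    fin_cases i <;> fin_cases j <;>
      simp only [mul_apply, Fin.sum_univ_three, Matrix.add_apply, Matrix.smul_apply, smul_eq_mul,
        Matrix.one_apply,
        Fin.zero_eta, Fin.mk_one, Fin.reduceFinMk, Fin.reduceEq, if_true, if_false] <;>
      first | linear_combination hd | ring
  have e3 : ev B.1 (1, b, a) = B.1 ^ 3 := by
    rw [pow_three', h, ev]; module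
  have e5 : ev B.1 (x5 a b) = B.1 ^ 5 := by
    rw [x5, ev_mul h, e3, ev]; simp [← pow_two, ← pow_add]
  have e15 : ev B.1 (x15 a b) = B.1 ^ 15 := by
    rw [x15, ev_mul h, ev_mul h, e5, ← pow_add, ← pow_add]
  have fin : ∀ (k : ℕ) (d : F4), d ^ 3 = 1 → B.1 ^ k - scalar (Fin 3) d = 0 → 15 ∣ k := by
    intro k d hd hk
    rw [← hg, orderOf_dvd_iff_pow_eq_one, ← QuotientGroup.mk_pow, QuotientGroup.eq_one_iff]
    exact Matrix.SpecialLinearGroup.mem_center_iff.2 ⟨d, hd, (sub_eq_zero.1 hk).symm⟩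
  obtain ⟨d, hd, v, hv | hv⟩ := key a b c hc
  · have := congrArg (ev B.1) hv
    rw [ev_mul h, ev_sub, ev_sub, e15, e3, hB, Matrix.SpecialLinearGroup.coe_pow, sub_self, mul_zero] at this
    exact absurd (fin 3 d hd this.symm) (by norm_num)
  · have := congrArg (ev B.1) hv
    rw [ev_mul h, ev_sub, ev_sub, e15, e5, hB, Matrix.SpecialLinearGroup.coe_pow, sub_self, mul_zero] at this
    exact absurd (fin 5 d hd this.symm) (by norm_num)

/-- No element of PSL_3(4) has order 15. -/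
theorem result {F : Type*} [Field F] [Fintype F] (hF : Fintype.card F = 4) (g : Matrix.ProjectiveSpecialLinearGroup (Fin 3) F) : orderOf g ≠ 15 := by
  have f : F ≃+* F4 := FiniteField.ringEquivOfCardEq (by rw [hF, card_F4])
  rw [← (pslCongr f).orderOf_eq]
  exact main _

end Cfsg.Agent.S0819
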