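import Cfsg.Statements.S0821
import Cfsg.Agent.H56.SpSylow

set_option autoImplicit false
open Cfsg

namespace Cfsg.Agent.S0821

/-- PSp_2m(q) ≇ PΩ_(2m+1)(q) for q odd and m ≥ 3 (they have the same order). -/
theorem result {F : Type*} [Field F] [Fintype F] (hodd : Odd (Fintype.card F)) (m : ℕ) (hm : 3 ≤ m) : IsEmpty (Cfsg.PSp m F ≃* Cfsg.POmega F (Cfsg.quadFormOdd m F)) := by
  refine ⟨fun e => ?_⟩
  have h2 := H58.two_ne_zero_of_odd_card hodd
  obtain ⟨p, hp, hF⟩ : ∃ p, Fact p.Prime ∧ CharP F p :=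
    ⟨ringChar F, ⟨CharP.char_is_prime F _⟩, inferInstance⟩
  let β := (e.trans (H56.pOmegaEquiv (H58.qOdd m F) (H58.coe_qOdd m F))).symm
  obtain ⟨X, Y, Z, hX, hY, hZ, hne, x, hx, y, hy, hx1, hy1, hxy⟩ :=
    H56.pOm_exists_sylCen (H58.qOdd_nondeg m h2) (by simp; omega) p
  refine hne (Subgroup.map_injective (f := β.toMonoidHom) β.injective ?_)
  exact H56.psp_sylCen_eq (by simp; omega) h2 (hX.map_equiv β) (hY.map_equiv β) (hZ.map_equiv β)
    ⟨x, hx, rfl⟩ (by simpa using hx1) ⟨y, hy, rfl⟩ (by simpa using hy1) ⟨x * y, hxy, map_mul _ _ _⟩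

end Cfsg.Agent.S0821
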