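import Cfsg.Statements.S0823
import Cfsg.Agent.Base
import Cfsg.Agent.H55.Transport
import Cfsg.Agent.H55.SL2Link
import Cfsg.Agent.H56.OrthOrd
import Cfsg.Agent.H56.OrthSimple

set_option autoImplicit false
open Cfsg

namespace Cfsg.Agent.S0823

open H55 H56 H58 Pointwise

/-- Representatives of the four singular points. -/
def s : Fin 4 → Unit ⊕ (Fin 1 ⊕ Fin 1) → ZMod 3 :=
  ![Sum.elim 0 (Sum.elim 1 0), Sum.elim 0 (Sum.elim 0 1), Sum.elim 1 (Sum.elim 1 (-1)),
    Sum.elim 1 (Sum.elim (-1) 1)]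

theorem q_eq (v : Unit ⊕ (Fin 1 ⊕ Fin 1) → ZMod 3) :
    qOdd 1 (ZMod 3) v = v (.inl ()) ^ 2 + v (.inr (.inl 0)) * v (.inr (.inr 0)) := by
  simp [qOdd_apply]

theorem sing : ∀ v : Unit ⊕ (Fin 1 ⊕ Fin 1) → ZMod 3,
    v (.inl ()) ^ 2 + v (.inr (.inl 0)) * v (.inr (.inr 0)) = 0 ↔
      v = 0 ∨ ∃ k, v = s k ∨ v = -s k := by
  decide +kernel

theorem s_ne : ∀ i, s i ≠ 0 := by decide +kernel

theorem s_inj : ∀ i k, s i = s k ∨ s i = -s k → i = k := by decide +kernel

theorem main : Nonempty (specialIsometryGroup (ZMod 3) (quadFormOdd 1 (ZMod 3)) ≃*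
    Equiv.Perm (Fin 4)) := by
  have h2 : (2 : ZMod 3) ≠ 0 := by decide
  obtain ⟨φ, hφ⟩ := exists_permHom_of_family (G := O (qOdd 1 (ZMod 3)))
    (fun i => ({s i, -s i} : Set _)) (fun i k h => s_inj i k (h.le (Or.inl rfl))) Set.univ
    Subgroup.closure_univ (fun g _ i => by
      have h1 : qOdd 1 (ZMod 3) (g (s i)) = 0 := by
        rw [g.map_Q, q_eq, sing]; exact Or.inr ⟨i, Or.inl rfl⟩
      rw [q_eq, sing] at h1
      obtain ⟨k, hk⟩ := h1.resolve_left (by simpa using s_ne i)
      refine ⟨k, ?_⟩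
      rw [Set.smul_set_insert, Set.smul_set_singleton, O.smul_def, O.smul_def, map_neg]
      rcases hk with hk | hk
      · rw [hk]
      · rw [hk, neg_neg, Set.pair_comm])
  let e := toO _ (coe_qOdd 1 (ZMod 3))
  have hneg : LinearMap.det (O.negOne (qOdd 1 (ZMod 3))).lin = -1 := by
    have : (O.negOne (qOdd 1 (ZMod 3))).lin = (-1 : ZMod 3) • LinearMap.id :=
      LinearMap.ext fun v => by simp [O.negOne_apply]
    rw [this, LinearMap.det_smul]
    simp
  refine equiv_of_injective_of_card_eq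
    (φ.comp ((e : _ →* _).comp (Subgroup.subtype _))) ?_ ?_
  · rw [injective_iff_map_eq_one]
    intro g hg
    have hg' : φ (e g) = 1 := hg
    rcases eq_one_or_negOne_of_smul (qOdd_nondeg 1 h2) (by simp)
      ⟨s 0, s_ne 0, by rw [q_eq, sing]; exact Or.inr ⟨0, Or.inl rfl⟩⟩ (g := e g) (fun x hx => by
        rw [q_eq, sing] at hx
        have key : ∀ k, ∃ c : ZMod 3, e g (s k) = c • s k := fun k => by
          have := hφ (e g) k
          rw [hg', Equiv.Perm.one_apply] at this
          rcases this.le ⟨s k, Or.inl rfl, rfl⟩ with h | h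
          · exact ⟨1, by rw [one_smul]; exact h⟩
          · exact ⟨-1, by rw [neg_one_smul]; exact h⟩
        rcases hx with rfl | ⟨k, rfl | rfl⟩
        · exact ⟨0, by simp⟩
        · exact key k
        · obtain ⟨c, hc⟩ := key k
          exact ⟨c, by rw [map_neg, hc, smul_neg]⟩) with h | h
    · exact Subtype.ext (e.map_eq_one_iff.1 h)
    · have := (mem_specialIsometryGroup_iff _ (coe_qOdd 1 (ZMod 3))).1 g.2
      rw [show toO _ (coe_qOdd 1 (ZMod 3)) g = _ from h, hneg] at this
      exact absurd this (by decide)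
  · have h1 : Nat.card (isometryGroup (ZMod 3) (quadFormOdd 1 (ZMod 3))) = 48 := by
      rw [Nat.card_congr e.toEquiv]
      simpa [qOdd] using card_O_qOddc h2 1 (one_ne_zero (α := ZMod 3))
    have h3 : (specialIsometryGroup (ZMod 3) (quadFormOdd 1 (ZMod 3))).index = 2 := by
      rw [specialIsometryGroup, Subgroup.index_ker, MonoidHom.range_eq_top.2, Subgroup.card_top,
        Nat.card_units, Nat.card_zmod]
      intro c
      have : c = 1 ∨ c = -1 := by revert c; decide
      rcases this with rfl | rfl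
      · exact ⟨1, map_one _⟩
      · refine ⟨e.symm (O.negOne _), Units.ext ?_⟩
        have := det_toO _ (coe_qOdd 1 (ZMod 3)) (e.symm (O.negOne _))
        rw [show toO _ (coe_qOdd 1 (ZMod 3)) (e.symm (O.negOne _)) = _ from e.apply_symm_apply _,
          hneg] at this
        exact this.symm
    have h4 := (specialIsometryGroup (ZMod 3) (quadFormOdd 1 (ZMod 3))).index_mul_card
    rw [h1, h3] at h4
    rw [Nat.card_perm, Nat.card_eq_fintype_card (α := Fin 4), Fintype.card_fin]
    simp only [Nat.factorial]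
    omega

/-- SO_3(3) ≅ S_4: the determinant-one isometries of the form x_0² + x_1y_1 over the field with 3 elements form a group isomorphic to the symmetric group on 4 letters. -/
theorem result {F : Type*} [Field F] [Fintype F] (hF : Fintype.card F = 3) : Nonempty (↥(Cfsg.specialIsometryGroup F (Cfsg.quadFormOdd 1 F)) ≃* Equiv.Perm (Fin 4)) := by
  obtain ⟨e⟩ := main
  have f : F ≃+* ZMod 3 := FiniteField.ringEquivOfCardEq (by rw [hF, ZMod.card])
  exact ⟨(specialIsometryCongr f (quadFormOdd_comp f 1)).trans e⟩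

end Cfsg.Agent.S0823
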