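import Cfsg.Statements.S0828
import Cfsg.Agent.Base
import Cfsg.Agent.H54.SpCard
import Cfsg.Agent.H54.Count

set_option autoImplicit false
open Cfsg

namespace Cfsg.Agent.S0828

/-- The symplectic generalised quadrangle over a field with q elements: the number of 2-dimensional subspaces of F^4 on which the symplectic form vanishes is (q + 1)(q² + 1), and every non-zero vector lies in exactly q + 1 of them. -/
theorem result {F : Type*} [Field F] [Fintype F] {q : ℕ} (hF : Fintype.card F = q) : Nat.card {W : Submodule F (Fin 2 ⊕ Fin 2 → F) // Module.finrank F W = 2 ∧ ∀ u ∈ W, ∀ v ∈ W, Cfsg.sympForm 2 F u v = 0} = (q + 1) * (q ^ 2 + 1) ∧ ∀ v : Fin 2 ⊕ Fin 2 → F, v ≠ 0 → Nat.card {W : Submodule F (Fin 2 ⊕ Fin 2 → F) // Module.finrank F W = 2 ∧ v ∈ W ∧ ∀ u ∈ W, ∀ w ∈ W, Cfsg.sympForm 2 F u w = 0} = q + 1 := by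
  subst hF
  have hq : 1 < Fintype.card F := Fintype.one_lt_card
  simp only [H54.sympForm_eq]
  have h2 : ∀ v : Fin 2 ⊕ Fin 2 → F, v ≠ 0 → Nat.card {W : Submodule F (Fin 2 ⊕ Fin 2 → F) //
      Module.finrank F W = 2 ∧ v ∈ W ∧ ∀ u ∈ W, ∀ w ∈ W, H54.spB (Fin 2) F u w = 0} =
      Fintype.card F + 1 := by
    intro v hv
    have hle : Submodule.span F {v} ≤ (H54.spB (Fin 2) F).orthogonal (Submodule.span F {v}) := by
      intro x hx y hy
      obtain ⟨a, rfl⟩ := Submodule.mem_span_singleton.1 hx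
      obtain ⟨b, rfl⟩ := Submodule.mem_span_singleton.1 hy
      simp [H54.spB_self]
    have h3 := H54.double_count (A := {W : Submodule F (Fin 2 ⊕ Fin 2 → F) //
      Module.finrank F W = 2 ∧ v ∈ W ∧ ∀ u ∈ W, ∀ w ∈ W, H54.spB (Fin 2) F u w = 0})
      (B := {w // w ∈ (H54.spB (Fin 2) F).orthogonal (Submodule.span F {v}) ∧
        w ∉ Submodule.span F {v}}) (fun W w => w.1 ∈ W.1)
      (Fintype.card F ^ 2 - Fintype.card F) 1 (by
        rintro ⟨W, hW, hvW, hiso⟩
        have h4 := H54.card_submodule_sdiff ((Submodule.span_singleton_le_iff_mem _ _).2 hvW)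
        rw [hW, finrank_span_singleton hv, Nat.card_eq_fintype_card (α := F), pow_one] at h4
        rw [← h4]
        refine Nat.card_congr ⟨fun x => ⟨x.1.1, x.2, x.1.2.2⟩, fun x => ⟨⟨x.1, fun y hy => ?_,
          x.2.2⟩, x.2.1⟩, fun _ => rfl, fun _ => rfl⟩
        exact hiso _ ((Submodule.span_singleton_le_iff_mem _ _).2 hvW hy) _ x.2.1) (by
        rintro ⟨w, hw, hwv⟩
        have h5 : H54.spB (Fin 2) F v w = 0 := hw v (Submodule.mem_span_singleton_self v)
        have h6 : Module.finrank F (Submodule.span F {v} ⊔ Submodule.span F {w} :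
            Submodule F (Fin 2 ⊕ Fin 2 → F)) = 2 := by
          rw [H54.finrank_sup_span_singleton hwv, finrank_span_singleton hv]
        rw [Nat.card_eq_one_iff_exists]
        refine ⟨⟨⟨_, h6, Submodule.mem_sup_left (Submodule.mem_span_singleton_self v), ?_⟩,
          Submodule.mem_sup_right (Submodule.mem_span_singleton_self w)⟩, ?_⟩
        · intro x hx y hy
          obtain ⟨_, ha, _, hb, rfl⟩ := Submodule.mem_sup.1 hx
          obtain ⟨a, rfl⟩ := Submodule.mem_span_singleton.1 ha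
          obtain ⟨b, rfl⟩ := Submodule.mem_span_singleton.1 hb
          obtain ⟨_, hc, _, hd, rfl⟩ := Submodule.mem_sup.1 hy
          obtain ⟨c, rfl⟩ := Submodule.mem_span_singleton.1 hc
          obtain ⟨d, rfl⟩ := Submodule.mem_span_singleton.1 hd
          simp [H54.spB_self, h5, H54.spB_swap w v]
        · rintro ⟨⟨W, hW, hvW, hiso⟩, hwW⟩
          refine Subtype.ext (Subtype.ext (Submodule.eq_of_le_of_finrank_eq (sup_le
            ((Submodule.span_singleton_le_iff_mem _ _).2 hvW)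
            ((Submodule.span_singleton_le_iff_mem _ _).2 hwW)) (h6.trans hW.symm)).symm))
    rw [H54.card_submodule_sdiff hle, LinearMap.BilinForm.finrank_orthogonal H54.spB_nondegenerate,
      finrank_span_singleton hv, H54.finrank_sum_self_fun, Nat.card_eq_fintype_card (α := F),
      Fintype.card_fin] at h3
    obtain ⟨k, hk⟩ := Nat.exists_eq_add_of_lt hq
    rw [hk] at h3 ⊢
    refine Nat.eq_of_mul_eq_mul_right (m := (1 + k + 1) ^ 2 - (1 + k + 1))
      (Nat.sub_pos_of_lt (by nlinarith)) (h3.trans ?_)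
    rw [mul_one, Nat.sub_eq_of_eq_add (c := (k + 3) * ((k + 2) * (k + 1))) (by ring),
      Nat.sub_eq_of_eq_add (c := (k + 2) * (k + 1)) (by ring)]
    ring
  refine ⟨?_, h2⟩
  have h3 := H54.double_count (A := {W : Submodule F (Fin 2 ⊕ Fin 2 → F) //
      Module.finrank F W = 2 ∧ ∀ u ∈ W, ∀ w ∈ W, H54.spB (Fin 2) F u w = 0})
      (B := {v : Fin 2 ⊕ Fin 2 → F // v ∈ (⊤ : Submodule F (Fin 2 ⊕ Fin 2 → F)) ∧
        v ∉ (⊥ : Submodule F (Fin 2 ⊕ Fin 2 → F))}) (fun W w => w.1 ∈ W.1)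
      (Fintype.card F ^ 2 - 1) (Fintype.card F + 1) (by
        rintro ⟨W, hW, hiso⟩
        have h4 := H54.card_submodule_sdiff (bot_le (a := W))
        rw [hW, finrank_bot, Nat.card_eq_fintype_card (α := F), pow_zero] at h4
        rw [← h4]
        exact Nat.card_congr ⟨fun x => ⟨x.1.1, x.2, x.1.2.2⟩, fun x => ⟨⟨x.1, trivial,
          x.2.2⟩, x.2.1⟩, fun _ => rfl, fun _ => rfl⟩) (by
        rintro ⟨v, -, hv⟩
        rw [← h2 v (by simpa using hv)]
        exact Nat.card_congr ⟨fun x => ⟨x.1.1, x.1.2.1, x.2, x.1.2.2⟩,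
          fun x => ⟨⟨x.1, x.2.1, x.2.2.2⟩, x.2.2.1⟩, fun _ => rfl, fun _ => rfl⟩)
  rw [H54.card_submodule_sdiff bot_le, finrank_top, finrank_bot, H54.finrank_sum_self_fun,
    Nat.card_eq_fintype_card (α := F), Fintype.card_fin] at h3
  obtain ⟨k, hk⟩ := Nat.exists_eq_add_of_lt hq
  rw [hk] at h3 ⊢
  refine Nat.eq_of_mul_eq_mul_right (m := (1 + k + 1) ^ 2 - 1)
    (Nat.sub_pos_of_lt (by nlinarith)) (h3.trans ?_)
  rw [Nat.sub_eq_of_eq_add (c := ((k + 2) ^ 2 + 1) * ((k + 3) * (k + 1))) (by ring),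
    Nat.sub_eq_of_eq_add (c := (k + 3) * (k + 1)) (by ring)]
  ring

end Cfsg.Agent.S0828
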