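import Cfsg.Statements.S0829
import Cfsg.Agent.Base
import Cfsg.Agent.H59.Para

set_option autoImplicit false
open Cfsg

namespace Cfsg.Agent.S0829

/-- The unitary quadrangle of PSU_4(q): with |F| = q², the number of 2-dimensional subspaces of F^4 on which the Hermitian form Σ x_i y_i^q vanishes is (q + 1)(q³ + 1). -/
theorem result {F : Type*} [Field F] [Fintype F] {q : ℕ} (hF : Fintype.card F = q ^ 2) : Nat.card {W : Submodule F (Fin 4 → F) // Module.finrank F W = 2 ∧ ∀ u ∈ W, ∀ v ∈ W, Cfsg.hermForm 4 F q u v = 0} = (q + 1) * (q ^ 3 + 1) := by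
  have h := (H59.isHerm_uForm hF 4).card_totally_isotropic hF (k := 2) (by simp)
  have hq := H59.two_le_q hF
  simp only [H59.hermForm_eq hF]
  have e : ∀ W : Submodule F (Fin 4 → F), (∀ u ∈ W, ∀ v ∈ W, H59.uForm hF 4 v u = 0) ↔
    W ≤ H59.perp (H59.uForm hF 4) W := fun W => Iff.rfl
  simp only [e]
  simp only [Module.finrank_fintype_fun_eq_card, Fintype.card_fin, H59.ordGU, Fin.prod_univ_two,
    Finset.prod_range_succ] at h
  norm_num at h
  simp only [← pow_mul] at h
  have h1 : 1 < q ^ 2 := Nat.one_lt_pow (by omega) hq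
  have h2 : 1 < q ^ 4 := Nat.one_lt_pow (by omega) hq
  have h3 : q ^ 2 < q ^ 4 := Nat.pow_lt_pow_right hq (by omega)
  apply Nat.eq_of_mul_eq_mul_right (show 0 < q ^ 4 * ((q ^ 4 - 1) * (q ^ 4 - q ^ 2)) from
    Nat.mul_pos (by omega) (Nat.mul_pos (by omega) (by omega)))
  rw [h]
  zify [h1.le, h2.le, h3.le]
  ring

end Cfsg.Agent.S0829
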