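import Cfsg.Statements.S0831
import Cfsg.Agent.H58.WittIndex

set_option autoImplicit false
open Cfsg

namespace Cfsg.Agent.S0831

/-- The two families of maximal totally singular subspaces of the hyperbolic quadric: for the form Σ x_i y_i on F^(2m), m ≥ 1, and m-dimensional subspaces U, W, X on which it vanishes, the parities of m − dim(U ∩ W), m − dim(W ∩ X) and m − dim(U ∩ X) sum to an even number (so 'even codimension of the intersection' is an equivalence relation), and there exist two such subspaces meeting in codimension 1 (so there are exactly two classes). -/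
theorem result {F : Type*} [Field F] (m : ℕ) (hm : 1 ≤ m) : (∀ U W X : Submodule F (Fin m ⊕ Fin m → F), (Module.finrank F U = m ∧ ∀ w ∈ U, Cfsg.quadFormPlus m F w = 0) → (Module.finrank F W = m ∧ ∀ w ∈ W, Cfsg.quadFormPlus m F w = 0) → (Module.finrank F X = m ∧ ∀ w ∈ X, Cfsg.quadFormPlus m F w = 0) → Even ((m - Module.finrank F ↥(U ⊓ W)) + (m - Module.finrank F ↥(W ⊓ X)) + (m - Module.finrank F ↥(U ⊓ X)))) ∧ ∃ U W : Submodule F (Fin m ⊕ Fin m → F), (Module.finrank F U = m ∧ ∀ w ∈ U, Cfsg.quadFormPlus m F w = 0) ∧ (Module.finrank F W = m ∧ ∀ w ∈ W, Cfsg.quadFormPlus m F w = 0) ∧ Module.finrank F ↥(U ⊓ W) + 1 = m := by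
  rw [← H58.coe_qPlus]
  have hV : Module.finrank F (Fin m ⊕ Fin m → F) = 2 * m := by simp; ring
  constructor
  · rintro U W X ⟨hU, hU'⟩ ⟨hW, hW'⟩ ⟨hX, hX'⟩
    have h := H58.even_parity_three (H58.qPlus_nondeg m F) hV hU hU' hW hW' hX hX'
    have h1 := Submodule.finrank_mono (inf_le_left : U ⊓ W ≤ U)
    have h2 := Submodule.finrank_mono (inf_le_left : W ⊓ X ≤ W)
    have h3 := Submodule.finrank_mono (inf_le_left : U ⊓ X ≤ U)
    rw [Nat.even_iff] at h ⊢
    omega
  · obtain ⟨k, rfl⟩ : ∃ k, m = k + 1 := ⟨m - 1, by omega⟩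
    have h := H58.frame_qPlus F (k + 1)
    set e : Fin (k + 1) → (Fin (k + 1) ⊕ Fin (k + 1) → F) := fun i => Pi.single (Sum.inl i) 1
    set f : Fin (k + 1) → (Fin (k + 1) ⊕ Fin (k + 1) → F) := fun i => Pi.single (Sum.inr i) 1
    let e' : Fin (k + 1) → (Fin (k + 1) ⊕ Fin (k + 1) → F) := fun i => if i = 0 then f i else e i
    let f' : Fin (k + 1) → (Fin (k + 1) ⊕ Fin (k + 1) → F) := fun i => if i = 0 then e i else f i
    have h' : H58.IsHypFrame (H58.qPlus (k + 1) F) e' f' := by
      refine ⟨fun i => ?_, fun i => ?_, fun i j => ?_, fun i j => ?_, fun i j => ?_⟩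
      · by_cases hi : i = 0 <;> simp [e', hi, h.qe, h.qf]
      · by_cases hi : i = 0 <;> simp [f', hi, h.qe, h.qf]
      · by_cases hi : i = 0 <;> by_cases hj : j = 0 <;>
          simp [e', f', hi, hj, h.ee, h.ff, h.ef, h.fe, eq_comm]
      · by_cases hi : i = 0 <;> by_cases hj : j = 0 <;>
          simp [e', hi, hj, h.ee, h.ff, h.ef, h.fe, eq_comm]
      · by_cases hi : i = 0 <;> by_cases hj : j = 0 <;>
          simp [f', hi, hj, h.ee, h.ff, h.ef, h.fe, eq_comm]
    refine ⟨_, _, ⟨h.finrank_span_e, h.singular_span_e⟩, ⟨h'.finrank_span_e, h'.singular_span_e⟩, ?_⟩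
    have hle : Submodule.span F (Set.range (e ∘ Fin.succ)) ≤
        Submodule.span F (Set.range e) ⊓ Submodule.span F (Set.range e') := by
      rw [Submodule.span_le]
      rintro _ ⟨i, rfl⟩
      exact ⟨Submodule.subset_span ⟨_, rfl⟩, Submodule.subset_span ⟨i.succ, by simp [e']⟩⟩
    have h1 := Submodule.finrank_mono hle
    rw [finrank_span_eq_card (h.linearIndependent_e.comp _ (Fin.succ_injective _)),
      Fintype.card_fin] at h1
    have hlt : Submodule.span F (Set.range e) ⊓ Submodule.span F (Set.range e') <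
        Submodule.span F (Set.range e) := by
      refine lt_of_le_of_ne inf_le_left fun heq => ?_
      have h0 : e 0 ∈ Submodule.span F (Set.range e) ⊓ Submodule.span F (Set.range e') := by
        rw [heq]
        exact Submodule.subset_span ⟨_, rfl⟩
      have := H58.polar_eq_zero_of_singular h'.singular_span_e h0.2
        (Submodule.subset_span ⟨0, rfl⟩)
      simp [e', h.ef] at this
    have h2 := Submodule.finrank_lt_finrank_of_lt hlt
    rw [h.finrank_span_e] at h2
    omega

end Cfsg.Agent.S0831
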