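import Cfsg.Statements.S0832
import Cfsg.Agent.H58.WittIndex

set_option autoImplicit false
open Cfsg

namespace Cfsg.Agent.S0832

/-- For the form Σ x_i y_i on F^(2m) over a finite field, m ≥ 1: an (m−1)-dimensional subspace on which the form vanishes is contained in exactly two m-dimensional subspaces on which it vanishes. -/
theorem result {F : Type*} [Field F] [Finite F] (m : ℕ) (hm : 1 ≤ m) (U : Submodule F (Fin m ⊕ Fin m → F)) (hU : Module.finrank F U + 1 = m ∧ ∀ u ∈ U, Cfsg.quadFormPlus m F u = 0) : Nat.card {W : Submodule F (Fin m ⊕ Fin m → F) // Module.finrank F W = m ∧ (∀ w ∈ W, Cfsg.quadFormPlus m F w = 0) ∧ U ≤ W} = 2 := by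
  obtain ⟨hU1, hU2⟩ := hU
  rw [← H58.coe_qPlus] at hU2 ⊢
  set Q := H58.qPlus m F with hQdef
  have hQ : Q.polarBilin.Nondegenerate := H58.qPlus_nondeg m F
  obtain ⟨k, hk⟩ : ∃ k, Module.finrank F U = k := ⟨_, rfl⟩
  obtain ⟨e, f, h, rfl⟩ := H58.exists_frame_of_subspace hQ hU2 hk
  have hP : Module.finrank F (H58.framePerp Q e f) = 2 := by
    have := h.finrank_perp
    simp only [Module.finrank_fintype_fun_eq_card, Fintype.card_sum, Fintype.card_fin] at this
    omega
  have hna : ¬ ∀ v ∈ H58.framePerp Q e f, Q v = 0 → v = 0 := by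
    intro ha
    have := h.finrank_le_of_aniso hQ ha (H58.frame_qPlus F m).singular_span_e
    rw [(H58.frame_qPlus F m).finrank_span_e] at this
    omega
  push Not at hna
  obtain ⟨a, ha, hQa, ha0⟩ := hna
  obtain ⟨⟨b, hb⟩, hQb, hab⟩ := H58.exists_hyp_partner (h.nondeg_perp hQ) (u := ⟨a, ha⟩)
    (fun h0 => ha0 (congrArg Subtype.val h0)) hQa
  rw [H58.polar_restrict] at hab
  replace hQb : Q b = 0 := hQb
  replace hab : QuadraticMap.polar Q a b = 1 := hab
  set U := Submodule.span F (Set.range e) with hUdef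
  have hnot : ∀ x ∈ H58.framePerp Q e f, ∀ y ∈ H58.framePerp Q e f,
      QuadraticMap.polar Q x y = 1 → x ∉ U := fun x _ y hy hxy hxU => by
    rw [H58.IsHypFrame.polar_span_e_perp hxU hy] at hxy
    exact zero_ne_one hxy
  have hba : QuadraticMap.polar Q b a = 1 := by rw [QuadraticMap.polar_comm, hab]
  have hW : ∀ x ∈ H58.framePerp Q e f, Q x = 0 → x ∉ U →
      Module.finrank F ↥(U ⊔ F ∙ x) = m ∧ (∀ w ∈ U ⊔ F ∙ x, Q w = 0) ∧ U ≤ U ⊔ F ∙ x := by
    intro x hx hQx hxU
    refine ⟨?_, H58.singular_sup hU2 ?_ ?_, le_sup_left⟩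
    · rw [Submodule.finrank_sup_span_singleton hxU, hU1]
    · intro w hw
      obtain ⟨c, rfl⟩ := Submodule.mem_span_singleton.mp hw
      rw [H58.Q_smul, hQx, mul_zero]
    · rw [Submodule.span_singleton_le_iff_mem]
      exact fun u hu => H58.IsHypFrame.polar_span_e_perp hu hx
  rw [Nat.card_eq_two_iff]
  refine ⟨⟨_, hW a ha hQa (hnot a ha b hb hab)⟩, ⟨_, hW b hb hQb (hnot b hb a ha hba)⟩, ?_, ?_⟩
  · intro heq
    have heq' : U ⊔ F ∙ a = U ⊔ F ∙ b := congrArg Subtype.val heq
    have h1 : a ∈ U ⊔ F ∙ b := heq' ▸ Submodule.mem_sup_right (Submodule.mem_span_singleton_self a)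
    have h2 : b ∈ U ⊔ F ∙ b := Submodule.mem_sup_right (Submodule.mem_span_singleton_self b)
    have := H58.polar_eq_zero_of_singular (hW b hb hQb (hnot b hb a ha hba)).2.1 h1 h2
    rw [hab] at this
    exact one_ne_zero this
  · rw [Set.eq_univ_iff_forall]
    rintro ⟨W, hW1, hW2, hW3⟩
    have hlt : U < W := lt_of_le_of_ne hW3 (fun h0 => by rw [← h0] at hW1; omega)
    obtain ⟨w, hwW, hwU⟩ := SetLike.exists_of_lt hlt
    obtain ⟨u, hu, p, hp, rfl⟩ := h.exists_of_perp_e (v := w) (fun i =>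
      H58.polar_eq_zero_of_singular hW2 (hW3 (Submodule.subset_span ⟨i, rfl⟩)) hwW)
    have hpW : p ∈ W := by simpa using W.sub_mem hwW (hW3 hu)
    have hp0 : p ≠ 0 := fun h0 => hwU (by simpa [h0] using hu)
    have hli : LinearIndependent F ![(⟨a, ha⟩ : H58.framePerp Q e f), ⟨b, hb⟩] := by
      rw [LinearIndependent.pair_iff]
      intro s t hst
      have h0 : s • a + t • b = 0 := congrArg Subtype.val hst
      have h1 := congrArg (QuadraticMap.polar Q a) h0
      have h2 := congrArg (QuadraticMap.polar Q b) h0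
      simp [QuadraticMap.polar_add_right, QuadraticMap.polar_smul_right, hab, hba, hQa, hQb] at h1 h2
      exact ⟨h2, h1⟩
    have hsp := hli.span_eq_top_of_card_eq_finrank' (by simp [hP])
    have hmem : (⟨p, hp⟩ : H58.framePerp Q e f) ∈ Submodule.span F
      (Set.range ![(⟨a, ha⟩ : H58.framePerp Q e f), ⟨b, hb⟩]) := hsp ▸ Submodule.mem_top
    obtain ⟨c, hc⟩ := (Submodule.mem_span_range_iff_exists_fun F).mp hmem
    have hc' : c 0 • a + c 1 • b = p := by simpa using congrArg Subtype.val hc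
    have hq := hW2 p hpW
    rw [← hc', H58.Q_lin2, hQa, hQb, hab] at hq
    have hq' : c 0 * c 1 = 0 := by simpa using hq
    have key : ∀ x ∈ H58.framePerp Q e f, Q x = 0 → x ∉ U → ∀ t : F, t • x = p → W = U ⊔ F ∙ x := by
      intro x hx hQx hxU t ht
      have ht0 : t ≠ 0 := fun h0 => hp0 (by rw [← ht, h0, zero_smul])
      have hxW : x ∈ W := by
        have := W.smul_mem t⁻¹ hpW
        rwa [← ht, smul_smul, inv_mul_cancel₀ ht0, one_smul] at this
      refine (Submodule.eq_of_le_of_finrank_eq (sup_le hW3 ?_) ?_).symm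
      · rwa [Submodule.span_singleton_le_iff_mem]
      · rw [(hW x hx hQx hxU).1, hW1]
    rcases mul_eq_zero.mp hq' with h0 | h0
    · right
      exact Subtype.ext (key b hb hQb (hnot b hb a ha hba) (c 1) (by simpa [h0] using hc'))
    · left
      exact Subtype.ext (key a ha hQa (hnot a ha b hb hab) (c 0) (by simpa [h0] using hc'))

end Cfsg.Agent.S0832
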