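import Cfsg.Statements.S0834
import Cfsg.Agent.H58.QDisc

set_option autoImplicit false
open Cfsg

namespace Cfsg.Agent.S0834

theorem gramB_tmul {F U W : Type*} [Field F] [AddCommGroup U] [Module F U] [AddCommGroup W]
    [Module F W] (B₁ : LinearMap.BilinForm F U) (B₂ : LinearMap.BilinForm F W) {ι κ : Type*}
    [Fintype ι] [DecidableEq ι] [Fintype κ] [DecidableEq κ] (b : Module.Basis ι F U)
    (c : Module.Basis κ F W) :
    H58.gramB (B₁.tmul B₂) (b.tensorProduct c) =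
      H58.gramB B₁ b ^ Fintype.card κ * H58.gramB B₂ c ^ Fintype.card ι := by
  unfold H58.gramB
  rw [← Matrix.det_kronecker]
  congr 1
  ext ⟨i, j⟩ ⟨k, l⟩
  simp [Module.Basis.tensorProduct_apply, LinearMap.BilinForm.tensorDistrib_tmul, mul_comm]

theorem isSymm_tmul {F U W : Type*} [Field F] [AddCommGroup U] [Module F U] [AddCommGroup W]
    [Module F W] {B₁ : LinearMap.BilinForm F U} {B₂ : LinearMap.BilinForm F W} (h₁ : B₁.IsSymm)
    (h₂ : B₂.IsSymm) : LinearMap.BilinForm.IsSymm (B₁.tmul B₂) := by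
  rw [LinearMap.BilinForm.isSymm_iff] at *
  exact h₁.tmul h₂

/-- Over a finite field with 2 ≠ 0: if B₁ on U (dim 2k, k ≥ 1) and B₂ on W (dim 2l, l ≥ 1) are non-degenerate symmetric forms admitting no totally isotropic subspaces of dimensions k, resp. l (minus type), then B₁ ⊗ B₂ admits a totally isotropic subspace of dimension 2kl (plus type). -/
theorem result {F U W : Type*} [Field F] [Fintype F] [AddCommGroup U] [Module F U] [FiniteDimensional F U] [AddCommGroup W] [Module F W] [FiniteDimensional F W] (h2 : (2 : F) ≠ 0) (B₁ : LinearMap.BilinForm F U) (B₂ : LinearMap.BilinForm F W) (h₁ : B₁.Nondegenerate) (h₂ : B₂.Nondegenerate) (hS₁ : B₁.IsSymm) (hS₂ : B₂.IsSymm) (k l : ℕ) (hk : 1 ≤ k) (hl : 1 ≤ l) (hU : Module.finrank F U = 2 * k) (hW : Module.finrank F W = 2 * l) (hm₁ : ¬ (∃ X : Submodule F (U), Module.finrank F X = k ∧ ∀ x ∈ X, ∀ y ∈ X, (B₁) x y = 0)) (hm₂ : ¬ (∃ X : Submodule F (W), Module.finrank F X = l ∧ ∀ x ∈ X, ∀ y ∈ X,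 (B₂) x y = 0)) : (∃ X : Submodule F (TensorProduct F U W), Module.finrank F X = 2 * k * l ∧ ∀ x ∈ X, ∀ y ∈ X, (B₁.tmul B₂) x y = 0) := by
  have hg := gramB_tmul B₁ B₂ (Module.finBasisOfFinrankEq F U hU) (Module.finBasisOfFinrankEq F W hW)
  have hN : (B₁.tmul B₂).Nondegenerate := H58.nondegenerate_of_gramB _ (by
    rw [hg]
    exact mul_ne_zero (pow_ne_zero _ (H58.gramB_ne_zero h₁ _)) (pow_ne_zero _ (H58.gramB_ne_zero h₂ _)))
  rw [H58.exists_isotropic_iff_isSquare h2 (isSymm_tmul hS₁ hS₂) hN (k := 2 * k * l)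
    (by rw [Module.finrank_tensorProduct, hU, hW]; ring)
    ((Module.finBasisOfFinrankEq F U hU).tensorProduct (Module.finBasisOfFinrankEq F W hW)), hg]
  refine ⟨(-1) ^ (k * l) * (H58.gramB B₁ (Module.finBasisOfFinrankEq F U hU) ^ l *
    H58.gramB B₂ (Module.finBasisOfFinrankEq F W hW) ^ k), ?_⟩
  simp only [Fintype.card_fin]
  ring

end Cfsg.Agent.S0834
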