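import Cfsg.Statements.S0833
import Cfsg.Agent.S0834
import Cfsg.Agent.H54.SpBasis

set_option autoImplicit false
open Cfsg

namespace Cfsg.Agent.S0833

/-- If B₁, B₂ are non-degenerate alternating forms on U (dim 2k) and W (dim 2l), then B₁ ⊗ B₂ on U ⊗ W is symmetric, non-degenerate, and vanishes identically on some subspace of dimension 2kl (half of dim U ⊗ W). -/
theorem result {F U W : Type*} [Field F] [Fintype F] [AddCommGroup U] [Module F U] [FiniteDimensional F U] [AddCommGroup W] [Module F W] [FiniteDimensional F W] (B₁ : LinearMap.BilinForm F U) (B₂ : LinearMap.BilinForm F W) (h₁ : B₁.Nondegenerate) (h₂ : B₂.Nondegenerate) (hA₁ : B₁.IsAlt) (hA₂ : B₂.IsAlt) (k l : ℕ) (hU : Module.finrank F U = 2 * k) (hW : Module.finrank F W = 2 * l) : (B₁.tmul B₂).IsSymm ∧ (B₁.tmul B₂).Nondegenerate ∧ (∃ X : Submodule F (TensorProduct F U W), Module.finrank F X = 2 * k * l ∧ ∀ x ∈ X, ∀ y ∈ X, (B₁.tmul B₂) x y = 0) := by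
  refine ⟨⟨fun x y => ?_⟩, ?_, ?_⟩
  · rw [RingHom.id_apply]
    induction x using TensorProduct.induction_on with
    | zero => simp
    | add a b ha hb => rw [map_add, map_add, LinearMap.add_apply, ha, hb]
    | tmul u w =>
      induction y using TensorProduct.induction_on with
      | zero => simp
      | add a b ha hb => rw [map_add, map_add, LinearMap.add_apply, ha, hb]
      | tmul u' w' =>
        simp only [LinearMap.BilinForm.tensorDistrib_tmul, smul_eq_mul]
        rw [← hA₁.neg_eq u u', ← hA₂.neg_eq w w']
        ring
  · refine H58.nondegenerate_of_gramB ((Module.finBasis F U).tensorProduct (Module.finBasis F W)) ?_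
    rw [S0834.gramB_tmul]
    exact mul_ne_zero (pow_ne_zero _ (H58.gramB_ne_zero h₁ _)) (pow_ne_zero _ (H58.gramB_ne_zero h₂ _))
  · obtain ⟨m, r, b, -, h2, -, h4⟩ := H54.exists_symplectic_basis_radical hA₁
    have hr : IsEmpty (Fin r) := ⟨fun j => b.ne_zero _ (h₁.1 _ (h4 j))⟩
    have hm : m = k := by
      have := Module.finrank_eq_card_basis b
      simp only [Fintype.card_sum, Fintype.card_eq_zero, add_zero, Fintype.card_fin] at this
      have hr0 : r = 0 := by rw [← Fintype.card_fin r]; exact Fintype.card_eq_zero
      omega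
    subst hm
    let c := Module.finBasisOfFinrankEq F W hW
    let v : Fin m × Fin (2 * l) → TensorProduct F U W := fun p =>
      b.tensorProduct c (Sum.inl (Sum.inl p.1), p.2)
    have hv : LinearIndependent F v := (b.tensorProduct c).linearIndependent.comp
      (fun p : Fin m × Fin (2 * l) => (Sum.inl (Sum.inl p.1), p.2)) (by
        rintro ⟨a, b⟩ ⟨a', b'⟩ h
        simpa using h)
    refine ⟨Submodule.span F (Set.range v), ?_, fun x hx y hy => ?_⟩
    · rw [finrank_span_eq_card hv]
      simp
      ring
    · induction hx using Submodule.span_induction with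
      | zero => simp
      | add a b _ _ ha hb => rw [map_add, LinearMap.add_apply, ha, hb, add_zero]
      | smul a x _ hx => rw [map_smul, LinearMap.smul_apply, hx, smul_zero]
      | mem x hx =>
        obtain ⟨p, rfl⟩ := hx
        induction hy using Submodule.span_induction with
        | zero => simp
        | add a b _ _ ha hb => rw [map_add, ha, hb, add_zero]
        | smul a x _ hx => rw [map_smul, hx, smul_zero]
        | mem x hx =>
          obtain ⟨p', rfl⟩ := hx
          simp [v, Module.Basis.tensorProduct_apply, LinearMap.BilinForm.tensorDistrib_tmul, h2]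

end Cfsg.Agent.S0833
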