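import Cfsg.Statements.S0835
import Cfsg.Agent.S0834

set_option autoImplicit false
open Cfsg

namespace Cfsg.Agent.S0835

/-- Over a finite field with 2 ≠ 0: if B₁ on U (dim 2k, k ≥ 1) is non-degenerate symmetric of minus type (no totally isotropic k-subspace) and B₂ on W (dim 2l + 1) is non-degenerate symmetric, then B₁ ⊗ B₂ (dimension 2k(2l+1)) admits no totally isotropic subspace of dimension k(2l+1) (minus type). -/
theorem result {F U W : Type*} [Field F] [Fintype F] [AddCommGroup U] [Module F U] [FiniteDimensional F U] [AddCommGroup W] [Module F W] [FiniteDimensional F W] (h2 : (2 : F) ≠ 0) (B₁ : LinearMap.BilinForm F U) (B₂ : LinearMap.BilinForm F W) (h₁ : B₁.Nondegenerate) (h₂ : B₂.Nondegenerate) (hS₁ : B₁.IsSymm) (hS₂ : B₂.IsSymm) (k l : ℕ) (hk : 1 ≤ k) (hU : Module.finrank F U = 2 * k) (hW : Module.finrank F W = 2 * l + 1) (hm₁ : ¬ (∃ X : Submodule F (U), Module.finrank F X = k ∧ ∀ x ∈ X, ∀ y ∈ X, (B₁) x y = 0)) : ¬ (∃ X : Submodule F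 (TensorProduct F U W), Module.finrank F X = k * (2 * l + 1) ∧ ∀ x ∈ X, ∀ y ∈ X, (B₁.tmul B₂) x y = 0) := by
  have hg := S0834.gramB_tmul B₁ B₂ (Module.finBasisOfFinrankEq F U hU)
    (Module.finBasisOfFinrankEq F W hW)
  have g1 := H58.gramB_ne_zero h₁ (Module.finBasisOfFinrankEq F U hU)
  have g2 := H58.gramB_ne_zero h₂ (Module.finBasisOfFinrankEq F W hW)
  have hN : (B₁.tmul B₂).Nondegenerate := H58.nondegenerate_of_gramB _ (by
    rw [hg]
    exact mul_ne_zero (pow_ne_zero _ g1) (pow_ne_zero _ g2))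
  rw [H58.exists_isotropic_iff_isSquare h2 hS₁ h₁ hU (Module.finBasisOfFinrankEq F U hU)] at hm₁
  rw [H58.exists_isotropic_iff_isSquare h2 (S0834.isSymm_tmul hS₁ hS₂) hN (k := k * (2 * l + 1))
    (by rw [Module.finrank_tensorProduct, hU, hW]; ring)
    ((Module.finBasisOfFinrankEq F U hU).tensorProduct (Module.finBasisOfFinrankEq F W hW)), hg]
  intro h
  apply hm₁
  have ht : ((-1 : F) ^ (k * l) * (H58.gramB B₁ (Module.finBasisOfFinrankEq F U hU) ^ l *
    H58.gramB B₂ (Module.finBasisOfFinrankEq F W hW) ^ k)) ≠ 0 :=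
    mul_ne_zero (pow_ne_zero _ (by simp)) (mul_ne_zero (pow_ne_zero _ g1) (pow_ne_zero _ g2))
  rw [← H58.isSquare_sq_mul ht]
  convert h using 1
  simp only [Fintype.card_fin]
  ring

end Cfsg.Agent.S0835
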