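import Cfsg.Statements.S0837
import Cfsg.Agent.Base
import Cfsg.Agent.H59.Sum

set_option autoImplicit false
open Cfsg

namespace Cfsg.Agent.S0837

/-- If W ≤ F^n (|F| = q²) is a k-dimensional subspace on which the Hermitian form Σ x_i y_i^q is non-degenerate, then the stabiliser of W in GU_n(q) is isomorphic to GU_k(q) × GU_(n−k)(q). -/
theorem result {F : Type*} [Field F] [Fintype F] {q : ℕ} (hF : Fintype.card F = q ^ 2) (n k : ℕ) (hk : k ≤ n) (W : Submodule F (Fin n → F)) (hWk : Module.finrank F W = k) (hW : ∀ u ∈ W, (∀ v ∈ W, Cfsg.hermForm n F q u v = 0) → u = 0) : Nonempty (↥((Cfsg.stabilizing (Cfsg.glToMat (Fin n) F) (W : Set (Fin n → F))).subgroupOf (Cfsg.GU n F q)) ≃* ↥(Cfsg.GU k F q) × ↥(Cfsg.GU (n - k) F q)) := by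
  have h := H59.isHerm_uForm hF n
  have hd : Disjoint W (H59.perp (H59.uForm hF n) W) := by
    rw [Submodule.disjoint_def]
    intro x hx hx'
    exact hW x hx fun v hv => by rw [H59.hermForm_eq hF]; exact hx' v hv
  have h2 : Module.finrank F (H59.perp (H59.uForm hF n) W) = n - k := by
    have := h.finrank_add_finrank_perp W
    simp only [Module.finrank_fintype_fun_eq_card, Fintype.card_fin] at this
    omega
  obtain ⟨e1⟩ := (h.restrict hd).nonempty_isom_equiv_GU hF hWk
  obtain ⟨e2⟩ := (h.restrict (h.disjoint_perp_perp hd)).nonempty_isom_equiv_GU hF h2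
  refine ⟨MulEquiv.trans ?_ ((h.stabEquivProd hd).symm.trans (e1.prodCongr e2))⟩
  refine MulEquiv.trans ?_ (H59.subEquiv (H59.glEquiv (Fin n) F)
    (Cfsg.stabilizing (Cfsg.glToMat (Fin n) F) (W : Set (Fin n → F)) ⊓ Cfsg.GU n F q) _ ?_)
  · rw [← Subgroup.inf_subgroupOf_right]
    exact Subgroup.subgroupOfEquivOfLe inf_le_right
  · intro g
    rw [Subgroup.mem_inf, Subgroup.mem_inf, H59.mem_GU_iff hF, and_comm]
    rfl

end Cfsg.Agent.S0837
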