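import Cfsg.Statements.S0839
import Cfsg.Agent.Base
import Cfsg.Agent.H57.Transv

set_option autoImplicit false
open Cfsg

namespace Cfsg.Agent.S0839

/-- Every transvection t ∈ SL_(n+2)(F) (rank(t − 1) = 1, (t − 1)² = 0) is conjugate in SL_(n+2)(F) to 1 + v·e_0ᵀ for some column vector v with v_0 = 0 (the group A of matrices that are the identity except in the first column below the diagonal); the dimension is written n + 2 ≥ 2. -/
theorem result {F : Type*} [Field F] (n : ℕ) (t : Matrix.SpecialLinearGroup (Fin (n + 2)) F) (ht : Cfsg.IsTransvection (t : Matrix (Fin (n + 2)) (Fin (n + 2)) F)) : ∃ (g : Matrix.SpecialLinearGroup (Fin (n + 2)) F) (v : Fin (n + 2) → F), v 0 = 0 ∧ ((g⁻¹ * t * g : Matrix.SpecialLinearGroup (Fin (n + 2)) F) : Matrix (Fin (n + 2)) (Fin (n + 2)) F) = 1 + Matrix.vecMulVec v (Pi.single 0 1) := by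
  obtain ⟨v, φ, hv, hφ, h, ht⟩ := H57.isTransvection_iff.1 ht
  obtain ⟨g, c, hc, hg⟩ := H57.exists_tv_eq_conj_transvection hv hφ h
    (i := (1 : Fin (n + 2))) (j := 0) (by simp)
  have : t = H57.tv v φ h := Subtype.ext ht
  refine ⟨g, Pi.single 1 c, by simp, ?_⟩
  rw [this, hg]
  have : g⁻¹ * (g * Matrix.SpecialLinearGroup.transvection (i := (1 : Fin (n + 2))) (j := 0) (by simp) c * g⁻¹) * g =
    Matrix.SpecialLinearGroup.transvection (i := (1 : Fin (n + 2))) (j := 0) (by simp) c := by group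
  rw [this, H57.transvection_eq_tv, H57.tv_coe]

end Cfsg.Agent.S0839
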