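import Cfsg.Statements.S0842
import Cfsg.Agent.H31.QuatLocal

set_option autoImplicit false
open Cfsg

namespace Cfsg.Agent.S0842

/-- Suppose a Sylow 2-subgroup S of the finite group G is generalized quaternion of order at least 16, and let D be the commutator subgroup of S, C its centralizer and N its normalizer in G. Then there is a subgroup K of odd order, contained in C and normalized by N, with K ⊔ S = N and K ⊔ (S ⊓ C) = C, and C has index 2 in N. -/
theorem result {G : Type*} [Group G] [Finite G] (S : Sylow 2 G) (n : ℕ) (e : (S : Subgroup G) ≃* QuaternionGroup (2 ^ (n + 2))) (D : Subgroup G) (hD : D = ⁅(S : Subgroup G), (S : Subgroup G)⁆) : ∃ K : Subgroup G, Odd (Nat.card K) ∧ K ≤ Subgroup.centralizer (D : Set G) ∧ Subgroup.normalizer (D : Set G) ≤ Subgroup.normalizer (K : Set G) ∧ K ⊔ (S : Subgroup G) = Subgroup.normalizer (D : Set G) ∧ K ⊔ ((S : Subgroup G) ⊓ Subgroup.centralizer (D : Set G)) = Subgroup.centralizer (D : Set G) ∧ ((Subgroup.centralizer (D : Set G)).subgroupOf (Subgroup.normalizer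 (D : Set G))).index = 2 := by
  obtain ⟨x, h⟩ := H31.exists_qdata (S : Subgroup G) (by positivity) e
  have hS := S.not_dvd_index
  rw [h.commutator_eq] at hD
  subst hD
  have hC := h.hasNPC_C hS
  have hKX : H31.oddPart 2 (Subgroup.centralizer (Subgroup.zpowers (x ^ 2) : Set G)) ⊔
      Subgroup.zpowers x = Subgroup.centralizer (Subgroup.zpowers (x ^ 2) : Set G) := by
    refine le_antisymm (sup_le (H31.oddPart_le _) (H31.QData.X_le_C x)) fun g hg => ?_
    obtain ⟨k, hk, s, hs, rfl⟩ := H31.exists_oddPart_mul (h.not_dvd_index_X hS) hg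
    exact Subgroup.mul_mem_sup hk hs
  refine ⟨H31.oddPart 2 (Subgroup.centralizer (Subgroup.zpowers (x ^ 2) : Set G)), ?_,
    H31.oddPart_le _, ?_, ?_, ?_, h.index_C hS⟩
  · exact Nat.odd_iff.2 (Nat.two_dvd_ne_zero.1 (H31.not_dvd_card_oddPart hC))
  · intro g hg
    exact Subgroup.mem_normalizer_fintype fun k hk => H31.conj_mem_oddPart hC
      (fun c hc => H31.conj_mem_centralizer_of_mem_normalizer hg hc) hk
  · refine le_antisymm (sup_le ((H31.oddPart_le _).trans (Subgroup.centralizer_le_normalizer _))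
      h.S_le_N) fun g hg => ?_
    obtain ⟨c, hc, s, hs, rfl⟩ := h.exists_C_mul_S hS hg
    rw [← hKX] at hc
    exact Subgroup.mul_mem _ (sup_le_sup_left h.zpowers_le _ hc) (Subgroup.mem_sup_right hs)
  · rw [h.S_inf_C, hKX]

end Cfsg.Agent.S0842
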