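import Cfsg.Statements.S0844
import Cfsg.Agent.H31.BS16

set_option autoImplicit false
open Cfsg

namespace Cfsg.Agent.S0844

/-- Suppose a Sylow 2-subgroup S of the finite group G is generalized quaternion of order at least 16. Then G has two non-principal irreducible characters χ₁ and χ₂ with χ₁ 1 = χ₂ 1 + 1 such that χ₁ g - χ₂ g = 1 for every element g whose order is not divisible by 4. -/
theorem result {G : Type*} [Group G] [Fintype G] (S : Sylow 2 G) (n : ℕ) (e : (S : Subgroup G) ≃* QuaternionGroup (2 ^ (n + 2))) : ∃ χ₁ χ₂ : G → ℂ, Cfsg.IsIrrCharacter G χ₁ ∧ Cfsg.IsIrrCharacter G χ₂ ∧ χ₁ ≠ (fun _ => 1) ∧ χ₂ ≠ (fun _ => 1) ∧ χ₁ 1 = χ₂ 1 + 1 ∧ ∀ g : G, ¬ 4 ∣ orderOf g → χ₁ g - χ₂ g = 1 := by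
  obtain ⟨x, h⟩ := H31.exists_qdata (S : Subgroup G) (by positivity) e
  obtain ⟨χ₁, χ₂, h₁, h₂, h₃, h₄, hv⟩ := h.exists_pair S.not_dvd_index
  have h4 : 4 ∣ 2 ^ (n + 2) := ⟨2 ^ n, by ring⟩
  refine ⟨χ₁, χ₂, h₁, h₂, h₃, h₄, ?_, fun g hg => hv g fun hd => hg (h4.trans hd)⟩
  have := hv 1 fun hd => by
    have := h4.trans hd; simp at this
  linear_combination this

end Cfsg.Agent.S0844
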