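import Cfsg.Statements.S0846
import Cfsg.Agent.H31.BS16b

set_option autoImplicit false
open Cfsg

namespace Cfsg.Agent.S0846

/-- Suppose a Sylow 2-subgroup S of the finite group G is generalized quaternion of order at least 16. Then every Sylow 2-subgroup of the subgroup generated by the involutions of G is cyclic. -/
theorem result {G : Type*} [Group G] [Finite G] (S : Sylow 2 G) (n : ℕ) (e : (S : Subgroup G) ≃* QuaternionGroup (2 ^ (n + 2))) (Q : Sylow 2 ↥(Subgroup.closure {g : G | orderOf g = 2})) : IsCyclic Q := by
  obtain ⟨x, h⟩ := H31.exists_qdata (S : Subgroup G) (by positivity) e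
  exact h.isCyclic_sylow_invClosure S.not_dvd_index Q

end Cfsg.Agent.S0846
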