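import Cfsg.Statements.S0851
import Cfsg.Agent.H31.TIFNCoh

set_option autoImplicit false
open Cfsg

namespace Cfsg.Agent.S0851

open H28

/-- Let K be a subgroup of the finite group G that meets each conjugate by an element outside its normalizer N trivially, is properly contained in N, and contains the centralizer of each of its non-identity elements (a T.I. subgroup with Frobenius normalizer). Suppose K is abelian, let e be the index of K in N, and call an irreducible character of N relevant when it takes at some element of K a value different from its degree. Then either there is exactly one relevant character and K is an elementary abelian p-group of order e + 1 for some prime p, or there are a sign ε and an injective map f from the relevant characters to the irreducible characters of G such that inducing χ - ξ to G gives ε (f χ - f ξ) for all relevant χ and ξ. -/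
theorem result {G : Type*} [Group G] [Fintype G] (K : Subgroup G) (hTI : ∀ g : G, g ∉ Subgroup.normalizer (K : Set G) → ∀ k ∈ K, g * k * g⁻¹ ∈ K → k = 1) (hlt : K < Subgroup.normalizer (K : Set G)) (hC : ∀ k ∈ K, k ≠ 1 → Subgroup.centralizer ({k} : Set G) ≤ K) (hab : ∀ a ∈ K, ∀ b ∈ K, a * b = b * a) : (Nat.card {χ : Cfsg.IrrCharacter (Subgroup.normalizer (K : Set G)) // ∃ k : Subgroup.normalizer (K : Set G), (k : G) ∈ K ∧ (χ : ↥(Subgroup.normalizer (K : Set G)) → ℂ) k ≠ (χ : ↥(Subgroup.normalizer (K : Set G)) → ℂ) 1} = 1 ∧ ∃ p : ℕ, p.Prime ∧ Cfsg.IsElementaryAbelian p K ∧ Nat.card K = (K.subgroupOf (Subgroup.normalizer (K : Set G))).index + 1) ∨ ∃ (ε : ℂ) (f : {χ : Cfsg.IrrCharacter (Subgroup.normalizer (K : Set G)) // ∃ k : Subgroup.normalizer (K : Set G), (k : G) ∈ K ∧ (χ : ↥(Subgroup.normalizer (K : Set G)) → ℂ) k ≠ (χ : ↥(Subgroup.normalizer (K : Set G)) → ℂ) 1} → Cfsg.IrrCharacter G), (ε = 1 ∨ ε = -1) ∧ Function.Injective f ∧ ∀ χ ξ, Cfsg.indFun (Subgroup.normalizer (K : Set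 G)) ((χ.1 : ↥(Subgroup.normalizer (K : Set G)) → ℂ) - (ξ.1 : ↥(Subgroup.normalizer (K : Set G)) → ℂ)) = ε • ((f χ : G → ℂ) - (f ξ : G → ℂ)) := by
  classical
  right
  have hn := H31.normal_subgroupOf_normalizer K
  have hF := H31.frob_subgroupOf K hC (Subgroup.normalizer (K : Set G))
  rcases isEmpty_or_nonempty {χ : Cfsg.IrrCharacter (Subgroup.normalizer (K : Set G)) // ∃ k : Subgroup.normalizer (K : Set G), (k : G) ∈ K ∧ (χ : ↥(Subgroup.normalizer (K : Set G)) → ℂ) k ≠ (χ : ↥(Subgroup.normalizer (K : Set G)) → ℂ) 1} with he | ⟨⟨i₀⟩⟩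
  · exact ⟨1, fun χ => he.elim χ, Or.inl rfl, fun χ => he.elim χ, fun χ => he.elim χ⟩
  have hk : ∀ χ : {χ : Cfsg.IrrCharacter (Subgroup.normalizer (K : Set G)) // ∃ k : Subgroup.normalizer (K : Set G), (k : G) ∈ K ∧ (χ : ↥(Subgroup.normalizer (K : Set G)) → ℂ) k ≠ (χ : ↥(Subgroup.normalizer (K : Set G)) → ℂ) 1},
      ¬ K.subgroupOf (Subgroup.normalizer (K : Set G)) ≤ charKer χ.1.1 := fun χ =>
    (H31.not_le_charKer_iff (K := K.subgroupOf (Subgroup.normalizer (K : Set G)))
      χ.1.2.isCharacter).2 χ.2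
  have hab' : ∀ a b : K.subgroupOf (Subgroup.normalizer (K : Set G)), a * b = b * a :=
    fun a b => Subtype.ext (Subtype.ext (hab _ a.2 _ b.2))
  have hdeg := fun χ h => H31.degree_eq_index_of_frob_of_comm hF hab' h (hk χ)
  have hvan := fun χ (x : Subgroup.normalizer (K : Set G)) (hx : (x : G) ∉ (K : Set G)) h =>
    H31.eq_zero_of_frob hF h (hk χ) (g := x) hx
  obtain ⟨ε, hε, μ, hμ, hμi, h⟩ := H31.exceptional_of_isometry
    (Subgroup.normalizer (K : Set G)) i₀ (fun χ => χ.1.1) (fun χ => χ.1.2)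
    (fun a b e => Subtype.ext (Subtype.ext e))
    (fun i => (hdeg i i.1.2).trans (hdeg i₀ i₀.1.2).symm)
    (fun i j => H31.classInner_indFun_of_ti _ (K : Set G) hTI
      (j.1.2.isClassFunction.sub i₀.1.2.isClassFunction)
      (fun x hx => by rw [Pi.sub_apply, hvan i x hx i.1.2, hvan i₀ x hx i₀.1.2, sub_zero])
      (fun x hx => by rw [Pi.sub_apply, hvan j x hx j.1.2, hvan i₀ x hx i₀.1.2, sub_zero])
      (by rw [Pi.sub_apply, hdeg i i.1.2, hdeg i₀ i₀.1.2, sub_self]))
  exact ⟨ε, fun χ => ⟨μ χ, hμ χ⟩, hε, fun a b e => hμi (congrArg Subtype.val e), h⟩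

end Cfsg.Agent.S0851
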