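import Cfsg.Statements.S0855
import Cfsg.Agent.Base
import Cfsg.Agent.H28.CharKer
import Cfsg.Agent.H28.GenChar
import Cfsg.Agent.H32.Clifford
import Cfsg.Agent.H29.Ito

set_option autoImplicit false
open Cfsg

namespace Cfsg.Agent.S0855

open H28

universe u in
theorem aux (p : ℕ) (hp : p.Prime) (n : ℕ) : ∀ (G : Type u) [Group G] [Finite G], Nat.card G = n →
    (∀ χ : G → ℂ, IsIrrCharacter G χ → ∃ k : ℕ, χ 1 = (p : ℂ) ^ k) →
    ∃ A : Subgroup G, A.Normal ∧ (∀ a ∈ A, ∀ b ∈ A, a * b = b * a) ∧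
      Nat.Coprime (Nat.card A) p ∧ ∃ k : ℕ, A.index = p ^ k := by
  induction n using Nat.strong_induction_on with
  | _ n ih =>
  intro G _ _ hn h
  classical
  have := Fact.mk hp
  by_cases hpG : p ∣ Nat.card G
  swap
  · refine ⟨⊤, inferInstance, fun a _ b _ => ?_, ?_, 0, by simp⟩
    · refine comm_iff_forall_irr_degree_one.mpr (fun χ => ?_) a b
      obtain ⟨k, hk⟩ := h χ χ.2
      obtain ⟨χ, m, ρ, hρ, rfl⟩ := χ
      have h1 := H29.finrank_dvd_card ρ
      simp only [ρ.char_one] at hk ⊢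
      have h2 : Module.finrank ℂ (Fin m → ℂ) = p ^ k := by exact_mod_cast hk
      rcases Nat.eq_zero_or_pos k with rfl | hk0
      · simpa using hk
      · exact absurd ((dvd_pow_self p hk0.ne').trans (h2 ▸ h1)) hpG
    · rw [Subgroup.card_top]
      exact ((Nat.Prime.coprime_iff_not_dvd hp).mpr hpG).symm
  have hdvd : p ∣ (commutator G).index := by
    have h1 := sum_charDegree_sq (G := G)
    rw [← Finset.sum_filter_add_sum_filter_not _ (fun χ : IrrCharacter G => (χ : G → ℂ) 1 = 1),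
      Finset.sum_congr rfl (g := fun _ => 1) (fun χ hχ => by
        rw [charDegree_eq (n := 1) (by simpa using (Finset.mem_filter.mp hχ).2), one_pow]),
      Finset.sum_const, ← Fintype.card_subtype, ← Nat.card_eq_fintype_card, card_linear_irr,
      smul_eq_mul, mul_one] at h1
    rw [← h1] at hpG
    refine (Nat.dvd_add_left (Finset.dvd_sum fun χ hχ => ?_)).mp hpG
    obtain ⟨k, hk⟩ := h χ χ.2
    rw [charDegree_eq (n := p ^ k) (by simpa using hk)]
    rcases Nat.eq_zero_or_pos k with rfl | hk0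
    · exact absurd (by simpa using hk) (Finset.mem_filter.mp hχ).2
    · exact (dvd_pow_self p hk0.ne').trans (dvd_pow_self _ two_ne_zero)
  rw [← card_hom_units] at hdvd
  have : Finite (G →* ℂˣ) := Nat.finite_of_card_ne_zero (by
    rw [card_hom_units]; exact Subgroup.index_ne_zero_of_finite)
  obtain ⟨lam, hlam⟩ := exists_prime_orderOf_dvd_card' p hdvd
  have hK : lam.ker ≠ ⊤ := by
    intro h
    have : lam = 1 := MonoidHom.ext fun g => MonoidHom.mem_ker.mp (h ▸ Subgroup.mem_top g)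
    rw [this, orderOf_one] at hlam
    exact hp.one_lt.ne hlam
  have hr : IsPGroup p lam.range := by
    rintro ⟨_, g, rfl⟩
    refine ⟨1, Subtype.ext ?_⟩
    have := DFunLike.congr_fun (pow_orderOf_eq_one lam) g
    rw [hlam] at this
    simpa using this
  have : Finite lam.range := Finite.of_surjective _ lam.rangeRestrict_surjective
  obtain ⟨j, hj⟩ := hr.exists_card_eq
  rw [← Subgroup.index_ker] at hj
  set K := lam.ker
  have hlt : Nat.card K < n := by
    have h1 := K.card_mul_index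
    have h2 := Subgroup.one_lt_index_of_ne_top hK
    have h3 : 0 < Nat.card K := Nat.card_pos
    nlinarith
  obtain ⟨A, hA, hAc, hAp, k, hk⟩ := ih _ hlt K rfl (fun θ hθ => by
    have := Fintype.ofFinite G
    obtain ⟨χ, hχ, hc⟩ := H32.exists_irr_over hθ
    have h1 := H32.clifford_degree hχ hθ hc
    obtain ⟨e, he⟩ := (hχ.isCharacter.restrict K).classInner_nat hθ.isCharacter
    obtain ⟨d, hd⟩ := hθ.isCharacter.exists_degree
    obtain ⟨k, hk⟩ := h χ hχ
    rw [he, hd, hk] at h1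
    have h2 : p ^ k = e * (H32.inertia θ).index * d := by exact_mod_cast h1
    obtain ⟨i, -, hi⟩ := (Nat.dvd_prime_pow hp).mp (Dvd.intro_left _ h2.symm)
    exact ⟨i, by rw [hd, hi, Nat.cast_pow]⟩)
  refine ⟨A.map K.subtype, ⟨?_⟩, ?_, ?_, k + j, ?_⟩
  · rintro _ ⟨a, ha, rfl⟩ g
    have hmem : g * a * g⁻¹ ∈ K := (inferInstance : K.Normal).conj_mem _ a.2 g
    refine ⟨⟨_, hmem⟩, ?_, rfl⟩
    have h1 : orderOf (⟨_, hmem⟩ : K) ∣ Nat.card A := by
      rw [← Subgroup.orderOf_coe]
      have := orderOf_injective (MulAut.conj g).toMonoidHom (MulAut.conj g).injective (a : G)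
      simp only [MulEquiv.coe_toMonoidHom, MulAut.conj_apply] at this
      rw [this, Subgroup.orderOf_coe]
      exact A.orderOf_dvd_natCard ha
    have h2 : orderOf (QuotientGroup.mk' A ⟨_, hmem⟩) ∣ Nat.card A :=
      (orderOf_map_dvd _ _).trans h1
    have h3 : orderOf (QuotientGroup.mk' A ⟨_, hmem⟩) ∣ p ^ k := hk ▸ orderOf_dvd_natCard _
    have h4 := Nat.eq_one_of_dvd_coprimes (hAp.pow_right k) h2 h3
    rw [orderOf_eq_one_iff] at h4
    exact (QuotientGroup.eq_one_iff _).mp h4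
  · rintro _ ⟨a, ha, rfl⟩ _ ⟨b, hb, rfl⟩
    exact congrArg Subtype.val (hAc a ha b hb)
  · rwa [Subgroup.card_map_of_injective K.subtype_injective]
  · rw [Subgroup.index_map_subtype, hk, hj, pow_add]

/-- For a finite group G and a prime p: every irreducible character of G has degree a power of p if and only if G has an abelian normal subgroup whose order is prime to p and whose index is a power of p. -/
theorem result {G : Type*} [Group G] [Finite G] (p : ℕ) (hp : p.Prime) : (∀ χ : Cfsg.IrrCharacter G, ∃ k : ℕ, (χ : G → ℂ) 1 = (p : ℂ) ^ k) ↔ ∃ A : Subgroup G, A.Normal ∧ (∀ a ∈ A, ∀ b ∈ A, a * b = b * a) ∧ Nat.Coprime (Nat.card A) p ∧ ∃ k : ℕ, A.index = p ^ k := by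
  constructor
  · intro h
    exact aux p hp _ G rfl fun χ hχ => h ⟨χ, hχ⟩
  · rintro ⟨A, hA, hAc, -, k, hk⟩ ⟨χ, m, ρ, hρ, rfl⟩
    have h1 := H29.finrank_dvd_index_of_comm_normal ρ A hAc
    obtain ⟨i, -, hi⟩ := (Nat.dvd_prime_pow hp).mp (hk ▸ h1)
    exact ⟨i, by simp only [ρ.char_one, hi, Nat.cast_pow]⟩

end Cfsg.Agent.S0855
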