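import Cfsg.Statements.S0858
import Cfsg.Agent.Base
import Cfsg.Agent.H32.RelM

set_option autoImplicit false
open Cfsg

namespace Cfsg.Agent.S0858

open H28 H33 H32

/-- Let N be a normal subgroup of the finite group G with G / N solvable, and suppose that for every subgroup H containing N and all subgroups L < K between N and H that are normal in H with no subgroup normal in H strictly between them, the index of L in K is not a perfect square. Then every irreducible character χ of G is induced from an irreducible character ψ of some subgroup H containing N such that the restriction of ψ to N is irreducible. -/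
theorem result {G : Type*} [Group G] [Fintype G] (N : Subgroup G) [N.Normal] (hsolv : Group.IsSolvable (G ⧸ N)) (hchief : ∀ (H K L : Subgroup G), N ≤ L → L < K → K ≤ H → (∀ h ∈ H, ∀ k ∈ K, h * k * h⁻¹ ∈ K) → (∀ h ∈ H, ∀ l ∈ L, h * l * h⁻¹ ∈ L) → (∀ M : Subgroup G, L ≤ M → M ≤ K → (∀ h ∈ H, ∀ m ∈ M, h * m * h⁻¹ ∈ M) → M = L ∨ M = K) → ¬ IsSquare (L.relIndex K)) (χ : G → ℂ) (hχ : Cfsg.IsIrrCharacter G χ) : ∃ (H : Subgroup G) (hNH : N ≤ H) (ψ : H → ℂ), Cfsg.IsIrrCharacter H ψ ∧ Cfsg.indFun H ψ = χ ∧ Cfsg.IsIrrCharacter N (fun n : N => ψ ⟨(n : G), hNH n.2⟩) := by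
  obtain ⟨H, hNH, ψ, hψ, h1, h2⟩ := exists_relative_primitive N hχ
  have : Fintype H := Fintype.ofFinite H
  refine ⟨H, hNH, ψ, hψ, h1, isIrrCharacter_of_subgroupOf hNH (φ := fun x => ψ x)
    (res_irr_of_relative_primitive (isSolvable_quotient_subgroupOf H hsolv) ?_ hψ (h2 ·))⟩
  intro K L hK hL hNL hLK hc
  rw [← Subgroup.relIndex_map_map_of_injective _ _ H.subtype_injective]
  have hn : ∀ K : Subgroup H, K.Normal → ∀ h ∈ H, ∀ k ∈ K.map H.subtype,
      h * k * h⁻¹ ∈ K.map H.subtype := by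
    rintro K hK h hh _ ⟨k, hk, rfl⟩
    exact ⟨_, hK.conj_mem k hk ⟨h, hh⟩, rfl⟩
  refine hchief H _ _ (fun n hn => ⟨⟨n, hNH hn⟩, hNL hn, rfl⟩)
    ((Subgroup.map_lt_map_iff_of_injective H.subtype_injective).2 hLK)
    (Subgroup.map_subtype_le _) (hn K hK) (hn L hL) fun M h3 h4 h5 => ?_
  have hMH : M ≤ H := h4.trans (Subgroup.map_subtype_le _)
  rw [← Subgroup.map_subgroupOf_eq_of_le hMH]
  refine (hc (M.subgroupOf H) ⟨fun m hm h => h5 h h.2 m hm⟩
    (Subgroup.map_le_iff_le_comap.1 h3) fun m hm => ?_).imp (congrArg _) (congrArg _)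
  obtain ⟨k, hk, e⟩ := h4 hm
  rwa [← Subtype.ext e]

end Cfsg.Agent.S0858
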