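import Cfsg.Statements.S0859
import Cfsg.Agent.Base
import Cfsg.Agent.H32.RelM

set_option autoImplicit false
open Cfsg

namespace Cfsg.Agent.S0859

open H28 H33 H32

/-- Let G be a finite solvable group and N a normal subgroup such that for every prime p every Sylow p-subgroup of N is abelian. Suppose every irreducible character of G is induced from an irreducible character of some subgroup containing N whose restriction to N is irreducible. Then every irreducible character of G is induced from a character of degree 1 of some subgroup. -/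
theorem result {G : Type*} [Group G] [Fintype G] [Group.IsSolvable G] (N : Subgroup G) [N.Normal] (hab : ∀ (p : ℕ) [Fact p.Prime] (P : Sylow p N), ∀ a ∈ P, ∀ b ∈ P, a * b = b * a) (hrel : ∀ χ : G → ℂ, Cfsg.IsIrrCharacter G χ → ∃ (H : Subgroup G) (hNH : N ≤ H) (ψ : H → ℂ), Cfsg.IsIrrCharacter H ψ ∧ Cfsg.indFun H ψ = χ ∧ Cfsg.IsIrrCharacter N (fun n : N => ψ ⟨(n : G), hNH n.2⟩)) (χ : G → ℂ) (hχ : Cfsg.IsIrrCharacter G χ) : ∃ (U : Subgroup G) (lam : U → ℂ), Cfsg.IsCharacter U lam ∧ lam 1 = 1 ∧ Cfsg.indFun U lam = χ := by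
  obtain ⟨H, hNH, ψ, hψ, h1, h2⟩ := hrel χ hχ
  have : Fintype H := Fintype.ofFinite H
  obtain ⟨U, -, ϑ, hϑ, h3, h4⟩ := exists_relative_primitive ⊥ hψ
  have : Fintype U := Fintype.ofFinite U
  have h5 : IsIrrCharacter (N.subgroupOf H) fun x : N.subgroupOf H => ψ x :=
    isIrrCharacter_subgroupOf hNH h2
  have h6 : N.subgroupOf H ⊔ U = ⊤ := by
    have : Fintype (N.subgroupOf H ⊔ U : Subgroup H) := Fintype.ofFinite _
    have e := indFun_subgroupOf U (N.subgroupOf H ⊔ U) le_sup_right ϑ
    refine eq_top_of_res_indFun_irr (isCharacter_indFun _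
      (isIrrCharacter_subgroupOf le_sup_right hϑ).isCharacter) ?_
    rw [e, h3]
    exact (hψ.isCharacter.restrict _).irr_of_comp (Subgroup.inclusion le_sup_left) h5
  have : Fintype (N.subgroupOf H) := Fintype.ofFinite _
  have h7 := res_indFun_of_mul_eq_top (exists_mul_of_sup_eq_top h6) hϑ.isClassFunction
  rw [h3] at h7
  rw [h7] at h5
  have h8 := isIrrCharacter_of_indFun
    (hϑ.isCharacter.comp (((N.subgroupOf H).subtype.comp (Subgroup.subtype _)).codRestrict U
      fun x : U.subgroupOf (N.subgroupOf H) => x.2)) h5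
  have h9 : IsIrrCharacter ((N.subgroupOf H).subgroupOf U)
      fun x : (N.subgroupOf H).subgroupOf U => ϑ x :=
    (hϑ.isCharacter.restrict _).irr_of_comp
      ((((N.subgroupOf H).subtype.comp (Subgroup.subtype _)).codRestrict U
        fun x : U.subgroupOf (N.subgroupOf H) => x.2).codRestrict _ fun x => x.1.2) h8
  have h10 : ϑ 1 = 1 := by
    refine degree_eq_one_of_le_charCenter hϑ.isCharacter (le_charCenter_of_sylow_abelian
      hϑ.isCharacter (homogeneous_of_primitive hϑ fun T η => h4 T η (by simp)) ?_) h9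
    intro p P hp hP hPp a ha b hb
    have := Fact.mk hp
    let j : P →* N := ((H.subtype.comp U.subtype).comp P.subtype).codRestrict N fun x => hP x.2
    obtain ⟨Q, hQ⟩ := (hPp.of_surjective j.rangeRestrict j.rangeRestrict_surjective).exists_le_sylow
    have h20 := hab p Q _ (hQ ⟨⟨a, ha⟩, rfl⟩) _ (hQ ⟨⟨b, hb⟩, rfl⟩)
    have h21 : ((j ⟨a, ha⟩ * j ⟨b, hb⟩ : N) : G) = ((j ⟨b, hb⟩ * j ⟨a, ha⟩ : N) : G) :=
      congrArg Subtype.val h20
    exact Subtype.ext (Subtype.ext h21)
  obtain ⟨η, h11, h12, h13⟩ := exists_irr_map_subtype (G := G) hϑ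
  exact ⟨_, η, h11.isCharacter, h12.trans h10, by rw [h13, h3, h1]⟩

end Cfsg.Agent.S0859
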