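import Cfsg.Statements.S0860
import Cfsg.Agent.H30.Counting

set_option autoImplicit false
open Cfsg

namespace Cfsg.Agent.S0860

/-- Let a group A act on the set of irreducible characters and on the set of conjugacy classes of a finite group G in such a way that (a • χ) evaluated on the class a • C equals χ evaluated on C, for all a, χ and C. Then every element of A fixes exactly as many irreducible characters as it fixes conjugacy classes. -/
theorem result {G : Type*} [Group G] [Finite G] {A : Type*} [Group A] [MulAction A (Cfsg.IrrCharacter G)] [MulAction A (ConjClasses G)] (hcompat : ∀ (a : A) (χ : Cfsg.IrrCharacter G) (g g' : G), ConjClasses.mk g' = a • ConjClasses.mk g → ((a • χ : Cfsg.IrrCharacter G) : G → ℂ) g' = (χ : G → ℂ) g) (a : A) : Nat.card {χ : Cfsg.IrrCharacter G // a • χ = χ} = Nat.card {C : ConjClasses G // a • C = C} := by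
  choose r hr using ConjClasses.mk_surjective (α := G)
  let f : G → G := fun g => r (a⁻¹ • ConjClasses.mk g)
  have key : ∀ χ : Cfsg.IrrCharacter G,
      (fun g => χ.1 (f g)) = ((a • χ : Cfsg.IrrCharacter G) : G → ℂ) := by
    intro χ
    funext g
    exact (hcompat a χ (f g) g (by simp [f, hr])).symm
  have h := H30.card_fixed_irr_eq (G := G) f
    (fun χ hχ => by rw [key ⟨χ, hχ⟩]; exact (a • (⟨χ, hχ⟩ : Cfsg.IrrCharacter G)).2)
  refine Eq.trans (Nat.card_congr (Equiv.subtypeEquivRight fun χ => ?_))
    (h.trans (Nat.card_congr (Equiv.subtypeEquivRight fun C => ?_)))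
  · rw [key, Subtype.ext_iff]
  · constructor
    · intro hC
      obtain ⟨g, rfl⟩ := ConjClasses.mk_surjective C
      have := ConjClasses.mk_eq_mk_iff_isConj.2 (hC g rfl)
      rw [hr] at this
      rw [← eq_inv_smul_iff]
      exact this
    · rintro hC g rfl
      rw [← ConjClasses.mk_eq_mk_iff_isConj, hr, eq_inv_smul_iff]
      exact hC

end Cfsg.Agent.S0860
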