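import Cfsg.Statements.S0861
import Cfsg.Agent.H28.CharKer
import Cfsg.Agent.H29.GalChar
import Cfsg.Agent.H29.Ito
import Cfsg.Agent.H40.Values

set_option autoImplicit false
open Cfsg

namespace Cfsg.Agent.S0861

open H28 H29 in
/-- If no irreducible character vanishes at `g` then `∑ log |χ g|² ≥ 0`. -/
theorem sum_log_nonneg {G : Type*} [Group G] [Finite G] (g : G)
    (hne : ∀ χ : Cfsg.IrrCharacter G, χ.1 g ≠ 0) :
    0 ≤ ∑ χ : Cfsg.IrrCharacter G, Real.log (‖χ.1 g‖ ^ 2) := by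
  have hint : IsIntegral ℤ (∏ χ : Cfsg.IrrCharacter G, χ.1 g) :=
    IsIntegral.prod _ fun χ _ => χ.2.isCharacter.isIntegral g
  obtain ⟨z, hz⟩ := H29.exists_int_of_forall_fixed hint (fun σ => by
    rw [map_prod]
    let f : Cfsg.IrrCharacter G → Cfsg.IrrCharacter G := fun χ => ⟨_, χ.2.gal σ.toRingHom⟩
    have hf : Function.Injective f := fun a b hab =>
      Subtype.ext (funext fun x => σ.injective (congrFun (congrArg Subtype.val hab) x))
    exact Fintype.prod_bijective f (Finite.injective_iff_bijective.1 hf) _ _ fun _ => rfl)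
  have hz0 : z ≠ 0 := by
    rintro rfl
    exact Finset.prod_ne_zero_iff.mpr (fun χ _ => hne χ) (by simpa using hz)
  have h1 : (1 : ℝ) ≤ ∏ χ : Cfsg.IrrCharacter G, ‖χ.1 g‖ ^ 2 := by
    rw [Finset.prod_pow, ← norm_prod, hz, Complex.norm_intCast]
    have : (1 : ℝ) ≤ |(z : ℝ)| := by exact_mod_cast Int.one_le_abs hz0
    nlinarith
  refine (Real.log_nonneg h1).trans ?_
  rw [Real.log_prod (fun χ _ => pow_ne_zero _ (norm_ne_zero_iff.mpr (hne χ)))]

/-- Let P be a normal abelian Sylow p-subgroup of the finite group G and suppose some element g of P has centralizer exactly P. Then the number of irreducible characters of G is at most the order of P, and if equality holds then G / P is abelian (the commutator subgroup lies in P). -/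
theorem result {G : Type*} [Group G] [Finite G] (p : ℕ) [Fact p.Prime] (P : Sylow p G) [(P : Subgroup G).Normal] (hab : ∀ a ∈ P, ∀ b ∈ P, a * b = b * a) (g : G) (hg : g ∈ P) (hC : Subgroup.centralizer ({g} : Set G) = P) : Nat.card (Cfsg.IrrCharacter G) ≤ Nat.card P ∧ (Nat.card (Cfsg.IrrCharacter G) = Nat.card P → commutator G ≤ P) := by
  classical
  have hp : p.Prime := Fact.out
  have hne : ∀ χ : Cfsg.IrrCharacter G, χ.1 g ≠ 0 := by
    rintro ⟨_, n, ρ, hρ, rfl⟩ h0
    obtain ⟨k, hk⟩ := P.isPGroup' ⟨g, hg⟩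
    have h1 := H40.dvd_degree_of_vanish hp (H28.isCharacter_rep ρ) (z := g) (k := k)
      (congrArg Subtype.val hk) h0 ρ.char_one
    exact P.not_dvd_index (h1.trans (H29.finrank_dvd_index_of_comm_normal ρ P hab))
  have h0 := sum_log_nonneg g hne
  have h1 := H28.sum_norm_sq_eq_card_centralizer g
  rw [hC] at h1
  have hle : ∀ χ : Cfsg.IrrCharacter G, Real.log (‖χ.1 g‖ ^ 2) ≤ ‖χ.1 g‖ ^ 2 - 1 := fun χ =>
    Real.log_le_sub_one_of_pos (pow_pos (norm_pos_iff.mpr (hne χ)) _)
  have h2 : ∑ χ : Cfsg.IrrCharacter G, (‖χ.1 g‖ ^ 2 - 1)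
      = (Nat.card P : ℝ) - Nat.card (Cfsg.IrrCharacter G) := by
    rw [Finset.sum_sub_distrib, h1]
    simp [Nat.card_eq_fintype_card]
  have h3 := Finset.sum_le_sum (s := Finset.univ) fun χ _ => hle χ
  constructor
  · have : (Nat.card (Cfsg.IrrCharacter G) : ℝ) ≤ Nat.card P := by linarith
    exact_mod_cast this
  · intro heq x hx
    refine H28.mem_of_forall_charKer (P : Subgroup G) fun χ hχ hP => ?_
    have h4 : ∑ χ : Cfsg.IrrCharacter G, Real.log (‖χ.1 g‖ ^ 2)
        = ∑ χ : Cfsg.IrrCharacter G, (‖χ.1 g‖ ^ 2 - 1) := by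
      refine le_antisymm h3 ?_
      rw [h2, heq, sub_self]
      exact h0
    have h5 := (Finset.sum_eq_sum_iff_of_le fun χ _ => hle χ).1 h4 ⟨χ, hχ⟩ (Finset.mem_univ _)
    have h6 : ‖χ g‖ ^ 2 = 1 := by
      by_contra h7
      exact (Real.log_lt_sub_one_of_pos (pow_pos (norm_pos_iff.mpr (hne ⟨χ, hχ⟩)) _) h7).ne h5
    obtain ⟨d, -, hd⟩ := H28.Cfsg.IsIrrCharacter.exists_degree_pos hχ
    rw [H28.apply_of_mem_charKer (hP hg), hd, Complex.norm_natCast] at h6
    have h8 : d = 1 := by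
      have : d ^ 2 = 1 := by exact_mod_cast h6
      simpa using this
    exact (H28.Cfsg.IsIrrCharacter.degree_one_iff hχ).1 (by rw [hd, h8, Nat.cast_one]) hx

end Cfsg.Agent.S0861
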