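import Cfsg.Statements.S0868
import Cfsg.Agent.Base
import Cfsg.Agent.H32.Gallagher

set_option autoImplicit false
open scoped ComplexConjugate
open Cfsg

namespace Cfsg.Agent.S0868

open H28 H33 H32

/-- Let N be a normal subgroup of the finite group G, χ an irreducible character of G whose restriction ϑ to N is irreducible, and ψ an irreducible character of G. Define η on G by η g = (1 / order of N) * Σ over n in N of ψ (n * g) * conj (χ (n * g)). Then: if the restriction of ψ to N has nonzero inner product with ϑ, η is an irreducible character of G; if that inner product is zero, η vanishes identically; and if ψ = χ then η is identically 1. -/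
theorem result {G : Type*} [Group G] [Fintype G] (N : Subgroup G) [N.Normal] [Fintype N] (χ : G → ℂ) (hχ : Cfsg.IsIrrCharacter G χ) (hχN : Cfsg.IsIrrCharacter N (fun n : N => χ n)) (ψ : G → ℂ) (hψ : Cfsg.IsIrrCharacter G ψ) (η : G → ℂ) (hη : η = fun g => (Nat.card N : ℂ)⁻¹ * ∑ n : N, ψ ((n : G) * g) * conj (χ ((n : G) * g))) : (Cfsg.classInner (fun n : N => ψ n) (fun n : N => χ n) ≠ 0 → Cfsg.IsIrrCharacter G η) ∧ (Cfsg.classInner (fun n : N => ψ n) (fun n : N => χ n) = 0 → η = 0) ∧ (ψ = χ → η = fun _ => 1) := by
  classical
  have hcl : IsClassFunction G (ψ * fun g => conj (χ g)) :=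
    hψ.isClassFunction.mul hχ.isClassFunction.conj
  have key : η = ∑ β : IrrCharacter G, if N ≤ charKer β.1 then classInner ψ (β.1 * χ) • β.1
      else 0 := by
    ext g
    have h1 : ∀ x, ψ x * conj (χ x) = ∑ β : IrrCharacter G, classInner ψ (β.1 * χ) * β.1 x := by
      intro x
      refine (hcl.apply_eq_sum_irr x).trans (Finset.sum_congr rfl fun β _ => ?_)
      rw [classInner_mul_left]
      simp [mul_comm, Pi.mul_def]
    rw [hη]
    simp only [h1]
    rw [Finset.sum_comm, Finset.mul_sum, Finset.sum_apply]
    refine Finset.sum_congr rfl fun β _ => ?_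
    rw [← Finset.mul_sum]
    split_ifs with hk
    · rw [Finset.sum_congr rfl (g := fun _ => β.1 g)
        fun n _ => apply_mul_of_mem_charKer (hk n.2) g, Finset.sum_const, Finset.card_univ,
        ← Nat.card_eq_fintype_card, nsmul_eq_mul, Pi.smul_apply, smul_eq_mul]
      have := card_ne_zero' N
      field_simp
    · rw [sum_coset_eq_zero β.2 hk]
      simp
  have key2 : ∀ β : G → ℂ, IsIrrCharacter G β → N ≤ charKer β → ψ = β * χ → η = β := by
    intro β hβ hk e
    rw [key, Finset.sum_eq_single ⟨β, hβ⟩, if_pos hk, ← e, hψ.classInner_self, one_smul]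
    · intro γ _ hne
      split_ifs with hk'
      · rw [hψ.classInner_of_ne (gallagher_irr hχ.isCharacter hχN γ.2 hk'), zero_smul]
        intro h
        exact hne (Subtype.ext (gallagher_inj hχ.isCharacter hχN γ.2 hβ hk' hk (h.symm.trans e)))
      · rfl
    · simp
  refine ⟨fun h => ?_, fun h => ?_, fun h => key2 _ isIrrCharacter_one (by simp [charKer_one]) ?_⟩
  · obtain ⟨β, hβ, hk, e⟩ := gallagher_surj hχ.isCharacter hχN hψ h
    rw [key2 β hβ hk e]
    exact hβ
  · rw [key]
    refine Finset.sum_eq_zero fun β _ => ?_
    split_ifs with hk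
    · rw [hψ.classInner_of_ne (gallagher_irr hχ.isCharacter hχN β.2 hk), zero_smul]
      intro e
      have e2 : (fun n : N => ψ n) = β.1 1 • fun n : N => χ n := by
        ext n
        simp [e, apply_of_mem_charKer (hk n.2)]
      rw [e2, classInner_smul_left, hχN.classInner_self, mul_one] at h
      exact β.2.apply_one_ne_zero h
    · rfl
  · rw [h]
    ext g
    simp

end Cfsg.Agent.S0868
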