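import Cfsg.Statements.S0876
import Cfsg.Agent.Base
import Cfsg.Agent.H29.PiPart
import Cfsg.Agent.H40.Values
import Cfsg.Agent.H35.Loc

set_option autoImplicit false
open Cfsg

namespace Cfsg.Agent.S0876

open H28 H29

theorem aux {G : Type*} [Group G] [Finite G] {p : ℕ} {M : Ideal Cfsg.AlgInt} (hM : IsPModular p M)
    {x a : G} (ha : IsPPart p x a) {χ : G → ℂ} (hχ : IsCharacter G χ) :
    MemLocalIdeal M (χ x - χ (a⁻¹ * x)) := by
  have := hM.2.1
  obtain ⟨y, rfl, hc, ⟨k, hk⟩, -⟩ := ha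
  obtain ⟨z, hz, hz'⟩ := H40.pnil_char_mul_sub hM.1 hχ hc.symm (k := k)
    (by rw [← hk, pow_orderOf_eq_one])
  rw [inv_mul_cancel_left, hc.eq, ← hz, H35.memLocalIdeal_algInt_iff]
  exact (hM.2.1.isPrime.radical_le_iff.mpr ((Ideal.span_singleton_le_iff_mem _).mpr hM.2.2)) hz'

/-- Let G be a finite group, p a prime and M a maximal ideal of the ring of algebraic integers containing p. Let x, y be elements with p-parts a and b (so a⁻¹ * x and b⁻¹ * y are their p-regular parts). Then a⁻¹ * x and b⁻¹ * y are conjugate in G if and only if, for every irreducible character χ, the difference χ x - χ y lies in the local ideal at M. -/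
theorem result {G : Type*} [Group G] [Finite G] (p : ℕ) (M : Ideal Cfsg.AlgInt) (hM : Cfsg.IsPModular p M) (x y a b : G) (ha : Cfsg.IsPPart p x a) (hb : Cfsg.IsPPart p y b) : IsConj (a⁻¹ * x) (b⁻¹ * y) ↔ ∀ χ : Cfsg.IrrCharacter G, Cfsg.MemLocalIdeal M ((χ : G → ℂ) x - (χ : G → ℂ) y) := by
  classical
  have := hM.2.1
  have hp := hM.1
  constructor
  · intro h χ
    have h1 := aux hM ha χ.2.isCharacter
    rw [χ.2.isClassFunction.eq_of_isConj h] at h1
    exact H35.P_sub_trans h1 (H35.P_sub_comm.mp (aux hM hb χ.2.isCharacter))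
  · intro h
    by_contra hne
    have := Fintype.ofFinite G
    have hG : Nat.card G ≠ 0 := Nat.card_pos.ne'
    set m := ordProj[p] (Nat.card G)
    set n := ordCompl[p] (Nat.card G)
    have hmn : m * n = Nat.card G := Nat.ordProj_mul_ordCompl_eq_self _ _
    have hpn : p.Coprime n := Nat.coprime_ordCompl hp hG
    have hcop : m.Coprime n := hpn.pow_left _
    obtain ⟨k, hm, hn⟩ := exists_exponent_of_coprime hcop
    have key : ∀ x a : G, IsPPart p x a → x ^ k = a⁻¹ * x := by
      rintro _ a ⟨y, rfl, hc, ⟨j, hj⟩, hy⟩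
      rw [inv_mul_cancel_left]
      exact pow_eq_of_decomp hmn.symm.dvd hm hn hc (hj ▸ hpn.pow_left _)
        (((Nat.Prime.coprime_iff_not_dvd hp).mpr hy).symm.pow_right _)
    let θ : G → ℂ := fun z => if IsConj (z ^ k) (b⁻¹ * y) then (n : ℂ) else 0
    have hcl : IsClassFunction G θ := by
      intro z w
      have hconj : IsConj (w * z ^ k * w⁻¹) (b⁻¹ * y) ↔ IsConj (z ^ k) (b⁻¹ * y) :=
        ⟨fun h => (isConj_iff.mpr ⟨w, rfl⟩).trans h,
          fun h => (isConj_iff.mpr ⟨w, rfl⟩).symm.trans h⟩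
      simp only [θ, conj_pow, hconj]
    have h1 : MemLocalIdeal M (θ x - θ y) := by
      rw [hcl.apply_eq_sum_irr x, hcl.apply_eq_sum_irr y, ← Finset.sum_sub_distrib]
      refine H35.P_sum _ _ fun χ _ => ?_
      rw [← mul_sub]
      exact H35.P_mul_left (H35.mem_S_of_isIntegral_int (isIntegral_classInner_section hcop
        hmn.symm.dvd hm hn _ χ.2.isGeneralizedCharacter)) (h χ)
    simp only [θ, key x a ha, key y b hb, if_neg hne, if_pos (IsConj.refl _), zero_sub,
      H35.P_neg_iff, H35.P_natCast_iff hM] at h1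
    exact (Nat.Prime.coprime_iff_not_dvd hp).mp hpn h1

end Cfsg.Agent.S0876
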