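import Cfsg.Statements.S0891
import Cfsg.Agent.H90.Carm2

set_option autoImplicit false
open Cfsg

namespace Cfsg.Agent.S0891

open H90 H57 in
theorem units_of {ι R : Type} [Ring R] (hR : (-1 : R) ≠ 1) (b : Option ι → R)
    (h1 : ∀ k, b k * b k = 1) (h2 : ∀ k l, k ≠ l → b k * b l = 1 - b l * b k) :
    ∃ (x : ι → Rˣ) (z : Rˣ), Car2 x z ∧ z ≠ 1 := by
  let c : Option ι → Rˣ := fun k => ⟨b k, b k, h1 k, h1 k⟩
  have h3 : ∀ k y, b k * (b k * y) = y := fun k y => by rw [← mul_assoc, h1, one_mul]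
  have h4 : ∀ k l, k ≠ l → ∀ y, b k * (b l * y) = y - b l * (b k * y) := fun k l h y => by
    rw [← mul_assoc, h2 k l h, sub_mul, one_mul, mul_assoc]
  refine ⟨fun i => -(c none * c (some i)), -1, ⟨fun i => Units.ext ?_, fun i j h => Units.ext ?_,
    by simp, fun i => by simp⟩, fun h => hR (congrArg Units.val h)⟩
  · have e := h4 (some i) none (by simp)
    simp only [pow_succ, pow_zero, one_mul, Units.val_mul, Units.val_neg, c, mul_assoc, neg_mul,
      mul_neg, neg_neg, Units.val_one, e, mul_sub, h3, h1, mul_one]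
    noncomm_ring
  · have e1 := h4 (some i) none (by simp)
    have e2 := h4 (some j) none (by simp)
    have e3 := h4 (some j) (some i) (by simpa using h.symm)
    simp only [pow_succ, pow_zero, one_mul, Units.val_mul, Units.val_neg, c, mul_assoc, neg_mul,
      mul_neg, neg_neg, Units.val_one, e1, e2, e3, mul_sub, h3, h1, mul_one]
    noncomm_ring

open H90 H57 in
theorem exists_units (ι : Type) [Fintype ι] [DecidableEq ι] : ∃ (J : Type) (_ : Group J) (x : ι → J)
    (z : J), Car2 x z ∧ z ≠ 1 := by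
  let B : LinearMap.BilinMap ℚ (Option ι → ℚ) ℚ :=
    Matrix.toBilin' (Matrix.of fun k l => if k = l then 1 else 1 / 2)
  let Q := B.toQuadraticMap
  let b : Option ι → CliffordAlgebra Q := fun k => CliffordAlgebra.ι Q (Pi.single k 1)
  have hB : ∀ k l, B (Pi.single k 1) (Pi.single l 1) = if k = l then 1 else 1 / 2 := fun k l =>
    Matrix.toBilin'_single _ k l
  have h1 : ∀ k, b k * b k = 1 := fun k => by
    simp only [b, CliffordAlgebra.ι_sq_scalar, Q, LinearMap.BilinMap.toQuadraticMap_apply, hB]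
    simp
  have h2 : ∀ k l, k ≠ l → b k * b l = 1 - b l * b k := fun k l h => by
    rw [eq_sub_iff_add_eq]
    simp only [b, CliffordAlgebra.ι_mul_ι_add_swap, Q, LinearMap.BilinMap.polar_toQuadraticMap, hB,
      if_neg h, if_neg h.symm]
    norm_num
  have : Invertible (2 : ℚ) := invertibleOfNonzero two_ne_zero
  have : CharZero (CliffordAlgebra Q) := algebraRat.charZero _
  exact ⟨_, inferInstance, units_of (by norm_num) b h1 h2⟩

/-- For every n ≥ 4 there are a finite group Γ and a central element z of Γ of order 2 lying in the commutator subgroup of Γ such that the quotient of Γ by the (normal) subgroup generated by z is isomorphic to the alternating group on n letters. -/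
theorem result (n : ℕ) (hn : 4 ≤ n) : ∃ (Γ : Type) (_ : Group Γ) (_ : Finite Γ) (z : Γ) (hz : z ∈ Subgroup.center Γ), orderOf z = 2 ∧ z ∈ commutator Γ ∧ ∃ _ : (Subgroup.zpowers z).Normal, Nonempty (Γ ⧸ Subgroup.zpowers z ≃* alternatingGroup (Fin n)) := by
  obtain ⟨m, rfl⟩ : ∃ m, n = m + 2 := ⟨n - 2, by omega⟩
  have p : H90.CarP (0 : Fin (m + 2)) 1 (fun i : Fin m => i.succ.succ) :=
    ⟨by simp, fun a b h => Fin.succ_injective _ (Fin.succ_injective _ h),
      fun i => ⟨Fin.succ_ne_zero _, Fin.succ_succ_ne_one _⟩, Set.eq_univ_of_forall fun a => by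
        refine Fin.cases (by simp) (fun a => Fin.cases (by simp) (fun a => Or.inl ⟨a, rfl⟩) a) a⟩
  obtain ⟨J, _, x, z, h, hz⟩ := exists_units (Fin m)
  have h' := h.prod p.car2
  set y := fun i : Fin m => (x i, H57.cyc (0 : Fin (m + 2)) 1 i.succ.succ)
  let Γ := Subgroup.closure (Set.range y)
  have hy : ∀ i, y i ∈ Γ := fun i => Subgroup.subset_closure ⟨i, rfl⟩
  have hij : (⟨0, by omega⟩ : Fin m) ≠ ⟨1, by omega⟩ := by simp
  have hzΓ : (z, 1) ∈ Γ := h'.h2 _ _ hij ▸ pow_mem (mul_mem (hy _) (hy _)) 2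
  let w : Fin m → Γ := fun i => ⟨y i, hy i⟩
  let t : Γ := ⟨_, hzΓ⟩
  have hc : H90.Car2 w t := ⟨fun i => Subtype.ext (h'.h3 i), fun i j e => Subtype.ext (h'.h2 i j e),
    Subtype.ext h'.zz, fun i => Subtype.ext (h'.comm i)⟩
  have ht : Subgroup.closure (Set.range w) = ⊤ := by
    apply Subgroup.map_injective Γ.subtype_injective
    rw [MonoidHom.map_closure, ← Set.range_comp, ← MonoidHom.range_eq_map, Subgroup.range_subtype]
    rfl
  have t1 : t ≠ 1 := fun e => hz (congrArg (fun g : Γ => g.1.1) e)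
  let f : Γ →* Equiv.Perm (Fin (m + 2)) := (MonoidHom.snd _ _).comp Γ.subtype
  have hcard := hc.card p f (fun _ => rfl) rfl t1 ht
  have hcen : t ∈ Subgroup.center Γ := Subgroup.mem_center_iff.2 fun g => by
    have : Subgroup.closure (Set.range w) ≤ Subgroup.centralizer {t} := by
      rw [Subgroup.closure_le]
      rintro _ ⟨i, rfl⟩
      exact Subgroup.mem_centralizer_singleton_iff.2 (hc.comm i).symm
    exact Subgroup.mem_centralizer_singleton_iff.1 (this (ht ▸ trivial))
  have ho : orderOf t = 2 := orderOf_eq_prime (by rw [sq, hc.zz]) t1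
  have hN : (Subgroup.zpowers t).Normal := ⟨fun a ha g => by
    rwa [Subgroup.mem_center_iff.1 (Subgroup.zpowers_le.2 hcen ha) g, mul_inv_cancel_right]⟩
  have hr : f.range = alternatingGroup _ := le_antisymm
    (by rintro _ ⟨g, rfl⟩; exact p.mem_alt (x := w) f (fun _ => rfl) (ht ▸ trivial))
    fun σ hσ => by obtain ⟨u, -, rfl⟩ := p.lift (x := w) f (fun _ => rfl) hσ; exact ⟨u, rfl⟩
  have hk : Subgroup.zpowers t = f.ker := le_antisymm (Subgroup.zpowers_le.2 rfl) fun g hg => by
    rcases hc.ker p f (fun _ => rfl) rfl (ht ▸ trivial) hg with rfl | rfl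
    exacts [one_mem _, Subgroup.mem_zpowers _]
  refine ⟨Γ, inferInstance, Nat.finite_of_card_ne_zero (hcard ▸ Nat.factorial_ne_zero _), t, hcen, ho,
    ?_, hN, ⟨(QuotientGroup.quotientMulEquivOfEq hk).trans
      ((QuotientGroup.quotientKerEquivRange f).trans (MulEquiv.subgroupCongr hr))⟩⟩
  rw [← Abelianization.ker_of, MonoidHom.mem_ker]
  have a1 : Abelianization.of t ^ 2 = 1 := by rw [← map_pow, sq, hc.zz, map_one]
  have a2 : Abelianization.of t ^ 3 = 1 := by
    rw [← hc.h2 _ _ hij, map_pow, ← pow_mul, mul_comm 2, pow_mul, map_mul, mul_pow, ← map_pow,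
      ← map_pow, hc.h3, hc.h3]
    simp
  rwa [pow_succ, a1, one_mul] at a2

end Cfsg.Agent.S0891
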