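import Cfsg.Statements.S0893
import Cfsg.Agent.Base
import Cfsg.Agent.H29.PGroupChar
import Cfsg.Agent.H32.IndRep
import Cfsg.Agent.H33.Ind

set_option autoImplicit false
open Cfsg

namespace Cfsg.Agent.S0893

/-- Let P be an extraspecial p-group of order p ^ (2 * n + 1), A an abelian subgroup of order p ^ (n + 1), and λ a character of A of degree 1 that is not identically 1 on the elements of A lying in the centre of P. Then the function induced from λ to P is an irreducible character of P and vanishes at every element outside the centre. -/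
theorem result {P : Type*} [Group P] [Fintype P] (p n : ℕ) [Fact p.Prime] (hP : Cfsg.IsExtraspecial p P) (hcard : Nat.card P = p ^ (2 * n + 1)) (A : Subgroup P) (hab : ∀ a ∈ A, ∀ b ∈ A, a * b = b * a) (hA : Nat.card A = p ^ (n + 1)) (lam : A → ℂ) (hlam : Cfsg.IsCharacter A lam ∧ lam 1 = 1) (hZ : ∃ a : A, (a : P) ∈ Subgroup.center P ∧ lam a ≠ 1) : Cfsg.IsIrrCharacter P (Cfsg.indFun A lam) ∧ ∀ x : P, x ∉ Subgroup.center P → Cfsg.indFun A lam x = 0 := by
  open H28 H29 in
  classical
  have hp : p.Prime := Fact.out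
  have hidx : A.index = p ^ n := by
    have h := A.card_mul_index
    rw [hA, hcard, show 2 * n + 1 = (n + 1) + n by ring, pow_add p (n + 1)] at h
    exact Nat.eq_of_mul_eq_mul_left (pow_pos hp.pos _) h
  have hind := H32.isCharacter_indFun A hlam.1
  have hdeg : indFun A lam 1 = (p : ℂ) ^ n := by
    rw [H33.indFun_apply_one, hidx, hlam.2, mul_one, Nat.cast_pow]
  have hp0 : (p : ℂ) ^ n ≠ 0 := pow_ne_zero _ (by exact_mod_cast hp.ne_zero)
  obtain ⟨χ, hχ, hc⟩ := hind.exists_constituent (fun h => hp0 (by rw [← hdeg, h]; rfl))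
  have h1 : χ 1 ≠ 1 := by
    intro h1
    rw [H33.classInner_indFun_left A lam hχ.isClassFunction] at hc
    have h2 := (hlam.1.irr_of_degree_one hlam.2).eq_of_classInner_ne_zero
      ((hχ.isCharacter.restrict A).irr_of_degree_one h1) hc
    obtain ⟨a, ha, ha1⟩ := hZ
    have h3 : (a : P) ∈ charKer χ := hχ.degree_one_iff.mp h1 (hP.1.2.2 ▸ ha)
    exact ha1 (by rw [h2]; exact (apply_of_mem_charKer h3).trans h1)
  have heq := hind.eq_irr_of_degree_eq hχ hc
    (hdeg.trans (degree_of_extraspecial hP hcard hχ h1).symm)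
  rw [heq]
  exact ⟨hχ, fun x hx => eq_zero_of_extraspecial hP hχ h1 hx⟩

end Cfsg.Agent.S0893
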