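import Cfsg.Statements.S0897
import Cfsg.Agent.Base
import Cfsg.Agent.H33.Dade
import Cfsg.Agent.H33.HallCompl
import Cfsg.Agent.H32.LinExt
import Cfsg.Agent.S0887

set_option autoImplicit false
open Cfsg

namespace Cfsg.Agent.S0897

open _root_.H28
open scoped commutatorElement

theorem commutator_le_of_elem {G : Type*} [Group G] [Finite G] {p : ℕ} [Fact p.Prime]
    (P : Sylow p G) (E : Subgroup G) (hE : IsElementary p E) :
    ∃ g : G, ⁅E, E⁆ ≤ ⁅(P : Subgroup G), (P : Subgroup G)⁆.map (MulAut.conj g).toMonoidHom := by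
  obtain ⟨Q⟩ : Nonempty (Sylow p E) := inferInstance
  obtain ⟨R, hR⟩ := (Q.isPGroup'.map E.subtype).exists_le_sylow
  obtain ⟨g, rfl⟩ := MulAction.exists_smul_eq G P R
  refine ⟨g, ?_⟩
  rw [Subgroup.map_commutator]
  refine le_trans ?_ (Subgroup.commutator_mono hR hR)
  rw [Subgroup.commutator_le]
  intro a ha b hb
  obtain ⟨y, hy, z, hz, e⟩ := H33.exists_sylow_mul_center hE Q ⟨a, ha⟩
  obtain ⟨y', hy', z', hz', e'⟩ := H33.exists_sylow_mul_center hE Q ⟨b, hb⟩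
  have h1 : ⁅(⟨a, ha⟩ : E), (⟨b, hb⟩ : E)⁆ = ⁅y, y'⁆ := by
    have c : ∀ w ∈ Subgroup.center E, ∀ g : E, g * w = w * g :=
      fun w hw g => Subgroup.mem_center_iff.mp hw g
    rw [e, e', commutatorElement_def, commutatorElement_def]
    calc y * z * (y' * z') * (y * z)⁻¹ * (y' * z')⁻¹
        = y * (z * y') * (z' * z⁻¹ * y⁻¹) * z'⁻¹ * y'⁻¹ := by group
      _ = y * (y' * z) * (y⁻¹ * (z' * z⁻¹)) * z'⁻¹ * y'⁻¹ := by
        rw [← c z hz y', ← c _ (mul_mem hz' (inv_mem hz)) y⁻¹]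
      _ = y * y' * (z * y⁻¹) * (z' * z⁻¹) * z'⁻¹ * y'⁻¹ := by group
      _ = y * y' * (y⁻¹ * z) * (z⁻¹ * z') * z'⁻¹ * y'⁻¹ := by
        rw [← c z hz y⁻¹, ← c z' hz' z⁻¹]
      _ = y * y' * y⁻¹ * y'⁻¹ := by group
  have h2 : ⁅a, b⁆ = ⁅(y : G), (y' : G)⁆ := congrArg Subtype.val h1
  rw [h2]
  exact Subgroup.commutator_mem_commutator ⟨y, hy, rfl⟩ ⟨y', hy', rfl⟩


/-- Let N be a normal subgroup of the finite group G with the index of N a power of the prime p, and P a Sylow p-subgroup of G such that P ⊓ N lies in the centre of P and every character of degree 1 of P ⊓ N is the restriction of a character of degree 1 of P. Then every irreducible character of N invariant under conjugation by G is the restriction of an irreducible character of G. -/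
theorem result {G : Type*} [Group G] [Fintype G] (p : ℕ) [Fact p.Prime] (N : Subgroup G) [hN : N.Normal] (hind : ∃ k : ℕ, N.index = p ^ k) (P : Sylow p G) (hcent : ∀ x ∈ (P : Subgroup G) ⊓ N, ∀ y ∈ (P : Subgroup G), x * y = y * x) (hlin : ∀ lam : ↥((P : Subgroup G) ⊓ N) → ℂ, Cfsg.IsCharacter ↥((P : Subgroup G) ⊓ N) lam → lam 1 = 1 → ∃ μ : ↥(P : Subgroup G) → ℂ, Cfsg.IsCharacter ↥(P : Subgroup G) μ ∧ μ 1 = 1 ∧ ∀ x : ↥((P : Subgroup G) ⊓ N), μ ⟨(x : G), x.2.1⟩ = lam x) (ϑ : N → ℂ) (hϑ : Cfsg.IsIrrCharacter N ϑ) (hinv : ∀ (g : G) (n : N), ϑ ⟨g * n * g⁻¹, hN.conj_mem (n : G) n.2 g⟩ = ϑ n) : ∃ χ : G → ℂ, Cfsg.IsIrrCharacter G χ ∧ ∀ n : N, χ n = ϑ n := by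
  have hp : p.Prime := Fact.out
  have := Fintype.ofFinite N
  have hP : ∀ x ∈ ⁅(P : Subgroup G), (P : Subgroup G)⁆, x ∈ N → x = 1 := by
    intro x hx hxN
    have hxP : x ∈ (P : Subgroup G) := Subgroup.commutator_le_self _ hx
    have : (⟨x, hxP, hxN⟩ : ↥((P : Subgroup G) ⊓ N)) = 1 := by
      refine eq_one_of_forall_irr (fun lam hlam => ?_)
      have h1 := hlam.apply_one_of_comm (fun a b => Subtype.ext (hcent a a.2 b b.2.1))
      obtain ⟨μ, hμ, hμ1, hμl⟩ := hlin lam hlam.isCharacter h1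
      rw [← hμl, h1, ← hμ1]
      refine apply_of_mem_charKer (hμ.commutator_le_charKer hμ1 ?_)
      rw [← Subgroup.map_subtype_commutator] at hx
      obtain ⟨y, hy, rfl⟩ := hx
      exact hy
    exact congrArg Subtype.val this
  obtain ⟨E, _, φ, hE, hEN, hφ, -, m, hm, hmφ⟩ := H33.dade_elementary p N hind ϑ hϑ hinv
  have hE' : ∀ x ∈ ⁅E, E⁆, x ∈ N → x = 1 := by
    obtain ⟨g, hg⟩ := commutator_le_of_elem P E hE
    intro x hx hxN
    obtain ⟨y, hy, rfl⟩ := hg hx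
    have : y ∈ N := by simpa [mul_assoc] using hN.conj_mem _ hxN g⁻¹
    rw [hP y hy this, map_one]
  have hφ1 : φ 1 = 1 := hφ.apply_one_of_comm (fun a b => Subtype.ext (by
    have := hE' _ (Subgroup.commutator_mem_commutator a.2.1 b.2.1)
      (Subgroup.commutator_le_self _ (Subgroup.commutator_mem_commutator a.2.2 b.2.2))
    exact commutatorElement_eq_one_iff_mul_comm.mp this))
  obtain ⟨f, rfl⟩ := hφ.isCharacter.exists_hom hφ1
  let i : N.subgroupOf E →* ↥(E ⊓ N) :=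
    (E.subtype.comp (N.subgroupOf E).subtype).codRestrict _ (fun x => ⟨(x : E).2, x.2⟩)
  obtain ⟨μ, hμ⟩ := H32.exists_hom_ext_of_commutator (N.subgroupOf E) (f.comp i) (fun x hx => by
    have h1 : ((x : E) : G) ∈ ⁅E, E⁆ := by
      rw [← Subgroup.map_subtype_commutator]
      exact ⟨_, hx, rfl⟩
    have : i x = 1 := Subtype.ext (hE' _ h1 x.2)
    rw [MonoidHom.comp_apply, this, map_one])
  have hψ := H32.isCharacter_indFun E (isCharacter_of_hom μ)
  have h1 := H33.classInner_res_indFun N hinv E (fun e => (μ e : ℂ))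
  have h2 : (fun d : ↥(E ⊓ N) => (μ ⟨d, d.2.1⟩ : ℂ)) = fun d => (f d : ℂ) := by
    funext d
    exact congrArg Units.val (hμ ⟨⟨d, d.2.1⟩, d.2.2⟩)
  rw [hEN, Subgroup.index_top, Nat.cast_one, one_mul, h2, classInner_comm_of_nat hmφ] at h1
  obtain ⟨a, -, ha⟩ := hψ.exists_nat_coeffs
  choose e he using fun χ : IrrCharacter G =>
    (χ.2.isCharacter.restrict N).classInner_nat hϑ.isCharacter
  have h3 : m = ∑ χ, a χ * e χ := by
    have : (fun n : N => indFun E (fun e => (μ e : ℂ)) n) =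
        ∑ χ : IrrCharacter G, (a χ : ℂ) • fun n : N => (χ : G → ℂ) n := by
      funext n
      rw [ha]
      simp
    rw [this, classInner_sum_left] at h1
    simp only [classInner_smul_left, he] at h1
    exact_mod_cast h1.symm
  obtain ⟨χ, hχ⟩ : ∃ χ, ¬ p ∣ e χ := by
    by_contra hcon
    push Not at hcon
    exact hm (h3 ▸ Finset.dvd_sum (fun χ _ => (hcon χ).mul_left _))
  have he0 : e χ ≠ 0 := fun h => hχ (h ▸ dvd_zero p)
  have hcon : classInner (fun n : N => (χ : G → ℂ) n) ϑ ≠ 0 := by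
    rw [he]; exact_mod_cast he0
  have h4 := H32.clifford_of_invariant χ.2 hϑ (H32.inertia_eq_top_iff.mpr hinv) hcon
  rw [he] at h4
  obtain ⟨d, hd0, hd⟩ := hϑ.exists_degree_pos
  have h5 : (χ : G → ℂ) 1 = ((e χ * d : ℕ) : ℂ) := by
    have := congrFun h4 1
    simpa [hd] using this
  obtain ⟨k, hk⟩ := hind
  have h6 := (Cfsg.Agent.S0887.result N χ χ.2 ϑ hϑ hcon _ d h5 hd).2
  rw [Nat.mul_div_cancel _ hd0, hk] at h6
  have h7 : e χ = 1 :=
    (((Nat.Prime.coprime_iff_not_dvd hp).mpr hχ).symm.pow_right k).eq_one_of_dvd h6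
  refine ⟨χ, χ.2, fun n => ?_⟩
  simpa [h7] using congrFun h4 n

end Cfsg.Agent.S0897
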