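import Cfsg.Statements.S0900
import Cfsg.Agent.Base
import Cfsg.Agent.H32.Gallagher

set_option autoImplicit false
open Cfsg

namespace Cfsg.Agent.S0900

open H28 H33 H32

/-- Let N be a normal subgroup of the finite group G, χ an irreducible character of G and ϑ an irreducible character of N having nonzero inner product with the restriction of χ. Consider: (a) the restriction of χ to N is e • ϑ for a natural number e with e ^ 2 equal to the index of N; (b) χ vanishes outside N and ϑ is invariant under conjugation by G; (c) ϑ is invariant and every irreducible character of G having nonzero inner product with the function induced from ϑ equals χ. Then (a) ↔ (b) and (a) ↔ (c). -/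
theorem result {G : Type*} [Group G] [Fintype G] (N : Subgroup G) [hN : N.Normal] [Fintype N] (χ : G → ℂ) (hχ : Cfsg.IsIrrCharacter G χ) (ϑ : N → ℂ) (hϑ : Cfsg.IsIrrCharacter N ϑ) (hcon : Cfsg.classInner (fun n : N => χ n) ϑ ≠ 0) : ((∃ e : ℕ, (fun n : N => χ n) = (e : ℂ) • ϑ ∧ e ^ 2 = N.index) ↔ ((∀ g : G, g ∉ N → χ g = 0) ∧ ∀ (g : G) (n : N), ϑ ⟨g * n * g⁻¹, hN.conj_mem (n : G) n.2 g⟩ = ϑ n)) ∧ ((∃ e : ℕ, (fun n : N => χ n) = (e : ℂ) • ϑ ∧ e ^ 2 = N.index) ↔ (∀ (g : G) (n : N), ϑ ⟨g * n * g⁻¹, hN.conj_mem (n : G) n.2 g⟩ = ϑ n ∧ ∀ ψ : G → ℂ, Cfsg.IsIrrCharacter G ψ → Cfsg.classInner (Cfsg.indFun N ϑ) ψ ≠ 0 → ψ = χ)) := by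
  obtain ⟨e, he⟩ := (hχ.isCharacter.restrict N).classInner_nat hϑ.isCharacter
  have he0 : e ≠ 0 := by rintro rfl; exact hcon (by simpa using he)
  have hA : (∃ e : ℕ, (fun n : N => χ n) = (e : ℂ) • ϑ ∧ e ^ 2 = N.index) ↔
      inertia ϑ = ⊤ ∧ e ^ 2 = N.index := by
    constructor
    · rintro ⟨e', h1, h2⟩
      have h3 : e' = e := by
        rw [h1, classInner_smul_left, hϑ.classInner_self, mul_one] at he
        exact_mod_cast he
      subst h3
      refine ⟨(Subgroup.eq_top_iff' _).2 fun g => ?_, h2⟩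
      have := cj_res (N := N) hχ.isClassFunction g
      rw [h1, cj_smul] at this
      exact smul_right_injective _ (Nat.cast_ne_zero.2 he0) this
    · rintro ⟨h1, h2⟩
      exact ⟨e, he ▸ clifford_of_invariant hχ hϑ h1 hcon, h2⟩
  rw [hA]
  constructor
  · rw [← inertia_eq_top_iff, and_comm]
    refine and_congr_left fun hinv => ?_
    rw [← classInner_res_self_eq_index_iff hχ, classInner_res_self hχ hϑ he he0, hinv,
      Subgroup.index_top, mul_one, Nat.cast_inj]
  · have hB : (∀ (g : G) (n : N), ϑ ⟨g * n * g⁻¹, hN.conj_mem (n : G) n.2 g⟩ = ϑ n ∧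
        ∀ ψ : G → ℂ, Cfsg.IsIrrCharacter G ψ → Cfsg.classInner (Cfsg.indFun N ϑ) ψ ≠ 0 → ψ = χ) ↔
        inertia ϑ = ⊤ ∧ ∀ ψ : G → ℂ, Cfsg.IsIrrCharacter G ψ →
          Cfsg.classInner (Cfsg.indFun N ϑ) ψ ≠ 0 → ψ = χ := by
      rw [inertia_eq_top_iff]
      exact ⟨fun h => ⟨fun g n => (h g n).1, (h 1 1).2⟩, fun h g n => ⟨h.1 g n, h.2⟩⟩
    rw [hB]
    refine and_congr_right fun hinv => ?_
    have h1 : classInner (indFun N ϑ) χ = e := by
      rw [classInner_indFun_left _ _ hχ.isClassFunction]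
      exact classInner_comm_of_nat he
    have h2 : classInner (indFun N ϑ) (indFun N ϑ) = N.index := by
      rw [classInner_indFun_self hϑ, hinv, Subgroup.relIndex_top_right]
    have h3 : classInner (indFun N ϑ - (e : ℂ) • χ) (indFun N ϑ - (e : ℂ) • χ) =
        N.index - (e ^ 2 : ℕ) := by
      simp only [classInner_sub_left, classInner_sub_right, classInner_smul_left,
        classInner_smul_right, h1, h2, classInner_comm_of_nat h1, hχ.classInner_self]
      simp
      ring
    constructor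
    · intro h ψ hψ hc
      rw [h, sub_self, classInner_self_eq_zero, sub_eq_zero] at h3
      rw [h3, classInner_smul_left] at hc
      exact (hχ.eq_of_classInner_ne_zero hψ (right_ne_zero_of_mul hc)).symm
    · intro h
      have h4 := (indFun_isClassFunction N ϑ).eq_smul_of_unique hχ h
      rw [h1] at h4
      rw [← h4, sub_self, classInner_zero_left, eq_comm, sub_eq_zero, Nat.cast_inj] at h3
      exact h3.symm

end Cfsg.Agent.S0900
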