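import Cfsg.Agent.Base
import Cfsg.Statements.S0901

set_option autoImplicit false
open Cfsg

namespace Cfsg.Agent.S0901

theorem charP_quot (p : ℕ) [Fact p.Prime] (M : Ideal Cfsg.AlgInt) (hM : Cfsg.IsPModular p M) :
    CharP (Cfsg.AlgInt ⧸ M) p := by
  have := hM.2.1
  let := Ideal.Quotient.field M
  have h : (p : Cfsg.AlgInt ⧸ M) = 0 := by
    have := Ideal.Quotient.eq_zero_iff_mem.2 hM.2.2
    simpa using this
  exact (CharP.charP_iff_prime_eq_zero hM.1).2 h

theorem natCast_notMem (p : ℕ) [Fact p.Prime] (M : Ideal Cfsg.AlgInt) (hM : Cfsg.IsPModular p M)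
    (n : ℕ) (hn : ¬ p ∣ n) : (n : Cfsg.AlgInt) ∉ M := by
  have := charP_quot p M hM
  intro h
  have h2 := Ideal.Quotient.eq_zero_iff_mem.2 h
  rw [map_natCast] at h2
  exact hn ((CharP.cast_eq_zero_iff _ p n).1 h2)

theorem exists_pow_sub_one_mem (p : ℕ) [Fact p.Prime] (M : Ideal Cfsg.AlgInt)
    (hM : Cfsg.IsPModular p M) (a : Cfsg.AlgInt) (ha : a ∉ M) :
    ∃ m : ℕ, ¬ p ∣ m ∧ a ^ m - 1 ∈ M := by
  have := hM.2.1
  let := Ideal.Quotient.field M
  have := charP_quot p M hM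
  let : Algebra (ZMod p) (Cfsg.AlgInt ⧸ M) := ZMod.algebra _ p
  set b : Cfsg.AlgInt ⧸ M := Ideal.Quotient.mk M a with hb
  have hb0 : b ≠ 0 := fun h => ha (Ideal.Quotient.eq_zero_iff_mem.1 h)
  have hint : IsIntegral ℤ a := by
    have : IsIntegral ℤ (a : ℂ) := a.2
    exact (isIntegral_algHom_iff (Cfsg.AlgInt.val) Subtype.val_injective).1 this
  have hbint : IsIntegral ℤ b := hint.map (Ideal.Quotient.mk M).toIntAlgHom
  have hbint' : IsIntegral (ZMod p) b := hbint.tower_top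
  have := IntermediateField.adjoin.finiteDimensional hbint'
  set K := IntermediateField.adjoin (ZMod p) {b}
  have : Finite K := Module.finite_of_finite (ZMod p)
  let : Fintype K := Fintype.ofFinite K
  obtain ⟨n, -, hn⟩ := FiniteField.card K p
  have hbK : b ∈ K := IntermediateField.mem_adjoin_simple_self _ _
  have h1 := FiniteField.pow_card_sub_one_eq_one (⟨b, hbK⟩ : K)
    (fun h => hb0 (congrArg Subtype.val h))
  refine ⟨Fintype.card K - 1, ?_, ?_⟩
  · rw [hn]
    intro h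
    have h2 : p ∣ p ^ (n : ℕ) := dvd_pow_self p n.ne_zero
    have h3 : 1 ≤ p ^ (n : ℕ) := Nat.one_le_pow _ _ hM.1.pos
    have : p ∣ p ^ (n : ℕ) - (p ^ (n : ℕ) - 1) := Nat.dvd_sub h2 h
    rw [Nat.sub_sub_self h3] at this
    exact hM.1.one_lt.ne' (Nat.dvd_one.1 this)
  · rw [← Ideal.Quotient.eq_zero_iff_mem, map_sub, map_pow, map_one, sub_eq_zero]
    exact congrArg Subtype.val h1

/-- Let M be a maximal ideal of the ring of algebraic integers containing the prime p, and let U be the set of complex roots of unity of order prime to p. Then reduction modulo M is injective on U, and every algebraic integer not in M is congruent modulo M to an element of U (so U maps bijectively onto the nonzero residues). -/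
theorem result (p : ℕ) [Fact p.Prime] (M : Ideal Cfsg.AlgInt) (hM : Cfsg.IsPModular p M) : (∀ ε₁ ε₂ : Cfsg.AlgInt, (∃ m : ℕ, ¬ p ∣ m ∧ (ε₁ : ℂ) ^ m = 1) → (∃ m : ℕ, ¬ p ∣ m ∧ (ε₂ : ℂ) ^ m = 1) → ε₁ - ε₂ ∈ M → ε₁ = ε₂) ∧ (∀ a : Cfsg.AlgInt, a ∉ M → ∃ ε : Cfsg.AlgInt, (∃ m : ℕ, ¬ p ∣ m ∧ (ε : ℂ) ^ m = 1) ∧ a - ε ∈ M) := by
  have hprime : M.IsPrime := hM.2.1.isPrime
  constructor
  · rintro ε₁ ε₂ ⟨m, hm, h1⟩ ⟨n, hn, h2⟩ hsub
    by_contra hne
    have hN : ¬ p ∣ m * n := fun h => ((Nat.Prime.dvd_mul hM.1).1 h).elim hm hn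
    have e1 : ε₁ ^ (m * n) = 1 := by
      apply Subtype.val_injective
      push_cast
      rw [pow_mul, h1, one_pow]
    have e2 : ε₂ ^ (m * n) = 1 := by
      apply Subtype.val_injective
      push_cast
      rw [mul_comm, pow_mul, h2, one_pow]
    set N := m * n with hNdef
    have hN0 : N ≠ 0 := fun h => hN (h ▸ dvd_zero p)
    have hg := geom_sum₂_mul ε₁ ε₂ N
    rw [e1, e2, sub_self, mul_eq_zero] at hg
    have hs := hg.resolve_right (sub_ne_zero.2 hne)
    have hq : Ideal.Quotient.mk M ε₁ = Ideal.Quotient.mk M ε₂ := Ideal.Quotient.eq.2 hsub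
    have hs2 := congrArg (Ideal.Quotient.mk M) hs
    rw [map_sum, map_zero] at hs2
    have : ∀ i ∈ Finset.range N, Ideal.Quotient.mk M (ε₁ ^ i * ε₂ ^ (N - 1 - i)) =
        Ideal.Quotient.mk M (ε₂ ^ (N - 1)) := by
      intro i hi
      rw [map_mul, map_pow, hq, ← map_pow, ← map_mul, ← pow_add]
      congr 2
      have := Finset.mem_range.1 hi
      omega
    rw [Finset.sum_congr rfl this, Finset.sum_const, Finset.card_range, nsmul_eq_mul,
      ← map_natCast (Ideal.Quotient.mk M), ← map_mul, Ideal.Quotient.eq_zero_iff_mem] at hs2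
    rcases hprime.mem_or_mem hs2 with h | h
    · exact natCast_notMem p M hM N hN h
    · have : ε₂ ^ (N - 1) * ε₂ ∈ M := M.mul_mem_right _ h
      rw [← pow_succ, Nat.sub_add_cancel (Nat.pos_of_ne_zero hN0), e2] at this
      exact hprime.ne_top ((Ideal.eq_top_iff_one _).2 this)
  · intro a ha
    obtain ⟨m, hm, hmem⟩ := exists_pow_sub_one_mem p M hM a ha
    have hm0 : m ≠ 0 := fun h => hm (h ▸ dvd_zero p)
    have hζ := Complex.isPrimitiveRoot_exp m hm0
    have hζint : IsIntegral ℤ (Complex.exp (2 * Real.pi * Complex.I / m)) :=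
      hζ.isIntegral (Nat.pos_of_ne_zero hm0)
    have hζ' : IsPrimitiveRoot (⟨_, hζint⟩ : Cfsg.AlgInt) m :=
      IsPrimitiveRoot.of_map_of_injective (f := Cfsg.AlgInt.val) hζ Subtype.val_injective
    have hprod := hζ'.pow_sub_pow_eq_prod_sub_mul a 1 (Nat.pos_of_ne_zero hm0)
    rw [one_pow] at hprod
    rw [hprod, Ideal.IsPrime.prod_mem_iff] at hmem
    obtain ⟨ε, hε, hε'⟩ := hmem
    rw [Polynomial.mem_nthRootsFinset (Nat.pos_of_ne_zero hm0)] at hε
    refine ⟨ε, ⟨m, hm, ?_⟩, by simpa using hε'⟩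
    exact_mod_cast congrArg Subtype.val hε

end Cfsg.Agent.S0901
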