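import Cfsg.Statements.S0902
import Cfsg.Agent.H35.BSpan

set_option autoImplicit false
open Cfsg H28

namespace Cfsg.Agent.S0902

/-- If two irreducible characters of a finite group lie in the same block relative to one maximal ideal M of the algebraic integers containing the prime p, then at every element the difference of their central characters is an algebraic integer lying in every maximal ideal containing p; in particular they lie in the same block relative to any such ideal. -/
theorem result {G : Type*} [Group G] [Finite G] (p : ℕ) [Fact p.Prime] (M : Ideal Cfsg.AlgInt) (hM : Cfsg.IsPModular p M) (χ ψ : Cfsg.IrrCharacter G) (h : Cfsg.SameBlock M (χ : G → ℂ) (ψ : G → ℂ)) (M' : Ideal Cfsg.AlgInt) (hM' : Cfsg.IsPModular p M') (g : G) : ∃ r : Cfsg.AlgInt, r ∈ M' ∧ (r : ℂ) = Cfsg.centralChar (χ : G → ℂ) g - Cfsg.centralChar (ψ : G → ℂ) g := by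
  have := Fintype.ofFinite G
  have := hM.2.1
  have := hM'.2.1
  have hB := H37.isPBlock_blockOf (M := M) χ
  obtain ⟨ξ, hξ, h0⟩ := H35.exists_height_zero p ⟨χ, H37.mem_blockOf_self (M := M) χ⟩
  have h1 := H35.sameBlock_of_classInner_pReg_ne_zero hM'
    (H35.classInner_pReg_ne_zero_of_height_zero hM hB hξ h0 (H37.mem_blockOf_self χ))
  have h2 := H35.sameBlock_of_classInner_pReg_ne_zero hM'
    (H35.classInner_pReg_ne_zero_of_height_zero hM hB hξ h0 (ψ := ψ) h)
  have h3 := H37.sameBlock_trans (H37.sameBlock_symm h1) h2 g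
  refine ⟨⟨_, (H37.centralChar_isIntegral χ.2 g).sub (H37.centralChar_isIntegral ψ.2 g)⟩, ?_, rfl⟩
  exact H35.memLocalIdeal_algInt_iff.1 h3

end Cfsg.Agent.S0902
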