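import Cfsg.Statements.S0903
import Cfsg.Agent.Base

set_option autoImplicit false
open Cfsg

namespace Cfsg.Agent.S0903

/-- The conjugation action of `P` on the pairs. -/
@[reducible] def act {G : Type*} [Group G] (P : Subgroup G) (c : G)
    (hc : c ∈ Subgroup.centralizer (P : Set G)) (g h : G) :
    MulAction P {xy : G × G // IsConj g xy.1 ∧ IsConj h xy.2 ∧ xy.1 * xy.2 = c} where
  smul u xy := ⟨(u * xy.1.1 * (u : G)⁻¹, u * xy.1.2 * (u : G)⁻¹),
    xy.2.1.trans (isConj_iff.2 ⟨u, rfl⟩), xy.2.2.1.trans (isConj_iff.2 ⟨u, rfl⟩), by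
      have h1 := Subgroup.mem_centralizer_iff.1 hc u u.2
      calc u * xy.1.1 * (u : G)⁻¹ * (u * xy.1.2 * (u : G)⁻¹) = u * (xy.1.1 * xy.1.2) * (u : G)⁻¹ := by
            group
        _ = c := by rw [xy.2.2.2, h1]; group⟩
  one_smul xy := by
    apply Subtype.ext
    show ((1 : P) * xy.1.1 * ((1 : P) : G)⁻¹, (1 : P) * xy.1.2 * ((1 : P) : G)⁻¹) = xy.1
    simp
  mul_smul u v xy := by
    apply Subtype.ext
    show ((u * v : P) * xy.1.1 * ((u * v : P) : G)⁻¹, (u * v : P) * xy.1.2 * ((u * v : P) : G)⁻¹) =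
      (u * (v * xy.1.1 * (v : G)⁻¹) * (u : G)⁻¹, u * (v * xy.1.2 * (v : G)⁻¹) * (u : G)⁻¹)
    simp [mul_assoc]

/-- Let P be a p-subgroup of the finite group G, let c centralize P and let g, h ∈ G. The number of pairs (x, y) with x conjugate to g, y conjugate to h and x * y = c is congruent modulo p to the number of such pairs in which x and y both centralize P. (This is why the Brauer map on class sums is multiplicative.) -/
theorem result {G : Type*} [Group G] [Finite G] (p : ℕ) [Fact p.Prime] (P : Subgroup G) (hP : IsPGroup p P) (c : G) (hc : c ∈ Subgroup.centralizer (P : Set G)) (g h : G) : Nat.card {xy : G × G // IsConj g xy.1 ∧ IsConj h xy.2 ∧ xy.1 * xy.2 = c} ≡ Nat.card {xy : G × G // IsConj g xy.1 ∧ IsConj h xy.2 ∧ xy.1 * xy.2 = c ∧ xy.1 ∈ Subgroup.centralizer (P : Set G) ∧ xy.2 ∈ Subgroup.centralizer (P : Set G)} [MOD p] := by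
  letI := act P c hc g h
  have h1 := hP.card_modEq_card_fixedPoints
    {xy : G × G // IsConj g xy.1 ∧ IsConj h xy.2 ∧ xy.1 * xy.2 = c}
  refine h1.trans ?_
  rw [Nat.card_congr (β := {xy : G × G // IsConj g xy.1 ∧ IsConj h xy.2 ∧ xy.1 * xy.2 = c ∧ xy.1 ∈ Subgroup.centralizer (P : Set G) ∧ xy.2 ∈ Subgroup.centralizer (P : Set G)})]
  refine ⟨fun z => ⟨z.1.1, z.1.2.1, z.1.2.2.1, z.1.2.2.2, ?_, ?_⟩,
    fun z => ⟨⟨z.1, z.2.1, z.2.2.1, z.2.2.2.1⟩, ?_⟩, fun z => rfl, fun z => rfl⟩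
  · rw [Subgroup.mem_centralizer_iff]
    intro u hu
    have := congrArg (fun w => w.1.1) (z.2 ⟨u, hu⟩)
    exact mul_inv_eq_iff_eq_mul.1 this
  · rw [Subgroup.mem_centralizer_iff]
    intro u hu
    have := congrArg (fun w => w.1.2) (z.2 ⟨u, hu⟩)
    exact mul_inv_eq_iff_eq_mul.1 this
  · intro u
    apply Subtype.ext
    have a1 := Subgroup.mem_centralizer_iff.1 z.2.2.2.2.1 u u.2
    have a2 := Subgroup.mem_centralizer_iff.1 z.2.2.2.2.2 u u.2
    show (u * z.1.1 * (u : G)⁻¹, u * z.1.2 * (u : G)⁻¹) = z.1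
    rw [a1, a2]
    simp

end Cfsg.Agent.S0903
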