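import Cfsg.Statements.S0916
import Cfsg.Agent.H37.SylowIn

set_option autoImplicit false
open Cfsg

namespace Cfsg.Agent.S0916

/-- Let P be a p-subgroup of the finite group G, C its centralizer and N its normalizer. Say that a conjugacy class (of G, or of N) has defect group P when P is a Sylow p-subgroup of the centralizer (in G, respectively in N) of some element of the class. Then: (i) if the class of g in G has defect group P, the elements of that class lying in C form a single N-class, again with defect group P; (ii) every N-class with defect group P arises this way from exactly one G-class with defect group P. -/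
theorem result {G : Type*} [Group G] [Finite G] (p : ℕ) [Fact p.Prime] (P : Subgroup G) (hP : IsPGroup p P) : (∀ g : G, (∃ S : Sylow p (Subgroup.centralizer ({g} : Set G)), (S : Subgroup (Subgroup.centralizer ({g} : Set G))).map (Subgroup.centralizer ({g} : Set G)).subtype = P) → (∃ c : G, IsConj g c ∧ c ∈ Subgroup.centralizer (P : Set G)) ∧ (∀ c₁ c₂ : G, IsConj g c₁ → IsConj g c₂ → c₁ ∈ Subgroup.centralizer (P : Set G) → c₂ ∈ Subgroup.centralizer (P : Set G) → ∃ n ∈ Subgroup.normalizer (P : Set G), n * c₁ * n⁻¹ = c₂)) ∧ (∀ c : G, c ∈ Subgroup.centralizer (P : Set G) → (∃ S : Sylow p (Subgroup.centralizer ({c} : Set G) ⊓ Subgroup.normalizer (P : Set G) : Subgroup G), (S : Subgroup ↥(Subgroup.centralizer ({c} : Set G) ⊓ Subgroup.normalizer (P : Set G))).map (Subgroup.centralizer ({c} : Set G) ⊓ Subgroup.normalizer (P : Set G)).subtype = P) → ∃ S : Sylow p (Subgroup.centralizer ({c} : Set G)), (S : Subgroup (Subgroup.centralizer ({c} : Set G))).map (Subgroup.centralizer ({c} : Set G)).subtype = P) := by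
  refine ⟨fun g hg => ⟨⟨g, IsConj.refl g, ?_⟩, ?_⟩, fun c _ hc => ?_⟩
  · exact H37.le_centralizer_singleton_iff.1 (H37.IsSylowIn.le hg)
  · intro c₁ c₂ h₁ h₂ hc₁ hc₂
    have hg' : H37.IsSylowIn p P (Subgroup.centralizer ({g} : Set G)) := hg
    have s₁ : H37.IsSylowIn p P (Subgroup.centralizer ({c₁} : Set G)) :=
      H37.isSylowIn_of_card (H37.le_centralizer_singleton_iff.2 hc₁)
        (by rw [H37.card_centralizer_of_isConj h₁, hg'.card_eq])
    have s₂ : H37.IsSylowIn p P (Subgroup.centralizer ({c₂} : Set G)) :=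
      H37.isSylowIn_of_card (H37.le_centralizer_singleton_iff.2 hc₂)
        (by rw [H37.card_centralizer_of_isConj h₂, hg'.card_eq])
    obtain ⟨x, hx⟩ := isConj_iff.1 (h₁.symm.trans h₂)
    have s₃ := s₁.conj x
    rw [← H37.centralizer_singleton_conj, hx] at s₃
    obtain ⟨y, hy, hyP⟩ := s₃.exists_conj s₂
    rw [H37.map_conj_map_conj, H37.map_conj_eq_iff_mem_normalizer] at hyP
    refine ⟨y * x, hyP, ?_⟩
    have := Subgroup.mem_centralizer_singleton_iff.1 hy
    calc y * x * c₁ * (y * x)⁻¹ = y * (x * c₁ * x⁻¹) * y⁻¹ := by group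
      _ = y * c₂ * y⁻¹ := by rw [hx]
      _ = c₂ := by rw [this]; group
  · exact H37.IsSylowIn.of_inf_normalizer hc

end Cfsg.Agent.S0916
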