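import Cfsg.Statements.S0918
import Cfsg.Agent.H36.Induce

set_option autoImplicit false
open Cfsg

namespace Cfsg.Agent.S0918

/-- Let P be a p-subgroup of the finite group G and H a subgroup with P·C_G(P) ≤ H ≤ N_G(P); let b be a block of H and B a block of G relative to a maximal ideal M of the algebraic integers containing p. Then b induces B if and only if, for every g ∈ G, every ξ ∈ b and every χ ∈ B, the central character of χ at g is congruent modulo the local ideal at M to the sum of ξ h / ξ 1 over the elements h of H conjugate in G to g and centralizing P. -/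
theorem result {G : Type*} [Group G] [Finite G] (p : ℕ) [Fact p.Prime] (M : Ideal Cfsg.AlgInt) (hM : Cfsg.IsPModular p M) (P H : Subgroup G) (hP : IsPGroup p P) (hPH : P ≤ H) (hCH : Subgroup.centralizer (P : Set G) ≤ H) (hHN : H ≤ Subgroup.normalizer (P : Set G)) (b : Set (Cfsg.IrrCharacter H)) (hb : Cfsg.IsPBlock M b) (B : Set (Cfsg.IrrCharacter G)) (hB : Cfsg.IsPBlock M B) : Cfsg.IsInducedBlock M H b B ↔ ∀ ξ ∈ b, ∀ χ ∈ B, ∀ g : G, Cfsg.MemLocalIdeal M (Cfsg.brauerCentralChar P H (ξ : H → ℂ) g - Cfsg.centralChar (χ : G → ℂ) g) := by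
  have := hM.2.1
  have key : ∀ (ξ : IrrCharacter H) (χ : IrrCharacter G) (g : G),
      MemLocalIdeal M (inducedCentralChar H ξ.1 g - centralChar χ.1 g) ↔
        MemLocalIdeal M (brauerCentralChar P H ξ.1 g - centralChar χ.1 g) := by
    intro ξ χ g
    have h1 := (H36.inv_cl (F := ℂ) ⊤ g).mono (le_top (a := H))
    have h2 : H34.IntC M (H36.br P (H36.cl ℂ ⊤ g)) := H36.intC_tc _ (H36.intC_cl ⊤ g)
    rw [← H35.red_eq_red_iff (H36.inducedCentralChar_mem_S ξ.2 g) (H34.centralChar_mem_S χ.2 g),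
      H36.brauerCentralChar_eq, ← H35.red_eq_red_iff (H36.omega_pull_mem_S ξ.2 (h1.br hHN) h2)
        (H34.centralChar_mem_S χ.2 g), H36.red_inducedCentralChar ξ.2,
      ← H36.lamS_redA ξ.2 (h1.br hHN) h2, H36.redA_br, H36.redA_cl,
      ← H36.lamS_eq_br hM hP hPH hHN ξ.2 (L := ⊤) (inf_le_right.trans hCH)
        ((H36.inv_cl ⊤ g).mono le_top) (H36.supp_univ _)]
  simp only [IsInducedBlock, hb, hB, true_and, key]

end Cfsg.Agent.S0918
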