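import Cfsg.Statements.S0920
import Cfsg.Agent.H36.Main1

set_option autoImplicit false
open Cfsg

namespace Cfsg.Agent.S0920

/-- Brauer's First Main Theorem. Let D be a p-subgroup of the finite group G with normalizer N, and fix a maximal ideal M of the algebraic integers containing p. Then (i) every block b of N having D as a defect group induces some block B of G having D as a defect group; (ii) every block of G with defect group D is induced by exactly one block of N with defect group D. -/
theorem result {G : Type*} [Group G] [Finite G] (p : ℕ) [Fact p.Prime] (M : Ideal Cfsg.AlgInt) (hM : Cfsg.IsPModular p M) (D : Subgroup G) (hD : IsPGroup p D) : (∀ b : Set (Cfsg.IrrCharacter (Subgroup.normalizer (D : Set G))), Cfsg.IsPBlock M b → Cfsg.IsDefectGroup p M b (D.subgroupOf (Subgroup.normalizer (D : Set G))) → ∃ B : Set (Cfsg.IrrCharacter G), Cfsg.IsPBlock M B ∧ Cfsg.IsDefectGroup p M B D ∧ Cfsg.IsInducedBlock M (Subgroup.normalizer (D : Set G)) b B) ∧ (∀ B : Set (Cfsg.IrrCharacter G), Cfsg.IsPBlock M B → Cfsg.IsDefectGroup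 p M B D → ∃! b : Set (Cfsg.IrrCharacter (Subgroup.normalizer (D : Set G))), Cfsg.IsPBlock M b ∧ Cfsg.IsDefectGroup p M b (D.subgroupOf (Subgroup.normalizer (D : Set G))) ∧ Cfsg.IsInducedBlock M (Subgroup.normalizer (D : Set G)) b B) := by
  have := hM.2.1
  refine ⟨fun b hb h => ?_, fun B hB h => ?_⟩
  · obtain ⟨B, hB⟩ := H36.inducedBlockDefined_of_le hM hD Subgroup.le_normalizer
      (Subgroup.centralizer_le_normalizer _) le_rfl hb
    exact ⟨B, hB.2.1, H36.isDefectGroup_of_induced_normalizer hM hB
      ((H36.isDefectGroup_subgroupOf_iff hM hb Subgroup.le_normalizer).1 h), hB⟩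
  · obtain ⟨b, hb, h1⟩ := H36.exists_brauer_correspondent hM hB h
    have h2 := (H36.isInducedBlock_normalizer_iff hM hB h hb).2 h1
    refine ⟨b, ⟨hb, (H36.isDefectGroup_subgroupOf_iff hM hb Subgroup.le_normalizer).2
      (H36.isDef_of_induced hM Subgroup.le_normalizer le_rfl h2 h), h2⟩, fun b' ⟨hb', _, h3⟩ => ?_⟩
    exact H36.eS_inj hb' hb (((H36.isInducedBlock_normalizer_iff hM hB h hb').1 h3).trans h1.symm)

end Cfsg.Agent.S0920
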