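import Cfsg.Statements.S0926
import Cfsg.Agent.H41.DefectVanish
import Cfsg.Agent.H41.PPart
import Cfsg.Agent.S0927

set_option autoImplicit false
open Cfsg

namespace Cfsg.Agent.S0926

/-- Let B be a block of the finite group G with defect group D (relative to a maximal ideal M of the algebraic integers containing p), let χ ∈ B have height zero, and let x be a p-element. Then some conjugate of x lies in D if and only if χ does not vanish on the whole p-section of x (the elements whose p-part is conjugate to x). -/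
theorem result {G : Type*} [Group G] [Finite G] (p : ℕ) [Fact p.Prime] (M : Ideal Cfsg.AlgInt) (hM : Cfsg.IsPModular p M) (B : Set (Cfsg.IrrCharacter G)) (hB : Cfsg.IsPBlock M B) (D : Subgroup G) (hD : Cfsg.IsDefectGroup p M B D) (χ : Cfsg.IrrCharacter G) (hχ : χ ∈ B) (h0 : Cfsg.blockHeight p B (χ : G → ℂ) = 0) (x : G) (hx : ∃ k : ℕ, orderOf x = p ^ k) : (∃ g : G, g * x * g⁻¹ ∈ D) ↔ ∃ u : G, (∃ z : G, Cfsg.IsPPart p u z ∧ IsConj x z) ∧ (χ : G → ℂ) u ≠ 0 := by
  have := hM.2.1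
  constructor
  · rintro ⟨g, hg⟩
    obtain ⟨y, hy, P, rfl⟩ := hD
    obtain ⟨z, hz, hzg⟩ := hg
    have h1 := (Cfsg.Agent.S0927.result p M hM B hB y hy P z hz).1 χ hχ h0
    have hzg' : (z : G) = g * x * g⁻¹ := hzg
    refine ⟨z * y, ⟨z, ⟨y, rfl, Subgroup.mem_centralizer_singleton_iff.1 z.2, ?_,
      H36.not_dvd_orderOf_of_isDefectClass hM hB hy⟩, isConj_iff.2 ⟨g, hzg'.symm⟩⟩, fun h => ?_⟩
    · rwa [hzg', H35.orderOf_conj']
    · exact h1 (h ▸ H35.P_zero)
  · rintro ⟨u, ⟨z, hz, hc⟩, hne⟩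
    by_contra hcon
    refine hne (H41.irr_eq_zero_of_not_conj_mem hM hB hD hχ hz fun t ht => hcon ?_)
    obtain ⟨g, rfl⟩ := isConj_iff.1 hc
    exact ⟨t * g, by simpa [mul_assoc] using ht⟩

end Cfsg.Agent.S0926
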