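import Cfsg.Statements.S0928
import Cfsg.Agent.H37.Kernel
import Cfsg.Agent.H36.Bridge
import Cfsg.Agent.H35.PReg

set_option autoImplicit false
open Cfsg

namespace Cfsg.Agent.S0928

open H28 H35 H34 H36 MonoidAlgebra

theorem idem_eq_zero {G F : Type*} [Group G] [Finite G] [CommRing F] {p : ℕ} [Fact p.Prime]
    [CharP F p] {Z : Subgroup G} (hZ : IsPGroup p Z) (hne : Z ≠ ⊥) {f : MonoidAlgebra F G}
    (hff : f * f = f) (hl : ∀ z ∈ Z, ∀ g, f.coeff (z * g) = f.coeff g)
    (hr : ∀ z ∈ Z, ∀ g, f.coeff (g * z) = f.coeff g) : f = 0 := by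
  classical
  have := Fintype.ofFinite G
  refine galg_ext fun g => ?_
  rw [← hff, coeff_mul_eq_sum', sum_eq_sum_fixed hZ (fun v : F => by simp)
    (fun y : G => f.coeff (g * y⁻¹) * f.coeff y) (fun u y => by
      rw [Subgroup.smul_def, smul_eq_mul, hl _ u.2, mul_inv_rev, ← mul_assoc,
        hr _ (Z.inv_mem u.2)])]
  rw [Finset.sum_eq_zero]
  · simp
  · intro y hy
    simp only [Finset.mem_filter, Finset.mem_univ, true_and, Subgroup.smul_def, smul_eq_mul,
      mul_eq_right] at hy
    exact absurd ((Subgroup.eq_bot_iff_forall Z).2 fun z hz => hy ⟨z, hz⟩) hne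

/-- Let χ be an irreducible character of the finite group G and p a prime. If χ g = 0 for every element g of order p, then the exponent of p in the degree χ(1) equals the exponent of p in the order of G (χ has p-defect zero). -/
theorem result {G : Type*} [Group G] [Finite G] (p : ℕ) [Fact p.Prime] (χ : Cfsg.IrrCharacter G) (hvan : ∀ g : G, orderOf g = p → (χ : G → ℂ) g = 0) : (Cfsg.charDegree (χ : G → ℂ)).factorization p = (Nat.card G).factorization p := by
  classical
  have hp : p.Prime := Fact.out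
  obtain ⟨M, hM⟩ := exists_isPModular p hp
  have := hM.2.1
  have := charP_F hM
  have := Fintype.ofFinite G
  have hB := H37.isPBlock_blockOf (M := M) χ
  have hχ := H37.mem_blockOf_self (M := M) χ
  obtain ⟨g, hg⟩ := exists_isDefectClass hB
  refine le_antisymm (deg_factorization_le p χ.2) ?_
  by_cases hc : p ∣ Nat.card (Subgroup.centralizer ({g} : Set G))
  · exfalso
    obtain ⟨z, hz⟩ := exists_prime_orderOf_dvd_card' p hc
    have hz' : orderOf (z : G) = p := by rw [Subgroup.orderOf_coe, hz]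
    let Z := Subgroup.zpowers (z : G)
    have hZ : IsPGroup p Z := IsPGroup.of_card (n := 1) (by rw [Nat.card_zpowers, hz', pow_one])
    have hZne : Z ≠ ⊥ := by
      rw [Ne, Subgroup.zpowers_eq_bot]
      intro h; rw [h, orderOf_one] at hz'; exact hp.one_lt.ne hz'
    have hZp : ∀ u ∈ Z, u ^ p = 1 := by
      rintro _ ⟨n, rfl⟩
      simp only
      rw [← zpow_natCast, ← zpow_mul, mul_comm, zpow_mul, zpow_natCast, ← hz', pow_orderOf_eq_one,
        one_zpow]
    have hZC : Z ≤ Subgroup.centralizer (Z : Set G) := by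
      rintro _ ⟨n, rfl⟩ _ ⟨m, rfl⟩
      exact ((Commute.refl (z : G)).zpow_zpow m n).eq
    let s : MonoidAlgebra ℂ G := ofFun fun x => if x ^ p = 1 then 1 else 0
    have hsZ : s ∈ H34.Z ℂ G := ofFun_mem_Z fun a b => by
      simp only [conj_pow, mul_inv_eq_one, mul_eq_left]
    have hsI : IntC M s := fun x => by
      simp only [s, coeff_ofFun]; split_ifs
      exacts [one_mem _, zero_mem _]
    have h1 : omega χ.1 s = 1 := by
      rw [omega_eq_sum, Finset.sum_eq_single 1]
      · simp [s, χ.2.apply_one_ne_zero]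
      · intro x _ hx
        simp only [s, coeff_ofFun]
        split_ifs with h
        · rw [hvan x (orderOf_eq_prime h hx)]; simp
        · simp
      · simp
    have h2 : lam M χ.1 (redA M s) ≠ 0 := by
      rw [lam_redA χ.2 hsZ hsI, h1, red_one]; exact one_ne_zero
    obtain ⟨u, hu, he⟩ := exists_eB_eq_mul hB hχ (redA_mem_Z hsZ) h2
    have hinv : ∀ x ∈ H34.Z (F M) G, H36.Inv Z x := fun x hx =>
      ((mem_Fx_top.2 hx).1).mono le_top
    have h3 : br Z (eB M (blockOf M χ.1)) = br Z (redA M s) * br Z u := by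
      rw [he, br_mul hZ (hinv _ (redA_mem_Z hsZ)) (hinv _ hu)]
    have hl : ∀ w ∈ Z, ∀ g, (br Z (eB M (blockOf M χ.1))).coeff (w * g) =
        (br Z (eB M (blockOf M χ.1))).coeff g := fun w hw g => by
      rw [h3, coeff_mul_eq_sum', coeff_mul_eq_sum']
      refine Finset.sum_congr rfl fun y _ => ?_
      congr 1
      rw [mul_assoc]
      by_cases hy : g * y⁻¹ ∈ Subgroup.centralizer (Z : Set G)
      · rw [coeff_br_of_mem _ hy, coeff_br_of_mem _ (Subgroup.mul_mem _ (hZC hw) hy)]
        have : Commute w (g * y⁻¹) := hy w hw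
        simp only [coeff_redA, s, coeff_ofFun, this.mul_pow, hZp w hw, one_mul]
      · rw [coeff_br_of_not_mem _ hy, coeff_br_of_not_mem _
          (fun h => hy ((Subgroup.mul_mem_cancel_left _ (hZC hw)).1 h))]
    have h4 : br Z (eB M (blockOf M χ.1)) = 0 := by
      refine idem_eq_zero hZ hZne ?_ hl fun w hw g => ?_
      · rw [← br_mul hZ (inv_eB _ _) (inv_eB _ _), eB_mul_self hB]
      · by_cases hy : g ∈ Subgroup.centralizer (Z : Set G)
        · rw [← hy w hw, hl w hw]
        · rw [coeff_br_of_not_mem _ hy, coeff_br_of_not_mem _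
            (fun h => hy ((Subgroup.mul_mem_cancel_right _ (hZC hw)).1 h))]
    refine (coeff_eB_ne_zero_iff hB g).2 hg.2.1 (br_eq_zero_iff.1 h4 g ?_)
    rintro _ ⟨n, rfl⟩
    exact (Commute.zpow_left (Subgroup.mem_centralizer_singleton_iff.1 z.2) n).eq
  · have h1 := hg.2.2 χ hχ
    have h2 := inv_mem_S (H37.centralChar_mem_S χ.2 g) h1
    have h3 := mul_mem h2 (H37.char_mem_S (M := M) χ.2.isCharacter g)
    have h0 := ne_zero_of_not_P h1
    have hi : (Subgroup.centralizer ({g} : Set G)).index ≠ 0 := Subgroup.index_ne_zero_of_finite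
    have h4 : (centralChar χ.1 g)⁻¹ * χ.1 g = (charDegree χ.1 : ℂ) /
        (Subgroup.centralizer ({g} : Set G)).index := by
      rw [centralChar] at h0 ⊢
      have : χ.1 g ≠ 0 := fun h => h0 (by rw [h]; simp)
      rw [coe_deg]; field_simp
    rw [h4, natCast_div_natCast_mem_S_iff hM (deg_ne_zero χ) hi] at h3
    rw [← (Subgroup.centralizer ({g} : Set G)).card_mul_index,
      Nat.factorization_mul Nat.card_pos.ne' hi, Finsupp.add_apply,
      Nat.factorization_eq_zero_of_not_dvd hc, zero_add]
    exact h3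

end Cfsg.Agent.S0928
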