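import Cfsg.Statements.S0931
import Cfsg.Agent.H36.Extended

set_option autoImplicit false
open Cfsg

namespace Cfsg.Agent.S0931

/-- Let H be a subgroup of the finite group G and fix a maximal ideal M of the algebraic integers containing the prime p. If the block b of H induces the block B of G, then b has defect 0 if and only if B has defect 0. -/
theorem result {G : Type*} [Group G] [Finite G] (p : ℕ) [Fact p.Prime] (M : Ideal Cfsg.AlgInt) (hM : Cfsg.IsPModular p M) (H : Subgroup G) (b : Set (Cfsg.IrrCharacter H)) (B : Set (Cfsg.IrrCharacter G)) (hind : Cfsg.IsInducedBlock M H b B) : Cfsg.blockDefect p b = 0 ↔ Cfsg.blockDefect p B = 0 := by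
  have := hM.2.1
  refine ⟨fun h => ?_, fun h => Nat.le_zero.1 (h ▸ H36.blockDefect_le_of_induced hM hind)⟩
  have hD := (H36.isDefectGroup_bot_iff hM hind.1).2 h
  obtain ⟨P, hP⟩ := H34.exists_isDefectGroup p hind.2.1
  rw [H36.blockDefect_eq_zero_iff hM hind.2.1 hP]
  by_contra hne
  have := (Subgroup.nontrivial_iff_ne_bot P).2 hne
  have := (H36.isPGroup_of_isDefectGroup hP).center_nontrivial
  obtain ⟨⟨x, hx⟩, hx1⟩ := exists_ne (1 : Subgroup.center P)
  obtain ⟨z, h1, h2, -⟩ := H36.exists_conj_mem_center_of_induced hM hind hD hP x.2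
    (Subgroup.mem_centralizer_iff.2 fun w hw =>
      congrArg Subtype.val (Subgroup.mem_center_iff.1 hx ⟨w, hw⟩))
  rw [Subgroup.mem_bot.1 h2, OneMemClass.coe_one, isConj_one_left] at h1
  exact hx1 (Subtype.ext (Subtype.ext h1))

end Cfsg.Agent.S0931
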