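import Cfsg.Statements.S0934
import Cfsg.Agent.H37.ThirdMain

set_option autoImplicit false
open Cfsg

namespace Cfsg.Agent.S0934

/-- Let H be a subgroup of the finite group G and fix a maximal ideal M of the algebraic integers containing the prime p. If the block b of H induces the block B of G and ξ ∈ b, then there is χ ∈ B whose restriction to H has nonzero inner product with ξ. -/
theorem result {G : Type*} [Group G] [Fintype G] (p : ℕ) [Fact p.Prime] (M : Ideal Cfsg.AlgInt) (hM : Cfsg.IsPModular p M) (H : Subgroup G) [Fintype H] (b : Set (Cfsg.IrrCharacter H)) (B : Set (Cfsg.IrrCharacter G)) (hind : Cfsg.IsInducedBlock M H b B) (ξ : Cfsg.IrrCharacter H) (hξ : ξ ∈ b) : ∃ χ ∈ B, Cfsg.classInner (fun h : H => (χ : G → ℂ) h) (ξ : H → ℂ) ≠ 0 := by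
  have := hM.2.1
  obtain ⟨χ, hχ, a, ha, ha0, -⟩ := H37.exists_mem_induced_over hM H hind hξ
  refine ⟨χ, hχ, ?_⟩
  rw [H33.classInner_indFun_left H _ (H28.Cfsg.IsIrrCharacter.isClassFunction χ.2)] at ha
  rw [H28.classInner_comm_of_nat ha]
  exact Nat.cast_ne_zero.2 ha0

end Cfsg.Agent.S0934
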