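import Cfsg.Statements.S0938
import Cfsg.Agent.H37.Kernel

set_option autoImplicit false
open Cfsg

namespace Cfsg.Agent.S0938

/-- Let B be a block of the finite group G relative to a maximal ideal M of the algebraic integers containing the prime p, and let χ ∈ B. Then the kernel of B (the set of g with ψ g = ψ 1 for all ψ ∈ B) is a normal subgroup of order prime to p contained in the kernel of χ, and it contains every normal subgroup of order prime to p on which χ takes the value χ(1); that is, it is O_p' of the kernel of χ. -/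
theorem result {G : Type*} [Group G] [Finite G] (p : ℕ) [Fact p.Prime] (M : Ideal Cfsg.AlgInt) (hM : Cfsg.IsPModular p M) (B : Set (Cfsg.IrrCharacter G)) (hB : Cfsg.IsPBlock M B) (χ : Cfsg.IrrCharacter G) (hχ : χ ∈ B) : ∃ K : Subgroup G, K.Normal ∧ (K : Set G) = Cfsg.blockKer B ∧ ¬ p ∣ Nat.card K ∧ (∀ g ∈ K, (χ : G → ℂ) g = (χ : G → ℂ) 1) ∧ ∀ N : Subgroup G, N.Normal → ¬ p ∣ Nat.card N → (∀ g ∈ N, (χ : G → ℂ) g = (χ : G → ℂ) 1) → N ≤ K := by
  have := hM.2.1
  refine ⟨H37.blockKerSub B, H37.blockKerSub_normal B, H37.coe_blockKerSub B,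
    H37.not_dvd_card_blockKerSub hM hB,
    fun g hg => H28.apply_of_mem_charKer (H37.mem_blockKerSub.1 hg χ hχ), fun N hN hp h => ?_⟩
  exact H37.le_blockKerSub hM hB hχ N hp fun g hg =>
    (H28.Cfsg.IsIrrCharacter.mem_charKer χ.2).2 (h g hg)

end Cfsg.Agent.S0938
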