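import Cfsg.Statements.S0945
import Cfsg.Agent.H34.Rank2

set_option autoImplicit false
open Cfsg

namespace Cfsg.Agent.S0945

/-- Let P be a Sylow 2-subgroup of the finite group G isomorphic to Z/2^m × Z/2^m with m ≥ 1. Then (i) the index of C_G(P) in N_G(P) is 1 or 3, and (ii) if it is not 1, then for every z ≠ 1 in P, C_G(z) ∩ N_G(P) = C_G(P). -/
theorem result {G : Type*} [Group G] [Finite G] (P : Sylow 2 G) (m : ℕ) (hm : 1 ≤ m) (e : (P : Subgroup G) ≃* Multiplicative (ZMod (2 ^ m) × ZMod (2 ^ m))) : ((Subgroup.centralizer (P : Set G)).relIndex (Subgroup.normalizer (P : Set G)) = 1 ∨ (Subgroup.centralizer (P : Set G)).relIndex (Subgroup.normalizer (P : Set G)) = 3) ∧ ((Subgroup.centralizer (P : Set G)).relIndex (Subgroup.normalizer (P : Set G)) ≠ 1 → ∀ z ∈ (P : Subgroup G), z ≠ 1 → Subgroup.centralizer ({z} : Set G) ⊓ Subgroup.normalizer (P : Set G) = Subgroup.centralizer (P : Set G)) := by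
  have h := H34.rk2_of_homocyclic hm e
  refine ⟨(Nat.dvd_prime Nat.prime_three).1 h.relIndex_dvd_three, fun _ z hz hz1 => ?_⟩
  refine le_antisymm (fun n hn => h.mem_C_of_commute hn.2 hz hz1
    (H28.mem_centralizer_singleton.1 hn.1)) (le_inf ?_ (Subgroup.centralizer_le_normalizer _))
  exact Subgroup.centralizer_le (Set.singleton_subset_iff.2 hz)

end Cfsg.Agent.S0945
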