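import Cfsg.Statements.S0947
import Cfsg.Agent.H37.Sec

set_option autoImplicit false
open Cfsg

namespace Cfsg.Agent.S0947

open H28 H35 H37 H41

/-- Let z ≠ 1 be a p-element of the finite group G with centralizer H, and fix a maximal ideal M of the algebraic integers containing p. (i) For every y ∈ H of order prime to p, the sum over ζ in the principal block of G of |ζ (z * y)|² equals the sum over χ in the principal block of H of |χ y|². (ii) If moreover H has a normal p-complement (its largest normal subgroup of order prime to p has p-power index), that common value is the largest power of p dividing the order of H. -/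
theorem result {G : Type*} [Group G] [Finite G] (p : ℕ) [Fact p.Prime] (M : Ideal Cfsg.AlgInt) (hM : Cfsg.IsPModular p M) (z : G) (hz : ∃ k : ℕ, orderOf z = p ^ k) (hz1 : z ≠ 1) (y : Subgroup.centralizer ({z} : Set G)) (hy : ¬ p ∣ orderOf y) : (∑ᶠ ζ ∈ Cfsg.principalBlock M G, ‖(ζ : G → ℂ) (z * (y : G))‖ ^ 2 = ∑ᶠ χ ∈ Cfsg.principalBlock M (Subgroup.centralizer ({z} : Set G)), ‖(χ : Subgroup.centralizer ({z} : Set G) → ℂ) y‖ ^ 2) ∧ ((∃ k : ℕ, (Cfsg.pPrimeCore p (Subgroup.centralizer ({z} : Set G))).index = p ^ k) → ∑ᶠ ζ ∈ Cfsg.principalBlock M G, ‖(ζ : G → ℂ) (z * (y : G))‖ ^ 2 = ((p ^ (Nat.card (Subgroup.centralizer ({z} : Set G))).factorization p : ℕ) : ℝ)) := by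
  have := hM.2.1
  have h1 := bker_principal_sec hM (isSec_centralizer hz) hy hy
  refine ⟨?_, fun ⟨k, hk⟩ => ?_⟩
  · rw [bker_self, bker_self] at h1
    exact_mod_cast h1
  · have hc : ¬ p ∣ Nat.card (pPrimeCore p (Subgroup.centralizer ({z} : Set G))) := by
      rw [← blockKerSub_principalBlock hM]
      exact not_dvd_card_blockKerSub hM isPBlock_principalBlock
    have := blockKerSub_normal (principalBlock M (Subgroup.centralizer ({z} : Set G)))
    rw [blockKerSub_principalBlock hM] at this
    have hy' := (not_dvd_orderOf_iff_mem_of_normal hM.1 hc hk y).1 hy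
    rw [bker_principal_of_normal_compl hM hk y y hy', if_pos hy', bker_self, hk] at h1
    have h2 : (Nat.card (Subgroup.centralizer ({z} : Set G))).factorization p = k := by
      rw [← (pPrimeCore p (Subgroup.centralizer ({z} : Set G))).card_mul_index, hk,
        Nat.factorization_mul Nat.card_pos.ne' (pow_ne_zero _ hM.1.ne_zero), Finsupp.add_apply,
        Nat.factorization_eq_zero_of_not_dvd hc, zero_add, hM.1.factorization_pow]
      simp
    rw [h2]
    exact_mod_cast h1

end Cfsg.Agent.S0947
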