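import Cfsg.Statements.S0952
import Cfsg.Agent.H35.BSpan

set_option autoImplicit false
open scoped ComplexConjugate
open Cfsg H28

namespace Cfsg.Agent.S0952

/-- Let χ and ψ be irreducible characters of the finite group G lying in different blocks relative to a maximal ideal M of the algebraic integers containing the prime p. Then the sum of χ x * conj (ψ x) over the elements x of order prime to p is zero. -/
theorem result {G : Type*} [Group G] [Finite G] (p : ℕ) [Fact p.Prime] (M : Ideal Cfsg.AlgInt) (hM : Cfsg.IsPModular p M) (χ ψ : Cfsg.IrrCharacter G) (h : ¬ Cfsg.SameBlock M (χ : G → ℂ) (ψ : G → ℂ)) : ∑ᶠ x ∈ {x : G | ¬ p ∣ orderOf x}, (χ : G → ℂ) x * conj ((ψ : G → ℂ) x) = 0 := by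
  classical
  have := Fintype.ofFinite G
  have := hM.2.1
  have h1 := H35.classInner_pReg_eq_zero hM (H37.isPBlock_blockOf χ) (H37.mem_blockOf_self χ)
    (ψ := ψ) h
  rw [H35.classInner_pReg_eq_sum, mul_eq_zero] at h1
  rw [← finsum_mem_coe_finset, Finset.coe_filter_univ] at h1
  exact h1.resolve_left (inv_ne_zero (H28.card_ne_zero' G))

end Cfsg.Agent.S0952
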