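import Cfsg.Statements.S0954
import Cfsg.Agent.H38.CoverB

set_option autoImplicit false
open Cfsg

namespace Cfsg.Agent.S0954

/-- Let N be a normal subgroup of the finite group G of order prime to p and of p-power index (a normal p-complement), and fix a maximal ideal M of the algebraic integers containing p. Then two irreducible characters χ, ψ of G lie in the same block if and only if some irreducible character of N has nonzero inner product with both the restriction of χ and the restriction of ψ. -/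
theorem result {G : Type*} [Group G] [Fintype G] (p : ℕ) [Fact p.Prime] (M : Ideal Cfsg.AlgInt) (hM : Cfsg.IsPModular p M) (N : Subgroup G) [N.Normal] [Fintype N] (hN : ¬ p ∣ Nat.card N) (hidx : ∃ k : ℕ, N.index = p ^ k) (χ ψ : Cfsg.IrrCharacter G) : Cfsg.SameBlock M (χ : G → ℂ) (ψ : G → ℂ) ↔ ∃ θ : Cfsg.IrrCharacter N, Cfsg.classInner (fun n : N => (χ : G → ℂ) n) (θ : N → ℂ) ≠ 0 ∧ Cfsg.classInner (fun n : N => (ψ : G → ℂ) n) (θ : N → ℂ) ≠ 0 := by
  have := hM.2.1
  obtain ⟨k, hk⟩ := hidx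
  constructor
  · intro h
    obtain ⟨θ, hθ⟩ := H38.exists_under_irr N.subtype χ
    obtain ⟨_, rfl, h2⟩ := (H38.NEmb.bcl_above (E := H38.NEmb.ofNormal N)
      (H38.bcl_of_not_dvd hM hN {θ})).mem (θ := χ) ⟨θ, rfl, hθ⟩ h
    exact ⟨_, hθ, h2⟩
  · rintro ⟨θ, h1, h2⟩
    have := H38.Covers.unique_of_pRegular (E := H38.NEmb.ofNormal N) hM
      (fun g hg => ⟨⟨g, H38.mem_of_index_eq_pow hM.1 hk hg⟩, rfl⟩) (H34.isPBlock_blockOf χ)
      (H34.isPBlock_blockOf ψ) (H34.isPBlock_blockOf θ)
      ⟨χ, H34.self_mem_blockOf χ, θ, H34.self_mem_blockOf θ, h1⟩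
      ⟨ψ, H34.self_mem_blockOf ψ, θ, H34.self_mem_blockOf θ, h2⟩
    have h3 := H34.self_mem_blockOf (M := M) ψ
    rw [← this] at h3
    exact h3

end Cfsg.Agent.S0954
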