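import Cfsg.Statements.S0957
import Cfsg.Agent.H37.SylowIn

set_option autoImplicit false
open Cfsg

namespace Cfsg.Agent.S0957

theorem dvd_card_of_dvd_orbits {H α : Type*} [Group H] [MulAction H α] [Finite α] (m : ℕ)
    (h : ∀ a : α, m ∣ Nat.card (MulAction.orbit H a)) : m ∣ Nat.card α := by
  classical
  rw [Nat.card_congr (MulAction.selfEquivSigmaOrbits' H α)]
  have := Fintype.ofFinite (MulAction.orbitRel.Quotient H α)
  rw [Nat.card_sigma]
  apply Finset.dvd_sum
  intro w _
  induction w using Quotient.inductionOn' with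
  | h a => exact h a

/-- The conjugation action of `P` on the pairs. -/
@[reducible] def act {G : Type*} [Group G] (P : Subgroup G) (g h : G) :
    MulAction P {yz : G × G // IsConj g yz.1 ∧ IsConj h yz.2 ∧ yz.2 * yz.1⁻¹ ∈ P} where
  smul u xy := ⟨(u * xy.1.1 * (u : G)⁻¹, u * xy.1.2 * (u : G)⁻¹),
    xy.2.1.trans (isConj_iff.2 ⟨u, rfl⟩), xy.2.2.1.trans (isConj_iff.2 ⟨u, rfl⟩), by
      have : u * xy.1.2 * (u : G)⁻¹ * (u * xy.1.1 * (u : G)⁻¹)⁻¹ =
          u * (xy.1.2 * xy.1.1⁻¹) * (u : G)⁻¹ := by group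
      show u * xy.1.2 * (u : G)⁻¹ * (u * xy.1.1 * (u : G)⁻¹)⁻¹ ∈ P
      rw [this]
      exact P.mul_mem (P.mul_mem u.2 xy.2.2.2) (P.inv_mem u.2)⟩
  one_smul xy := by
    apply Subtype.ext
    show ((1 : P) * xy.1.1 * ((1 : P) : G)⁻¹, (1 : P) * xy.1.2 * ((1 : P) : G)⁻¹) = xy.1
    simp
  mul_smul u v xy := by
    apply Subtype.ext
    show ((u * v : P) * xy.1.1 * ((u * v : P) : G)⁻¹, (u * v : P) * xy.1.2 * ((u * v : P) : G)⁻¹) =
      (u * (v * xy.1.1 * (v : G)⁻¹) * (u : G)⁻¹, u * (v * xy.1.2 * (v : G)⁻¹) * (u : G)⁻¹)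
    simp [mul_assoc]

/-- Let P be a Sylow p-subgroup of the finite group G, let g, h ∈ G and let p ^ d be the order of a Sylow p-subgroup of the centralizer of g. Then the number of pairs (y, z) with y conjugate to g, z conjugate to h and z * y⁻¹ ∈ P is divisible by the order of P divided by p ^ d. -/
theorem result {G : Type*} [Group G] [Finite G] (p : ℕ) [Fact p.Prime] (P : Sylow p G) (g h : G) (S : Sylow p (Subgroup.centralizer ({g} : Set G))) : Nat.card P / Nat.card S ∣ Nat.card {yz : G × G // IsConj g yz.1 ∧ IsConj h yz.2 ∧ yz.2 * yz.1⁻¹ ∈ (P : Subgroup G)} := by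
  letI := act (P : Subgroup G) g h
  apply dvd_card_of_dvd_orbits (H := (P : Subgroup G))
  intro a
  have h2 : Nat.card (MulAction.stabilizer (P : Subgroup G) a) ∣ Nat.card S := by
    rw [← Subgroup.card_map_of_injective (P : Subgroup G).subtype_injective]
    have h3 : (MulAction.stabilizer (P : Subgroup G) a).map (P : Subgroup G).subtype ≤
        Subgroup.centralizer ({a.1.1} : Set G) := by
      rintro _ ⟨u, hu, rfl⟩
      rw [Subgroup.mem_centralizer_singleton_iff]
      have := congrArg (fun w => w.1.1) (MulAction.mem_stabilizer_iff.1 hu)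
      exact mul_inv_eq_iff_eq_mul.1 this
    have h4 := H37.card_dvd_pow_factorization (p := p)
      ((P.isPGroup'.to_subgroup _).map _) h3
    rw [H37.card_centralizer_of_isConj a.2.1] at h4
    show _ ∣ Nat.card (S : Subgroup (Subgroup.centralizer ({g} : Set G)))
    rw [S.card_eq_multiplicity]
    exact h4
  obtain ⟨k, hk⟩ := h2
  have h5 : Nat.card P = Nat.card (MulAction.orbit (P : Subgroup G) a) *
      Nat.card (MulAction.stabilizer (P : Subgroup G) a) := by
    rw [← Nat.card_prod, Nat.card_congr (MulAction.orbitProdStabilizerEquivGroup (P : Subgroup G) a)]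
  have h6 : Nat.card S ∣ Nat.card P := by
    have h4 := H37.card_dvd_pow_factorization (p := p) (H := ⊤)
      (S.isPGroup'.map (Subgroup.centralizer ({g} : Set G)).subtype) le_top
    rw [Subgroup.card_map_of_injective (Subgroup.subtype_injective _), Subgroup.card_top,
      ← P.card_eq_multiplicity] at h4
    exact h4
  obtain ⟨m, hm⟩ := h6
  have hpos : 0 < Nat.card (MulAction.stabilizer (P : Subgroup G) a) := Nat.card_pos
  have hS : 0 < Nat.card S := Nat.card_pos
  rw [hm, Nat.mul_div_cancel_left _ hS]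
  refine ⟨k, ?_⟩
  apply Nat.eq_of_mul_eq_mul_right hpos
  rw [← h5, hm, hk]
  ring

end Cfsg.Agent.S0957
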