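import Cfsg.Statements.S0959
import Cfsg.Agent.H36.Induce

set_option autoImplicit false
open Cfsg

namespace Cfsg.Agent.S0959

/-- Let B be a block of the finite group G with defect group D (relative to a maximal ideal M of the algebraic integers containing the prime p), and let P be a p-subgroup. Then there is an element g whose idempotent coefficient for B is a local integer outside the local ideal at M and which has a conjugate centralizing P, if and only if some conjugate of P is contained in D. -/
theorem result {G : Type*} [Group G] [Finite G] (p : ℕ) [Fact p.Prime] (M : Ideal Cfsg.AlgInt) (hM : Cfsg.IsPModular p M) (B : Set (Cfsg.IrrCharacter G)) (hB : Cfsg.IsPBlock M B) (D : Subgroup G) (hD : Cfsg.IsDefectGroup p M B D) (P : Subgroup G) (hP : IsPGroup p P) : (∃ g : G, Cfsg.MemLocalRing M (Cfsg.blockCoeff B g) ∧ ¬ Cfsg.MemLocalIdeal M (Cfsg.blockCoeff B g) ∧ ∃ c : G, IsConj g c ∧ c ∈ Subgroup.centralizer (P : Set G)) ↔ ∃ x : G, P.map (MulAut.conj x).toMonoidHom ≤ D := by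
  have := hM.2.1
  have := H35.charP_F hM
  have h1 := ((H36.isDefectGroup_iff hM hB).1 hD).br_ne_zero_iff (H36.inv_eB B ⊤) le_top hP
  simp only [Subgroup.mem_top, true_and] at h1
  rw [← h1, H36.br_ne_zero_iff]
  constructor
  · rintro ⟨g, -, h2, c, hc, hc'⟩
    refine ⟨c, hc', ?_⟩
    rw [(H36.inv_eB B ⊤).coeff_eq (H36.conjIn_top.2 hc)]
    exact (H36.coeff_eB_ne_zero_iff hB g).2 h2
  · rintro ⟨g, hg, h2⟩
    exact ⟨g, H34.blockCoeff_mem_S hB g, (H36.coeff_eB_ne_zero_iff hB g).1 h2, g, IsConj.refl g, hg⟩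

end Cfsg.Agent.S0959
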