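import Cfsg.Statements.S0967
import Cfsg.Agent.H38.CoverB
import Cfsg.Agent.H37.Kernel

set_option autoImplicit false
open Cfsg

namespace Cfsg.Agent.S0967

/-- Let N be a normal subgroup of the finite group G of order prime to p and fix a maximal ideal M of the algebraic integers containing p. If χ is an irreducible character of G ⧸ N and ψ lies in the block of its inflation χ ∘ (quotient map), then ψ is itself inflated from an irreducible character ψ' of G ⧸ N lying in the block of χ. (Over a normal p'-subgroup, blocks of the quotient are whole blocks of G.) -/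
theorem result {G : Type*} [Group G] [Finite G] (p : ℕ) [Fact p.Prime] (M : Ideal Cfsg.AlgInt) (hM : Cfsg.IsPModular p M) (N : Subgroup G) [N.Normal] (hN : ¬ p ∣ Nat.card N) (χ : Cfsg.IrrCharacter (G ⧸ N)) (ψ : Cfsg.IrrCharacter G) (hψ : ψ ∈ Cfsg.blockOf M ((χ : G ⧸ N → ℂ) ∘ QuotientGroup.mk)) : ∃ ψ' : Cfsg.IrrCharacter (G ⧸ N), (ψ : G → ℂ) = (ψ' : G ⧸ N → ℂ) ∘ QuotientGroup.mk ∧ Cfsg.SameBlock M (χ : G ⧸ N → ℂ) (ψ' : G ⧸ N → ℂ) := by
  have := hM.2.1
  have hχ := H28.Cfsg.IsIrrCharacter.inflate χ.2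
  have h2 := H37.le_charKer_of_sameBlock hM hχ ψ.2 hψ N hN (H28.le_charKer_inflate N _)
  obtain ⟨η, hη, h3⟩ := H28.Cfsg.IsIrrCharacter.exists_quotient ψ.2 N h2
  have h4 : ψ.1 = η ∘ QuotientGroup.mk := funext fun g => (h3 g).symm
  refine ⟨⟨η, hη⟩, h4, ?_⟩
  refine H38.sameBlock_of_comp_of_not_dvd (π := QuotientGroup.mk' N) hM
    (QuotientGroup.mk'_surjective N) (by rwa [QuotientGroup.ker_mk']) ?_
  have h5 : Cfsg.SameBlock M _ ψ.1 := hψ
  rw [h4] at h5
  exact h5

end Cfsg.Agent.S0967
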