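import Cfsg.Statements.S0968
import Cfsg.Agent.H41.CenDef

set_option autoImplicit false
open Cfsg

namespace Cfsg.Agent.S0968

/-- Let P be a p-subgroup of the finite group G with P ⊔ C_G(P) = G, and let B be a block with defect group P relative to a maximal ideal M of the algebraic integers containing p. Then there is exactly one θ ∈ B with θ x = θ 1 for all x ∈ P; for this θ the exponent of p in θ(1) equals the exponent of p in the index of P; and the number of members of B equals the number of conjugacy classes of P. -/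
theorem result {G : Type*} [Group G] [Finite G] (p : ℕ) [Fact p.Prime] (M : Ideal Cfsg.AlgInt) (hM : Cfsg.IsPModular p M) (P : Subgroup G) (hP : IsPGroup p P) (hG : P ⊔ Subgroup.centralizer (P : Set G) = ⊤) (B : Set (Cfsg.IrrCharacter G)) (hB : Cfsg.IsPBlock M B) (hD : Cfsg.IsDefectGroup p M B P) : (∃! θ : Cfsg.IrrCharacter G, θ ∈ B ∧ ∀ x ∈ P, (θ : G → ℂ) x = (θ : G → ℂ) 1) ∧ (∀ θ ∈ B, (∀ x ∈ P, (θ : G → ℂ) x = (θ : G → ℂ) 1) → (Cfsg.charDegree (θ : G → ℂ)).factorization p = P.index.factorization p) ∧ Nat.card B = Nat.card (ConjClasses P) := by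
  have := hM.2.1
  have := H41.normal_of_sup_eq_top hG
  have h := H41.pcq_of_sup_eq_top hM.1 hP hG
  have hk : (QuotientGroup.mk' P).ker = P := QuotientGroup.ker_mk' P
  have hi : ∀ θ : Cfsg.IrrCharacter G, (QuotientGroup.mk' P).ker ≤ H28.charKer (θ : G → ℂ) ↔
      ∀ x ∈ P, (θ : G → ℂ) x = (θ : G → ℂ) 1 := fun θ => by
    rw [hk]
    exact H28.Cfsg.IsCharacter.le_charKer_iff (H28.Cfsg.IsIrrCharacter.isCharacter θ.2)
  have hD' : Cfsg.IsDefectGroup p M B (QuotientGroup.mk' P).ker := by rwa [hk]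
  refine ⟨?_, fun θ hθ h1 => h.nu_of_ker_le hM hB hD' hθ ((hi θ).2 h1), ?_⟩
  · obtain ⟨χ, hχ, h1⟩ := H34.exists_mem_le_charKer hM _ h.pk hB
    exact ⟨χ, ⟨hχ, (hi χ).1 h1⟩, fun θ hθ => h.eq_of_ker_le hM hB hD' hθ.1 hχ ((hi θ).2 hθ.2) h1⟩
  · rw [H41.card_block_eq_card_irr hM hG hB hD, H28.card_irr_eq_card_conjClasses]

end Cfsg.Agent.S0968
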