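import Cfsg.Statements.S0970
import Cfsg.Agent.H38.CoverS
import Cfsg.Agent.S0908

set_option autoImplicit false
open Cfsg

namespace Cfsg.Agent.S0970

/-- Let N be a normal subgroup of the finite group G and fix a maximal ideal M of the algebraic integers containing the prime p. Let b be a block of N that is invariant under conjugation by G, and B a block of G covering b (some χ ∈ B has a constituent in b) whose defect is at least that of every block covering b. If P is a defect group of B, then p does not divide the index of P ⊔ N, the subgroup P ∩ N of N is a defect group of b, and the defect of B equals the defect of b plus the exponent of p in the index of N. -/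
theorem result {G : Type*} [Group G] [Fintype G] (p : ℕ) [Fact p.Prime] (M : Ideal Cfsg.AlgInt) (hM : Cfsg.IsPModular p M) (N : Subgroup G) [hN : N.Normal] [Fintype N] (b : Set (Cfsg.IrrCharacter N)) (hb : Cfsg.IsPBlock M b) (hinv : ∀ g : G, ∀ θ ∈ b, ∀ θ' : Cfsg.IrrCharacter N, (∀ n : N, (θ' : N → ℂ) n = (θ : N → ℂ) ⟨g * n * g⁻¹, hN.conj_mem n n.2 g⟩) → θ' ∈ b) (B : Set (Cfsg.IrrCharacter G)) (hB : Cfsg.IsPBlock M B) (hcov : ∃ χ ∈ B, ∃ θ ∈ b, Cfsg.classInner (fun n : N => (χ : G → ℂ) n) (θ : N → ℂ) ≠ 0) (hmax : ∀ B' : Set (Cfsg.IrrCharacter G), Cfsg.IsPBlock M B' → (∃ χ ∈ B', ∃ θ ∈ b, Cfsg.classInner (fun n : N => (χ : G → ℂ) n) (θ : N → ℂ) ≠ 0) → Cfsg.blockDefect p B' ≤ Cfsg.blockDefect p B) (P : Subgroup G) (hP : Cfsg.IsDefectGroup p M B P) : ¬ p ∣ (P ⊔ N).index ∧ Cfsg.IsDefectGroup p M b ((P ⊓ N).subgroupOf N) ∧ Cfsg.blockDefect p B = Cfsg.blockDefect p b + N.index.factorization p := by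
  have := hM.2.1
  have := H35.charP_F hM
  have hp1 := hM.1.one_lt
  have hi : H36.Inv ⊤ (H36.eS M N b) := H39.inv_iff_le_stab.2 fun g _ =>
    (H38.cjI_image_eq_iff hb).1 (H38.stab_cond_iff.1 (hinv g))
  have he := H38.blk_eS hb
  have hK := H38.nor_of_normal N ⊤
  have hPc := S0908.result p M hM B hB P hP
  have hD : H36.IsDef p ⊤ (H36.eS M N b) P := by
    refine H38.fong_isDef_of_max le_top he hi (H38.blk_eB hB) ((H38.covers_iff_eS hB hb).1 hcov)
      ((H36.isDefectGroup_iff hM hB).1 hP) fun E' D hE' h1 h2 => ?_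
    obtain ⟨B', hB', rfl⟩ := H36.isPrim_top_iff.1 hE'
    rw [S0908.result p M hM B' hB' D ((H36.isDefectGroup_iff hM hB').2 h2), hPc]
    exact Nat.pow_le_pow_right hM.1.pos (hmax B' hB' ((H38.covers_iff_eS hB' hb).2 h1))
  have h1 := H38.fong_not_dvd' hM le_top hK he hi hD
  rw [Subgroup.relIndex_top_right] at h1
  have h2 := (H36.isDefectGroup_subgroupOf_iff hM hb inf_le_right).2 (H38.fong_inf hK le_top he hD)
  refine ⟨h1, h2, ?_⟩
  have h3 := S0908.result p M hM b hb _ h2
  rw [Nat.card_congr (Subgroup.subgroupOfEquivOfLe (inf_le_right : P ⊓ N ≤ N)).toEquiv] at h3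
  have h4 := H38.card_sup_mul_card_inf (H38.nor_of_normal N P)
  have h5 := (P ⊔ N).card_mul_index
  rw [← N.card_mul_index] at h5
  have h6 : p ^ blockDefect p B * (P ⊔ N).index = p ^ blockDefect p b * N.index := by
    rw [← h3, ← hPc]
    apply Nat.eq_of_mul_eq_mul_right (Nat.card_pos (α := N))
    calc Nat.card P * (P ⊔ N).index * Nat.card N
        = Nat.card P * Nat.card N * (P ⊔ N).index := by ring
      _ = Nat.card (P ⊓ N : Subgroup G) * (Nat.card (P ⊔ N : Subgroup G) * (P ⊔ N).index) := by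
        rw [← h4]; ring
      _ = _ := by rw [h5]; ring
  have h7 := congrArg (fun n : ℕ => n.factorization p) h6
  simp only [Nat.factorization_mul (pow_ne_zero _ hM.1.ne_zero) Subgroup.index_ne_zero_of_finite,
    Finsupp.add_apply, hM.1.factorization_pow, Finsupp.single_eq_same,
    Nat.factorization_eq_zero_of_not_dvd h1, add_zero] at h7
  exact h7

end Cfsg.Agent.S0970
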