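import Cfsg.Statements.S0971
import Cfsg.Agent.H38.CoverS

set_option autoImplicit false
open Cfsg

namespace Cfsg.Agent.S0971

/-- Let Q be a normal p-subgroup of the finite group G, let N = Q ⊔ C_G(Q) (a normal subgroup) and let b be a block of N relative to a maximal ideal M of the algebraic integers containing p. Then b induces some block of G, and every block B of G containing a character whose restriction to N has a constituent in b is induced by b. -/
theorem result {G : Type*} [Group G] [Fintype G] (p : ℕ) [Fact p.Prime] (M : Ideal Cfsg.AlgInt) (hM : Cfsg.IsPModular p M) (Q : Subgroup G) [Q.Normal] (hQ : IsPGroup p Q) [Fintype ↥(Q ⊔ Subgroup.centralizer (Q : Set G))] (b : Set (Cfsg.IrrCharacter ↥(Q ⊔ Subgroup.centralizer (Q : Set G)))) (hb : Cfsg.IsPBlock M b) : Cfsg.InducedBlockDefined M (Q ⊔ Subgroup.centralizer (Q : Set G)) b ∧ ∀ B : Set (Cfsg.IrrCharacter G), Cfsg.IsPBlock M B → (∃ χ ∈ B, ∃ θ ∈ b, Cfsg.classInner (fun n : ↥(Q ⊔ Subgroup.centralizer (Q : Set G)) =>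 (χ : G → ℂ) n) (θ : ↥(Q ⊔ Subgroup.centralizer (Q : Set G)) → ℂ) ≠ 0) → Cfsg.IsInducedBlock M (Q ⊔ Subgroup.centralizer (Q : Set G)) b B := by
  have := hM.2.1
  have := H35.charP_F hM
  have hn : (Q ⊔ Subgroup.centralizer (Q : Set G)).Normal := inferInstance
  refine ⟨H36.inducedBlockDefined_of_le hM hQ le_sup_left le_sup_right (H38.nor_of_normal Q _) hb,
    fun B hB h => ?_⟩
  rw [H36.isInducedBlock_iff_br hM hQ le_sup_left le_sup_right (H38.nor_of_normal Q _) hb hB]
  have h1 : H36.br Q (H34.eB M B) = H34.eB M B := H36.br_eq_self_of_idem hQ le_rfl le_top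
    (H38.nor_of_normal Q _) (H36.eB_mem_Fx B) (H34.eB_mul_self hB)
  refine (H38.blk_eS hb).mul_eq_of_ne_zero
    (H36.br_eB_mem_Fx le_sup_right (H38.nor_of_normal Q _) B) (H36.br_eB_idem hM hQ hB) ?_
  rw [h1]
  exact (H38.covers_iff_eS hB hb).1 h

end Cfsg.Agent.S0971
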