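import Cfsg.Statements.S0973
import Cfsg.Agent.H36.Extended

set_option autoImplicit false
open Cfsg

namespace Cfsg.Agent.S0973

/-- Let B be a block of the finite group G with defect group P (relative to a maximal ideal M of the algebraic integers containing p), and let L = P ⊔ C_G(P). Then (i) some block b of L with defect group P (viewed in L) induces B, and (ii) if b and b' are blocks of L both inducing B, there is n ∈ N_G(P) carrying b to b': for every θ ∈ b there is θ' ∈ b' with θ' x = θ (n x n⁻¹) for all x ∈ L. -/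
theorem result {G : Type*} [Group G] [Finite G] (p : ℕ) [Fact p.Prime] (M : Ideal Cfsg.AlgInt) (hM : Cfsg.IsPModular p M) (B : Set (Cfsg.IrrCharacter G)) (hB : Cfsg.IsPBlock M B) (P : Subgroup G) (hP : Cfsg.IsDefectGroup p M B P) : (∃ b : Set (Cfsg.IrrCharacter ↥(P ⊔ Subgroup.centralizer (P : Set G))), Cfsg.IsDefectGroup p M b (P.subgroupOf (P ⊔ Subgroup.centralizer (P : Set G))) ∧ Cfsg.IsInducedBlock M (P ⊔ Subgroup.centralizer (P : Set G)) b B) ∧ ∀ b b' : Set (Cfsg.IrrCharacter ↥(P ⊔ Subgroup.centralizer (P : Set G))), Cfsg.IsInducedBlock M (P ⊔ Subgroup.centralizer (P : Set G)) b B → Cfsg.IsInducedBlock M (P ⊔ Subgroup.centralizer (P : Set G)) b' B → ∃ n ∈ Subgroup.normalizer (P : Set G), ∀ θ ∈ b, ∃ θ' ∈ b', ∀ x : ↥(P ⊔ Subgroup.centralizer (P : Set G)), ∀ hx : n * (x : G) * n⁻¹ ∈ P ⊔ Subgroup.centralizer (P : Set G), (θ' : ↥(P ⊔ Subgroup.centralizer (P : Set G)) → ℂ) x = (θ : ↥(P ⊔ Subgroup.centralizer (P : Set G)) → ℂ) ⟨n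 * (x : G) * n⁻¹, hx⟩ := by
  have := hM.2.1
  have hp := H36.isPGroup_of_isDefectGroup hP
  refine ⟨?_, fun b b' hb hb' => ?_⟩
  · obtain ⟨b, hb⟩ := H36.exists_induced_of_br_ne_zero hM hp le_sup_left le_sup_right
      (H36.sup_cen_le_nor P) hB (H36.br_eB_ne_zero_of_le hM hB hP le_rfl)
    exact ⟨b, (H36.isDefectGroup_subgroupOf_iff hM hb.1 le_sup_left).2
      (H36.isDef_of_induced hM le_sup_left (H36.sup_cen_le_nor P) hb hP), hb⟩
  · obtain ⟨n, hn, h⟩ := H36.exists_cj_eS_eq hM hP hb hb'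
    have hK := H36.mem_iff_of_mem_normalizer (H36.nor_le_nor_sup_cen P hn)
    rw [← H36.conjSet_eq_iff hK hb.1 hb'.1, H36.conjSet_eq_image hK] at h
    refine ⟨n⁻¹, Subgroup.inv_mem _ hn, fun θ hθ => ⟨_, h ▸ Set.mem_image_of_mem _ hθ, ?_⟩⟩
    intro x hx
    exact (H36.eq_irrEquiv_conjEquiv_iff hK θ _).1 rfl _ x (by simp [mul_assoc])

end Cfsg.Agent.S0973
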