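import Cfsg.Agent.Base
import Cfsg.Agent.H87.SylowInter
import Cfsg.Statements.S0986

set_option autoImplicit false
open Cfsg

namespace Cfsg.Agent.S0986

/-- Let P and Q be distinct Sylow p-subgroups of a finite group G chosen so that the order of P ∩ Q is as large as possible among intersections of two distinct Sylow p-subgroups, and let N be the normalizer of P ∩ Q. Then N has more than one Sylow p-subgroup, any two distinct Sylow p-subgroups of N intersect exactly in P ∩ Q, and each Sylow p-subgroup of N lies in exactly one Sylow p-subgroup of G. -/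
theorem result {G : Type*} [Group G] [Finite G] (p : ℕ) [Fact p.Prime] (P Q : Sylow p G) (hPQ : P ≠ Q) (hmax : ∀ P' Q' : Sylow p G, P' ≠ Q' → Nat.card ↥((P' : Subgroup G) ⊓ (Q' : Subgroup G)) ≤ Nat.card ↥((P : Subgroup G) ⊓ (Q : Subgroup G))) : 1 < Nat.card (Sylow p ↥(Subgroup.normalizer (((P : Subgroup G) ⊓ (Q : Subgroup G) : Subgroup G) : Set G))) ∧ (∀ S T : Sylow p ↥(Subgroup.normalizer (((P : Subgroup G) ⊓ (Q : Subgroup G) : Subgroup G) : Set G)), S ≠ T → (S : Subgroup _) ⊓ (T : Subgroup _) = ((P : Subgroup G) ⊓ (Q : Subgroup G)).subgroupOf (Subgroup.normalizer (((P : Subgroup G) ⊓ (Q : Subgroup G) : Subgroup G) : Set G))) ∧ ∀ S : Sylow p ↥(Subgroup.normalizer (((P : Subgroup G) ⊓ (Q : Subgroup G) : Subgroup G) : Set G)), ∃! T : Sylow p G, (S : Subgroup _).map (Subgroup.normalizer (((P : Subgroup G) ⊓ (Q : Subgroup G) : Subgroup G) : Set G)).subtype ≤ (T : Subgroup G) := by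
  set D : Subgroup G := (P : Subgroup G) ⊓ (Q : Subgroup G) with hD
  set N : Subgroup G := Subgroup.normalizer (D : Set G) with hN
  have hDN : D ≤ N := Subgroup.le_normalizer
  have uniq : ∀ (X : Subgroup G) (T₁ T₂ : Sylow p G), Nat.card D < Nat.card X →
      X ≤ T₁ → X ≤ T₂ → T₁ = T₂ := by
    intro X T₁ T₂ hX h1 h2
    by_contra hne
    have h3 := hmax T₁ T₂ hne
    have h4 : Nat.card X ≤ Nat.card ↥((T₁ : Subgroup G) ⊓ (T₂ : Subgroup G)) :=
      Subgroup.card_le_of_le (le_inf h1 h2)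
    omega
  have card_lt : ∀ X Y : Subgroup G, X < Y → Nat.card X < Nat.card Y := by
    intro X Y h
    exact lt_of_le_of_ne (Subgroup.card_le_of_le h.le)
      fun he => h.ne (Subgroup.eq_of_le_of_card_ge h.le he.ge)
  have hDP : D < P := by
    refine lt_of_le_of_ne inf_le_left fun h => hPQ (H87.sylow_eq_of_le ?_)
    rw [← h]; exact inf_le_right
  have hDQ : D < Q := by
    refine lt_of_le_of_ne inf_le_right fun h => hPQ (H87.sylow_eq_of_le ?_).symm
    rw [← h]; exact inf_le_left
  have hP' : D < N ⊓ P := H87.lt_normalizer_inf P.isPGroup' hDP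
  have hQ' : D < N ⊓ Q := H87.lt_normalizer_inf Q.isPGroup' hDQ
  obtain ⟨SP, hSP⟩ := (P.isPGroup'.comap_subtype (K := N)).exists_le_sylow
  obtain ⟨SQ, hSQ⟩ := (Q.isPGroup'.comap_subtype (K := N)).exists_le_sylow
  have hle : ∀ (R : Sylow p G) (S : Sylow p N), (R : Subgroup G).comap N.subtype ≤ S →
      N ⊓ R ≤ (S : Subgroup N).map N.subtype := by
    intro R S h x hx
    exact ⟨⟨x, hx.1⟩, h hx.2, rfl⟩
  have hbig : ∀ S : Sylow p N, Nat.card D < Nat.card ((S : Subgroup N).map N.subtype) := by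
    intro S
    have h1 : Nat.card ((S : Subgroup N).map N.subtype) =
        Nat.card ((SP : Subgroup N).map N.subtype) := by
      rw [Subgroup.card_subtype, Subgroup.card_subtype, S.card_eq_multiplicity,
        SP.card_eq_multiplicity]
    rw [h1]
    exact card_lt _ _ (lt_of_lt_of_le hP' (hle P SP hSP))
  have hex : ∀ S : Sylow p N, ∃ T : Sylow p G, (S : Subgroup N).map N.subtype ≤ T :=
    fun S => (S.isPGroup'.map N.subtype).exists_le_sylow
  refine ⟨?_, ?_, ?_⟩
  · rw [Finite.one_lt_card_iff_nontrivial]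
    refine ⟨SP, SQ, fun h => hPQ ?_⟩
    obtain ⟨T, hT⟩ := hex SP
    have h1 := uniq (N ⊓ P) P T (card_lt _ _ hP') inf_le_right ((hle P SP hSP).trans hT)
    have h2 := uniq (N ⊓ Q) Q T (card_lt _ _ hQ') inf_le_right
      ((hle Q SQ hSQ).trans (h ▸ hT))
    rw [h1, h2]
  · intro S T hST
    have hDp : IsPGroup p (D.subgroupOf N) := (P.isPGroup'.to_inf_left).comap_subtype
    have hDn : (D.subgroupOf N).Normal := Subgroup.normal_in_normalizer
    have h1 : D.subgroupOf N ≤ (S : Subgroup N) ⊓ (T : Subgroup N) :=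
      le_inf (hDp.le_sylow_of_normal S) (hDp.le_sylow_of_normal T)
    by_contra hne
    have h2 : D < ((S : Subgroup N) ⊓ (T : Subgroup N)).map N.subtype := by
      refine lt_of_le_of_ne ?_ fun he => hne ?_
      · intro x hx
        exact ⟨⟨x, hDN hx⟩, h1 hx, rfl⟩
      · refine le_antisymm (fun x hx => ?_) h1
        rw [Subgroup.mem_subgroupOf, he]
        exact ⟨x, hx, rfl⟩
    obtain ⟨S', hS'⟩ := hex S
    obtain ⟨T', hT'⟩ := hex T
    have h3 := uniq _ S' T' (card_lt _ _ h2) ((Subgroup.map_mono inf_le_left).trans hS')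
      ((Subgroup.map_mono inf_le_right).trans hT')
    subst h3
    have hp' : IsPGroup p ((S' : Subgroup G).comap N.subtype) := S'.isPGroup'.comap_subtype
    have h4 := S.is_maximal' hp' (Subgroup.map_le_iff_le_comap.mp hS')
    have h5 := T.is_maximal' hp' (Subgroup.map_le_iff_le_comap.mp hT')
    exact hST (Sylow.ext (h4.symm.trans h5))
  · intro S
    obtain ⟨T, hT⟩ := hex S
    exact ⟨T, hT, fun T' hT' => uniq _ T' T (hbig S) hT' hT⟩

end Cfsg.Agent.S0986
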