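import Cfsg.Agent.Base
import Cfsg.Agent.H87.PrimeSylow
import Cfsg.Statements.S0987

set_option autoImplicit false
open Cfsg

namespace Cfsg.Agent.S0987

/-- If a finite group has order pqr for primes p < q < r, then its Sylow r-subgroups are normal. -/
theorem result {G : Type*} [Group G] [Finite G] (p q r : ℕ) (hp : p.Prime) (hq : q.Prime) [Fact r.Prime] (hpq : p < q) (hqr : q < r) (hG : Nat.card G = p * q * r) (R : Sylow r G) : (R : Subgroup G).Normal := by
  have hr : r.Prime := Fact.out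
  have := Fact.mk hp
  have hpq' : ¬ p ∣ q := fun h => hpq.ne ((Nat.prime_dvd_prime_iff_eq hp hq).mp h)
  have hpr' : ¬ p ∣ r := fun h => (hpq.trans hqr).ne ((Nat.prime_dvd_prime_iff_eq hp hr).mp h)
  have hrq' : ¬ r ∣ q := fun h => hqr.ne' ((Nat.prime_dvd_prime_iff_eq hr hq).mp h)
  have hmin : (Nat.card G).minFac = p := by
    have h1 : p ∣ Nat.card G := ⟨q * r, by rw [hG]; ring⟩
    have h2 : Nat.card G ≠ 1 := fun h => hp.one_lt.ne' (Nat.dvd_one.mp (h ▸ h1))
    have h3 := Nat.minFac_prime h2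
    have h4 := Nat.minFac_le_of_dvd hp.two_le h1
    have h5 := Nat.minFac_dvd (Nat.card G)
    generalize (Nat.card G).minFac = m at *
    rw [hG, h3.dvd_mul, h3.dvd_mul, Nat.prime_dvd_prime_iff_eq h3 hp,
      Nat.prime_dvd_prime_iff_eq h3 hq, Nat.prime_dvd_prime_iff_eq h3 hr] at h5
    omega
  obtain ⟨P⟩ := (inferInstance : Nonempty (Sylow p G))
  have hP : Nat.card (P : Subgroup G) = p := by
    have := H87.card_sylow_eq P (a := 1) (m := q * r) (by rw [hG]; ring) (by
      rw [hp.dvd_mul]; tauto)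
    simpa using this
  have hc := (H87.isCyclic_prime hP).isComplement' hmin
  set K := (MonoidHom.transferSylow P ((H87.isCyclic_prime hP).normalizer_le_centralizer hmin)).ker
  have hKn : K.Normal := inferInstance
  have hKi : K.index = p := by rw [hc.symm.index_eq_card, hP]
  have hK : Nat.card K = r ^ 1 * q := by
    have := K.card_mul_index
    rw [hKi, hG] at this
    apply Nat.eq_of_mul_eq_mul_right hp.pos
    rw [this]; ring
  have hRK : (R : Subgroup G) ≤ K := by
    intro x hx
    rw [← QuotientGroup.eq_one_iff, ← orderOf_eq_one_iff]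
    obtain ⟨k, hk⟩ := R.isPGroup' ⟨x, hx⟩
    have h1 : x ^ r ^ k = 1 := congrArg Subtype.val hk
    have h2 : orderOf (x : G ⧸ K) ∣ r ^ k := by
      apply orderOf_dvd_of_pow_eq_one
      rw [← QuotientGroup.mk_pow, h1, QuotientGroup.mk_one]
    have h3 : orderOf (x : G ⧸ K) ∣ p := hKi ▸ orderOf_dvd_natCard _
    exact Nat.eq_one_of_dvd_coprimes (((Nat.coprime_primes hp hr).mpr
      (hpq.trans hqr).ne).pow_right k) h3 h2
  have h1 : Nat.card (Sylow r K) ∣ q := H87.card_sylow_dvd r hK hrq'
  have h2 : Nat.card (Sylow r K) ≡ 1 [MOD r] := card_sylow_modEq_one r K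
  have h3 : Nat.card (Sylow r K) = 1 := by
    have h4 := Nat.le_of_dvd hq.pos h1
    exact Nat.ModEq.eq_of_lt_of_lt h2 (by omega) hr.one_lt
  have : Subsingleton (Sylow r K) := (Nat.card_eq_one_iff_unique.mp h3).1
  have h4 := (R.subtype hRK).normal_of_subsingleton
  rw [Sylow.coe_subtype, Subgroup.normal_subgroupOf_iff_le_normalizer hRK] at h4
  have h5 := R.normalizer_sup_eq_top' hRK
  rw [← Subgroup.normalizer_eq_top_iff]
  exact (sup_eq_left.mpr h4).symm.trans h5

end Cfsg.Agent.S0987
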