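import Cfsg.Agent.Base
import Cfsg.Agent.H87.PrimeSylow
import Cfsg.Statements.S0989

set_option autoImplicit false
open Cfsg

namespace Cfsg.Agent.S0989

/-- In the symmetric group on p or p + 1 letters, p a prime, the normalizer of a Sylow p-subgroup has order p * (p - 1). -/
theorem result {α : Type*} [Fintype α] [DecidableEq α] (p : ℕ) [Fact p.Prime] (hα : Fintype.card α = p ∨ Fintype.card α = p + 1) (P : Sylow p (Equiv.Perm α)) : Nat.card ↥(Subgroup.normalizer ((P : Subgroup (Equiv.Perm α)) : Set (Equiv.Perm α))) = p * (p - 1) := by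
  have hp : p.Prime := Fact.out
  obtain ⟨q, rfl⟩ : ∃ q, p = q + 2 := ⟨p - 2, by have := hp.two_le; omega⟩
  have hnd : ¬ (q + 2) ∣ (q + 1).factorial := by
    rw [hp.dvd_factorial]; omega
  have hcard : Nat.card (Equiv.Perm α) = (Fintype.card α).factorial := by
    rw [Nat.card_eq_fintype_card, Fintype.card_perm]
  have hP : Nat.card (P : Subgroup (Equiv.Perm α)) = q + 2 := by
    rcases hα with h | h
    · have := H87.card_sylow_eq P (a := 1) (m := (q + 1).factorial)
        (by rw [hcard, h, Nat.factorial_succ, pow_one]) hnd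
      simpa using this
    · have := H87.card_sylow_eq P (a := 1) (m := (q + 3) * (q + 1).factorial)
        (by rw [hcard, h, Nat.factorial_succ, Nat.factorial_succ, pow_one]; ring) (by
          intro hd
          rcases (hp.dvd_mul).mp hd with h1 | h1
          · have h2 : q + 2 ∣ 1 := (Nat.dvd_add_right (dvd_refl (q + 2))).mp h1
            have := Nat.le_of_dvd one_pos h2
            omega
          · exact hnd h1)
      simpa using this
  have h1 := H87.card_orderOf_eq_prime P hP
  have h2 := H87.card_sylow_mul_card_normalizer P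
  have h3 := Equiv.Perm.card_of_cycleType_singleton (α := α) (n := q + 2) (by omega) (by omega)
  have h4 : Nat.card {g : Equiv.Perm α // orderOf g = q + 2} =
      (Finset.univ.filter (fun g : Equiv.Perm α => g.cycleType = {q + 2})).card := by
    rw [← Fintype.card_subtype, ← Nat.card_eq_fintype_card]
    refine Nat.card_congr (Equiv.subtypeEquivRight fun g => ⟨fun h => ?_, fun h => ?_⟩)
    · have hc : g.IsCycle := Equiv.Perm.isCycle_of_prime_order' (h ▸ hp) (by omega)
      rw [hc.cycleType, ← hc.orderOf, h]
    · rw [← Equiv.Perm.lcm_cycleType, h]; simp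
  rw [h4, h3] at h1
  rw [hcard] at h2
  have hpos : 0 < Nat.card (Sylow (q + 2) (Equiv.Perm α)) := Nat.card_pos
  apply Nat.eq_of_mul_eq_mul_left hpos
  rw [h2]
  simp only [Nat.add_succ_sub_one] at h1 ⊢
  rcases hα with h | h
  · rw [h, Nat.choose_self] at h1
    rw [h, Nat.factorial_succ]
    calc (q + 1 + 1) * (q + 1).factorial = (q + 2) * ((q + 1).factorial * 1) := by ring
      _ = _ := by rw [h1]; ring
  · rw [h, Nat.choose_succ_self_right] at h1
    rw [h, Nat.factorial_succ, Nat.factorial_succ]
    calc (q + 2 + 1) * ((q + 1 + 1) * (q + 1).factorial)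
        = (q + 2) * ((q + 1).factorial * (q + 2 + 1)) := by ring
      _ = _ := by rw [h1]; ring

end Cfsg.Agent.S0989
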