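import Cfsg.Agent.Base
import Cfsg.Agent.H87.SelfCent
import Cfsg.Statements.S0995

set_option autoImplicit false
open Cfsg

namespace Cfsg.Agent.S0995

/-- Let G be a finite perfect group containing an element z of prime order p whose centralizer is the cyclic group it generates. Let t be the number of conjugacy classes of elements of order p. Then t divides p - 1, the number of Sylow p-subgroups has the form 1 + n * p, and |G| * t = (p - 1) * p * (1 + n * p). -/
theorem result {G : Type*} [Group G] [Finite G] (hperf : commutator G = ⊤) (p : ℕ) [Fact p.Prime] (z : G) (hz : orderOf z = p) (hC : Subgroup.centralizer ({z} : Set G) = Subgroup.zpowers z) : ∃ n t : ℕ, t = Nat.card {c : ConjClasses G // ∃ g : G, ConjClasses.mk g = c ∧ orderOf g = p} ∧ t ∣ p - 1 ∧ Nat.card (Sylow p G) = 1 + n * p ∧ Nat.card G * t = (p - 1) * p * (1 + n * p) := by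
  have hp : p.Prime := Fact.out
  obtain ⟨P, hPz⟩ := H87.exists_sylow_of_selfCentralizing hz hC
  have hP : Nat.card (P : Subgroup G) = p := by rw [hPz, Nat.card_zpowers, hz]
  have hCP : Nat.card (Subgroup.centralizer ((P : Subgroup G) : Set G)) = p := by
    rw [← H87.card_centralizer_of_orderOf_prime P hP hz, hC, Nat.card_zpowers, hz]
  obtain ⟨m, hm⟩ : p ∣ Nat.card G := hP ▸ Subgroup.card_subgroup_dvd_card (P : Subgroup G)
  set t := Nat.card {c : ConjClasses G // ∃ g : G, ConjClasses.mk g = c ∧ orderOf g = p} with ht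
  have h1 : Nat.card {g : G // orderOf g = p} = t * m := by
    refine H87.card_eq_mul_of_fibers (fun g : {g : G // orderOf g = p} =>
      (⟨ConjClasses.mk g.1, g.1, rfl, g.2⟩ :
        {c : ConjClasses G // ∃ g : G, ConjClasses.mk g = c ∧ orderOf g = p})) m ?_
    rintro ⟨c, x, rfl, hx⟩
    have h2 := H87.card_class_mul_card_centralizer x
    rw [H87.card_centralizer_of_orderOf_prime P hP hx, hCP, hm, mul_comm p] at h2
    rw [← Nat.eq_of_mul_eq_mul_right hp.pos h2]
    refine Nat.card_congr ⟨fun g => ⟨g.1.1, ?_⟩, fun g => ⟨⟨g.1, ?_⟩, ?_⟩, fun g => rfl, fun g => rfl⟩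
    · exact (ConjClasses.mk_eq_mk_iff_isConj.mp (congrArg Subtype.val g.2)).symm
    · rw [← H87.orderOf_eq_of_isConj g.2, hx]
    · exact Subtype.ext (ConjClasses.mk_eq_mk_iff_isConj.mpr g.2.symm)
  rw [H87.card_orderOf_eq_prime P hP] at h1
  have h2 : Nat.card (Sylow p G) ≡ 1 [MOD p] := card_sylow_modEq_one p G
  have hpos : 0 < Nat.card (Sylow p G) := Nat.card_pos
  obtain ⟨n, hn⟩ := (Nat.modEq_iff_dvd' hpos).mp h2.symm
  have hn' : Nat.card (Sylow p G) = 1 + n * p := by rw [mul_comm, ← hn]; omega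
  have h3 := H87.card_sylow_mul_card_normalizer P
  rw [← H87.relIndex_mul_card_centralizer, hCP, hm] at h3
  set e := (Subgroup.centralizer ((P : Subgroup G) : Set G)).relIndex
    (Subgroup.normalizer ((P : Subgroup G) : Set G))
  have h4 : m = Nat.card (Sylow p G) * e := by
    apply Nat.eq_of_mul_eq_mul_left hp.pos
    rw [← h3]; ring
  refine ⟨n, t, rfl, ⟨e, ?_⟩, hn', ?_⟩
  · apply Nat.eq_of_mul_eq_mul_left hpos
    rw [h1, h4]; ring
  · rw [← hn', hm]
    calc p * m * t = p * (t * m) := by ring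
      _ = _ := by rw [← h1]; ring

end Cfsg.Agent.S0995
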