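import Cfsg.Statements.S1007
import Cfsg.Agent.H44.L168b

set_option autoImplicit false
open Cfsg

namespace Cfsg.Agent.S1007

/-- Let G be a simple group of order 168 and T a Sylow 2-subgroup. Then T contains exactly two subgroups that are Klein four-groups; they are not conjugate in G; and the normalizer of every Klein four-subgroup of G is isomorphic to the symmetric group of degree 4. -/
theorem result {G : Type*} [Group G] [Finite G] [IsSimpleGroup G] (h : Nat.card G = 168) (T : Sylow 2 G) : Nat.card {U : Subgroup G // U ≤ (T : Subgroup G) ∧ IsKleinFour ↥U} = 2 ∧ (∀ U W : Subgroup G, U ≤ (T : Subgroup G) → W ≤ (T : Subgroup G) → IsKleinFour ↥U → IsKleinFour ↥W → U ≠ W → ∀ g : G, U.map (MulAut.conj g).toMonoidHom ≠ W) ∧ ∀ U : Subgroup G, IsKleinFour ↥U → Nonempty (↥(Subgroup.normalizer (U : Set G)) ≃* Equiv.Perm (Fin 4)) := by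
  refine ⟨?_, fun U W h1 h2 h3 h4 h5 g e => h5 (H44.L168.eq_of_cj h T h3 h4 h1 h2 e),
    fun U hU => H44.L168.sym4_of_24 h (H44.L168.card_norm_klein h hU)⟩
  obtain ⟨U, W, h1, -, h2⟩ := H44.L168.exists_kleins h T
  refine Eq.trans ?_ (Set.ncard_pair h1)
  rw [← Nat.card_coe_set_eq]
  exact Nat.card_congr (Equiv.subtypeEquivRight fun V => by simpa using h2 V)

end Cfsg.Agent.S1007
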