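import Cfsg.Statements.S1026
import Cfsg.Agent.H64.MatBr

set_option autoImplicit false
open Cfsg

namespace Cfsg.Agent.S1026

/-- Every element of `U` has a unique expression `∏_{r ∈ Φ⁺} x_r(t_r)`, the product over the positive roots in increasing index order (the coefficient family `t`, supported on the positive roots, exists and is unique); and conversely every such ordered product is the matrix of an element of `U`. -/
theorem result {F : Type*} [Field F] (D : Cfsg.Lie.ChevalleyDatum) (hD : D ∈ [Cfsg.Lie.chevG2, Cfsg.Lie.chevB2, Cfsg.Lie.chevD4, Cfsg.Lie.chevF4, Cfsg.Lie.chevE6, Cfsg.Lie.chevE7, Cfsg.Lie.chevE8]) :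
    (∀ g : GL D.Idx F, g ∈ D.posUnipotent F →
      ∃! t : ℕ → F, (∀ r, ¬ D.IsPosRoot r → t r = 0) ∧
        (g : Matrix D.Idx D.Idx F) = D.wordMat F (D.posRoots.map fun r => (r, t r))) ∧
    (∀ t : ℕ → F, ∃ g : GL D.Idx F, g ∈ D.posUnipotent F ∧
      (g : Matrix D.Idx D.Idx F) = D.wordMat F (D.posRoots.map fun r => (r, t r))) := by
  obtain ⟨_, _, h⟩ := H64.matOK_of_mem hD F
  have hl : ∀ r ∈ D.posRoots, r < D.nroots := fun r hr => (H63.mem_posRoots.1 hr).1
  let L : List (H63.Rt D) := D.posRoots.pmap (fun r hr => ⟨r, hr⟩) hl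
  have hL : ∀ r, r ∈ L ↔ r ∈ {r : H63.Rt D | H63.Pos r} := fun r => by
    simp only [L, List.mem_pmap, H63.mem_posRoots, Set.mem_ofPred_eq]
    exact ⟨fun ⟨a, ⟨h1, h2⟩, e⟩ => e ▸ h2, fun h1 => ⟨r, ⟨r.2, h1⟩, rfl⟩⟩
  have hnd : L.Nodup := List.Nodup.pmap (fun a _ b _ e => congrArg Fin.val e)
    (List.nodup_range.filter _)
  have hw : ∀ t : ℕ → F, H64.wd (H65.xU D F) (D.posRoots.map fun r => (r, t r)) =
      (L.map fun r : H63.Rt D => H65.xU D F r (t r)).prod := fun t => by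
    simp only [H64.wd, L, List.map_pmap, List.pmap_eq_map, List.map_map, Function.comp_def]
  simp only [H64.val_eq_wordMat, hw, h.U_eq]
  refine ⟨fun g hg => ?_, fun t => ⟨_, H64.RGD.prod_mem_gen (fun a ha => (hL a).1 ha)
    (fun a => H64.x_mem_XR D _ a _), rfl⟩⟩
  obtain ⟨y, hy, rfl⟩ := h.T.closed_pos.exists_prod L hnd hL hg
  choose c hc using fun a => H64.mem_XR_xU.1 (hy a)
  refine ⟨fun r => if hr : D.IsPosRoot r then c ⟨r, hr.1⟩ else 0, ⟨fun r hr => dif_neg hr, ?_⟩, ?_⟩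
  · refine congrArg _ (List.map_congr_left fun a ha => ?_)
    dsimp only
    rw [dif_pos ((H63.isPosRoot_iff a).2 ((hL a).1 ha)), hc]
  · rintro t ⟨h1, h2⟩
    funext r
    split_ifs with hr
    · have := h.T.prod_unique L hnd (fun a ha => (hL a).1 ha) hy
        (fun a => H64.x_mem_XR D _ a _) h2 ⟨r, hr.1⟩ ((hL _).2 ((H63.isPosRoot_iff ⟨r, hr.1⟩).1 hr))
      rw [hc] at this
      exact (h.stB.x_injective ⟨r, hr.1⟩ this).symm
    · exact h1 r hr

end Cfsg.Agent.S1026
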