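import Cfsg.Statements.S1039
import Cfsg.Agent.H64.MatBr
import Cfsg.Agent.H63.Cox

set_option autoImplicit false
open Cfsg

namespace Cfsg.Agent.S1039

/-- `N/H ≅ W`: there is a surjective homomorphism from `N` onto the Coxeter group of the type (Mathlib's Coxeter matrix G₂, B₂, F₄, E₆, E₇, E₈, nodes numbered as the fundamental roots) with kernel `H`, mapping each `n_{p_i}` to the `i`-th simple reflection. -/
theorem result {F : Type*} [Field F]
    (p : Cfsg.Lie.ChevalleyDatum × (Σ n : ℕ, CoxeterMatrix (Fin n)))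
    (hp : p ∈ [(Cfsg.Lie.chevG2, ⟨2, CoxeterMatrix.G₂⟩), (Cfsg.Lie.chevB2, ⟨2, CoxeterMatrix.B 2⟩), (Cfsg.Lie.chevD4, ⟨4, Cfsg.Lie.coxeterD4⟩), (Cfsg.Lie.chevF4, ⟨4, CoxeterMatrix.F₄⟩),
      (Cfsg.Lie.chevE6, ⟨6, CoxeterMatrix.E₆⟩), (Cfsg.Lie.chevE7, ⟨7, CoxeterMatrix.E₇⟩), (Cfsg.Lie.chevE8, ⟨8, CoxeterMatrix.E₈⟩)]) :
    ∃ φ : ↥(p.1.monomialSubgroup F) →* p.2.2.Group, Function.Surjective φ ∧
      φ.ker = (p.1.diagonalSubgroup F).subgroupOf (p.1.monomialSubgroup F) ∧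
      ∀ (i : Fin p.2.1) (g : ↥(p.1.monomialSubgroup F)),
        ((g : GL p.1.Idx F) : Matrix p.1.Idx p.1.Idx F) = p.1.nMat F (p.1.simple i) 1 → φ g = p.2.2.simple i := by
  have key : ∀ {D : Cfsg.Lie.ChevalleyDatum} (hD : D ∈ [Cfsg.Lie.chevG2, Cfsg.Lie.chevB2, Cfsg.Lie.chevD4, Cfsg.Lie.chevF4, Cfsg.Lie.chevE6, Cfsg.Lie.chevE7, Cfsg.Lie.chevE8])
      {M : CoxeterMatrix (Fin D.rank)} (hM : H63.coxOK D M = true),
      ∃ φ : ↥(D.monomialSubgroup F) →* M.Group, Function.Surjective φ ∧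
      φ.ker = (D.diagonalSubgroup F).subgroupOf (D.monomialSubgroup F) ∧
      ∀ (i : Fin D.rank) (g : ↥(D.monomialSubgroup F)),
        ((g : GL D.Idx F) : Matrix D.Idx D.Idx F) = D.nMat F (D.simple i) 1 → φ g = M.simple i := by
    intro D hD M hM
    obtain ⟨_, _, h⟩ := H64.matOK_of_mem hD F
    obtain ⟨e, he⟩ := H63.exists_coxEquiv hM
    rw [h.N_eq, h.H_eq]
    refine ⟨e.toMonoidHom.comp h.T.piN, e.surjective.comp h.T.piN_surjective, ?_, fun i g hg => ?_⟩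
    · rw [← h.T.piN_ker]
      exact Subgroup.ext fun g => e.map_eq_one_iff
    · obtain rfl : g = ⟨h.T.n i, h.T.n_mem_N i⟩ := Subtype.ext (H64.val_eq_nMat.1 hg)
      exact (congrArg e (h.T.piN_n i)).trans (he i)
  simp only [List.mem_cons, List.not_mem_nil, or_false] at hp
  rcases hp with rfl | rfl | rfl | rfl | rfl | rfl | rfl
  exacts [key (by simp) H63.coxG2, key (by simp) H63.coxB2, key (by simp) H63.coxD4,
    key (by simp) H63.coxF4, key (by simp) H63.coxE6, key (by simp) H63.coxE7, key (by simp) H63.coxE8]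

end Cfsg.Agent.S1039
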