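import Cfsg.Statements.S1044
import Cfsg.Agent.H64.MatBr

set_option autoImplicit false
open Cfsg

namespace Cfsg.Agent.S1044

/-- For a fundamental root `p` the set `B ∪ B n_p B` is (the carrier of) a subgroup of the general linear group. -/
theorem result {F : Type*} [Field F] (D : Cfsg.Lie.ChevalleyDatum) (hD : D ∈ [Cfsg.Lie.chevG2, Cfsg.Lie.chevB2, Cfsg.Lie.chevD4, Cfsg.Lie.chevF4, Cfsg.Lie.chevE6, Cfsg.Lie.chevE7, Cfsg.Lie.chevE8]) (i : ℕ) (hi : i < D.rank) (n : GL D.Idx F)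
    (hn : (n : Matrix D.Idx D.Idx F) = D.nMat F (D.simple i) 1) :
    ∃ P : Subgroup (GL D.Idx F), (P : Set (GL D.Idx F)) =
      (D.borelSubgroup F : Set (GL D.Idx F)) ∪ DoubleCoset.doubleCoset n (D.borelSubgroup F : Set (GL D.Idx F)) (D.borelSubgroup F) := by
  obtain ⟨_, _, h⟩ := H64.matOK_of_mem hD F
  rw [H64.val_eq_nMat] at hn
  refine ⟨h.T.PJ {⟨i, hi⟩}, Set.ext fun g => ?_⟩
  have e : n = h.T.n ⟨i, hi⟩ := hn
  rw [h.B_eq, SetLike.mem_coe, h.T.mem_PJ_iff, Set.mem_union, e,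
    ← h.T.cell_iff_doubleCoset (h.T.n_mem_N _) (h.T.act_n _), SetLike.mem_coe,
    ← H64.RGD.cell_one_iff]
  constructor
  · rintro ⟨w, hw, hg⟩
    rw [H64.WData.WJ, Set.image_singleton, Subgroup.mem_closure_singleton] at hw
    obtain ⟨k, rfl⟩ := hw
    have h2 : (H64.wdata D).sW ⟨i, hi⟩ ^ (2 : ℤ) = 1 := by
      rw [zpow_two, H64.WData.sW_mul_sW]
    rcases Int.even_or_odd' k with ⟨m, rfl | rfl⟩
    · left; rwa [zpow_mul, h2, one_zpow] at hg
    · right; rwa [zpow_add, zpow_mul, h2, one_zpow, one_mul, zpow_one] at hg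
  · rintro (hg | hg)
    · exact ⟨1, one_mem _, hg⟩
    · exact ⟨_, (H64.wdata D).sW_mem_WJ rfl, hg⟩

end Cfsg.Agent.S1044
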