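import Cfsg.Statements.S1045
import Cfsg.Agent.H64.MatBr

set_option autoImplicit false
open Cfsg

namespace Cfsg.Agent.S1045

/-- For a fundamental root `p`, the subgroup `U_p` generated by the `X_s`, `s` positive and `s ≠ p`, is normalised by `X_p` and `X_{-p}`, and `U = U_p ⊔ X_p`. -/
theorem result {F : Type*} [Field F] (D : Cfsg.Lie.ChevalleyDatum) (hD : D ∈ [Cfsg.Lie.chevG2, Cfsg.Lie.chevB2, Cfsg.Lie.chevD4, Cfsg.Lie.chevF4, Cfsg.Lie.chevE6, Cfsg.Lie.chevE7, Cfsg.Lie.chevE8]) (i : ℕ) (hi : i < D.rank) :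
    D.rootSubgroup F (D.simple i) ⊔ D.rootSubgroup F (D.neg (D.simple i)) ≤
        Subgroup.normalizer (Subgroup.closure {g : GL D.Idx F | ∃ (s : ℕ) (t : F), D.IsPosRoot s ∧ s ≠ D.simple i ∧
          (g : Matrix D.Idx D.Idx F) = D.x F s t} : Set (GL D.Idx F)) ∧
      Subgroup.closure {g : GL D.Idx F | ∃ (s : ℕ) (t : F), D.IsPosRoot s ∧ s ≠ D.simple i ∧
          (g : Matrix D.Idx D.Idx F) = D.x F s t} ⊔ D.rootSubgroup F (D.simple i) = D.posUnipotent F := by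
  obtain ⟨_, _, h⟩ := H64.matOK_of_mem hD F
  have e1 := h.X_eq (H63.simpleR ⟨i, hi⟩)
  have e2 := h.X_eq (H63.negR (H63.simpleR ⟨i, hi⟩))
  simp only [H63.negR_val, H63.simpleR_val] at e1 e2
  rw [h.Up_eq ⟨i, hi⟩, e1, e2, h.U_eq]
  refine ⟨sup_le (fun x hx => ?_) (fun x hx => ?_), le_antisymm (sup_le (h.T.Up_le_U _)
    (h.T.X_le_U (H63.pos_simpleR _))) fun u hu => ?_⟩
  · exact H64.RGD.mem_normalizer_of_conj (fun u hu => h.T.X_conj_Up hx hu)
      fun u hu => h.T.X_conj_Up (inv_mem hx) hu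
  · exact H64.RGD.mem_normalizer_of_conj (fun u hu => h.T.X_neg_conj_Up hx hu)
      fun u hu => h.T.X_neg_conj_Up (inv_mem hx) hu
  · obtain ⟨a, ha, x, hx, rfl⟩ := h.T.mem_U_split ⟨i, hi⟩ hu
    exact Subgroup.mul_mem_sup ha hx

end Cfsg.Agent.S1045
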