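import Cfsg.Statements.S1047
import Cfsg.Agent.H64.MatBr

set_option autoImplicit false
open Cfsg

namespace Cfsg.Agent.S1047

/-- `P_J = ⟨H, X_r : r ∈ Φ⁺ ∪ Φ_J⟩`. -/
theorem result {F : Type*} [Field F] (D : Cfsg.Lie.ChevalleyDatum) (hD : D ∈ [Cfsg.Lie.chevG2, Cfsg.Lie.chevB2, Cfsg.Lie.chevD4, Cfsg.Lie.chevF4, Cfsg.Lie.chevE6, Cfsg.Lie.chevE7, Cfsg.Lie.chevE8]) (J : Set ℕ) :
    D.parabolicSubgroup F J = D.diagonalSubgroup F ⊔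
      Subgroup.closure {g : GL D.Idx F | ∃ (r : ℕ) (t : F), (D.IsPosRoot r ∨ D.InRootSub J r) ∧ (g : Matrix D.Idx D.Idx F) = D.x F r t} := by
  obtain ⟨_, _, h⟩ := H64.matOK_of_mem hD F
  rw [h.P_eq, h.T.PJ_eq_gen, h.H_eq, H64.closure_x_eq (P := fun r => D.IsPosRoot r ∨ D.InRootSub J r)
    (S := {r | H63.Pos r ∨ r ∈ (H64.wdata D).PhiJ (H64.nodes D J)}) (fun r hr => hr.elim (·.1) (·.1))
    (fun r => by rw [H63.isPosRoot_iff, H64.inRootSub_iff']; rfl)]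
  rfl

end Cfsg.Agent.S1047
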