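import Cfsg.Statements.S1081
import Cfsg.Agent.H68.Aut
import Cfsg.Agent.H68.GraphD4
import Cfsg.Agent.H68.GraphE6
import Cfsg.Agent.H65.All

set_option autoImplicit false
open Cfsg

namespace Cfsg.Agent.S1081

/-- Graph automorphisms: for E₆ with ρ = (p₁ p₆)(p₃ p₅) and for D₄ with ρ the 3-cycle on the outer nodes there is a group automorphism sending `x_p(t) ↦ x_{ρ(p)}(t)` and `x_{-p}(t) ↦ x_{-ρ(p)}(t)` for every fundamental root `p`. -/
theorem result {F : Type*} [Field F] (p : Cfsg.Lie.ChevalleyDatum × List ℕ)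
    (hp : p ∈ [(Cfsg.Lie.chevE6, [5, 1, 4, 3, 2, 0]), (Cfsg.Lie.chevD4, [2, 1, 3, 0]), (Cfsg.Lie.chevD4, [3, 1, 0, 2])]) :
    ∃ α : ↥(p.1.group F) ≃* ↥(p.1.group F), ∀ (g : ↥(p.1.group F)) (i : ℕ) (t : F), i < p.1.rank →
      (((g : GL p.1.Idx F) : Matrix p.1.Idx p.1.Idx F) = p.1.x F (p.1.simple i) t →
        ((α g : GL p.1.Idx F) : Matrix p.1.Idx p.1.Idx F) = p.1.x F (p.1.simple (p.2.getD i 0)) t) ∧
      (((g : GL p.1.Idx F) : Matrix p.1.Idx p.1.Idx F) = p.1.x F (p.1.neg (p.1.simple i)) t →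
        ((α g : GL p.1.Idx F) : Matrix p.1.Idx p.1.Idx F) = p.1.x F (p.1.neg (p.1.simple (p.2.getD i 0))) t) := by
  have key : ∀ {D : Cfsg.Lie.ChevalleyDatum} [H63.RS D] [H65.Tab D] {ρ π : ℕ → ℕ} {γ : ℕ → ℤ},
      H68.GraphOK D ρ π γ → ∃ α : ↥(D.group F) ≃* ↥(D.group F), ∀ (g : ↥(D.group F)) (i : ℕ) (t : F),
      i < D.rank → (((g : GL D.Idx F) : Matrix D.Idx D.Idx F) = D.x F (D.simple i) t →
        ((α g : GL D.Idx F) : Matrix D.Idx D.Idx F) = D.x F (D.simple (π i)) t) ∧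
      (((g : GL D.Idx F) : Matrix D.Idx D.Idx F) = D.x F (D.neg (D.simple i)) t →
        ((α g : GL D.Idx F) : Matrix D.Idx D.Idx F) = D.x F (D.neg (D.simple (π i))) t) := by
    intro D _ _ ρ π γ c
    obtain ⟨α, h⟩ := c.exists_aut (K := F)
    refine ⟨α, fun g i t hi => ⟨fun e => ?_, fun e => ?_⟩⟩
    · have := h g _ t (H65.simple_lt hi) (Units.ext e)
      rw [c.sim i hi, c.gsim i hi, Int.cast_one, one_mul] at this
      exact congrArg Units.val this
    · have := h g _ t (H65.neg_lt (H65.simple_lt hi)) (Units.ext e)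
      rw [(c.neg _ (H65.simple_lt hi)).1, (c.neg _ (H65.simple_lt hi)).2, c.sim i hi, c.gsim i hi,
        Int.cast_one, one_mul] at this
      exact congrArg Units.val this
  simp only [List.mem_cons, List.not_mem_nil, or_false] at hp
  rcases hp with rfl | rfl | rfl
  · have := H65.tabE6
    exact key H68.graphE6
  · have := H65.tabD4
    exact key H68.graphD4
  · have := H65.tabD4
    exact key H68.graphD4'

end Cfsg.Agent.S1081
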