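import Cfsg.Statements.S1084
import Cfsg.Agent.H65.E6Gen2
import Cfsg.Agent.S1054

set_option autoImplicit false
open Cfsg

namespace Cfsg.Agent.S1084

/-- E₆ via the 27-dimensional cubic form: for a finite field with at least three elements, (isometries of the cubic form) / centre ≅ the Chevalley group E₆(F). -/
theorem result {F : Type*} [Field F] [Fintype F] (hF : 3 ≤ Fintype.card F) : Nonempty (Cfsg.Lie.E6 F ≃* ↥(Cfsg.Lie.chevE6.group F)) := by
  obtain ⟨_, _, _⟩ := H65.of_mem (D := Cfsg.Lie.chevE6) (by simp)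
  have h1 : ∃ a : F, a ≠ 0 ∧ a ≠ 1 := by
    classical
    by_contra h
    push Not at h
    have : (Finset.univ : Finset F) ⊆ {0, 1} := fun a _ => by
      by_cases h0 : a = 0 <;> simp [h0, h a]
    have h2 := (Finset.card_le_card this).trans Finset.card_le_two
    rw [Finset.card_univ] at h2
    omega
  obtain ⟨e1⟩ := H65.repE6v27.quot_equiv (Cfsg.Agent.S1054.result (F := F) _ (by simp))
    ⟨67, by decide, fun h => by
      have h2 := congrFun (congrFun h 0) 1
      rw [H65.Rep.A_apply, show H65.repE6v27.a 67 0 1 = _ from H65.aE_ne] at h2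
      simp at h2⟩ fun M _ r _ => by rw [H65.A2_27]; exact Commute.zero_right _
  obtain ⟨e2⟩ := H65.E6univ_equiv (F := F)
  exact ⟨(H55.quotCenterCongr ((MulEquiv.subgroupCongr (H65.G27_eq h1)).trans e2)).symm.trans e1⟩

end Cfsg.Agent.S1084
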