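import Cfsg.Statements.S1092
import Cfsg.Agent.Base
import Cfsg.Agent.H63.Cox
import Cfsg.Agent.H63.PoinG2
import Cfsg.Agent.H63.PoinB2
import Cfsg.Agent.H63.PoinD4
import Cfsg.Agent.H63.PoinF4

set_option autoImplicit false
open Cfsg

namespace Cfsg.Agent.S1092

open H63 Cfsg.Lie in
theorem card_eq {D : ChevalleyDatum} [RS D] {M : CoxeterMatrix (Fin D.rank)}
    (h : coxOK D M = true) : Nat.card M.Group = Nat.card (wdata D).W := by
  obtain ⟨e, -⟩ := exists_coxEquiv h
  exact (Nat.card_congr e.toEquiv).symm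

/-- `|W(B₂)| = 8`, `|W(G₂)| = 12`, `|W(D₄)| = 192`, `|W(F₄)| = 1152` for the groups presented by the Coxeter matrices (the product of the degrees of the basic invariants). -/
theorem result (p : (Σ n : ℕ, CoxeterMatrix (Fin n)) × ℕ)
    (hp : p ∈ [(⟨2, CoxeterMatrix.B 2⟩, 8), (⟨2, CoxeterMatrix.G₂⟩, 12), (⟨4, Cfsg.Lie.coxeterD4⟩, 192), (⟨4, CoxeterMatrix.F₄⟩, 1152)]) :
    Nat.card p.1.2.Group = p.2 := by
  simp only [List.mem_cons, List.not_mem_nil, or_false] at hp
  rcases hp with rfl | rfl | rfl | rfl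
  · exact (card_eq H63.coxB2).trans H63.card_W_B2
  · exact (card_eq H63.coxG2).trans H63.card_W_G2
  · exact (card_eq H63.coxD4).trans H63.card_W_D4
  · exact (card_eq H63.coxF4).trans H63.card_W_F4

end Cfsg.Agent.S1092
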