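import Cfsg.Statements.S1094
import Cfsg.Agent.Base
import Cfsg.Agent.H63.Cox

set_option autoImplicit false
open Cfsg

namespace Cfsg.Agent.S1094

open H63 Cfsg.Lie in
theorem ord_eq {D : ChevalleyDatum} [RS D] {M : CoxeterMatrix (Fin D.rank)}
    (h : coxOK D M = true) {n : ℕ} (hn : ordW D (List.range D.rank) n = true) :
    orderOf ((List.finRange D.rank).map M.simple).prod = n := by
  obtain ⟨e, he⟩ := exists_coxEquiv h
  rw [← map_coxeterElement e he, MulEquiv.orderOf_eq, orderOf_wW (by simp) hn]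

/-- The Coxeter element `s₁ s₂ ⋯ s_l` of the Coxeter group of type B₂, G₂, D₄, F₄, E₆, E₇, E₈ has order `h = 2N/l` = 4, 6, 6, 12, 12, 18, 30. -/
theorem result (p : (Σ n : ℕ, CoxeterMatrix (Fin n)) × ℕ)
    (hp : p ∈ [(⟨2, CoxeterMatrix.B 2⟩, 4), (⟨2, CoxeterMatrix.G₂⟩, 6), (⟨4, Cfsg.Lie.coxeterD4⟩, 6), (⟨4, CoxeterMatrix.F₄⟩, 12),
      (⟨6, CoxeterMatrix.E₆⟩, 12), (⟨7, CoxeterMatrix.E₇⟩, 18), (⟨8, CoxeterMatrix.E₈⟩, 30)]) :
    orderOf ((List.finRange p.1.1).map p.1.2.simple).prod = p.2 := by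
  simp only [List.mem_cons, List.not_mem_nil, or_false] at hp
  rcases hp with rfl | rfl | rfl | rfl | rfl | rfl | rfl
  · exact ord_eq H63.coxB2 (n := 4) (by decide +kernel)
  · exact ord_eq H63.coxG2 (n := 6) (by decide +kernel)
  · exact ord_eq H63.coxD4 (n := 6) (by decide +kernel)
  · exact ord_eq H63.coxF4 (n := 12) (by decide +kernel)
  · exact ord_eq H63.coxE6 (n := 12) (by decide +kernel)
  · exact ord_eq H63.coxE7 (n := 18) (by decide +kernel)
  · exact ord_eq H63.coxE8 (n := 30) (by decide +kernel)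

end Cfsg.Agent.S1094
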