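import Cfsg.Statements.S1095
import Cfsg.Agent.H65.All
import Cfsg.Agent.H65.N

set_option autoImplicit false
open Cfsg

namespace Cfsg.Agent.S1095

/-- `n_p` (p = p_{i+1} fundamental) is the signed monomial matrix `h_{p_j} ↦ h_{p_j} - A_{p_j,p} h_p`, `e_s ↦ η_s e_{w_p(s)}`, with `η_s = ±1`, `η_p = η_{-p} = -1`, `η_s η_{w_p(s)} = (-1)^{A_{p,s}}`, `η_s η_{-s} = 1`. -/
theorem result {F : Type*} [Field F] (D : Cfsg.Lie.ChevalleyDatum) (hD : D ∈ [Cfsg.Lie.chevG2, Cfsg.Lie.chevB2, Cfsg.Lie.chevD4, Cfsg.Lie.chevF4, Cfsg.Lie.chevE6, Cfsg.Lie.chevE7, Cfsg.Lie.chevE8]) (i : ℕ) (hi : i < D.rank) :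
    ∃ η : ℕ → ℤ, (∀ s < D.nroots, η s = 1 ∨ η s = -1) ∧ η (D.simple i) = -1 ∧ η (D.neg (D.simple i)) = -1 ∧
      (∀ s < D.nroots, η s * η (D.reflectRoot i s) = (-1) ^ (D.cartan i s).natAbs ∧ η s * η (D.neg s) = 1) ∧
      D.nMat F (D.simple i) 1 = Matrix.of (fun (row col : D.Idx) =>
        Sum.elim
          (fun j' : Fin D.rank => Sum.elim
            (fun j : Fin D.rank => (if j' = j then (1 : F) else 0) - (if (j' : ℕ) = i then ((D.cartan j (D.simple i) : ℤ) : F) else 0))
            (fun _ => (0 : F)) col)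
          (fun s' : Fin D.nroots => Sum.elim
            (fun _ => (0 : F))
            (fun s : Fin D.nroots => if (s' : ℕ) = D.reflectRoot i s then ((η s : ℤ) : F) else 0) col)
          row) := by
  obtain ⟨_, _, _⟩ := H65.of_mem hD
  let p : H63.Rt D := H63.simpleR ⟨i, hi⟩
  have hp : D.simple i < D.nroots := p.2
  refine ⟨fun s => if h : s < D.nroots then H65.eta D p ⟨s, h⟩ else 1, fun s hs => ?_, ?_, ?_, fun s hs => ⟨?_, ?_⟩, ?_⟩
  · simp only [hs, dif_pos]; exact H65.eta_eq_one_or _ _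
  · simp only [hp, dif_pos]; exact H65.eta_self p
  · simp only [H65.neg_lt hp, dif_pos]
    exact (H65.eta_negR p p).trans (H65.eta_self p)
  · have h1 : D.reflectRoot i s < D.nroots := (H63.sref ⟨i, hi⟩ ⟨s, hs⟩).2
    simp only [hs, h1, dif_pos]
    have := H65.eta_mul_eta_refl p ⟨s, hs⟩
    rw [H63.refl_simpleR, H63.simpleR_val, H63.pairing_simple] at this
    exact this
  · simp only [hs, H65.neg_lt hs, dif_pos]
    exact H65.eta_mul_eta_neg p ⟨s, hs⟩
  · ext row col
    have h0 : D.nMat F (D.simple i) 1 row col =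
        (Matrix.mulVec (D.nMat F (D.simple i) 1) (H65.bv D F (H65.enc D col))) row := by
      rw [H65.bv_enc, Matrix.mulVec_single_one]; rfl
    rw [h0]
    rcases col with j | s
    · rw [H65.enc_inl, H65.nMat_bv_h hp one_ne_zero j.2]
      rcases row with j' | u
      · have := H63.co_simpleR (D := D) ⟨i, hi⟩ j'
        simp only [H63.co] at this
        simp only [Pi.sub_apply, Pi.smul_apply, H65.bv_inl, H65.vec_coL_inl, this, Matrix.of_apply, Sum.elim_inl,
          Fin.ext_iff, Nat.add_left_cancel_iff]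
        split_ifs <;> simp
      · have := u.2
        have h2 : ¬ (u : ℕ) = D.nroots + j := by omega
        simp [H65.bv_inr, H65.vec_coL_inr, h2]
    · have := H65.nMat_bv p s (one_ne_zero (α := F))
      rw [H63.refl_simpleR, one_zpow, mul_one] at this
      rw [H65.enc_inr]
      refine (congrFun this row).trans ?_
      rcases row with j' | u
      · have := (H63.sref ⟨i, hi⟩ s).2
        have h2 : ¬ D.nroots + j' = H63.sref ⟨i, hi⟩ s := by omega
        simp only [Pi.smul_apply, H65.bv_inl, h2, if_false]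
        simp
      · simp [H65.bv_inr]

end Cfsg.Agent.S1095
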