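import Cfsg.Statements.S1097
import Cfsg.Agent.H64.Stein

set_option autoImplicit false
open Cfsg

namespace Cfsg.Agent.S1097

/-- Any homomorphism from the presented group to the Chevalley group with `x̄_r(t) ↦ x_r(t)` has kernel contained in `H̄ = ⟨h̄_p(t) : p fundamental, t ≠ 0⟩`. -/
theorem result {K : Type*} [Field K] (D : Cfsg.Lie.ChevalleyDatum) (hD : D ∈ [Cfsg.Lie.chevG2, Cfsg.Lie.chevB2, Cfsg.Lie.chevD4, Cfsg.Lie.chevF4, Cfsg.Lie.chevE6, Cfsg.Lie.chevE7, Cfsg.Lie.chevE8]) (θ : D.SteinbergGroup K →* ↥(D.group K))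
    (hθ : ∀ (r : ℕ) (t : K), r < D.nroots → ((θ (D.stGen K r t) : GL D.Idx K) : Matrix D.Idx D.Idx K) = D.x K r t) :
    θ.ker ≤ Subgroup.closure {h | ∃ (i : ℕ) (t : K), i < D.rank ∧ t ≠ 0 ∧ h = PresentedGroup.mk (D.steinbergRels K) (D.stH (D.simple i) t)} := by
  obtain ⟨_, _, _⟩ := H65.of_mem hD
  refine ((H64.st_stGen D K).theta_ker_le (H64.GG_stGen D K) θ
    fun r t => H64.val_eq_x.1 (hθ r t r.2)).trans ?_
  rw [(H64.st_stGen D K).stN.HH_eq_HS]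
  refine Subgroup.closure_mono ?_
  rintro _ ⟨i, t, ht, rfl⟩
  exact ⟨i, t, i.2, ht, H64.hh_stGen _ _⟩

end Cfsg.Agent.S1097
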