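import Cfsg.Statements.S1106
import Cfsg.Agent.H68.TwD4

set_option autoImplicit false
open Cfsg

namespace Cfsg.Agent.S1106

/-- `|H¹| = |G¹ ∩ H|`: `|H¹| = (q - 1) ^ 2 * (q ^ 2 + q + 1)` for ³D₄(q). -/
theorem result {K : Type*} [Field K] [Fintype K] {q : ℕ} (hq : IsPrimePow q) (hK : Fintype.card K = q ^ 3) :
    Nat.card ↥(Cfsg.Lie.chevD4.diagonalSubgroup K ⊓ Cfsg.Lie.twistedD4 K q) = (q - 1) ^ 2 * (q ^ 2 + q + 1) := by
  rw [← H68.mat_H, H68.card_H_D4 hq hK]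
  obtain ⟨n, rfl⟩ := Nat.exists_eq_add_of_le' hq.one_lt.le
  rw [show (n + 1) ^ 3 = n * ((n + 1) ^ 2 + (n + 1) + 1) + 1 by ring, Nat.add_sub_cancel, Nat.add_sub_cancel]
  ring

end Cfsg.Agent.S1106
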