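import Cfsg.Statements.S1111
import Cfsg.Agent.H68.ReeF
import Cfsg.Agent.H3.DihQuat

set_option autoImplicit false
open Cfsg

namespace Cfsg.Agent.S1111

theorem dihedral_of_two {G : Type*} [Group G] (g : Fin 2 → G) (h3 : orderOf (g 0 * g 1) = 8)
    (h4 : ∀ o, g o * g o = 1) (h5 : Subgroup.closure (Set.range g) = ⊤) :
    Nonempty (G ≃* DihedralGroup 8) := by
  have h6 : g 1 * (g 0 * g 1) * (g 1)⁻¹ = (g 0 * g 1)⁻¹ := by
    rw [mul_inv_rev, inv_eq_of_mul_eq_one_right (h4 0), inv_eq_of_mul_eq_one_right (h4 1), mul_assoc,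
      mul_assoc, h4, mul_one]
  exact H3.nonempty_mulEquiv_dihedral_of_closure (b := g 1) h3 (by rw [pow_two, h4]) h6 (by
    rintro ⟨k, hk⟩
    have h7 : Commute (g 1) (g 0 * g 1) := by
      have := (Commute.refl (g 0 * g 1)).zpow_left k
      rwa [show (g 0 * g 1) ^ k = g 1 from hk] at this
    rw [h7.eq, mul_inv_cancel_right, eq_inv_iff_mul_eq_one, ← pow_two] at h6
    exact absurd (orderOf_le_of_pow_eq_one two_pos h6) (by omega)) (by
    rw [eq_top_iff, ← h5, Subgroup.closure_le]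
    rintro _ ⟨o, rfl⟩
    have h8 : g 1 ∈ Subgroup.closure {g 0 * g 1, g 1} := Subgroup.subset_closure (by simp)
    obtain rfl | rfl : o = 0 ∨ o = 1 := by omega
    · simpa using Subgroup.mul_mem _ (Subgroup.subset_closure (by simp) : g 0 * g 1 ∈ _) (inv_mem h8)
    · exact h8)

theorem dihedral_Wf {R ι : Type} [Fintype R] [DecidableEq R] [Fintype ι] [DecidableEq ι] {E : H68.RD R ι}
    (τ : H68.Tw E (Fin 2)) (h : orderOf (τ.wo 0 * τ.wo 1) = 8) : Nonempty (τ.Wf ≃* DihedralGroup 8) := by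
  have h1 : orderOf (τ.gen 0 * τ.gen 1) = 8 := by
    rw [← Subgroup.orderOf_coe, Subgroup.coe_mul, H68.Tw.gen_val, H68.Tw.gen_val, h]
  have h2 : ∀ o, τ.gen o * τ.gen o = 1 := fun o => Subtype.ext (by
    rw [Subgroup.coe_mul, H68.Tw.gen_val, H68.Tw.wo_mul_wo, Subgroup.coe_one])
  exact dihedral_of_two τ.gen h1 h2 H68.Tw.closure_gen

/-- `N¹/H¹ ≅ W¹`: a surjective homomorphism from `N¹ = G¹ ∩ N` onto the dihedral group of order 16 with kernel `H¹`. -/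
theorem result {K : Type*} [Field K] [Fintype K] {m : ℕ} (hK : Fintype.card K = 2 ^ (2 * m + 1)) :
    ∃ φ : ↥(Cfsg.Lie.chevF4.monomialSubgroup K ⊓ Cfsg.Lie.twistedF4 K (2 ^ m)) →* DihedralGroup 8, Function.Surjective φ ∧
      φ.ker = (Cfsg.Lie.chevF4.diagonalSubgroup K ⊓ Cfsg.Lie.twistedF4 K (2 ^ m)).subgroupOf (Cfsg.Lie.chevF4.monomialSubgroup K ⊓ Cfsg.Lie.twistedF4 K (2 ^ m)) := by
  rw [← H68.mat_H, ← H68.mat_N]
  obtain ⟨φ, h1, h2, -⟩ := (H68.isTw_F4 hK).exists_hom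
  obtain ⟨e⟩ := dihedral_Wf H68.twF4 H68.orderOf_wo_F4
  exact ⟨e.toMonoidHom.comp φ, e.surjective.comp h1, by rw [← h2]; ext x; simp⟩

end Cfsg.Agent.S1111
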