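import Cfsg.Statements.S1115
import Cfsg.Agent.H68.ReeT

set_option autoImplicit false
open Cfsg

namespace Cfsg.Agent.S1115

/-- `N¹/H¹ ≅ W¹`: a surjective homomorphism from `N¹ = G¹ ∩ N` onto the group of order 2 with kernel `H¹`. -/
theorem result {K : Type*} [Field K] [Fintype K] {m : ℕ} (hK : Fintype.card K = 3 ^ (2 * m + 1)) :
    ∃ φ : ↥(Cfsg.Lie.chevG2.monomialSubgroup K ⊓ Cfsg.Lie.twistedG2 K (3 ^ m)) →* Multiplicative (ZMod 2), Function.Surjective φ ∧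
      φ.ker = (Cfsg.Lie.chevG2.diagonalSubgroup K ⊓ Cfsg.Lie.twistedG2 K (3 ^ m)).subgroupOf (Cfsg.Lie.chevG2.monomialSubgroup K ⊓ Cfsg.Lie.twistedG2 K (3 ^ m)) := by
  rw [← H68.mat_H, ← H68.mat_N]
  obtain ⟨φ, h1, h2, -⟩ := (H68.isTw_G2 hK).exists_hom
  have h3 : Nat.card H68.twG2.Wf = 2 := by
    rw [Nat.card_eq_two_iff]
    refine ⟨1, H68.twG2.gen 0, fun e => H68.Tw.wo_ne_one (τ := H68.twG2) 0 (Subtype.ext_iff.1 e).symm, ?_⟩
    rw [Set.eq_univ_iff_forall]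
    rintro ⟨w, hw⟩
    have h4 : (Set.univ : Set (Fin 1)) = {0} := by ext x; simp [Subsingleton.elim x 0]
    rw [H68.Tw.Wf, h4] at hw
    simpa [Subtype.ext_iff, H68.Tw.gen] using H68.Tw.eq_one_or_wo hw
  have : Fact (Nat.Prime 2) := ⟨Nat.prime_two⟩
  let e := mulEquivOfPrimeCardEq (G' := Multiplicative (ZMod 2)) h3 (by simp)
  exact ⟨e.toMonoidHom.comp φ, e.surjective.comp h1, by rw [← h2]; ext x; simp⟩

end Cfsg.Agent.S1115
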