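import Cfsg.Statements.S1120
import Cfsg.Agent.Base
import Cfsg.Agent.H69.RankOne

set_option autoImplicit false
open Cfsg

namespace Cfsg.Agent.S1120

/-- In the rank-one set-up (`G` finite and doubly transitive on `Ω`, `t` an involution moving `a`, `Q` normal in `G_a` with `G_a = Q D`, `Q ⊓ D = 1` for the two-point stabiliser `D = G_a ⊓ G_{t • a}`, `|Q|` even, `|D|` odd), if `G` has 2-rank at least 2 then `O_{2'}(G)` equals the normal core of `G_a`. -/
theorem result {G Ω : Type*} [Group G] [Finite G] [MulAction G Ω] {a : Ω} {t : G} {Q : Subgroup G}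
    (hS : Cfsg.IsRankOneSetup G Ω a t Q)
    (h2 : ∃ x y : G, x ≠ 1 ∧ y ≠ 1 ∧ x ≠ y ∧ x * x = 1 ∧ y * y = 1 ∧ x * y = y * x) :
    Cfsg.pPrimeCore 2 G = (MulAction.stabilizer G a).normalCore := by
  apply le_antisymm
  · -- every normal subgroup of odd order lies in `G_a`
    apply sSup_le
    rintro N ⟨hN, hc⟩
    have hodd : Odd (Nat.card N) := Nat.coprime_two_right.mp hc
    rw [Subgroup.normal_le_normalCore]
    intro w hw
    by_contra hwa
    obtain ⟨x, y, hx1, hy1, hxy, hx2, hy2, hcomm⟩ := h2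
    -- conjugate the four-group into `G_a`
    obtain ⟨b, hb⟩ := H69.RO.exists_fix hS hx2
    have hyb := H69.RO.fix_of_comm hS hx1 hx2 hb hcomm
    obtain ⟨g, hg⟩ := H69.RO.exists_smul_eq hS a b
    have hw' : g * w * g⁻¹ ∈ N := hN.conj_mem w hw g
    have hwb : (g * w * g⁻¹) • b ≠ b := by
      rw [← hg, mul_smul, mul_smul, inv_smul_smul]
      intro h
      exact hwa ((smul_left_cancel_iff g).mp h)
    set u := g * w * g⁻¹
    have h3 : (u * x * u⁻¹) * (u * x * u⁻¹) = 1 := by rw [conj_mul, hx2, mul_one, mul_inv_cancel]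
    have h4 : (u * x * u⁻¹) • b ≠ b := by
      intro h
      apply hwb
      refine H69.RO.fix_unique hS (s := u * x * u⁻¹) (by simpa using hx1) h3 ?_ h
      rw [mul_smul, mul_smul, inv_smul_smul, hb]
    have h5 := H69.RO.odd_orderOf_mul hS hy1 hy2 h3 hyb h4
    have h6 : (QuotientGroup.mk' N) (y * (u * x * u⁻¹)) = (QuotientGroup.mk' N) (y * x) := by
      have : (QuotientGroup.mk' N) u = 1 := (QuotientGroup.eq_one_iff u).mpr hw'
      simp only [map_mul, map_inv, this, one_mul, inv_one, mul_one]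
    have h7 : Odd (orderOf ((QuotientGroup.mk' N) (y * x))) := by
      rw [← h6]
      exact Odd.of_dvd_nat h5 (orderOf_map_dvd _ _)
    have h8 : y * x * (y * x) = 1 := by
      rw [mul_assoc, ← mul_assoc x, hcomm, H69.mul_self_cancel_right hx2, hy2]
    have h9 : (QuotientGroup.mk' N) (y * x) = 1 :=
      H69.eq_one_of_odd_of_mul_self h7 (by rw [← map_mul, h8, map_one])
    have h10 : y * x = 1 :=
      H69.eq_one_of_mem_odd_of_mul_self hodd ((QuotientGroup.eq_one_iff _).mp h9) h8
    apply hxy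
    rw [← H69.mul_self_cancel_left hy2 x, h10, mul_one]
  · apply le_sSup
    refine ⟨inferInstance, Nat.coprime_two_right.mpr (Odd.of_dvd_nat hS.odd_card
      (Subgroup.card_dvd_of_le ?_))⟩
    intro w hw
    refine ⟨Subgroup.normalCore_le _ hw, ?_⟩
    have h1 : (t⁻¹ * w * t⁻¹⁻¹) • a = a := hw t⁻¹
    show w • t • a = t • a
    rw [inv_inv, mul_smul, mul_smul, inv_smul_eq_iff] at h1
    exact h1

end Cfsg.Agent.S1120
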