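import Cfsg.Statements.S1139
import Cfsg.Agent.Base
import Cfsg.Agent.H69.Higman6

set_option autoImplicit false
open Cfsg

namespace Cfsg.Agent.S1139

/-- The unitriangular matrix with parameters `x`, `y`. -/
def mat {F : Type*} [Field F] (φ : F →+* F) (x y : F) : GL (Fin 3) F where
  val := !![1, 0, 0; x, 1, 0; y, φ x, 1]
  inv := !![1, 0, 0; -x, 1, 0; φ x * x - y, -φ x, 1]
  val_inv := by
    ext i j
    fin_cases i <;> fin_cases j <;> simp [Matrix.mul_apply, Fin.sum_univ_three]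
    ring
  inv_val := by
    ext i j
    fin_cases i <;> fin_cases j <;> simp [Matrix.mul_apply, Fin.sum_univ_three]
    ring

theorem mat_mul {F : Type*} [Field F] (φ : F →+* F) (x y x' y' : F) :
    mat φ (x + x') (y + y' + φ x * x') = mat φ x y * mat φ x' y' := by
  ext i j
  fin_cases i <;> fin_cases j <;> simp [mat, Matrix.mul_apply, Fin.sum_univ_three]
  all_goals ring

/-- A Suzuki 2-group `P` with `|P| = |Z(P)|²` is of type A: for some finite field `F` with `|F| = |Z(P)|` and some field automorphism `φ ≠ 1` of odd order, `P` is isomorphic to the group of lower unitriangular matrices with rows `(1,0,0)`, `(x,1,0)`, `(y, φ x, 1)`. -/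
theorem result {P : Type*} [Group P] (hP : Cfsg.IsSuzukiTwoGroup P)
    (hcard : Nat.card P = Nat.card (Subgroup.center P) ^ 2) :
    ∃ (F : Type) (_ : Field F) (_ : Fintype F) (φ : F ≃+* F), Fintype.card F = Nat.card (Subgroup.center P) ∧
      φ ≠ RingEquiv.refl F ∧ Odd (orderOf φ) ∧ Nonempty (P ≃* Cfsg.suzukiTypeA F (φ : F →+* F)) := by
  obtain ⟨ξ, h⟩ := H69.exists_sz2 hP
  obtain ⟨hfin, -, hna, -⟩ := hP
  rw [h.center_eq hna] at hcard ⊢
  obtain ⟨F, _, _, _, hF⟩ := h.exists_field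
  obtain ⟨f, μ, hμ, hf1, hf2⟩ := h.exists_coord_T hF
  obtain ⟨φ, x, y, l, h1, h2, -, -, hx, hy, -, -, -, -, -, hb⟩ :=
    h.exists_typeA hna ⟨hF, hμ, hf1, hf2⟩ hcard
  refine ⟨F, inferInstance, inferInstance, φ, by rw [← hF, Nat.card_eq_fintype_card], h1, h2, ?_⟩
  let ψ : P →* GL (Fin 3) F := MonoidHom.mk' (fun a => mat (φ : F →+* F) (x a) (y a))
    (fun a b => by rw [hx, hy, ← mat_mul]; rfl)
  have hinj : Function.Injective ψ := fun a b e => hb.1 (Prod.ext
    (congrArg (fun g : GL (Fin 3) F => (g : Matrix (Fin 3) (Fin 3) F) 1 0) e)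
    (congrArg (fun g : GL (Fin 3) F => (g : Matrix (Fin 3) (Fin 3) F) 2 0) e))
  have hr : ψ.range = Cfsg.suzukiTypeA F (φ : F →+* F) := by
    apply le_antisymm
    · rintro _ ⟨a, rfl⟩
      exact Subgroup.subset_closure ⟨x a, y a, rfl⟩
    · rw [Cfsg.suzukiTypeA, Subgroup.closure_le]
      rintro g ⟨u, v, e⟩
      obtain ⟨a, ha⟩ := hb.2 (u, v)
      refine ⟨a, Units.ext ?_⟩
      rw [e, ← show x a = u from congrArg Prod.fst ha, ← show y a = v from congrArg Prod.snd ha]
      rfl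
  exact ⟨(MonoidHom.ofInjective hinj).trans (MulEquiv.subgroupCongr hr)⟩

end Cfsg.Agent.S1139
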