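import Cfsg.Statements.S1140
import Cfsg.Agent.Base
import Cfsg.Agent.H69.FieldAut

set_option autoImplicit false
open Cfsg

namespace Cfsg.Agent.S1140

/-- For a finite field `F` of characteristic 2, the automorphisms of `F`, viewed as additive maps `F → F`, are linearly independent over `F` (acting on values) every additive endomorphism of `F` is an `F`-linear combination of them, and every biadditive map `F → F → F` is an `F`-combination of the maps `(x, y) ↦ σ(x) τ(y)`. -/
theorem result {F : Type*} [Field F] [Fintype F] [CharP F 2] :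
    LinearIndependent F (fun σ : F ≃+* F => ((σ : F →+* F) : F → F)) ∧
      (∀ f : F →+ F, ∃ (s : Finset (F ≃+* F)) (c : (F ≃+* F) → F), ∀ x : F, f x = ∑ σ ∈ s, c σ * σ x) ∧
      ∀ B : F →+ F →+ F, ∃ (s : Finset ((F ≃+* F) × (F ≃+* F))) (c : (F ≃+* F) × (F ≃+* F) → F),
        ∀ x y : F, B x y = ∑ p ∈ s, c p * (p.1 x * p.2 y) := by
  have := H69.finite_ringEquiv (F := F)
  let _ := Fintype.ofFinite (F ≃+* F)
  refine ⟨H69.linearIndependent_ringEquiv, fun f => ?_, fun B => ?_⟩
  · obtain ⟨c, hc⟩ := H69.exists_addHom_eq_sum f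
    exact ⟨Finset.univ, c, hc⟩
  · obtain ⟨c, hc⟩ := H69.exists_biadd_eq_sum B
    exact ⟨Finset.univ, c, hc⟩

end Cfsg.Agent.S1140
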