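import Cfsg.Agent.Base
import Cfsg.Statements.S1141
import Cfsg.Agent.H85.U3Syl

set_option autoImplicit false
open Cfsg

namespace Cfsg.Agent.S1141

theorem suz {F : Type*} [Field F] [Fintype F] [CharP F 2] {q : ℕ} (hF : Fintype.card F = q ^ 2)
    (hq : 2 < q) {P : Type*} [Group P] (e : P ≃* H85.UQ hF) (hP : IsPGroup 2 P) :
    Cfsg.IsSuzukiTwoGroup P := by
  have hfin : Finite P := Finite.of_equiv _ e.symm.toEquiv
  let φ0 : Fˣ →* MulAut (H85.UQ hF) := MonoidHom.mk' H85.UQ.diag fun s t => by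
    ext x
    · simp [mul_assoc]
    · simp only [H85.UQ.diag_b, MulAut.mul_apply, Units.val_mul, map_mul]; ring
  let φ : Fˣ →* MulAut P := (MulAut.congr e.symm).toMonoidHom.comp φ0
  have hφ : ∀ t x, e (φ t x) = H85.UQ.diag t (e x) := fun t x => by simp [φ, φ0]
  let A : Subgroup Fˣ := (Units.map (H59.frob hF : F →* F)).eqLocus (MonoidHom.id _)
  have hA : ∀ t : Fˣ, t ∈ A ↔ H59.frob hF t = t := fun t => by
    show Units.map _ t = t ↔ _
    rw [Units.ext_iff]; rfl
  have hinv : ∀ x : P, x * x = 1 ↔ (e x).a = 0 := fun x => by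
    rw [← H85.UQ.mul_self_eq_one_iff, ← map_mul, map_eq_one_iff e e.injective]
  have hb : ∀ x : P, x ≠ 1 → x * x = 1 → (e x).b ≠ 0 ∧ H59.frob hF (e x).b = (e x).b := by
    intro x h1 h2
    have h3 := (hinv x).1 h2
    have h4 := (e x).h
    rw [h3, zero_mul] at h4
    exact ⟨fun h => h1 (e.injective (H85.UQ.ext (by simp [h3]) (by simp [h]))),
      (CharTwo.add_eq_zero.1 h4).symm⟩
  refine ⟨hfin, hP, ?_, ?_, A.map φ, ?_, ?_⟩
  · obtain ⟨x, hx⟩ := H85.UQ.exists_a hF 1
    by_contra! h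
    have := (H85.UQ.mem_center_iff x).1 (Subgroup.mem_center_iff.2 fun y => by
      simpa using congrArg e (h (e.symm y) (e.symm x)))
    exact one_ne_zero (hx.symm.trans this)
  · have h1 : 2 < Nat.card (Subgroup.center (H85.UQ hF)) := by rwa [H85.UQ.card_center]
    have h2 : ∃ x y : Subgroup.center (H85.UQ hF), x ≠ y ∧ x ≠ 1 ∧ y ≠ 1 := by
      classical
      have := Fintype.ofFinite (Subgroup.center (H85.UQ hF))
      rw [Nat.card_eq_fintype_card, Fintype.two_lt_card_iff] at h1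
      obtain ⟨a, b, c, h3, h4, h5⟩ := h1
      by_cases ha : a = 1
      · exact ⟨b, c, h5, ha ▸ h3.symm, ha ▸ h4.symm⟩
      by_cases hb : b = 1
      · exact ⟨a, c, h4, ha, hb ▸ h5.symm⟩
      · exact ⟨a, b, h3, ha, hb⟩
    obtain ⟨x, y, h3, h4, h5⟩ := h2
    refine ⟨e.symm x, e.symm y, fun h => h3 (Subtype.ext (e.symm.injective h)),
      fun h => h4 (Subtype.ext (by simpa using h)), ?_, fun h => h5 (Subtype.ext (by simpa using h)), ?_⟩
    · rw [hinv, MulEquiv.apply_symm_apply]; exact (H85.UQ.mem_center_iff _).1 x.2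
    · rw [hinv, MulEquiv.apply_symm_apply]; exact (H85.UQ.mem_center_iff _).1 y.2
  · exact isCyclic_of_surjective _ (φ.subgroupMap_surjective A)
  · intro x y x1 x2 y1 y2
    obtain ⟨a1, a2⟩ := hb x x1 x2
    obtain ⟨b1, b2⟩ := hb y y1 y2
    obtain ⟨s, hs⟩ := surjective_frobenius F 2 ((e y).b / (e x).b)
    rw [frobenius_def] at hs
    have s0 : s ≠ 0 := by
      rintro rfl
      exact div_ne_zero b1 a1 (by rw [← hs]; simp)
    have s1 : H59.frob hF s = s := by
      apply frobenius_inj F 2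
      rw [frobenius_def, frobenius_def, ← map_pow, hs, map_div₀, a2, b2]
    refine ⟨⟨φ (Units.mk0 s s0), Units.mk0 s s0, (hA _).2 s1, rfl⟩, ?_, ?_⟩
    · apply e.injective
      show e (φ _ x) = _
      rw [hφ]
      refine H85.UQ.ext (by simp [(hinv x).1 x2, (hinv y).1 y2]) ?_
      rw [H85.UQ.diag_b, Units.val_mk0, s1, ← pow_two, hs, div_mul_cancel₀ _ a1]
    · rintro ⟨_, t, ht, rfl⟩ h
      have h1 := congrArg (fun z => (e z).b) h
      simp only [hφ, H85.UQ.diag_b, (hA t).1 ht] at h1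
      have h2 : (t : F) = s := by
        apply frobenius_inj F 2
        rw [frobenius_def, frobenius_def, hs, ← h1, pow_two, mul_div_cancel_right₀ _ a1]
      apply Subtype.ext
      show φ t = φ _
      congr 1
      exact Units.ext h2

/-- Let `q = 2^n ≥ 4` and `|F| = q²`. A Sylow 2-subgroup `S` of `PSU₃(q)` has order `q³`, its centre has order `q`, and `S` is a Suzuki 2-group. -/
theorem result {F : Type*} [Field F] [Fintype F] {n : ℕ} (hn : 2 ≤ n)
    (hF : Fintype.card F = (2 ^ n) ^ 2) (S : Sylow 2 (Cfsg.PSU 3 F (2 ^ n))) :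
    Nat.card S = (2 ^ n) ^ 3 ∧ Nat.card (Subgroup.center ↥(S : Subgroup (Cfsg.PSU 3 F (2 ^ n)))) = 2 ^ n ∧
      Cfsg.IsSuzukiTwoGroup ↥(S : Subgroup (Cfsg.PSU 3 F (2 ^ n))) := by
  have hc : CharP F 2 := H85.charP_two_of_card (by
    rw [hF]; exact ((even_two.pow_of_ne_zero (by omega))).pow_of_ne_zero two_ne_zero)
  obtain ⟨e⟩ := H85.nonempty_equiv_sylow_PSU hF 2 S
  refine ⟨(Nat.card_congr e.toEquiv).trans (H85.UQ.card_eq hF), ?_, suz hF ?_ e S.isPGroup'⟩
  · refine Eq.trans (Nat.card_congr (Equiv.subtypeEquiv e.toEquiv fun x => H59.mem_center_congr e x))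
      (H85.UQ.card_center hF)
  · calc 2 < 2 ^ 2 := by norm_num
      _ ≤ 2 ^ n := Nat.pow_le_pow_right two_pos hn

end Cfsg.Agent.S1141
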