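import Cfsg.Statements.S1142
import Cfsg.Agent.Base
import Cfsg.Agent.H67.FH

set_option autoImplicit false
open Cfsg

namespace Cfsg.Agent.S1142

theorem card_of_two {W B : Type*} [Group W] {s : B → W} {A : B → Set W} (h : H67.Exch s A)
    (x y : B) (hB : ∀ i, i = x ∨ i = y) : Nat.card W = 2 * orderOf (s x * s y) := by
  obtain ⟨φ, hφ⟩ := h.exists_hom (H := ℤˣ) (fun _ => -1) (fun _ => by simp) (fun _ _ => by simp)
  have hker : φ.ker = Subgroup.zpowers (s x * s y) := by
    apply le_antisymm
    · have key : ∀ l : List B, H67.wp s l ∈ Subgroup.zpowers (s x * s y) ∨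
          H67.wp s l * s x ∈ Subgroup.zpowers (s x * s y) := by
        intro l
        induction l using List.reverseRecOn with
        | nil => left; simp
        | append_singleton l i ih =>
          rw [H67.wp_append, H67.wp_singleton]
          have hxy := Subgroup.mem_zpowers (s x * s y)
          rcases ih with h1 | h1 <;> rcases hB i with rfl | rfl
          · right; rwa [h.mul_s_mul_s]
          · right
            have : s i * s x = (s x * s i)⁻¹ := by rw [mul_inv_rev, h.inv_s, h.inv_s]
            rw [mul_assoc, this]
            exact Subgroup.mul_mem _ h1 (Subgroup.inv_mem _ hxy)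
          · left; exact h1
          · left
            have := Subgroup.mul_mem _ h1 hxy
            rwa [← mul_assoc, h.mul_s_mul_s] at this
      have hle : Subgroup.zpowers (s x * s y) ≤ φ.ker := by
        rw [Subgroup.zpowers_le, MonoidHom.mem_ker, map_mul, hφ, hφ]; simp
      intro w hw
      obtain ⟨l, rfl⟩ := h.exists_word w
      rcases key l with h1 | h1
      · exact h1
      · have := hle h1
        rw [MonoidHom.mem_ker] at hw this
        rw [map_mul, hw, hφ] at this
        simp at this
    · rw [Subgroup.zpowers_le, MonoidHom.mem_ker, map_mul, hφ, hφ]; simp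
  have hsurj : φ.range = ⊤ := by
    rw [eq_top_iff]
    rintro u -
    rcases Int.units_eq_one_or u with rfl | rfl
    · exact Subgroup.one_mem _
    · exact ⟨s x, hφ x⟩
  have hidx : φ.ker.index = 2 := by
    rw [Subgroup.index_ker, hsurj, Subgroup.card_top, Nat.card_eq_fintype_card,
      Fintype.card_units_int]
  rw [← φ.ker.index_mul_card, hidx, hker, Nat.card_zpowers]

/-- Feit–Higman: if a finite group has a (B,N)-pair of rank 2, its Weyl group `N/(B ⊓ N)` has order 4, 6, 8, 12 or 16. -/
theorem result {G : Type*} [Group G] [Finite G] (P : Cfsg.BNPair G)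
    (h2 : P.rank = 2) :
    ((P.B ⊓ P.N).subgroupOf P.N).index ∈ ({4, 6, 8, 12, 16} : Set ℕ) := by
  obtain ⟨s, t, hst, hS⟩ := Nat.card_eq_two_iff.1 h2
  have hB : ∀ i : P.S, i = s ∨ i = t := by
    intro i
    have : i ∈ ({s, t} : Set P.S) := hS ▸ Set.mem_univ i
    simpa using this
  have h1 := card_of_two (H67.bn_exch P) s t hB
  have h3 := H67.feit_higman s t hst
  rw [Subgroup.index, h1]
  simp only [Set.mem_insert_iff, Set.mem_singleton_iff] at h3 ⊢
  omega

end Cfsg.Agent.S1142
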