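import Cfsg.Statements.S1148
import Cfsg.Agent.Base
import Cfsg.Agent.H55.ON7
import Cfsg.Agent.H67.SBNMap

set_option autoImplicit false
open Cfsg

namespace Cfsg.Agent.S1148

/-- Let `G` be finite simple with a (B,N)-pair of rank 1, `B = U H` with `U` nilpotent normal in `B`, `H = B ⊓ N`, `U ⊓ H = 1`, where `[G : B] = p^(3n) + 1` for an odd prime `p`, `|U| = p^(3n)` and `H` is cyclic of order `(p^(2n) - 1)/gcd(3, p^n + 1)`. Then `G ≅ PSU₃(p^n)`. -/
theorem result {G : Type*} [Group G] [Finite G] [IsSimpleGroup G]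
    (P : Cfsg.BNPair G) (h1 : P.rank = 1) {p n : ℕ} (hp : p.Prime) (hp2 : p ≠ 2) (hn : 1 ≤ n)
    (U : Subgroup G) (hUB : U ≤ P.B) (hUn : ∀ b ∈ P.B, ∀ u ∈ U, b * u * b⁻¹ ∈ U)
    (hUnil : Group.IsNilpotent U) (hsplit : U ⊔ (P.B ⊓ P.N) = P.B) (hdisj : U ⊓ (P.B ⊓ P.N) = ⊥)
    (hind : P.B.index = p ^ (3 * n) + 1) (hU : Nat.card U = p ^ (3 * n))
    (hHc : IsCyclic ↥(P.B ⊓ P.N))
    (hH : Nat.gcd 3 (p ^ n + 1) * Nat.card ↥(P.B ⊓ P.N) = p ^ (2 * n) - 1) :
    ∃ (F : Type) (_ : Field F) (_ : Fintype F), Fintype.card F = (p ^ n) ^ 2 ∧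
      Nonempty (G ≃* Cfsg.PSU 3 F (p ^ n)) := by
  classical
  obtain ⟨⟨s, hs⟩, hS⟩ := Nat.card_eq_one_iff_exists.1 h1
  have hS' : P.S = {s} := Set.eq_singleton_iff_unique_mem.2
    ⟨hs, fun y hy => congrArg Subtype.val (hS ⟨y, hy⟩)⟩
  have hsN := P.subset hs
  have hs2 := P.sq_mem s hs
  have hsB : s ∉ P.B := fun h => P.conj_ne s hs (Set.ext fun y =>
    ⟨fun ⟨z, hz, e⟩ => e ▸ P.B.mul_mem (P.B.mul_mem h hz) h, fun hy =>
      ⟨s⁻¹ * y * s⁻¹, P.B.mul_mem (P.B.mul_mem (P.B.inv_mem h) hy) (P.B.inv_mem h), by group⟩⟩)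
  have hconj : ∀ m ∈ P.N, ∀ h ∈ P.B ⊓ P.N, m * h * m⁻¹ ∈ P.B ⊓ P.N := fun m hm h hh =>
    ⟨P.conj_mem m hm h hh, P.N.mul_mem (P.N.mul_mem hm hh.2) (P.N.inv_mem hm)⟩
  have hfa : ∀ g : G, g • ((1 : G) : G ⧸ P.B) = ((1 : G) : G ⧸ P.B) ↔ g ∈ P.B := fun g => by
    rw [MulAction.Quotient.smul_mk, eq_comm, QuotientGroup.eq]; simp
  have hfb : ∀ h ∈ P.B ⊓ P.N, h • (s : G ⧸ P.B) = s := fun h hh => by
    rw [MulAction.Quotient.smul_mk, eq_comm, QuotientGroup.eq, smul_eq_mul, ← mul_assoc]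
    simpa using (hconj _ (P.N.inv_mem hsN) h hh).1
  have hdec : ∀ g ∈ P.B, ∃ u ∈ U, ∃ h ∈ P.B ⊓ P.N, g = u * h := fun g hg =>
    (H98.mem_sup_right_norm (H := P.B ⊓ P.N) fun h hh => Subgroup.mem_normalizer_iff.2 fun u =>
      ⟨hUn h hh.1 u, fun h' => by simpa [mul_assoc] using hUn _ (P.B.inv_mem hh.1) _ h'⟩).1
      (hsplit.ge hg)
  have hne : ((1 : G) : G ⧸ P.B) ≠ s := fun e => hsB (by simpa using QuotientGroup.eq.1 e)
  have htr : ∀ c : G ⧸ P.B, c ≠ ((1 : G) : G ⧸ P.B) → ∃ u ∈ U, u • (s : G ⧸ P.B) = c := by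
    intro c hc
    obtain ⟨g, rfl⟩ := QuotientGroup.mk_surjective c
    obtain ⟨b, hb, m, hm, b', hb', e, -⟩ := H67.exists_bruhat P g
    rcases H67.mem_sup_closure_rank_one (hconj s hsN) ⟨hs2, P.N.mul_mem hsN hsN⟩
      (by rwa [sup_comm, ← hS', P.closure_sup]) with h | ⟨h, hh, rfl⟩
    · exact absurd (QuotientGroup.eq.2 (by
        simpa [e] using P.B.inv_mem (P.B.mul_mem (P.B.mul_mem hb h.1) hb'))) hc
    · obtain ⟨u, hu, k, hk, e'⟩ := hdec _ (P.B.mul_mem hb hh.1)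
      refine ⟨u, hu, ?_⟩
      rw [← hfb k hk, ← mul_smul, ← e', MulAction.Quotient.smul_mk, QuotientGroup.eq, e]
      simpa [mul_assoc] using hb'
  have hfree : ∀ u ∈ U, u • (s : G ⧸ P.B) = s → u = 1 := by
    let f : U → {c : G ⧸ P.B // c ≠ ((1 : G) : G ⧸ P.B)} := fun u => ⟨(u : G) • (s : G ⧸ P.B),
      fun e => hne (MulAction.injective (u : G) (((hfa u).2 (hUB u.2)).trans e.symm))⟩
    have hf : Function.Bijective f := (Nat.bijective_iff_surjective_and_card f).2 ⟨fun c => by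
      obtain ⟨u, hu, e⟩ := htr c.1 c.2
      exact ⟨⟨u, hu⟩, Subtype.ext e⟩, by
        have := Fintype.ofFinite (G ⧸ P.B)
        rw [hU, Nat.card_eq_fintype_card, Fintype.card_subtype_compl,
          Fintype.card_subtype_eq, ← Nat.card_eq_fintype_card, ← Subgroup.index, hind]
        rfl⟩
    intro u hu e
    exact congrArg Subtype.val (hf.1 (a₁ := ⟨u, hu⟩) (a₂ := 1) (Subtype.ext (by
      change u • _ = (1 : G) • _
      rw [e, one_smul])))
  have hSt : H55.ON.St G ((1 : G) : G ⧸ P.B) (s : G ⧸ P.B) = P.B ⊓ P.N := by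
    refine le_antisymm (fun g hg => ?_) fun h hh => ⟨(hfa h).2 hh.1, hfb h hh⟩
    obtain ⟨u, hu, h, hh, rfl⟩ := hdec g ((hfa g).1 hg.1)
    have : u = 1 := hfree u hu (by rw [← hfb h hh, ← mul_smul, hfb h hh]; exact hg.2)
    rwa [this, one_mul]
  have hUne : U ≠ ⊥ := fun e => by
    rw [e, Subgroup.card_bot] at hU
    exact (Nat.one_lt_pow (by omega) hp.one_lt).ne hU
  have B : H55.ON.Base ((1 : G) : G ⧸ P.B) (s : G ⧸ P.B) U s :=
    { ne := hne
      fix := fun u hu => (hfa u).2 (hUB hu)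
      norm := fun g hg => hUn g ((hfa g).1 hg)
      trans := htr
      free := hfree
      sa := by rw [MulAction.Quotient.smul_mk, smul_eq_mul, mul_one]
      sb := by
        rw [MulAction.Quotient.smul_mk, eq_comm, QuotientGroup.eq]; simpa using hs2
      faithful := fun g hg => by
        rcases (MonoidHom.normal_ker (MulAction.toPermHom G (G ⧸ P.B))).eq_bot_or_eq_top with h | h
        · exact Subgroup.mem_bot.1 (h ▸ Equiv.ext hg)
        · exact absurd ((hfa s).1 (DFunLike.congr_fun (h.ge (Subgroup.mem_top s))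
            ((1 : G) : G ⧸ P.B))) hsB
      cyc := hSt ▸ hHc }
  have hq : 1 ≤ p ^ n := Nat.one_le_pow _ _ hp.pos
  have hd := Nat.mul_div_cancel' (Nat.gcd_dvd_right 3 (p ^ n + 1))
  have hcard : Nat.card (H55.ON.St G ((1 : G) : G ⧸ P.B) (s : G ⧸ P.B)) =
      (p ^ n - 1) * ((p ^ n + 1) / Nat.gcd 3 (p ^ n + 1)) := by
    refine Nat.eq_of_mul_eq_mul_left (Nat.gcd_pos_of_pos_left (p ^ n + 1) (by norm_num : 0 < 3)) ?_
    rw [hSt, hH, mul_left_comm, hd, mul_comm 2, pow_mul, H59.sq_sub_one_eq hq, mul_comm]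
  obtain ⟨t, ht, ht2⟩ := B.exists_orderOf (m := 2) (hcard ▸ Dvd.dvd.mul_right
    (Nat.Odd.sub_odd (hp.odd_of_ne_two hp2).pow odd_one).two_dvd _)
  have H : H55.ON.Hyp _ _ U s t p n (p ^ n) _ _ :=
    { B with
      prime := hp
      odd := hp2
      pos := hn
      q_eq := rfl
      cardU := by rw [hU, mul_comm, pow_mul]
      d_eq := (Nat.dvd_prime Nat.prime_three).1 (Nat.gcd_dvd_left _ _)
      N_eq := hd
      cardH := hcard
      perfect := ((inferInstance : (commutator G).Normal).eq_bot_or_eq_top).resolve_left fun h =>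
        hUne (eq_bot_iff.2 fun u hu => hfree u hu (by
          have := Subgroup.commutator_mem_commutator (Subgroup.mem_top u) (Subgroup.mem_top s)
          rw [← commutator_def, h, Subgroup.mem_bot, commutatorElement_eq_one_iff_mul_comm] at this
          rw [← B.sa, ← mul_smul, this, mul_smul, B.fix u hu]))
      tH := ht
      t2 := ht2 }
  have := Fact.mk hp
  have := Fintype.ofFinite (GaloisField p (2 * n))
  have hE : Fintype.card (GaloisField p (2 * n)) = (p ^ n) ^ 2 := by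
    rw [← Nat.card_eq_fintype_card, GaloisField.card p _ (by omega), mul_comm, pow_mul]
  exact ⟨_, _, _, hE, H.iso_PSU (Subgroup.normalClosure_normal.eq_bot_or_eq_top.resolve_left
    fun h => hUne (eq_bot_iff.2 (h ▸ Subgroup.le_normalClosure))) hE⟩

end Cfsg.Agent.S1148
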