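import Cfsg.Statements.S1151
import Cfsg.Agent.H30.ReeInst
import Cfsg.Agent.H30.ReeCent

set_option autoImplicit false
open Cfsg

namespace Cfsg.Agent.S1151

/-- In the small Ree group ²G₂(q), q = 3^(2m+1), realised as G¹ inside the Chevalley group G₂ over the field with q elements (θ the 3^m-th power map), with H¹ = G¹ ∩ H and U¹ = G¹ ∩ U the intersections with the ambient diagonal and positive unipotent subgroups: `H¹` has exactly `(q - 1)/2` elements of odd order, and each non-identity one centralises no non-identity element of `U¹`. -/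
theorem result {K : Type*} [Field K] [Fintype K] {m : ℕ} (hK : Fintype.card K = 3 ^ (2 * m + 1)) :
    2 * Nat.card {h : ↥(Cfsg.Lie.chevG2.diagonalSubgroup K ⊓ Cfsg.Lie.twistedG2 K (3 ^ m)) // Odd (orderOf h)} = 3 ^ (2 * m + 1) - 1 ∧
      ∀ h ∈ (Cfsg.Lie.chevG2.diagonalSubgroup K ⊓ Cfsg.Lie.twistedG2 K (3 ^ m)), h ≠ 1 → Odd (orderOf h) →
        (Cfsg.Lie.chevG2.posUnipotent K ⊓ Cfsg.Lie.twistedG2 K (3 ^ m)) ⊓ Subgroup.centralizer {h} = ⊥ := by
  refine ⟨?_, fun h hh h1 h2 => ?_⟩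
  · have hc : IsCyclic ↥(Cfsg.Lie.chevG2.diagonalSubgroup K ⊓ Cfsg.Lie.twistedG2 K (3 ^ m)) := by
      rw [← H68.mat_H, H68.H_inf_G2 hK]
      exact isCyclic_of_surjective _ (MonoidHom.rangeRestrict_surjective _)
    have h0 : Nat.card ↥(Cfsg.Lie.chevG2.diagonalSubgroup K ⊓ Cfsg.Lie.twistedG2 K (3 ^ m)) =
        3 ^ (2 * m + 1) - 1 := by
      rw [← H68.mat_H]
      exact H68.card_H_G2 hK
    generalize (Cfsg.Lie.chevG2.diagonalSubgroup K ⊓ Cfsg.Lie.twistedG2 K (3 ^ m)) = C at hc h0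
    have h8 := H30.three_pow_mod_eight m
    obtain ⟨k, hk⟩ : ∃ k, 3 ^ (2 * m + 1) - 1 = 2 * (2 * k + 1) := ⟨3 ^ (2 * m + 1) / 4, by omega⟩
    rw [hk] at h0 ⊢
    have : Finite C := Nat.finite_of_card_ne_zero (by omega)
    letI := hc.commGroup
    have h1 := IsCyclic.card_powMonoidHom_ker C (2 * k + 1)
    rw [h0, Nat.gcd_eq_right (Dvd.intro_left _ rfl)] at h1
    rw [← h1]
    refine congrArg _ (Nat.card_congr (Equiv.subtypeEquivRight fun a => ?_))
    rw [MonoidHom.mem_ker, powMonoidHom_apply, ← orderOf_dvd_iff_pow_eq_one]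
    refine ⟨fun h => ?_, fun h => Odd.of_dvd_nat (odd_two_mul_add_one k) h⟩
    exact (Nat.coprime_two_right.2 h).dvd_of_dvd_mul_left (h0 ▸ orderOf_dvd_natCard a)
  · rw [eq_bot_iff]
    rintro u ⟨hu, hc⟩
    have := (H30.reeG2 hK).fpf (k := ⟨h, hh.2⟩) (u := ⟨u, hu.2⟩) ((H30.reeG2_mem_H hK).2 hh.1)
      (fun e => h1 (by
        have h3 : orderOf h ∣ 2 := orderOf_dvd_of_pow_eq_one (by rw [sq]; exact Subtype.ext_iff.1 e)
        exact orderOf_eq_one_iff.1 (Nat.eq_one_of_dvd_coprimes (Nat.coprime_two_right.2 h2) dvd_rfl h3)))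
      ((H30.reeG2_mem_U hK).2 hu.1) (Subtype.ext (by
        simp only [Subgroup.coe_mul, Subgroup.coe_inv]
        rw [← Subgroup.mem_centralizer_singleton_iff.1 hc, mul_inv_cancel_right]))
    exact Subtype.ext_iff.1 this

end Cfsg.Agent.S1151
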