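import Cfsg.Statements.S1176
import Cfsg.Agent.Base
import Cfsg.Agent.H83.InvPair

set_option autoImplicit false
open Cfsg

namespace Cfsg.Agent.S1176

/-- Let x₀ be an involution of the finite group G and D its conjugacy class. Assume (a) for each x ∈ D the subgroup W(x) generated by the members of D commuting with x is a 2-group of nilpotency class at most 2, and (b) the product of two distinct commuting members of D again lies in D. Then for all x, y ∈ D, if xy has even order greater than 2, its order is 4. -/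
theorem result {G : Type*} [Group G] [Finite G] (x₀ : G) (hx₀ : orderOf x₀ = 2) (ha : ∀ x : G, IsConj x₀ x → IsPGroup 2 ↥(Subgroup.closure {y : G | IsConj x₀ y ∧ Commute y x}) ∧ ⁅⁅Subgroup.closure {y : G | IsConj x₀ y ∧ Commute y x}, Subgroup.closure {y : G | IsConj x₀ y ∧ Commute y x}⁆, Subgroup.closure {y : G | IsConj x₀ y ∧ Commute y x}⁆ = ⊥) (hb : ∀ x y : G, IsConj x₀ x → IsConj x₀ y → x ≠ y → Commute x y → IsConj x₀ (x * y)) (x y : G) (hx : IsConj x₀ x) (hy : IsConj x₀ y) (heven : Even (orderOf (x * y))) (hgt : 2 < orderOf (x * y)) : orderOf (x * y) = 4 := by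
  have hx1 : x * x = 1 := by
    obtain ⟨c, rfl⟩ := isConj_iff.mp hx
    rw [conj_mul, H83.mul_self_of_orderOf_two hx₀]; simp
  have hy1 : y * y = 1 := by
    obtain ⟨c, rfl⟩ := isConj_iff.mp hy
    rw [conj_mul, H83.mul_self_of_orderOf_two hx₀]; simp
  have hinv := H83.left_inverts_mul hx1 hy1
  set t := x * y with ht
  have hrefl : ∀ k : ℤ, IsConj x₀ (x * t ^ k) := by
    intro k
    obtain ⟨j, rfl | rfl⟩ := Int.even_or_odd' k
    · exact hx.trans (isConj_iff.mpr ⟨_, H83.mul_zpow_conj_of_inverts hinv j⟩)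
    · refine hy.trans (isConj_iff.mpr ⟨t ^ (-j), ?_⟩)
      have hy' : y = x * t := by rw [ht, ← mul_assoc, hx1, one_mul]
      rw [hy', ← mul_assoc, H83.zpow_mul_of_inverts hinv]
      group
  obtain ⟨hz2, hzx, hzy⟩ := H83.half_pow_spec hx1 hy1 (orderOf_pos _).ne' heven
  rw [← ht] at hz2 hzx hzy
  set z := t ^ (orderOf t / 2) with hz
  have hzD : IsConj x₀ z := by
    have h1 := hb x (x * z) hx (by rw [hz, ← zpow_natCast]; exact hrefl _)
      (fun h => H83.ne_one_of_orderOf_two hz2 (left_eq_mul.mp h))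
      ((Commute.refl x).mul_right hzx.symm)
    rwa [← mul_assoc, hx1, one_mul] at h1
  obtain ⟨-, h2⟩ := ha z hzD
  have hxW : x ∈ Subgroup.closure {y : G | IsConj x₀ y ∧ Commute y z} :=
    Subgroup.subset_closure ⟨hx, hzx.symm⟩
  have hyW : y ∈ Subgroup.closure {y : G | IsConj x₀ y ∧ Commute y z} :=
    Subgroup.subset_closure ⟨hy, hzy.symm⟩
  have h3 := Subgroup.commutator_mem_commutator (Subgroup.commutator_mem_commutator hxW hyW) hxW
  rw [h2, Subgroup.mem_bot, commutatorElement_eq_one_iff_commute] at h3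
  have h4 : x * y * x⁻¹ * y⁻¹ = t ^ (2 : ℤ) := by
    rw [inv_eq_of_mul_eq_one_right hx1, inv_eq_of_mul_eq_one_right hy1,
      ht, zpow_two, mul_assoc]
  rw [commutatorElement_def, h4] at h3
  have h5 := H83.conj_zpow_of_inverts hinv 2
  rw [← h3.eq, mul_inv_cancel_right] at h5
  have h6 : t ^ 4 = 1 := by
    have : t ^ (4 : ℤ) = 1 := by
      calc t ^ (4 : ℤ) = t ^ (2 : ℤ) * t ^ (2 : ℤ) := by rw [← zpow_add]; rfl
        _ = t ^ (2 : ℤ) * t ^ (-2 : ℤ) := by rw [← h5]
        _ = 1 := by rw [← zpow_add]; simp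
    exact_mod_cast this
  have h7 : orderOf t ∣ 4 := orderOf_dvd_of_pow_eq_one h6
  have h8 : orderOf t ≤ 4 := Nat.le_of_dvd (by norm_num) h7
  obtain ⟨m, hm⟩ := heven
  omega

end Cfsg.Agent.S1176
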