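import Cfsg.Statements.S1177
import Cfsg.Agent.Base
import Cfsg.Agent.H17.SylowIn

set_option autoImplicit false
open Cfsg

namespace Cfsg.Agent.S1177

/-- Let A be a nontrivial elementary abelian 2-subgroup of a finite group G which is a T.I. set (each conjugate of A meets A trivially or equals A) and which does not commute elementwise with any conjugate of A other than A itself. Then for every a ∈ A, a ≠ 1, every conjugate of A contained in C_G(a) is equal to A (A is weakly closed in C_G(a)). -/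
theorem result {G : Type*} [Group G] [Finite G] (A : Subgroup G) (hA : Cfsg.IsElementaryAbelian 2 A) (hA1 : A ≠ ⊥) (hTI : ∀ g : G, A.map (MulAut.conj g).toMonoidHom ⊓ A = ⊥ ∨ A.map (MulAut.conj g).toMonoidHom = A) (hb : ∀ g : G, (∀ a ∈ A, ∀ b ∈ A.map (MulAut.conj g).toMonoidHom, a * b = b * a) → A.map (MulAut.conj g).toMonoidHom = A) (a : G) (ha : a ∈ A) (ha1 : a ≠ 1) (g : G) (hg : A.map (MulAut.conj g).toMonoidHom ≤ Subgroup.centralizer ({a} : Set G)) : A.map (MulAut.conj g).toMonoidHom = A := by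
  set B := A.map (MulAut.conj g).toMonoidHom with hB
  have hcomm : ∀ x ∈ A, ∀ y ∈ A, x * y = y * x := fun x hx y hy =>
    congrArg Subtype.val (hA.1.is_comm.comm (⟨x, hx⟩ : A) ⟨y, hy⟩)
  have hnorm : ∀ x ∈ A, x ≠ 1 → ∀ y : G, y * x = x * y → y ∈ Subgroup.normalizer (A : Set G) := by
    intro x hx hx1 y hy
    rw [← H17.map_conj_eq_iff_mem_normalizer]
    refine (hTI y).resolve_left fun h => hx1 ?_
    rw [← Subgroup.mem_bot, ← h]
    refine ⟨H17.mem_map_conj_iff.mpr ?_, hx⟩
    rwa [mul_assoc, ← hy, inv_mul_cancel_left]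
  have hBA : ∀ b ∈ B, ∀ x ∈ A, b * x * b⁻¹ ∈ A := fun b hb x hx =>
    (Subgroup.mem_normalizer_iff.mp
      (hnorm a ha ha1 b (Subgroup.mem_centralizer_singleton_iff.mp (hg hb))) x).mp hx
  refine (hTI g).elim (fun hinf => hb g ?_) id
  -- an element of `A` centralising one nontrivial element of `B` centralises `B`
  have hcent : ∀ x ∈ A, ∀ b ∈ B, b ≠ 1 → x * b = b * x → ∀ c ∈ B, x * c = c * x := by
    intro x hx b hb hb1 hxb c hc
    have h1 : g⁻¹ * x * g ∈ Subgroup.normalizer (A : Set G) := by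
      refine hnorm (g⁻¹ * b * g) (H17.mem_map_conj_iff.mp hb) ?_ _ ?_
      · intro h
        apply hb1
        calc b = g * (g⁻¹ * b * g) * g⁻¹ := by group
          _ = 1 := by rw [h]; group
      · calc g⁻¹ * x * g * (g⁻¹ * b * g) = g⁻¹ * (x * b) * g := by group
          _ = g⁻¹ * b * g * (g⁻¹ * x * g) := by rw [hxb]; group
    have h2 : x * c * x⁻¹ ∈ B := by
      rw [H17.mem_map_conj_iff]
      have := (Subgroup.mem_normalizer_iff.mp h1 _).mp (H17.mem_map_conj_iff.mp hc)
      convert this using 1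
      group
    have h3 : x * c * x⁻¹ * c⁻¹ ∈ B ⊓ A := by
      refine ⟨B.mul_mem h2 (B.inv_mem hc), ?_⟩
      have := A.mul_mem hx (hBA c hc _ (A.inv_mem hx))
      simpa [mul_assoc] using this
    rw [hinf, Subgroup.mem_bot] at h3
    calc x * c = (x * c * x⁻¹ * c⁻¹) * (c * x) := by group
      _ = c * x := by rw [h3, one_mul]
  intro x hx
  by_contra hne
  have hinj : Function.Injective
      (fun b : B => (⟨x * (b.1 * x * b.1⁻¹), A.mul_mem hx (hBA _ b.2 x hx)⟩ : A)) := by
    intro b c h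
    have h1 : b.1 * x * b.1⁻¹ = c.1 * x * c.1⁻¹ := mul_left_cancel (congrArg Subtype.val h)
    by_contra hbc
    apply hne
    refine hcent x hx (c.1⁻¹ * b.1) (B.mul_mem (B.inv_mem c.2) b.2) ?_ ?_
    · intro h2
      exact hbc (Subtype.ext (inv_mul_eq_one.mp h2).symm)
    · calc x * (c.1⁻¹ * b.1) = c.1⁻¹ * (c.1 * x * c.1⁻¹) * b.1 := by group
        _ = c.1⁻¹ * b.1 * x := by rw [← h1]; group
  have hbij := (Nat.bijective_iff_injective_and_card _).mpr ⟨hinj, H17.card_map_conj A g⟩
  obtain ⟨b, hb'⟩ := hbij.2 ⟨x, hx⟩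
  have h1 : x * (b.1 * x * b.1⁻¹) = x := congrArg Subtype.val hb'
  have h2 : x = 1 := by simpa using h1
  apply hne
  intro c _
  rw [h2, one_mul, mul_one]

end Cfsg.Agent.S1177
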