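import Cfsg.Statements.S1178
import Cfsg.Agent.Base
import Cfsg.Agent.H17.SylowIn

set_option autoImplicit false
open Cfsg

namespace Cfsg.Agent.S1178

/-- Let A be a subgroup of a Sylow 2-subgroup S of the finite group G which is weakly closed in S. If a conjugate g A g⁻¹ commutes elementwise with A, then g A g⁻¹ = A. -/
theorem result {G : Type*} [Group G] [Finite G] (S : Sylow 2 G) (A : Subgroup G) (hW : Cfsg.IsWeaklyClosed A (S : Subgroup G)) (g : G) (hc : ∀ a ∈ A, ∀ b ∈ A.map (MulAut.conj g).toMonoidHom, a * b = b * a) : A.map (MulAut.conj g).toMonoidHom = A := by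
  have hA : IsPGroup 2 A := S.isPGroup'.to_le hW.1
  have hB : IsPGroup 2 (A.map (MulAut.conj g).toMonoidHom) := hA.map _
  have hsup : IsPGroup 2 ↥(A ⊔ A.map (MulAut.conj g).toMonoidHom) := by
    refine hA.to_sup_of_normal_right' hB (le_trans ?_ (Subgroup.centralizer_le_normalizer _))
    intro a ha b hb
    exact (hc a ha b hb).symm
  obtain ⟨x, -, hx⟩ := (H17.sylIn_top S).exists_conj_le le_top hsup
  have h1 := hW.2 x (by rintro _ ⟨a, ha, rfl⟩; exact hx a (Subgroup.mem_sup_left ha))
  have h2 := hW.2 (x * g) (by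
    rw [← H17.map_conj_map_conj]
    rintro _ ⟨a, ha, rfl⟩; exact hx a (Subgroup.mem_sup_right ha))
  rw [H17.map_conj_eq_iff_mem_normalizer] at h1 h2 ⊢
  simpa using Subgroup.mul_mem _ (Subgroup.inv_mem _ h1) h2

end Cfsg.Agent.S1178
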