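import Cfsg.Statements.S1182
import Cfsg.Agent.Base
import Cfsg.Agent.H84.Isolated

set_option autoImplicit false
open Cfsg

namespace Cfsg.Agent.S1182

/-- Let z be an isolated involution of the finite group G and H a subgroup normalized by z. If x, y ∈ H both commute with z and y = h x h⁻¹ for some h ∈ H, then y = c x c⁻¹ for some c ∈ H commuting with z. -/
theorem result {G : Type*} [Group G] [Finite G] (z : G) (hz : Cfsg.IsIsolatedInvolution z) (H : Subgroup G) (hzH : z ∈ Subgroup.normalizer (H : Set G)) (x y : G) (hx : x ∈ H) (hy : y ∈ H) (hxz : Commute x z) (hyz : Commute y z) (h : G) (hh : h ∈ H) (hconj : h * x * h⁻¹ = y) : ∃ c ∈ H, Commute c z ∧ c * x * c⁻¹ = y := by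
  obtain ⟨j, hj⟩ := H84.iso_exists_pow_conj hz (isConj_iff.mpr ⟨h, rfl⟩)
  have hz2 := H84.iso_mul_self hz
  have hzi : z⁻¹ = z := inv_eq_of_mul_eq_one_right hz2
  have haH : h * z * h⁻¹ * z ∈ H := by
    have : z * h⁻¹ * z⁻¹ ∈ H := (Subgroup.mem_normalizer_iff.mp hzH _).mp (H.inv_mem hh)
    rw [hzi] at this
    have := H.mul_mem hh this
    simpa [mul_assoc] using this
  have hay : Commute y (h * z * h⁻¹ * z) := by
    refine Commute.mul_right ?_ hyz
    rw [← hconj]
    have := hxz.map (MulAut.conj h)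
    simpa using this
  set k := (h * z * h⁻¹ * z) ^ j with hk
  have hky : Commute y k := hay.pow_right j
  refine ⟨k⁻¹ * h, H.mul_mem (H.inv_mem (H.pow_mem haH j)) hh, ?_, ?_⟩
  · show k⁻¹ * h * z = z * (k⁻¹ * h)
    calc k⁻¹ * h * z = k⁻¹ * (h * z * h⁻¹) * h := by group
      _ = z * (k⁻¹ * h) := by rw [← hj]; group
  · calc k⁻¹ * h * x * (k⁻¹ * h)⁻¹ = k⁻¹ * (h * x * h⁻¹) * k := by group
      _ = k⁻¹ * (y * k) := by rw [hconj]; group
      _ = y := by rw [hky.eq]; group

end Cfsg.Agent.S1182
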