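import Cfsg.Statements.S1183
import Cfsg.Agent.Base
import Cfsg.Agent.H84.Isolated2
import Cfsg.Agent.H7.NPC
import Cfsg.Agent.H8.TransferEval

set_option autoImplicit false
open Cfsg

namespace Cfsg.Agent.S1183

/-- Let z be an isolated involution of the finite group G and C = C_G(z). Then the subgroup of G generated by its elements of odd order is all of G if and only if the subgroup of C generated by its elements of odd order is all of C. -/
theorem result {G : Type*} [Group G] [Finite G] (z : G) (hz : Cfsg.IsIsolatedInvolution z) : Cfsg.pResidual 2 G = ⊤ ↔ Cfsg.pResidual 2 ↥(Subgroup.centralizer ({z} : Set G)) = ⊤ := by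
  set C := Subgroup.centralizer ({z} : Set G) with hC
  constructor
  · intro h
    by_contra hne
    have hQ : IsPGroup 2 (C ⧸ pResidual 2 C) := H7.isPGroup_quotient_pResidual
    have : Nontrivial (C ⧸ pResidual 2 C) := QuotientGroup.nontrivial_iff.mpr hne
    have : Group.IsNilpotent (C ⧸ pResidual 2 C) := hQ.isNilpotent
    have hlt : commutator (C ⧸ pResidual 2 C) < ⊤ :=
      Group.IsSolvable.commutator_lt_top_of_nontrivial _
    have hA : IsPGroup 2 (Abelianization (C ⧸ pResidual 2 C)) := hQ.to_quotient _
    let φ : C →* Abelianization (C ⧸ pResidual 2 C) :=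
      Abelianization.of.comp (QuotientGroup.mk' _)
    have hφ : ∀ x : C, φ x = 1 := by
      intro x
      have h1 : MonoidHom.transfer φ (x : G) = φ x ^ C.index := by
        apply H8.transfer_eq_pow_of_forall
        intro k a ha
        have hx : Commute ((x : G) ^ k) z :=
          Subgroup.mem_centralizer_singleton_iff.mp (C.pow_mem x.2 k)
        obtain ⟨c, hc, hc2⟩ := H84.iso_fusion hz (g := a⁻¹) hx
          (by rw [inv_inv]; exact Subgroup.mem_centralizer_singleton_iff.mp ha)
        have hcC : c ∈ C := Subgroup.mem_centralizer_singleton_iff.mpr hc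
        have : (⟨a⁻¹ * (x : G) ^ k * a, ha⟩ : C) = ⟨c, hcC⟩ * x ^ k * ⟨c, hcC⟩⁻¹ :=
          Subtype.ext (by simpa using hc2.symm)
        rw [this, map_mul, map_mul, map_inv, mul_inv_cancel_comm, map_pow]
      have h2 : MonoidHom.transfer φ (x : G) = 1 :=
        H7.pResidual_le_ker hA _ (by rw [h]; trivial)
      rw [h2] at h1
      apply H7.eq_one_of_isPGroup_of_coprime hA
      exact Nat.Coprime.coprime_dvd_left (orderOf_dvd_of_pow_eq_one h1.symm)
        (Nat.coprime_two_right.mpr (H84.iso_odd_index hz))
    apply hlt.ne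
    rw [eq_top_iff]
    intro q _
    obtain ⟨x, rfl⟩ := QuotientGroup.mk_surjective q
    exact (QuotientGroup.eq_one_iff _).mp (hφ x)
  · intro h
    rw [eq_top_iff]
    intro g _
    obtain ⟨k, -, hk, -, hc⟩ := H84.iso_exists_decomp hz (H := ⊤) (Subgroup.le_normalizer (Subgroup.mem_top z)) (Subgroup.mem_top g)
    have h1 : k ∈ pResidual 2 G := H7.mem_pResidual_of_coprime (Nat.coprime_two_right.mpr hk)
    have h2 : k⁻¹ * g ∈ pResidual 2 G :=
      H7.map_pResidual_le C.subtype
        ⟨⟨k⁻¹ * g, Subgroup.mem_centralizer_singleton_iff.mpr hc⟩, by rw [h]; trivial, rfl⟩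
    simpa using (pResidual 2 G).mul_mem h1 h2

end Cfsg.Agent.S1183
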