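import Cfsg.Statements.S1185
import Cfsg.Agent.Base
import Cfsg.Agent.H84.Isolated

set_option autoImplicit false
open Cfsg

namespace Cfsg.Agent.S1185

/-- Let z be an isolated involution of the finite group G with centralizer C. Then for every g ∈ G there is exactly one element k in the coset gC that has odd order and is inverted by z. -/
theorem result {G : Type*} [Group G] [Finite G] (z : G) (hz : Cfsg.IsIsolatedInvolution z) (g : G) : ∃! k : G, (Odd (orderOf k) ∧ z * k * z⁻¹ = k⁻¹) ∧ g⁻¹ * k ∈ Subgroup.centralizer ({z} : Set G) := by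
  obtain ⟨j, hj⟩ := H84.iso_exists_pow_conj hz (isConj_iff.mpr ⟨g, rfl⟩)
  have hz2 := H84.iso_mul_self hz
  have hodd := H84.iso_odd hz (isConj_iff.mpr ⟨g, rfl⟩)
  have hinv := H84.conj_pow_inv (H84.right_inverts (H84.conj_mul_self hz2 g) hz2) j
  set k := (g * z * g⁻¹ * z) ^ j with hk
  have key : ∀ k : G, g⁻¹ * k ∈ Subgroup.centralizer ({z} : Set G) ↔ k * z * k⁻¹ = g * z * g⁻¹ := by
    intro k
    rw [Subgroup.mem_centralizer_singleton_iff]
    constructor
    · intro h
      calc k * z * k⁻¹ = g * (g⁻¹ * k * z) * k⁻¹ := by group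
        _ = g * z * g⁻¹ := by rw [h]; group
    · intro h
      calc g⁻¹ * k * z = g⁻¹ * (k * z * k⁻¹) * k := by group
        _ = z * (g⁻¹ * k) := by rw [h]; group
  refine ⟨k, ⟨⟨H84.odd_orderOf_pow hodd j, hinv⟩, (key k).mpr hj⟩, ?_⟩
  rintro k' ⟨⟨h1, h2⟩, h3⟩
  rw [key, H84.conj_eq_sq_mul h2, ← hj, H84.conj_eq_sq_mul hinv] at h3
  exact H84.eq_of_sq_eq_of_odd h1 (H84.odd_orderOf_pow hodd j) (mul_right_cancel h3)

end Cfsg.Agent.S1185
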