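import Cfsg.Statements.S1186
import Cfsg.Agent.Base
import Cfsg.Agent.H84.Isolated2
import Cfsg.Agent.H87.Count

set_option autoImplicit false
open Cfsg

namespace Cfsg.Agent.S1186

/-- Let z be an isolated involution of the finite group G, C = C_G(z), K the set of elements of odd order inverted by z, and s an involution of C. Then |G| = |C| · |C_K(sz)| · |C_K(s)|. -/
theorem result {G : Type*} [Group G] [Finite G] (z : G) (hz : Cfsg.IsIsolatedInvolution z) (s : G) (hs : orderOf s = 2) (hsz : Commute s z) : Nat.card G = Nat.card (Subgroup.centralizer ({z} : Set G)) * Nat.card {k : G // Odd (orderOf k) ∧ z * k * z⁻¹ = k⁻¹ ∧ Commute k (s * z)} * Nat.card {k : G // Odd (orderOf k) ∧ z * k * z⁻¹ = k⁻¹ ∧ Commute k s} := by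
  have hz2 := H84.iso_mul_self hz
  have hs2 := H84.mul_self_of_orderOf_two hs
  rw [H84.iso_card_inverted_eq hz hsz,
    H84.iso_card_inverted_eq hz (hsz.mul_left (Commute.refl z)),
    ← H87.card_class_mul_card_centralizer z, mul_comm, mul_assoc]
  congr 1
  have key : ∀ t : {t : G // IsConj z t}, ∃ u : {u : G // IsConj z u ∧ Commute u s},
      Commute t.1 (s * u.1) := by
    rintro ⟨t, ht⟩
    have hti := H84.iso_of_isConj hz ht
    rcases Nat.even_or_odd' (orderOf (s * t)) with ⟨m, hm | hm⟩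
    · obtain ⟨-, h2, h3, h4, j, hj⟩ := H84.iso_even_case hs2 hti hm
      refine ⟨⟨(s * t) ^ m * s, ht.trans (isConj_iff.mpr ⟨_, hj⟩),
        h3.symm.mul_left (Commute.refl s)⟩, ?_⟩
      show Commute t (s * ((s * t) ^ m * s))
      rw [← h3.eq, ← mul_assoc, hs2, one_mul]
      exact h4
    · obtain ⟨j, hj⟩ := H84.exists_pow_conj_of_odd hs2 (H84.iso_mul_self hti) ⟨m, hm⟩
      refine ⟨⟨s, ht.trans (isConj_iff.mpr ⟨_, hj⟩), Commute.refl s⟩, ?_⟩
      show Commute t (s * s)
      rw [hs2]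
      exact Commute.one_right t
  choose f hf using key
  rw [mul_comm]
  refine H87.card_eq_mul_of_fibers f _ ?_
  rintro ⟨u, hu, hus⟩
  have hfib : ∀ t, f t = ⟨u, hu, hus⟩ ↔ Commute t.1 (s * u) := by
    intro t
    constructor
    · intro h
      have := hf t
      rwa [h] at this
    · intro h
      apply Subtype.ext
      have hti := H84.iso_of_isConj hz t.2
      refine H84.iso_eq_of_mul_commute hti (t.2.symm.trans (f t).2.1) (t.2.symm.trans hu) ?_
      have h1 := (hf t).inv_right.mul_right h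
      have h2 : (s * (f t).1)⁻¹ * (s * u) = (f t).1 * u := by
        rw [mul_inv_rev, inv_eq_of_mul_eq_one_right
          (H84.iso_mul_self (H84.iso_of_isConj hz (f t).2.1))]
        group
      rw [h2] at h1
      exact h1.symm
  obtain ⟨j, hj⟩ := H84.iso_exists_pow_conj hz hu
  have hc : Commute ((u * z) ^ j) s := (hus.mul_left hsz.symm).pow_left j
  set c := (u * z) ^ j
  have hsu : c * (s * z) * c⁻¹ = s * u := by
    rw [← hj, ← mul_assoc c, hc.eq]; group
  refine Nat.card_congr ⟨fun t => ⟨c⁻¹ * t.1.1 * c⁻¹⁻¹, t.1.2.trans (isConj_iff.mpr ⟨_, rfl⟩), ?_⟩,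
    fun t => ⟨⟨c * t.1 * c⁻¹, t.2.1.trans (isConj_iff.mpr ⟨_, rfl⟩)⟩, ?_⟩,
    fun t => Subtype.ext (Subtype.ext ?_), fun t => Subtype.ext ?_⟩
  · have := ((hfib _).mp t.2).map (MulAut.conj c⁻¹)
    rw [← hsu] at this
    simpa [mul_assoc] using this
  · rw [hfib, ← hsu]
    simpa [mul_assoc] using t.2.2.map (MulAut.conj c)
  · simp [mul_assoc]
  · simp [mul_assoc]

end Cfsg.Agent.S1186
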