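import Cfsg.Statements.S1227
import Cfsg.Agent.H88.ElemCent

set_option autoImplicit false
open Cfsg

namespace Cfsg.Agent.S1227

/-- Let G be a finite group with a Sylow 2-subgroup T that is neither cyclic nor normal, such that the centralizer of every involution is an elementary abelian 2-group; put H = N_G(T), let u be an involution outside H and D = H ∩ uHu⁻¹. Then u inverts every element of D, |H| = |T|·(|T| − 1), and D is a complement to T in H. -/
theorem result {G : Type*} [Group G] [Finite G] (T : Sylow 2 G) (hnc : ¬ IsCyclic (T : Subgroup G)) (hnn : ¬ (T : Subgroup G).Normal) (hC : ∀ t : G, orderOf t = 2 → IsMulCommutative (Subgroup.centralizer ({t} : Set G)) ∧ ∀ c ∈ Subgroup.centralizer ({t} : Set G), c ^ 2 = 1) (u : G) (hu : orderOf u = 2) (huH : u ∉ Subgroup.normalizer ((T : Subgroup G) : Set G)) : (∀ d ∈ Subgroup.normalizer ((T : Subgroup G) : Set G) ⊓ (Subgroup.normalizer ((T : Subgroup G) : Set G)).map (MulAut.conj u).toMonoidHom, u * d * u⁻¹ = d⁻¹) ∧ Nat.card (Subgroup.normalizer ((T : Subgroup G) : Set G))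 = Nat.card T * (Nat.card T - 1) ∧ Subgroup.IsComplement' ((Subgroup.normalizer ((T : Subgroup G) : Set G) ⊓ (Subgroup.normalizer ((T : Subgroup G) : Set G)).map (MulAut.conj u).toMonoidHom).subgroupOf (Subgroup.normalizer ((T : Subgroup G) : Set G))) ((T : Subgroup G).subgroupOf (Subgroup.normalizer ((T : Subgroup G) : Set G))) := by
  have h : H88.ElemCent T := ⟨hnc, hnn, hC⟩
  have hP := h.pline hu huH
  have hD : MulAction.stabilizer G ((1 : G) : G ⧸ Subgroup.normalizer ((T : Subgroup G) : Set G)) ⊓
      MulAction.stabilizer G (u : G ⧸ Subgroup.normalizer ((T : Subgroup G) : Set G)) =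
      Subgroup.normalizer ((T : Subgroup G) : Set G) ⊓
        (Subgroup.normalizer ((T : Subgroup G) : Set G)).map (MulAut.conj u).toMonoidHom := by
    rw [H88.stabilizer_coset_eq, H88.stabilizer_coset_eq, H17.map_conj_one]
  refine ⟨fun d hd => ?_, h.card_normalizer, ?_⟩
  · rw [← hD] at hd
    exact hP.s_inv d hd.1 hd.2
  · refine Subgroup.isComplement'_of_card_mul_and_disjoint ?_ ?_
    · rw [Nat.card_congr (Subgroup.subgroupOfEquivOfLe inf_le_left).toEquiv,
        Nat.card_congr (Subgroup.subgroupOfEquivOfLe Subgroup.le_normalizer).toEquiv,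
        h.card_normalizer, ← hD, ← h.card_stab hP.ne, Nat.add_sub_cancel, mul_comm]
    · rw [Subgroup.disjoint_def]
      intro x hx hxT
      rw [Subgroup.mem_subgroupOf] at hx hxT
      rw [← hD] at hx
      exact Subtype.ext (h.eq_one_of_mem_of_fix hxT hP.ne.symm hx.2)

end Cfsg.Agent.S1227
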