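import Cfsg.Statements.S1228
import Cfsg.Agent.H88.ElemCent

set_option autoImplicit false
open Cfsg

namespace Cfsg.Agent.S1228

/-- Let G be a finite group with a Sylow 2-subgroup T that is neither cyclic nor normal, such that the centralizer of every involution is an elementary abelian 2-group; put H = N_G(T), let u be an involution outside H and D = H ∩ uHu⁻¹. Then N_G(D) = D ⊔ ⟨u⟩, and a coset gH is fixed by every element of D exactly when gH = H or gH = uH. -/
theorem result {G : Type*} [Group G] [Finite G] (T : Sylow 2 G) (hnc : ¬ IsCyclic (T : Subgroup G)) (hnn : ¬ (T : Subgroup G).Normal) (hC : ∀ t : G, orderOf t = 2 → IsMulCommutative (Subgroup.centralizer ({t} : Set G)) ∧ ∀ c ∈ Subgroup.centralizer ({t} : Set G), c ^ 2 = 1) (u : G) (hu : orderOf u = 2) (huH : u ∉ Subgroup.normalizer ((T : Subgroup G) : Set G)) : Subgroup.normalizer ((Subgroup.normalizer ((T : Subgroup G) : Set G) ⊓ (Subgroup.normalizer ((T : Subgroup G) : Set G)).map (MulAut.conj u).toMonoidHom : Subgroup G) : Set G) = (Subgroup.normalizer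 ((T : Subgroup G) : Set G) ⊓ (Subgroup.normalizer ((T : Subgroup G) : Set G)).map (MulAut.conj u).toMonoidHom) ⊔ Subgroup.zpowers u ∧ ∀ g : G, ((∀ d ∈ Subgroup.normalizer ((T : Subgroup G) : Set G) ⊓ (Subgroup.normalizer ((T : Subgroup G) : Set G)).map (MulAut.conj u).toMonoidHom, d • (QuotientGroup.mk g : G ⧸ Subgroup.normalizer ((T : Subgroup G) : Set G)) = QuotientGroup.mk g) ↔ (QuotientGroup.mk g : G ⧸ Subgroup.normalizer ((T : Subgroup G) : Set G)) = QuotientGroup.mk 1 ∨ (QuotientGroup.mk g : G ⧸ Subgroup.normalizer ((T : Subgroup G) : Set G)) = QuotientGroup.mk u) := by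
  have h : H88.ElemCent T := ⟨hnc, hnn, hC⟩
  have hP := h.pline hu huH
  have hD : MulAction.stabilizer G ((1 : G) : G ⧸ Subgroup.normalizer ((T : Subgroup G) : Set G)) ⊓
      MulAction.stabilizer G (u : G ⧸ Subgroup.normalizer ((T : Subgroup G) : Set G)) =
      Subgroup.normalizer ((T : Subgroup G) : Set G) ⊓
        (Subgroup.normalizer ((T : Subgroup G) : Set G)).map (MulAut.conj u).toMonoidHom := by
    rw [H88.stabilizer_coset_eq, H88.stabilizer_coset_eq, H17.map_conj_one]
  rw [← hD]
  have hc := h.card_stab hP.ne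
  have h4 := h.four_le
  generalize ((1 : G) : G ⧸ Subgroup.normalizer ((T : Subgroup G) : Set G)) = a at hP hc ⊢
  generalize (u : G ⧸ Subgroup.normalizer ((T : Subgroup G) : Set G)) = b at hP hc ⊢
  obtain ⟨d, hd1⟩ : ∃ d : ↥(MulAction.stabilizer G a ⊓ MulAction.stabilizer G b), d ≠ 1 := by
    have : Nontrivial ↥(MulAction.stabilizer G a ⊓ MulAction.stabilizer G b) :=
      Finite.one_lt_card_iff_nontrivial.mp (by omega)
    exact exists_ne 1
  have key : ∀ w, (∀ d ∈ MulAction.stabilizer G a ⊓ MulAction.stabilizer G b, d • w = w) ↔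
      w = a ∨ w = b := by
    intro w
    constructor
    · intro hw
      by_contra hcon
      push Not at hcon
      exact hd1 (Subtype.ext (hP.three d a b w hP.ne hcon.2.symm hcon.1.symm d.2.1 d.2.2
        (hw d d.2)))
    · rintro (rfl | rfl) d hd
      · exact hd.1
      · exact hd.2
  refine ⟨le_antisymm ?_ (sup_le Subgroup.le_normalizer ?_), fun g => key _⟩
  · intro n hn
    have hfix : ∀ w, (w = a ∨ w = b) → (n • w = a ∨ n • w = b) := by
      intro w hw
      rw [← key] at hw ⊢
      intro d hd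
      rw [← inv_smul_eq_iff, ← mul_smul, ← mul_smul]
      exact hw _ ((Subgroup.mem_normalizer_iff''.mp hn d).mp hd)
    rcases hfix a (Or.inl rfl) with ha | ha
    · rcases hfix b (Or.inr rfl) with hb | hb
      · exact absurd (smul_left_cancel n (ha.trans hb.symm)) hP.ne
      · exact Subgroup.mem_sup_left ⟨ha, hb⟩
    · rcases hfix b (Or.inr rfl) with hb | hb
      · have : n * u⁻¹ ∈ MulAction.stabilizer G a ⊓ MulAction.stabilizer G b :=
          ⟨show (n * u⁻¹) • a = a by rw [mul_smul, inv_smul_eq_iff.mpr hP.s_b.symm, hb],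
           show (n * u⁻¹) • b = b by rw [mul_smul, inv_smul_eq_iff.mpr hP.s_a.symm, ha]⟩
        simpa using Subgroup.mul_mem_sup this (Subgroup.mem_zpowers u)
      · exact absurd (smul_left_cancel n (ha.trans hb.symm)) hP.ne
  · rw [Subgroup.zpowers_le]
    refine Subgroup.mem_normalizer_fintype fun d hd => ?_
    rw [hP.s_inv d hd.1 hd.2]
    exact inv_mem hd

end Cfsg.Agent.S1228
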