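import Cfsg.Statements.S1229
import Cfsg.Agent.H88.ElemCent

set_option autoImplicit false
open Cfsg

namespace Cfsg.Agent.S1229

/-- Let G be a finite group with a Sylow 2-subgroup T that is neither cyclic nor normal, such that the centralizer of every involution is an elementary abelian 2-group; put H = N_G(T) and X = G/H. Then G is triply transitive on X, an element fixing three distinct points of X is the identity, and T acts regularly on X minus the point H. -/
theorem result {G : Type*} [Group G] [Finite G] (T : Sylow 2 G) (hnc : ¬ IsCyclic (T : Subgroup G)) (hnn : ¬ (T : Subgroup G).Normal) (hC : ∀ t : G, orderOf t = 2 → IsMulCommutative (Subgroup.centralizer ({t} : Set G)) ∧ ∀ c ∈ Subgroup.centralizer ({t} : Set G), c ^ 2 = 1) : (∀ x₁ x₂ x₃ y₁ y₂ y₃ : G ⧸ Subgroup.normalizer ((T : Subgroup G) : Set G), x₁ ≠ x₂ → x₁ ≠ x₃ → x₂ ≠ x₃ → y₁ ≠ y₂ → y₁ ≠ y₃ → y₂ ≠ y₃ → ∃ g : G, g • x₁ = y₁ ∧ g • x₂ = y₂ ∧ g • x₃ = y₃) ∧ (∀ g : G, ∀ x₁ x₂ x₃ : G ⧸ Subgroup.normalizer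 ((T : Subgroup G) : Set G), x₁ ≠ x₂ → x₁ ≠ x₃ → x₂ ≠ x₃ → g • x₁ = x₁ → g • x₂ = x₂ → g • x₃ = x₃ → g = 1) ∧ (∀ x y : G ⧸ Subgroup.normalizer ((T : Subgroup G) : Set G), x ≠ QuotientGroup.mk 1 → y ≠ QuotientGroup.mk 1 → ∃! t : G, t ∈ T ∧ t • x = y) := by
  have h : H88.ElemCent T := ⟨hnc, hnn, hC⟩
  refine ⟨?_, fun g x₁ x₂ x₃ h12 h13 h23 => h.three g x₁ x₂ x₃ h12 h23 h13, fun x y hx hy => ?_⟩
  · obtain ⟨u, huH, hu⟩ := H88.se_exists_involution_not_mem h.se
    have hP := h.pline hu huH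
    have hc := h.card_stab hP.ne
    have hq := hP.card_add_one
    generalize ((1 : G) : G ⧸ Subgroup.normalizer ((T : Subgroup G) : Set G)) = a at hP hc ⊢
    generalize (u : G ⧸ Subgroup.normalizer ((T : Subgroup G) : Set G)) = b at hP hc ⊢
    have two : ∀ x y : G ⧸ Subgroup.normalizer ((T : Subgroup G) : Set G), x ≠ y →
        ∃ g : G, g • x = a ∧ g • y = b := by
      intro x y hxy
      obtain ⟨g, hg⟩ := MulAction.exists_smul_eq G x a
      obtain ⟨t, ht, -⟩ := hP.reg (g • y) b (fun e => hxy (smul_left_cancel g (hg.trans e.symm)))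
        hP.ne.symm
      exact ⟨t * g, by rw [mul_smul, hg]; exact hP.le t.2, by rw [mul_smul, ht]⟩
    have thr : ∀ x y : G ⧸ Subgroup.normalizer ((T : Subgroup G) : Set G), x ≠ a → x ≠ b →
        y ≠ a → y ≠ b → ∃ g : G, g • a = a ∧ g • b = b ∧ g • x = y := by
      intro x y xa xb ya yb
      let f : Option ↥(MulAction.stabilizer G a ⊓ MulAction.stabilizer G b) →
          {w : G ⧸ Subgroup.normalizer ((T : Subgroup G) : Set G) // w ≠ a} := fun p =>
        p.elim ⟨b, hP.ne.symm⟩ fun d => ⟨(d : G) • x, fun e =>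
          xa (smul_left_cancel (d : G) (e.trans d.2.1.symm))⟩
      have hinj : Function.Injective f := by
        rintro (_ | d) (_ | e) he
        · rfl
        · have he' : b = (e : G) • x := congrArg Subtype.val he
          exact absurd (smul_left_cancel (e : G) (he'.symm.trans e.2.2.symm)) xb
        · have he' : (d : G) • x = b := congrArg Subtype.val he
          exact absurd (smul_left_cancel (d : G) (he'.trans d.2.2.symm)) xb
        · have he' : (d : G) • x = (e : G) • x := congrArg Subtype.val he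
          have := hP.three ((e : G)⁻¹ * d) a b x hP.ne xb.symm xa.symm
            ((MulAction.stabilizer G a).mul_mem (inv_mem e.2.1) d.2.1)
            ((MulAction.stabilizer G b).mul_mem (inv_mem e.2.2) d.2.2)
            (by rw [mul_smul, he', inv_smul_smul])
          exact congrArg some (Subtype.ext (inv_mul_eq_one.mp this).symm)
      obtain ⟨p, hp⟩ := (hinj.bijective_of_nat_card_le (by
        rw [H88.card_ne_eq, Finite.card_option]; omega)).2 ⟨y, ya⟩
      rcases p with _ | d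
      · exact absurd (congrArg Subtype.val hp).symm yb
      · exact ⟨d, d.2.1, d.2.2, congrArg Subtype.val hp⟩
    intro x₁ x₂ x₃ y₁ y₂ y₃ h12 h13 h23 k12 k13 k23
    obtain ⟨g, g1, g2⟩ := two x₁ x₂ h12
    obtain ⟨k, k1, k2⟩ := two y₁ y₂ k12
    obtain ⟨d, da, db, dx⟩ := thr (g • x₃) (k • y₃)
      (fun e => h13 (smul_left_cancel g (g1.trans e.symm)))
      (fun e => h23 (smul_left_cancel g (g2.trans e.symm)))
      (fun e => k13 (smul_left_cancel k (k1.trans e.symm)))
      (fun e => k23 (smul_left_cancel k (k2.trans e.symm)))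
    refine ⟨k⁻¹ * d * g, ?_, ?_, ?_⟩
    · rw [mul_smul, mul_smul, g1, da, inv_smul_eq_iff, k1]
    · rw [mul_smul, mul_smul, g2, db, inv_smul_eq_iff, k2]
    · rw [mul_smul, mul_smul, dx, inv_smul_smul]
  · obtain ⟨t, ht, hu⟩ := h.reg x y hx hy
    exact ⟨t, ⟨t.2, ht⟩, fun s hs => congrArg Subtype.val (hu ⟨s, hs.1⟩ hs.2)⟩

end Cfsg.Agent.S1229
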