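import Cfsg.Statements.S1231
import Cfsg.Agent.H88.SE

set_option autoImplicit false
open Cfsg

namespace Cfsg.Agent.S1231

theorem prankLE_of_injective {A B : Type*} [Group A] [Group B] {p k : ℕ} (f : A →* B)
    (hf : Function.Injective f) (h : Cfsg.PRankLE p k B) : Cfsg.PRankLE p k A := by
  intro E hE hEp
  rw [← Subgroup.card_map_of_injective hf]
  refine h _ ?_ ?_
  · exact Subgroup.map_isMulCommutative E f
  · rintro _ ⟨a, ha, rfl⟩
    rw [← map_pow, hEp a ha, map_one]

/-- Let H be a subgroup of the finite group G, p a prime, k ≥ 1, and P a Sylow p-subgroup of H whose p-rank is at least k. Then N_G(X) ≤ H for every subgroup X of P of p-rank at least k if and only if H ∩ gHg⁻¹ has p-rank less than k for every g ∉ H. -/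
theorem result {G : Type*} [Group G] [Finite G] {p : ℕ} [Fact p.Prime] (k : ℕ) (hk : 1 ≤ k) (H : Subgroup G) (P : Sylow p ↥H) (hP : ¬ Cfsg.PRankLE p (k - 1) ↥(P : Subgroup ↥H)) : (∀ X : Subgroup G, X ≤ (P : Subgroup ↥H).map H.subtype → ¬ Cfsg.PRankLE p (k - 1) ↥X → Subgroup.normalizer (X : Set G) ≤ H) ↔ (∀ g : G, g ∉ H → Cfsg.PRankLE p (k - 1) ↥(H ⊓ H.map (MulAut.conj g).toMonoidHom)) := by
  have hup : ∀ X Y : Subgroup G, X ≤ Y → ¬ Cfsg.PRankLE p (k - 1) ↥X →
      ¬ Cfsg.PRankLE p (k - 1) ↥Y := fun X Y hXY hX hY =>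
    hX (prankLE_of_injective (Subgroup.inclusion hXY) (Subgroup.inclusion_injective hXY) hY)
  have hconj : ∀ (X : Subgroup G) (g : G), ¬ Cfsg.PRankLE p (k - 1) ↥X →
      ¬ Cfsg.PRankLE p (k - 1) ↥(X.map (MulAut.conj g).toMonoidHom) := fun X g hX hY =>
    hX (prankLE_of_injective
      (Subgroup.equivMapOfInjective X _ (MulAut.conj g).injective).toMonoidHom
      (MulEquiv.injective _) hY)
  have hS := H17.sylIn_map_subtype P
  constructor
  · intro h g hg
    by_contra hr
    have hN : ∀ X : Subgroup G, X ≤ H → IsPGroup p X → ¬ Cfsg.PRankLE p (k - 1) ↥X →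
        Subgroup.normalizer (X : Set G) ≤ H := by
      intro X hX hXp hX1
      obtain ⟨c, hc, hcX⟩ := hS.exists_conj_le hX hXp
      have hle : X.map (MulAut.conj c).toMonoidHom ≤ (P : Subgroup H).map H.subtype := by
        rintro _ ⟨x, hx, rfl⟩
        exact hcX x hx
      have h1 := h _ hle (hconj X c hX1)
      intro n hn
      have : c * n * c⁻¹ ∈ H := by
        apply h1
        rw [← H17.map_conj_eq_iff_mem_normalizer] at hn ⊢
        rw [H17.map_conj_map_conj]
        conv_rhs => rw [← hn, H17.map_conj_map_conj]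
        congr 3
        group
      simpa [mul_assoc] using H.mul_mem (H.mul_mem (H.inv_mem hc) this) hc
    have hr' := hr
    unfold Cfsg.PRankLE at hr'
    push Not at hr'
    obtain ⟨E, hE, hEp, hEc⟩ := hr'
    refine hg (H88.mem_of_normalizers_le (p := p) (fun X => ¬ Cfsg.PRankLE p (k - 1) ↥X) hup hconj
      hN (X := E.map (Subgroup.subtype _)) (Subgroup.map_subtype_le _) ?_ ?_)
    · refine IsPGroup.map (fun x => ⟨1, ?_⟩) _
      rw [pow_one]; exact Subtype.ext (hEp x x.2)
    · intro hle
      have := prankLE_of_injective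
        (Subgroup.equivMapOfInjective E _ (Subgroup.subtype_injective _)).toMonoidHom
        (MulEquiv.injective _) hle ⊤ ⟨⟨fun a b => Subtype.ext (hE.is_comm.comm a.1 b.1)⟩⟩
        (fun a _ => Subtype.ext (hEp a a.2))
      rw [Subgroup.card_top] at this
      omega
  · intro h X hX hXr g hg
    by_contra hgH
    refine hup X _ ?_ hXr (h g hgH)
    have hXH : X ≤ H := hX.trans (Subgroup.map_subtype_le _)
    refine le_inf hXH ?_
    intro x hx
    rw [H17.mem_map_conj_iff]
    exact hXH ((Subgroup.mem_normalizer_iff''.mp hg x).mp hx)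

end Cfsg.Agent.S1231
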