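import Cfsg.Statements.S1234
import Cfsg.Agent.H9.SecE8c

set_option autoImplicit false
open Cfsg

namespace Cfsg.Agent.S1234

/-- Let S be a finite 2-group and Q ≤ S a subgroup of order 32 having an elementary abelian subgroup E of order 16 and an involution s ∉ E whose centralizer in E has order 4 (so Q ≅ (Z₂ × Z₂) ≀ Z₂). If C_S(Z(Q)) = Q, then every section of S has 2-rank at most 4. -/
theorem result {S : Type*} [Group S] [Finite S] (hS : IsPGroup 2 S) (Q E : Subgroup S) (hEQ : E ≤ Q) (hE : Cfsg.IsElementaryAbelian 2 E) (hE16 : Nat.card E = 16) (hQ32 : Nat.card Q = 32) (s : S) (hsQ : s ∈ Q) (hsE : s ∉ E) (hs : orderOf s = 2) (hfix : Nat.card ↥(E ⊓ Subgroup.centralizer ({s} : Set S)) = 4) (hC : Subgroup.centralizer (((Subgroup.center Q).map Q.subtype : Subgroup S) : Set S) = Q) : Cfsg.SectionalPRankLE 2 4 S := by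
  have hs2 : s * s = 1 := by rw [← pow_two, ← hs, pow_orderOf_eq_one]
  have hn : s ∈ Subgroup.normalizer ((E ⊓ Subgroup.centralizer ({s} : Set S) : Subgroup S) : Set S) :=
    H46.nrm_of_le_cent (H46.le_cent_symm (inf_le_right.trans (H46.cent_zpowers s).ge))
      (Subgroup.mem_zpowers s)
  have hA : ∀ g ∈ Q, g * s = s * g →
      g ∈ (E ⊓ Subgroup.centralizer ({s} : Set S)) ⊔ Subgroup.zpowers s := fun g hg e => by
    rcases H9.Sec.mem_or_of_card_le hEQ (by omega) hsQ hsE hg with h | h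
    · exact Subgroup.mem_sup_left (Subgroup.mem_inf.2 ⟨h, H9.Sec.mem_cent1.2 e⟩)
    · simpa using mul_mem (Subgroup.mem_sup_right (Subgroup.mem_zpowers s))
        (Subgroup.mem_sup_left (Subgroup.mem_inf.2 ⟨h, mul_mem (inv_mem (H9.Sec.mem_cent1.2 rfl))
          (H9.Sec.mem_cent1.2 e)⟩))
  refine H9.Sec.SA.sec (A := (E ⊓ Subgroup.centralizer ({s} : Set S)) ⊔ Subgroup.zpowers s)
    ⟨hS, fun a ha => ?_, ?_, fun g hg => hA g (hC.le ?_)
      (hg s (Subgroup.mem_sup_right (Subgroup.mem_zpowers s)))⟩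
  · obtain ⟨b, hb, k, rfl⟩ := (H9.mem_sup_zpowers_of_normalizes hn).1 ha
    have h1 : Commute b s := H9.Sec.mem_cent1.1 (Subgroup.mem_inf.1 hb).2
    rw [← pow_two, (h1.zpow_right k).mul_pow, hE.2 b (Subgroup.mem_inf.1 hb).1, one_mul, pow_two,
      ← (Commute.refl s).mul_zpow, hs2, one_zpow]
  · rw [H9.card_sup_zpowers_of_normalizes (p := 2) hn (fun h => hsE (Subgroup.mem_inf.1 h).1)
      (by rw [pow_two, hs2]; exact one_mem _), hfix]
  · rintro _ ⟨z, hz, rfl⟩
    exact (hg z (hA z z.2 (congrArg Subtype.val (Subgroup.mem_center_iff.mp hz ⟨s, hsQ⟩)).symm)).symm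

end Cfsg.Agent.S1234
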