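import Cfsg.Agent.Base
import Cfsg.Statements.S1236
import Cfsg.Agent.H85.DihFour
import Cfsg.Agent.H85.E2
import Cfsg.Agent.H86.QDSub

set_option autoImplicit false
open Cfsg

namespace Cfsg.Agent.S1236

/-- Let R be a finite group, t a central involution of R such that R ⧸ ⟨t⟩ is dihedral (of order ≥ 4) or quasi-dihedral, and A ≤ R an elementary abelian subgroup of order 8 containing t. Then C_R(A) = A. -/
theorem result {R : Type*} [Group R] [Finite R] (t : R) (ht : orderOf t = 2) (htz : t ∈ Subgroup.center R) [(Subgroup.zpowers t).Normal] (hq : (∃ m : ℕ, 2 ≤ m ∧ Nonempty (R ⧸ Subgroup.zpowers t ≃* DihedralGroup m)) ∨ Cfsg.IsQuasiDihedral (R ⧸ Subgroup.zpowers t)) (A : Subgroup R) (hA : Cfsg.IsElementaryAbelian 2 A) (hA8 : Nat.card A = 8) (htA : t ∈ A) : Subgroup.centralizer (A : Set R) = A := by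
  have hA2 := H85.e2_iff.2 hA
  refine le_antisymm ?_ hA2.le_centralizer
  set π := QuotientGroup.mk' (Subgroup.zpowers t)
  have hker : π.ker ≤ A := by
    rw [QuotientGroup.ker_mk']; exact Subgroup.zpowers_le.2 htA
  have hU : IsKleinFour (A.map π) := by
    apply (hA2.map π).isKleinFour
    have h1 := Subgroup.card_eq_card_quotient_mul_card_subgroup (π.ker.subgroupOf A)
    rw [Nat.card_congr (Subgroup.subgroupOfEquivOfLe hker).toEquiv, QuotientGroup.ker_mk',
      Nat.card_zpowers, ht, hA8] at h1
    rw [← Subgroup.relIndex_ker, QuotientGroup.ker_mk', Subgroup.relIndex, Subgroup.index]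
    omega
  suffices hs : Subgroup.centralizer (A.map π : Set (R ⧸ Subgroup.zpowers t)) ≤ A.map π by
    intro c hc
    rw [← Subgroup.comap_map_eq_self hker]
    refine hs (Subgroup.mem_centralizer_iff.2 ?_)
    rintro _ ⟨a, ha, rfl⟩
    rw [← map_mul, ← map_mul, Subgroup.mem_centralizer_iff.1 hc a ha]
  rcases hq with ⟨m, hm, ⟨e⟩⟩ | hq
  · obtain ⟨r, s, hD, hr⟩ := H85.exists_Dih (Subgroup.topEquiv.trans e)
    obtain ⟨z, x, hz, hz2, hx, hx', hUe⟩ := hD.four_structure hU le_top
    rw [hUe]
    intro c hc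
    have hcx : x * c = c * x :=
      Subgroup.mem_centralizer_iff.1 hc x (Subgroup.subset_closure (by simp))
    have key : ∀ y ∈ Subgroup.zpowers r, x * y = y * x → y = 1 ∨ y = z := by
      intro y hy hxy
      have h1 := hD.refl_conj hx hx' hy
      rw [hxy, mul_inv_cancel_right] at h1
      by_cases hy1 : y = 1
      · exact Or.inl hy1
      · refine Or.inr (H85.ord2_unique_in_zpowers hy hz (H85.ord2_iff.2 ⟨?_, hy1⟩) hz2)
        nth_rewrite 2 [h1]
        exact mul_inv_cancel y
    rw [hD.mem_closure_iff hz hz2 hx hx']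
    by_cases hc' : c ∈ Subgroup.zpowers r
    · rcases key c hc' hcx with h | h
      · exact Or.inl h
      · exact Or.inr (Or.inl h)
    · have hxx := hD.refl_sq hx hx'
      have hce : c = c * x * x := by rw [mul_assoc, hxx, mul_one]
      rcases key (c * x) (hD.refl_mul_refl (Subgroup.mem_top c) hc' hx hx')
        (by rw [← mul_assoc, hcx]) with h | h
      · right; right; left
        rw [hce, h, one_mul]
      · right; right; right
        rw [hce, h]
  · obtain ⟨k, x, y, hQ⟩ := H86.exists_QD_top hq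
    obtain ⟨j, hj⟩ := hQ.eq_sub_of_isKleinFour hU le_top
    have := hQ.centralizer_four j
    rw [top_inf_eq] at this
    rw [hj, this]

end Cfsg.Agent.S1236
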