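import Cfsg.Statements.S1239
import Cfsg.Agent.H86.ZStarElt
import Cfsg.Agent.H84.Isolated2

set_option autoImplicit false
open Cfsg

namespace Cfsg.Agent.S1239

/-- Let X be a finite group whose Sylow 2-subgroup S is quasi-dihedral or wreathed, and suppose some involution of S is isolated in X. Then the product of the largest normal odd-order subgroup O(X) with the centre of S is normal in X. -/
theorem result {X : Type*} [Group X] [Finite X] (S : Sylow 2 X) (hS : Cfsg.IsQuasiDihedral (S : Subgroup X) ∨ Cfsg.IsWreathed (S : Subgroup X)) (z : X) (hzS : z ∈ S) (hz : Cfsg.IsIsolatedInvolution z) : (Cfsg.oddCore X ⊔ (Subgroup.center (S : Subgroup X)).map (S : Subgroup X).subtype).Normal := by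
  have hc : ∀ s ∈ (S : Subgroup X), s * z = z * s := fun s hs =>
    Subgroup.mem_centralizer_singleton_iff.mp (H84.iso_sylow_le_centralizer hz S hzS hs)
  refine H86.zstar_sup_normal S (Subgroup.map_subtype_le _) fun a ha g hg => ?_
  rcases hS with hS | hS
  · obtain ⟨k, x, y, h⟩ := H86.exists_QD hS
    rcases (h.mem_center_map a).mp ha with rfl | rfl
    · simp
    · rw [← ((h.central_iff hzS).mp hc).resolve_left (H84.ne_one_of_orderOf_two hz.1)] at hg ⊢
      exact hz.2 g (hc _ hg).symm
  · obtain ⟨k, x, y, w, h⟩ := H86.exists_Wr hS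
    refine h.fusion_Z (fun hA => h.u0_ne_u1 ?_) (h.center_map ▸ ha) g hg
    have e := h.eq_u0_of_mem_Z ((h.central_iff hzS).mp hc) (H84.ne_one_of_orderOf_two hz.1)
      (H84.mul_self_of_orderOf_two hz.1)
    rw [← e]
    exact (H84.iso_eq_of_commute hz (e ▸ h.isConj_u0_u1 hA) (hc _ (h.u_mem _ _)).symm).symm

end Cfsg.Agent.S1239
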