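import Cfsg.Statements.S1247
import Cfsg.Agent.H14.Bender

set_option autoImplicit false
open Cfsg

namespace Cfsg.Agent.S1247

/-- Let G be a non-abelian finite simple group, A a maximal subgroup, F = F*(A) its generalized Fitting subgroup (viewed in G), and S ≤ F a subgroup subnormal in F with C_F(S) ≤ S. Let B be any subgroup of G containing S. Then (a) for every prime q not dividing |F(A)|, O_q(B) ∩ A = 1; and (b) for every prime p dividing |F(A)|, O_p(B) commutes elementwise with the subgroup of F generated by its elements of order prime to p. -/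
theorem result {G : Type*} [Group G] [Finite G] [IsSimpleGroup G] (hna : ¬ IsMulCommutative G) (A : Subgroup G) (hA : IsCoatom A) (S : Subgroup G) (hSF : S ≤ (Cfsg.generalizedFittingSubgroup ↥A).map A.subtype) (hSsn : (S.subgroupOf ((Cfsg.generalizedFittingSubgroup ↥A).map A.subtype)).IsSubnormal) (hSC : (Cfsg.generalizedFittingSubgroup ↥A).map A.subtype ⊓ Subgroup.centralizer (S : Set G) ≤ S) (B : Subgroup G) (hSB : S ≤ B) : (∀ q : ℕ, q.Prime → ¬ q ∣ Nat.card (Cfsg.fittingSubgroup ↥A) → (Cfsg.pCore q ↥B).map B.subtype ⊓ A = ⊥) ∧ (∀ p : ℕ, p.Prime → p ∣ Nat.card (Cfsg.fittingSubgroup ↥A) → ∀ x ∈ (Cfsg.pCore p ↥B).map B.subtype, ∀ y ∈ (Cfsg.pResidual p ↥(Cfsg.generalizedFittingSubgroup ↥A)).map ((Cfsg.generalizedFittingSubgroup ↥A).subtype) , x * (A.subtype y) = (A.subtype y) * x) := by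
  open Subgroup H14 in
  have h : BS A S := ⟨H98.subN_of_isSubnormal_subgroupOf hSF hSsn, hSC⟩
  refine ⟨fun q hq hd => ?_, fun p hp hd x hx y hy => ?_⟩
  · have : Fact q.Prime := ⟨hq⟩
    exact h.eq_bot (pCoreOf_eq_bot_iff_not_dvd.mpr hd) ((H98.isPGroup_pCoreOf B).to_le inf_le_left)
      inf_le_right (H98.le_normalizer_inf (H98.le_normalizer_pCoreOf_of_le hSB)
        (h.le.trans le_normalizer))
  · have : Fact p.Prime := ⟨hp⟩
    have h1 := h.commutator_res' hA (fun e => pCoreOf_eq_bot_iff_not_dvd.mp e hd)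
      (H98.isPGroup_pCoreOf B) (H98.le_normalizer_pCoreOf_of_le hSB)
    refine (commutator_eq_bot_iff_comm.mp h1 _ ?_ x hx).symm
    exact H98.map_res_le A.subtype (generalizedFittingSubgroup A) ⟨y, hy, rfl⟩

end Cfsg.Agent.S1247
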