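import Cfsg.Statements.S1253
import Cfsg.Agent.Base
import Cfsg.Agent.H84.Isolated2
import Cfsg.Agent.H17.SylowIn

set_option autoImplicit false
open Cfsg

namespace Cfsg.Agent.S1253

/-- Let z be an isolated involution of the finite group G with centralizer C, p an odd prime and P a Sylow p-subgroup of G normalized by z. Then P ∩ C has p-power-free index in C (it is a Sylow p-subgroup of C), and |P : C_P(z)| equals the number of elements x ∈ P with z x z⁻¹ = x⁻¹. -/
theorem result {G : Type*} [Group G] [Finite G] (z : G) (hz : Cfsg.IsIsolatedInvolution z) {p : ℕ} [Fact p.Prime] (hp : p ≠ 2) (P : Sylow p G) (hzP : z ∈ Subgroup.normalizer ((P : Subgroup G) : Set G)) : ¬ p ∣ ((P : Subgroup G) ⊓ Subgroup.centralizer ({z} : Set G)).relIndex (Subgroup.centralizer ({z} : Set G)) ∧ ((P : Subgroup G) ⊓ Subgroup.centralizer ({z} : Set G)).relIndex (P : Subgroup G) = Nat.card {x : G // x ∈ P ∧ z * x * z⁻¹ = x⁻¹} := by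
  have hz2 := H84.iso_mul_self hz
  have hodd : ∀ x ∈ (P : Subgroup G), Odd (orderOf x) := by
    intro x hx
    obtain ⟨n, hn⟩ := (IsPGroup.iff_orderOf.mp P.isPGroup') ⟨x, hx⟩
    rw [Subgroup.orderOf_mk] at hn
    rw [hn]
    exact ((Fact.out : p.Prime).odd_of_ne_two hp).pow
  have hcard := H84.iso_card_eq hz hzP
  set C := Subgroup.centralizer ({z} : Set G) with hC
  have hK : Nat.card {k : G // k ∈ (P : Subgroup G) ∧ Odd (orderOf k) ∧ z * k * z⁻¹ = k⁻¹} =
      Nat.card {x : G // x ∈ P ∧ z * x * z⁻¹ = x⁻¹} :=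
    Nat.card_congr (Equiv.subtypeEquivRight fun x =>
      ⟨fun h => ⟨h.1, h.2.2⟩, fun h => ⟨h.1, hodd x h.1, h.2⟩⟩)
  rw [hK] at hcard
  constructor
  · obtain ⟨D, hD1, hD⟩ := H17.exists_sylIn_ge (p := p) (inf_le_right : (P : Subgroup G) ⊓ C ≤ C)
      P.isPGroup'.to_inf_left
    obtain ⟨g, -, hg⟩ := (H17.sylIn_top P).exists_conj_le (le_top : D ≤ ⊤) hD.2.1
    have hinj : Function.Injective (fun x : {x : G // x ∈ P ∧ z * x * z⁻¹ = x⁻¹} × D =>
        (⟨g * x.2.1 * g⁻¹ * x.1.1, (P : Subgroup G).mul_mem (hg _ x.2.2) x.1.2.1⟩ :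
          (P : Subgroup G))) := by
      rintro ⟨⟨k, hk, hi⟩, ⟨d, hd⟩⟩ ⟨⟨k', hk', hi'⟩, ⟨d', hd'⟩⟩ h
      have h1 : g * d * g⁻¹ * k = g * d' * g⁻¹ * k' := congrArg Subtype.val h
      have hzi : z⁻¹ = z := inv_eq_of_mul_eq_one_right hz2
      have h2 : (k' * z) * (k * z) = g * (d'⁻¹ * d) * g⁻¹ := by
        calc (k' * z) * (k * z) = k' * (z * k * z⁻¹) := by rw [hzi]; group
          _ = g * d'⁻¹ * g⁻¹ * (g * d' * g⁻¹ * k') * k⁻¹ := by rw [hi]; group
          _ = g * (d'⁻¹ * d) * g⁻¹ := by rw [← h1]; group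
      have hdz : Commute (d'⁻¹ * d) z :=
        Subgroup.mem_centralizer_singleton_iff.mp (hD.1 (D.mul_mem (D.inv_mem hd') hd))
      have hgz : IsConj z (g * z * g⁻¹) := isConj_iff.mpr ⟨g, rfl⟩
      have h3 : k' * z = k * z := H84.iso_eq_of_mul_commute (H84.iso_conj hz g)
        (hgz.symm.trans (H84.isConj_mul_of_odd_inverted (hodd _ hk') hi'))
        (hgz.symm.trans (H84.isConj_mul_of_odd_inverted (hodd _ hk) hi))
        (by rw [h2]; simpa using hdz.map (MulAut.conj g))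
      have h4 : k' = k := mul_right_cancel h3
      subst h4
      have h5 : d = d' := by simpa using h1
      subst h5
      rfl
    have hle := Nat.card_le_card_of_injective _ hinj
    rw [Nat.card_prod, hcard] at hle
    have : Nonempty {x : G // x ∈ P ∧ z * x * z⁻¹ = x⁻¹} := ⟨⟨1, P.one_mem, by simp⟩⟩
    have hle2 := Nat.le_of_mul_le_mul_left hle Nat.card_pos
    exact (hD.of_card_le inf_le_right P.isPGroup'.to_inf_left hle2).2.2
  · have h1 := Subgroup.card_mul_index (((P : Subgroup G) ⊓ C).subgroupOf P)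
    rw [Nat.card_congr (Subgroup.subgroupOfEquivOfLe inf_le_left).toEquiv, hcard, mul_comm] at h1
    exact Nat.eq_of_mul_eq_mul_right Nat.card_pos h1

end Cfsg.Agent.S1253
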