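import Cfsg.Agent.Base
import Cfsg.Statements.S1254
import Cfsg.Agent.H85.DihFour

set_option autoImplicit false
open Cfsg

namespace Cfsg.Agent.S1254

/-- Let X be a finite group whose Sylow 2-subgroup S is dihedral (of order at least 4). Then X has a normal 2-complement if and only if, for every Klein four-subgroup U ≤ S, the normalizer N_X(U) is generated by C_X(U) and N_S(U). -/
theorem result {X : Type*} [Group X] [Finite X] (S : Sylow 2 X) (m : ℕ) (hm : 2 ≤ m) (eS : (S : Subgroup X) ≃* DihedralGroup m) : Cfsg.HasNormalPComplement 2 X ↔ ∀ U : Subgroup X, U ≤ S → IsKleinFour U → Subgroup.normalizer (U : Set X) = Subgroup.centralizer (U : Set X) ⊔ ((S : Subgroup X) ⊓ Subgroup.normalizer (U : Set X)) := by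
  haveI : Fact (Nat.Prime 2) := ⟨Nat.prime_two⟩
  obtain ⟨r, s, hD, -⟩ := H85.exists_Dih eS
  constructor
  · intro h U hUS hU
    refine le_antisymm ?_ (sup_le (Subgroup.centralizer_le_normalizer _) inf_le_right)
    intro g hg
    obtain ⟨u, hu, h1⟩ := H7.controls_fusion_of_hasNPC h S g
    have h2 : ∀ x ∈ U, u * x * u⁻¹ = g * x * g⁻¹ := fun x hx =>
      h1 x (hUS hx) (hUS (H7.conj_mem_of_mem_normalizer hg hx))
    have huN : u ∈ Subgroup.normalizer (U : Set X) :=
      H7.mem_normalizer_of_forall fun x hx => h2 x hx ▸ H7.conj_mem_of_mem_normalizer hg hx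
    have hc : u⁻¹ * g ∈ Subgroup.centralizer (U : Set X) := by
      rw [Subgroup.mem_centralizer_iff]
      intro x hx
      calc x * (u⁻¹ * g) = u⁻¹ * (u * x * u⁻¹) * g := by group
        _ = u⁻¹ * g * x := by rw [h2 x hx]; group
    rw [show g = u * (u⁻¹ * g) by group]
    exact mul_mem (Subgroup.mem_sup_right ⟨hu, huN⟩) (Subgroup.mem_sup_left hc)
  · intro h
    apply H7.hasNPC_of_normalizer_centralizer_sylow S
    intro Q hQ _ g hg hodd
    have hodd' := Nat.coprime_two_right.1 hodd
    by_cases h4 : IsKleinFour Q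
    swap
    · exact hD.mem_centralizer_of_odd S.isPGroup' hQ h4 hodd' hg
    have h1 := hg
    rw [h Q hQ h4, H7.mem_sup_iff_of_le_normalizer
      (inf_le_right.trans (H7.normalizer_le_normalizer_centralizer Q))] at h1
    obtain ⟨c, hc, u, hu, rfl⟩ := h1
    obtain ⟨k, hk⟩ := S.isPGroup' ⟨u, hu.1⟩
    have hk' : u ^ 2 ^ k = 1 := congrArg Subtype.val hk
    have hpow : ∀ n : ℕ, ∀ x ∈ Q, (c * u) ^ n * x * ((c * u) ^ n)⁻¹ = u ^ n * x * (u ^ n)⁻¹ := by
      intro n x hx
      induction n with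
      | zero => simp
      | succ n ih =>
        have h2 : u ^ (n + 1) * x * (u ^ (n + 1))⁻¹ ∈ Q :=
          H7.conj_mem_of_mem_normalizer (pow_mem hu.2 _) hx
        calc (c * u) ^ (n + 1) * x * ((c * u) ^ (n + 1))⁻¹
            = c * (u * ((c * u) ^ n * x * ((c * u) ^ n)⁻¹) * u⁻¹) * c⁻¹ := by
              rw [pow_succ']; simp only [mul_inv_rev, mul_assoc]
          _ = c * (u ^ (n + 1) * x * (u ^ (n + 1))⁻¹) * c⁻¹ := by rw [ih, pow_succ']; group
          _ = _ := by rw [← Subgroup.mem_centralizer_iff.1 hc _ h2, mul_inv_cancel_right]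
    have h3 : (c * u) ^ 2 ^ k ∈ Subgroup.centralizer (Q : Set X) := by
      rw [Subgroup.mem_centralizer_iff]
      intro x hx
      have := hpow (2 ^ k) x hx
      rw [hk', one_mul, inv_one, mul_one, mul_inv_eq_iff_eq_mul] at this
      exact this.symm
    refine (Subgroup.zpowers_le.2 h3) (mem_zpowers_pow_iff.2 ?_)
    exact Nat.Coprime.pow_left k hodd.symm

end Cfsg.Agent.S1254
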