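import Cfsg.Agent.Base
import Cfsg.Statements.S1255
import Cfsg.Agent.H85.DihFour
import Cfsg.Agent.H8.TransferEval
import Cfsg.Agent.H86.Classes

set_option autoImplicit false
open Cfsg

namespace Cfsg.Agent.S1255

/-- Let X be a finite group whose Sylow 2-subgroup S is dihedral of order 2m ≥ 4. Then X has no subgroup of index 2 and no isolated involution if and only if either all involutions of X are conjugate, or for every Klein four-subgroup U ≤ S the index |N_X(U) : C_X(U)| equals 3 when |S| = 4 and equals 6 when |S| > 4. -/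
theorem result {X : Type*} [Group X] [Finite X] (S : Sylow 2 X) (m : ℕ) (hm : 2 ≤ m) (eS : (S : Subgroup X) ≃* DihedralGroup m) : ((∀ H : Subgroup X, H.index ≠ 2) ∧ (∀ z : X, ¬ Cfsg.IsIsolatedInvolution z)) ↔ ((∀ a b : X, orderOf a = 2 → orderOf b = 2 → IsConj a b) ∨ (∀ U : Subgroup X, U ≤ S → IsKleinFour U → (Subgroup.centralizer (U : Set X)).relIndex (Subgroup.normalizer (U : Set X)) = (if Nat.card S = 4 then 3 else 6))) := by
  haveI : Fact (Nat.Prime 2) := ⟨Nat.prime_two⟩
  obtain ⟨r, s, hD, hr⟩ := H85.exists_Dih eS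
  obtain ⟨n, hn⟩ := hD.orderOf_eq_two_pow S.isPGroup'
  have hev : Even (orderOf r) := by
    rw [hn]
    rcases n with _ | n
    · omega
    · exact (Nat.even_pow.2 ⟨even_two, by omega⟩)
  obtain ⟨z, hz, hz2⟩ := H85.exists_ord2_mem_zpowers hev
  have hs2 := hD.refl_ord hD.s_mem hD.notMem
  have hsz : s ≠ z := by rintro rfl; exact hD.notMem hz
  have hB : (∀ a : X, orderOf a = 2 → IsConj a z) →
      ∀ a b : X, orderOf a = 2 → orderOf b = 2 → IsConj a b :=
    fun h a b ha hb => (h a ha).trans (h b hb).symm
  constructor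
  · rintro ⟨hno, -⟩
    left
    apply hB
    intro a ha
    by_contra hnc
    obtain ⟨N, -, hN, -⟩ := H8.thompson_transfer (S : Subgroup X) (Subgroup.zpowers r)
      (H8.odd_index_sylow_two S) hD.relIndex a (by rw [pow_two, H85.ord2_mul_self ha])
      (fun g hg => hnc (isConj_iff.2
        ⟨g, H85.ord2_unique_in_zpowers hg hz (H85.ord2_conj ha g) hz2⟩))
    exact hno N hN
  · intro h
    have hall : ∀ a b : X, orderOf a = 2 → orderOf b = 2 → IsConj a b := by
      rcases h with h | h
      · exact h
      apply hB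
      intro a ha
      obtain ⟨g, hg⟩ := H86.exists_conj_mem_sylow S (t := a) (k := 1)
        (by rw [pow_one, pow_two, H85.ord2_mul_self ha])
      refine (H86.isConj_conj g a).trans ?_
      have hb := H85.ord2_conj ha g
      by_cases hb' : g * a * g⁻¹ ∈ Subgroup.zpowers r
      · rw [H85.ord2_unique_in_zpowers hb' hz hb hz2]
      · have hU := hD.isKleinFour_closure hz hz2 hg hb'
        refine H85.four_isConj_of_three_dvd hU ?_ (Subgroup.subset_closure (by simp))
          (Subgroup.subset_closure (by simp)) (H85.ord2_ne_one hb) (H85.ord2_ne_one hz2)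
        rw [h _ (hD.closure_le hz hg) hU]
        split_ifs <;> norm_num
    constructor
    · intro H hH
      haveI := Subgroup.normal_of_index_eq_two hH
      have hiff : ∀ a : X, orderOf a = 2 → (a ∈ H ↔ z ∈ H) := by
        intro a ha
        obtain ⟨g, rfl⟩ := isConj_iff.1 (hall z a hz2 ha)
        exact Subgroup.Normal.mem_comm_iff ‹_› |>.trans (by simp)
      have hsz' : s * z ∉ Subgroup.zpowers r := hD.refl_mul_rot hD.notMem hz
      have h1 := hiff _ (hD.refl_ord (mul_mem hD.s_mem (hD.zpowers_le hz)) hsz')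
      rw [Subgroup.mul_mem_iff_of_index_two hH, hiff s hs2] at h1
      have hzH : z ∈ H := h1.1 Iff.rfl
      have hsH : s ∈ H := (hiff s hs2).2 hzH
      have hle : (S : Subgroup X) ≤ H := by
        intro x hx
        by_cases hx' : x ∈ Subgroup.zpowers r
        · have := (hiff _ (hD.refl_ord (mul_mem hD.s_mem hx) (hD.refl_mul_rot hD.notMem hx'))).2 hzH
          exact (Subgroup.mul_mem_cancel_left _ hsH).1 this
        · exact (hiff _ (hD.refl_ord hx hx')).2 hzH
      have h2 := Subgroup.index_dvd_of_le hle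
      rw [hH] at h2
      exact S.not_dvd_index h2
    · rintro t ⟨ht, hiso⟩
      obtain ⟨g, rfl⟩ := isConj_iff.1 (hall z t hz2 ht)
      obtain ⟨k, hk⟩ := isConj_iff.1 (hall _ _ ht (H85.ord2_conj hs2 g))
      have h1 := hiso k (by
        rw [hk]
        have := (hD.comm_of_ord2 hz hz2 hD.s_mem).symm
        calc g * z * g⁻¹ * (g * s * g⁻¹) = g * (z * s) * g⁻¹ := by group
          _ = g * s * g⁻¹ * (g * z * g⁻¹) := by rw [this]; group)
      rw [hk] at h1
      exact hsz (by simpa using h1)

end Cfsg.Agent.S1255
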