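import Cfsg.Agent.Base
import Cfsg.Statements.S1256
import Cfsg.Agent.H85.DihFour

set_option autoImplicit false
open Cfsg

namespace Cfsg.Agent.S1256

/-- Let X be a finite group whose Sylow 2-subgroup S is dihedral of order 2m ≥ 4. If |S| = 4, any two Klein four-subgroups of X are conjugate; if |S| > 4, there are Klein four-subgroups U₁, U₂ of X that are not conjugate, and every Klein four-subgroup of X is conjugate to U₁ or to U₂. -/
theorem result {X : Type*} [Group X] [Finite X] (S : Sylow 2 X) (m : ℕ) (hm : 2 ≤ m) (eS : (S : Subgroup X) ≃* DihedralGroup m) : (Nat.card S = 4 → ∀ U V : Subgroup X, IsKleinFour U → IsKleinFour V → (∃ x : X, U.map (MulAut.conj x).toMonoidHom = V)) ∧ (4 < Nat.card S → ∃ U₁ U₂ : Subgroup X, IsKleinFour U₁ ∧ IsKleinFour U₂ ∧ ¬ (∃ x : X, U₁.map (MulAut.conj x).toMonoidHom = U₂) ∧ ∀ V : Subgroup X, IsKleinFour V → (∃ x : X, V.map (MulAut.conj x).toMonoidHom = U₁) ∨ (∃ x : X, V.map (MulAut.conj x).toMonoidHom = U₂)) := by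
  haveI : Fact (Nat.Prime 2) := ⟨Nat.prime_two⟩
  obtain ⟨r, s, hD, hr⟩ := H85.exists_Dih eS
  have hfour : ∀ (k : X) {A : Subgroup X}, IsKleinFour A →
      IsKleinFour ↥(A.map (MulAut.conj k).toMonoidHom) :=
    fun k A hA => H86.isKleinFour_map hA _ (MulAut.conj k).injective
  have hinto : ∀ V : Subgroup X, IsKleinFour V →
      ∃ x : X, V.map (MulAut.conj x).toMonoidHom ≤ S := by
    intro V hV
    obtain ⟨x, -, hx⟩ := (H7.isSylowIn_top S).exists_conj_le
      (IsPGroup.of_card (n := 2) hV.card_four) le_top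
    exact ⟨x, hx⟩
  constructor
  · intro h4 U V hU hV
    obtain ⟨x, hx⟩ := hinto U hU
    obtain ⟨y, hy⟩ := hinto V hV
    have e1 := H7.eq_of_le_of_card_le hx (by rw [h4, (hfour x hU).card_four])
    have e2 := H7.eq_of_le_of_card_le hy (by rw [h4, (hfour y hV).card_four])
    refine ⟨y⁻¹ * x, ?_⟩
    rw [← H7.conj_smul_eq_map] at e1 e2 ⊢
    rw [← H7.conj_smul_conj_smul, e1, ← e2, H7.conj_smul_conj_smul, inv_mul_cancel, map_one,
      one_smul]
  · intro h4
    obtain ⟨n, hn⟩ := hD.orderOf_eq_two_pow S.isPGroup'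
    have h4r : 4 ∣ orderOf r := by
      rw [hD.card, hn] at h4
      rw [hn]
      rcases n with _ | _ | n
      · omega
      · omega
      · exact Dvd.intro (2 ^ n) (by ring)
    have hev : Even (orderOf r) := even_iff_two_dvd.2 ((by norm_num : 2 ∣ 4).trans h4r)
    obtain ⟨z, hz, hz2⟩ := H85.exists_ord2_mem_zpowers hev
    have hsr : s * r ∈ (S : Subgroup X) := mul_mem hD.s_mem hD.r_mem
    have hsr' : s * r ∉ Subgroup.zpowers r := hD.refl_mul_rot hD.notMem (Subgroup.mem_zpowers r)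
    have hU₁ := hD.isKleinFour_closure hz hz2 hD.s_mem hD.notMem
    have hU₂ := hD.isKleinFour_closure hz hz2 hsr hsr'
    refine ⟨_, _, hU₁, hU₂, ?_, ?_⟩
    · rintro ⟨x, hx⟩
      rw [← H7.conj_smul_eq_map] at hx
      obtain ⟨u, hu, hux⟩ := hD.four_conj_in S hU₁ (hD.closure_le hz hD.s_mem) (g := x)
        (hx ▸ hD.closure_le hz hsr)
      rw [hx] at hux
      have h1 : u * s * u⁻¹ ∈ Subgroup.closure ({z, s * r} : Set X) :=
        hux ▸ H7.conj_mem_conj_smul (Subgroup.subset_closure (by simp))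
      obtain ⟨y, hy, hy'⟩ := hD.conj_refl hu hD.s_mem hD.notMem
      have hn' : s * (y * y) ∉ Subgroup.zpowers r := hD.refl_mul_rot hD.notMem (mul_mem hy hy)
      rw [hy', hD.mem_closure_iff hz hz2 hsr hsr'] at h1
      rcases h1 with h1 | h1 | h1 | h1
      · exact hn' (h1 ▸ one_mem _)
      · exact hn' (h1 ▸ hz)
      · exact hD.r_ne_sq hev hy (mul_left_cancel h1)
      · obtain ⟨w, hw, hwz⟩ := H85.exists_sq_eq_of_four_dvd h4r hz hz2
        rw [← hD.comm_of_ord2 hz hz2 hsr, mul_assoc] at h1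
        have h2 := mul_left_cancel h1
        refine hD.r_ne_sq hev (mul_mem hy (inv_mem hw)) ?_
        calc y * w⁻¹ * (y * w⁻¹) = y * (w⁻¹ * y) * w⁻¹ := by group
          _ = y * y * (w * w)⁻¹ := by rw [hD.rot_comm (inv_mem hw) hy]; group
          _ = r := by rw [h2, hwz, mul_inv_cancel_right]
    · intro V hV
      obtain ⟨x, hx⟩ := hinto V hV
      obtain ⟨z', w, hz', hz2', hw, hw', hVx⟩ := hD.four_structure (hfour x hV) hx
      obtain rfl : z' = z := H85.ord2_unique_in_zpowers hz' hz hz2' hz2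
      obtain ⟨y, hy, hyw⟩ := hD.exists_conj_refl hw hw'
      have hyz : y * z' * y⁻¹ = z' := by rw [hD.rot_comm hy hz, mul_inv_cancel_right]
      rw [← H7.conj_smul_eq_map] at hVx
      have key : V.map (MulAut.conj (y * x)).toMonoidHom
          = Subgroup.closure {z', y * w * y⁻¹} := by
        rw [← H7.conj_smul_eq_map, ← H7.conj_smul_conj_smul, hVx, H85.conj_smul_closure_pair, hyz]
      rcases hyw with h | h
      · exact Or.inl ⟨y * x, by rw [key, h]⟩
      · exact Or.inr ⟨y * x, by rw [key, h]⟩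

end Cfsg.Agent.S1256
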