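import Cfsg.Statements.S1286
import Cfsg.Agent.Base

set_option autoImplicit false
open Cfsg

namespace Cfsg.Agent.S1286

abbrev S5 := Equiv.Perm (Fin 5)

/-- the subgroup `{1, x, x⁻¹}` -/
def T (x : S5) (hx : x * x = x⁻¹) : Subgroup S5 where
  carrier := {g | g = 1 ∨ g = x ∨ g = x⁻¹}
  one_mem' := Or.inl rfl
  mul_mem' := by
    have h2 : x⁻¹ * x⁻¹ = x := by rw [← mul_inv_rev, hx, inv_inv]
    rintro a b (rfl | rfl | rfl) (rfl | rfl | rfl) <;> simp [hx, h2]
  inv_mem' := by
    rintro a (rfl | rfl | rfl) <;> simp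

lemma mem_T {x : S5} {hx : x * x = x⁻¹} {g : S5} : g ∈ T x hx ↔ g = 1 ∨ g = x ∨ g = x⁻¹ := Iff.rfl

instance (x : S5) (hx : x * x = x⁻¹) : DecidablePred (· ∈ T x hx) :=
  fun g => decidable_of_iff _ mem_T.symm

def a : S5 := Equiv.swap 0 1
def b : S5 := Equiv.swap 2 3
def x : S5 := Equiv.swap 2 3 * Equiv.swap 3 4
def y : S5 := Equiv.swap 0 1 * Equiv.swap 1 4

def A : Subgroup S5 where
  carrier := {g | g = 1 ∨ g = a ∨ g = b ∨ g = a * b}
  one_mem' := Or.inl rfl
  mul_mem' := by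
    rintro u v (rfl | rfl | rfl | rfl) (rfl | rfl | rfl | rfl) <;>
      simp only [Set.mem_ofPred_eq] <;> decide
  inv_mem' := by
    rintro u (rfl | rfl | rfl | rfl) <;> simp only [Set.mem_ofPred_eq] <;> decide

lemma mem_A {g : S5} : g ∈ A ↔ g = 1 ∨ g = a ∨ g = b ∨ g = a * b := Iff.rfl

instance : DecidablePred (· ∈ A) := fun g => decidable_of_iff _ mem_A.symm

/-- the generator of `θ g` -/
def gen (g : S5) : S5 := if g = a then x else if g = b then y else 1

lemma gen_sq (g : S5) : gen g * gen g = (gen g)⁻¹ := by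
  unfold gen; split_ifs <;> decide

def θ (g : S5) : Subgroup S5 := T (gen g) (gen_sq g)

lemma mem_θ {g h : S5} : h ∈ θ g ↔ h = 1 ∨ h = gen g ∨ h = (gen g)⁻¹ := Iff.rfl

lemma θ_le (g : S5) : θ g ≤ Subgroup.zpowers (gen g) := by
  rintro h (rfl | rfl | rfl)
  · exact one_mem _
  · exact Subgroup.mem_zpowers _
  · exact inv_mem (Subgroup.mem_zpowers _)

lemma card_θ (g : S5) : Nat.card (θ g) ∣ 3 := by
  refine (Subgroup.card_dvd_of_le (θ_le g)).trans ?_
  rw [Nat.card_zpowers]
  apply orderOf_dvd_of_pow_eq_one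
  rw [pow_succ, pow_two, gen_sq, inv_mul_cancel]

/-- There exist a finite group X, an elementary abelian subgroup A of order 4 and a solvable A-signalizer functor θ on X for the prime 2 which is not complete. -/
theorem result : ∃ (X : Type) (_ : Group X) (_ : Finite X) (A : Subgroup X) (θ : X → Subgroup X), Cfsg.IsElementaryAbelian 2 A ∧ Nat.card ↥A = 4 ∧ Cfsg.IsSolvableSignalizerFunctor 2 A θ ∧ ¬ Cfsg.IsCompleteSignalizerFunctor 2 A θ := by
  refine ⟨S5, inferInstance, inferInstance, A, θ, ⟨⟨⟨?_⟩⟩, ?_⟩, ?_, ⟨⟨?_, ?_, ?_, ?_⟩, ?_⟩, ?_⟩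
  · rintro ⟨u, hu⟩ ⟨v, hv⟩
    apply Subtype.ext
    show u * v = v * u
    rcases hu with rfl | rfl | rfl | rfl <;> rcases hv with rfl | rfl | rfl | rfl <;> decide
  · rintro u (rfl | rfl | rfl | rfl) <;> decide
  · rw [Nat.card_eq_fintype_card]; decide +kernel
  · intro u hu h1 h hh
    rw [Subgroup.mem_centralizer_singleton_iff]
    rcases hu with rfl | rfl | rfl | rfl <;> rcases hh with rfl | rfl | rfl <;> decide
  · intro u _ _ h
    have := h.trans (card_θ u)
    omega
  · intro u hu h1 v hv h hh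
    rw [mem_θ]
    rcases hu with rfl | rfl | rfl | rfl <;> rcases hv with rfl | rfl | rfl | rfl <;>
      rcases hh with rfl | rfl | rfl <;> decide
  · rintro u hu h1 v hv h2 h ⟨hh, hc⟩
    replace hc : h * v = v * h := Subgroup.mem_centralizer_singleton_iff.1 hc
    rw [mem_θ]
    revert h1 h2 hc
    rcases hu with rfl | rfl | rfl | rfl <;> rcases hv with rfl | rfl | rfl | rfl <;>
      rcases hh with rfl | rfl | rfl <;> decide
  · intro u _ _
    refine Group.isSolvable_of_comm ?_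
    rintro ⟨g, hg⟩ ⟨h, hh⟩
    obtain ⟨m, rfl⟩ := θ_le u hg
    obtain ⟨n, rfl⟩ := θ_le u hh
    exact Subtype.ext (zpow_mul_comm _ _ _)
  · rintro ⟨-, X, -, h2, h3⟩
    have hx : x ∈ X := by
      have : x ∈ θ a := Or.inr (Or.inl (by decide))
      rw [← h3 a (by decide) (by decide)] at this
      exact this.1
    have hy : y ∈ X := by
      have : y ∈ θ b := Or.inr (Or.inl (by decide))
      rw [← h3 b (by decide) (by decide)] at this
      exact this.1
    have hz : x * (y * x * y⁻¹) ∈ X := mul_mem hx (mul_mem (mul_mem hy hx) (inv_mem hy))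
    apply h2
    have ho : orderOf (x * (y * x * y⁻¹)) = 2 := orderOf_eq_prime (by decide) (by decide)
    rw [← ho]
    exact Subgroup.orderOf_dvd_natCard X hz

end Cfsg.Agent.S1286
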