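import Cfsg.Statements.S1316
import Cfsg.Agent.H14.FStar

set_option autoImplicit false
open Cfsg

namespace Cfsg.Agent.S1316

/-- For a finite group X, E(X) equals the intersection of the derived series of F*(X) (its last term). -/
theorem result {X : Type*} [Group X] [Finite X] : (⨅ n : ℕ, (derivedSeries ↥(Cfsg.generalizedFittingSubgroup X) n).map (Cfsg.generalizedFittingSubgroup X).subtype) = Cfsg.layer X := by
  have hD : ∀ n : ℕ, ∀ U : Subgroup X, (derivedSeries U (n + 1)).map U.subtype =
      ⁅(derivedSeries U n).map U.subtype, (derivedSeries U n).map U.subtype⁆ := by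
    intro n U
    rw [derivedSeries_succ, Subgroup.map_commutator]
  apply le_antisymm
  · obtain ⟨T, ⟨n, hn⟩, hmin⟩ := WellFounded.has_min (wellFounded_lt (α := Subgroup X))
      (Set.range fun n : ℕ => (derivedSeries ↥(generalizedFittingSubgroup X) n).map
        (generalizedFittingSubgroup X).subtype) ⟨_, 0, rfl⟩
    refine (iInf_le _ n).trans ?_
    simp only at hn
    rw [hn]
    apply H14.le_layer_of_perfect_of_le_fstar
    · by_contra hne
      refine hmin _ ⟨n + 1, rfl⟩ ?_
      simp only
      rw [hD, hn]
      exact lt_of_le_of_ne (Subgroup.commutator_le_self T) hne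
    · rw [← hn]; exact Subgroup.map_subtype_le _
  · refine le_iInf fun n => ?_
    induction n with
    | zero =>
      rw [derivedSeries_zero, ← MonoidHom.range_eq_map, Subgroup.range_subtype]
      exact H14.layer_le_fstar
    | succ n ih =>
      rw [hD, ← H14.layer_perfect]
      exact Subgroup.commutator_mono ih ih

end Cfsg.Agent.S1316
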