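import Cfsg.Statements.S1319
import Cfsg.Agent.H14.Comp

set_option autoImplicit false
open Cfsg

namespace Cfsg.Agent.S1319

/-- Let A be a subnormal subgroup of the finite group X with E(A) = A. Then A ≤ E(X) and A is normal in E(X). -/
theorem result {X : Type*} [Group X] [Finite X] (A : Subgroup X) (hsn : A.IsSubnormal) (hA : Cfsg.layer ↥A = ⊤) : A ≤ Cfsg.layer X ∧ (A.subgroupOf (Cfsg.layer X)).Normal := by
  have h : A = sSup {L : Subgroup X | IsComponent L ∧ L ≤ A} := by
    rw [← H14.map_layer_subtype_of_subnormal hsn, hA, ← MonoidHom.range_eq_map,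
      Subgroup.range_subtype]
  have h1 : A ≤ layer X := by
    rw [h]; exact sSup_le fun L hL => H14.comp_le_layer hL.1
  refine ⟨h1, Subgroup.normal_subgroupOf_of_le_normalizer (H14.layer_le fun L hL => ?_)⟩
  rcases H14.comp_le_or_of_subnormal hL hsn with h2 | h2
  · exact h2.trans Subgroup.le_normalizer
  · exact H14.le_normalizer_of_commutator_eq_bot h2

end Cfsg.Agent.S1319
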