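import Cfsg.Statements.S1336
import Cfsg.Agent.H17.CommGraph

set_option autoImplicit false
open Cfsg

namespace Cfsg.Agent.S1336


/-- Let G be finite and p prime. Then G has a proper subgroup H with p ∣ |H| and p ∤ |H ∩ gHg⁻¹| for every g ∉ H (a strongly p-embedded subgroup) if and only if G is not 1-connected for p. -/
theorem result {G : Type*} [Group G] [Finite G] (p : ℕ) [Fact p.Prime] : (∃ H : Subgroup G, H ≠ ⊤ ∧ p ∣ Nat.card ↥H ∧ ∀ g : G, g ∉ H → ¬ p ∣ Nat.card ↥(H ⊓ H.map (MulAut.conj g).toMonoidHom)) ↔ ¬ Cfsg.IsKConnected p 1 G := by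
  have hp : p.Prime := Fact.out
  have hdvd : ∀ A : Subgroup G, Cfsg.IsElementaryAbelian p A → p ^ 1 ≤ Nat.card A →
      p ∣ Nat.card A := by
    intro A hA hA'
    refine H17.dvd_card_of_pgroup_ne_bot (H17.elemAb_isPGroup hA) ?_
    rintro rfl
    rw [Subgroup.card_bot, pow_one] at hA'
    exact absurd hp.one_lt (not_lt.mpr hA')
  rw [H17.isKConnected_iff]
  constructor
  · rintro ⟨H, hH, hpH, hg⟩ hconn
    obtain ⟨x, hx, hxp⟩ := H17.exists_orderOf_eq_prime hpH
    obtain ⟨g, hgH⟩ : ∃ g, g ∉ H := by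
      by_contra h
      push Not at h
      exact hH (eq_top_iff.mpr fun g _ => h g)
    have hE : Cfsg.IsElementaryAbelian p (Subgroup.zpowers x) :=
      H17.elemAb_zpowers (hxp ▸ pow_orderOf_eq_one x)
    have hE' : p ^ 1 ≤ Nat.card (Subgroup.zpowers x) := by rw [Nat.card_zpowers, hxp, pow_one]
    have key : ∀ B, H17.CConn p 1 (Subgroup.zpowers x) B → B ≤ H := by
      intro B hB
      induction hB with
      | refl => simpa using hx
      | @tail B C _ h2 ih =>
        intro c hc
        by_contra hcH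
        refine hg c hcH ((hdvd B h2.1 h2.2.1).trans (Subgroup.card_dvd_of_le (le_inf ih ?_)))
        intro b hb
        rw [H17.mem_map_conj_iff, mul_assoc, h2.2.2.2.2 b hb c hc, inv_mul_cancel_left]
        exact ih hb
    have h1 := key _ (hconn _ ((Subgroup.zpowers x).map (MulAut.conj g).toMonoidHom) hE hE'
      (H17.elemAb_map hE _) (by rw [H17.card_map_conj]; exact hE'))
    refine hg g hgH (H17.dvd_card_of_orderOf_eq (t := g * x * g⁻¹) ⟨?_, ?_⟩ ?_)
    · exact h1 (H17.conj_mem_map_conj g (Subgroup.mem_zpowers x))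
    · exact H17.conj_mem_map_conj g hx
    · rw [H17.orderOf_conj', hxp]
  · intro h
    push Not at h
    obtain ⟨E, E', hE, hEc, hE', hE'c, hn⟩ := h
    have hEH : E ≤ H17.connStab p 1 E := by
      intro e he
      rw [H17.mem_connStab, H17.map_conj_eq_iff_mem_normalizer.mpr (Subgroup.le_normalizer he)]
      exact H17.CConn.refl _
    have key : ∀ B : Subgroup G, B ≤ H17.connStab p 1 E → Cfsg.IsElementaryAbelian p B →
        p ^ 1 ≤ Nat.card B → H17.CConn p 1 E B := by
      intro B hB hBe hBc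
      obtain ⟨T, hBT, hT⟩ := H17.exists_sylIn_ge hB (H17.elemAb_isPGroup hBe)
      obtain ⟨h, hh, hh2⟩ := hT.exists_conj_le hEH (H17.elemAb_isPGroup hE)
      refine (H17.mem_connStab.mp hh).trans (H17.cConn_one_of_le_pgroup hT.2.1
        (H17.elemAb_map hE _) (by rw [H17.card_map_conj]; exact hEc) ?_ hBe hBc hBT)
      rintro _ ⟨a, ha, rfl⟩
      exact hh2 a ha
    refine ⟨H17.connStab p 1 E, ?_, (hdvd E hE hEc).trans (Subgroup.card_dvd_of_le hEH), ?_⟩
    · intro htop
      exact hn (key E' (htop ▸ le_top) hE' hE'c)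
    · intro g hg hd
      obtain ⟨x, hx, hxp⟩ := H17.exists_orderOf_eq_prime hd
      obtain ⟨y, hy, rfl⟩ := hx.2
      have hyp : orderOf y = p := by rw [← H17.orderOf_conj' g y]; exact hxp
      have h1 := key (Subgroup.zpowers y) (by simpa using hy)
        (H17.elemAb_zpowers (hyp ▸ pow_orderOf_eq_one y)) (by rw [Nat.card_zpowers, hyp, pow_one])
      have h2 := key (Subgroup.zpowers _) (by simpa using hx.1)
        (H17.elemAb_zpowers (hxp ▸ pow_orderOf_eq_one _)) (by rw [Nat.card_zpowers, hxp, pow_one])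
      have h3 := h1.map_conj g
      rw [MonoidHom.map_zpowers] at h3
      exact hg (h2.trans h3.symm)


end Cfsg.Agent.S1336
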