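import Cfsg.Statements.S1343
import Cfsg.Agent.H14.ExtL

set_option autoImplicit false
open Cfsg

namespace Cfsg.Agent.S1343

/-- Let X be finite. Then L*_{2'}(X) = L_{2'}(X) ⊔ F for some subgroup F of odd order normalized by a Sylow 2-subgroup of X. -/
theorem result {X : Type*} [Group X] [Finite X] : ∃ F : Subgroup X, Odd (Nat.card ↥F) ∧ (∃ S : Sylow 2 X, (S : Subgroup X) ≤ Subgroup.normalizer (F : Set X)) ∧ Cfsg.extendedTwoLayer X = Cfsg.pLayer 2 X ⊔ F := by
  open Subgroup H14 in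
  obtain ⟨T, hT⟩ := H98.exists_isSyl 2 (pLayer 2 X ⊔ pPrimePCore 2 X)
  obtain ⟨S, hS⟩ := hT.isPGroup.exists_le_sylow
  have h1 : (S : Subgroup X) ⊓ (pLayer 2 X ⊔ pPrimePCore 2 X) = T :=
    hT.eq_of_le (S.isPGroup'.to_le inf_le_left) (le_inf hS hT.le) inf_le_right
  have h2 : (S : Subgroup X) ≤ normalizer (T : Set X) := by
    rw [← h1]
    exact H98.le_normalizer_inf le_normalizer (by rw [normalizer_eq_top]; exact le_top)
  refine ⟨opp 2 (centralizer (T : Set X)) ⊔ pPrimeCore 2 X, ?_, ⟨S, ?_⟩, ?_⟩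
  · exact (Nat.coprime_two_right.mp (Nat.Coprime.mul_left (coprime_card_opp _)
      (H2.coprime_card_pPrimeCore 2 X))).of_dvd_nat (H2.card_sup_dvd_mul _ _)
  · exact H98.le_normalizer_sup ((H98.le_normalizer_centralizer h2).trans
      (normalizer_le_normalizer_opp _)) (by rw [normalizer_eq_top]; exact le_top)
  · rw [ext_eq hT, sup_assoc, sup_comm (pPrimeCore 2 X)]

end Cfsg.Agent.S1343
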