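import Cfsg.Statements.S1346
import Cfsg.Agent.Base
import Cfsg.Agent.H15.CoreBal

set_option autoImplicit false
open Cfsg

namespace Cfsg.Agent.S1346

/-- Let G be a finite group all of whose 2-local subgroups have known non-abelian composition factors, and x, y commuting involutions. Then the extended 2-layer of L*_{2'}(C_G(x)) ∩ C_G(y) (as a group) is contained in L*_{2'}(C_G(y)). -/
theorem result {G : Type*} [Group G] [Finite G] (hK : ∀ T : Subgroup G, IsPGroup 2 ↥T → T ≠ ⊥ → Cfsg.IsCompositionKGroup ↥(Subgroup.normalizer (T : Set G))) (x y : G) (hx : orderOf x = 2) (hy : orderOf y = 2) (hxy : x * y = y * x) : (Cfsg.extendedTwoLayer ↥((Cfsg.extendedTwoLayer ↥(Subgroup.centralizer ({x} : Set G))).map (Subgroup.centralizer ({x} : Set G)).subtype ⊓ Subgroup.centralizer ({y} : Set G))).map ((Cfsg.extendedTwoLayer ↥(Subgroup.centralizer ({x} : Set G))).map (Subgroup.centralizer ({x} : Set G)).subtype ⊓ Subgroup.centralizer ({y} : Set G)).subtype ≤ (Cfsg.extendedTwoLayer ↥(Subgroup.centralizer ({y} : Set G))).map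 (Subgroup.centralizer ({y} : Set G)).subtype := by
  have rel : ∀ {H P : Subgroup G}, IsPGroup 2 P → P ≤ H →
      H14.opp 2 (H ⊓ Subgroup.centralizer (P : Set G)) ≤ (extendedTwoLayer H).map H.subtype := by
    intro H P hP hle
    have h1 := Subgroup.map_mono (f := H.subtype)
      (H15.core_balance_two (H98.isPGroup_subgroupOf hP H))
    rwa [H14.map_opp_of_injective H.subtype_injective, H98.map_subtype_centralizer,
      Subgroup.subgroupOf_map_subtype, inf_eq_left.mpr hle] at h1
  set Cx := Subgroup.centralizer ({x} : Set G) with hCx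
  set Cy := Subgroup.centralizer ({y} : Set G) with hCy
  set E := (extendedTwoLayer Cx).map Cx.subtype with hE
  have hEn : Cx ≤ Subgroup.normalizer (E : Set G) := by
    have := H14.ext_normal (G := Cx)
    exact H98.le_normalizer_map_subtype _
  have hEle : E ≤ Cx := Subgroup.map_subtype_le _
  have hxP : IsPGroup 2 (Subgroup.zpowers x) :=
    IsPGroup.of_card (n := 1) (by rw [Nat.card_zpowers, hx, pow_one])
  have hxy' : Subgroup.zpowers x ≤ Cy := by
    rw [Subgroup.zpowers_le, hCy, Subgroup.mem_centralizer_singleton_iff]; exact hxy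
  have hsub : H98.SubN (E ⊓ Cy) (Cy ⊓ Subgroup.centralizer (Subgroup.zpowers x : Set G)) := by
    rw [H14.centralizer_zpowers, inf_comm Cy]
    exact (H98.SubN.of_normal hEle hEn).inf_right _
  obtain ⟨T, hT⟩ := H98.exists_isSyl 2 (pLayer 2 ↥(E ⊓ Cy) ⊔ pPrimePCore 2 ↥(E ⊓ Cy))
  rw [H14.ext_eq hT, Subgroup.map_sup, Subgroup.map_sup]
  refine sup_le (sup_le ?_ ?_) ?_
  · refine ((H14.pLayerOf_mono_of_subN hsub).trans (H14.lbal_two_of_le hxP hxy')).trans ?_
    exact Subgroup.map_mono (le_sup_of_le_left le_sup_left)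
  · exact (H14.opp_le_of_subN hsub).trans (rel hxP hxy')
  · rw [H14.map_opp_of_injective (E ⊓ Cy).subtype_injective, H98.map_subtype_centralizer]
    set T' := T.map (E ⊓ Cy).subtype with hT'
    have hT'le : T' ≤ E ⊓ Cy := Subgroup.map_subtype_le _
    have hT'p : IsPGroup 2 T' := hT.isPGroup.map _
    have hxT : Subgroup.zpowers x ≤ Subgroup.centralizer (T' : Set G) := by
      rw [Subgroup.le_centralizer_iff, H14.centralizer_zpowers]
      exact (hT'le.trans inf_le_left).trans hEle
    refine le_trans (H14.opp_le_of_subN ?_) (rel (P := Subgroup.zpowers x ⊔ T')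
      (H14.isPGroup_sup_of_le_normalizer hxP hT'p
        (hxT.trans (Subgroup.centralizer_le_normalizer _)))
      (sup_le hxy' (hT'le.trans inf_le_right)))
    rw [H98.centralizer_sup, ← inf_assoc]
    exact hsub.inf_right _

end Cfsg.Agent.S1346
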