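import Cfsg.Statements.S1348
import Cfsg.Agent.H19.Blk

set_option autoImplicit false
open Cfsg

namespace Cfsg.Agent.S1348

/-- Let F be a finite field of odd order, n ≥ 7 odd, and t ∈ SL(n, F) the diagonal matrix with entries −1, …, −1, 1. Then E(C(t)) is a standard subgroup of SL(n, F). -/
theorem result {F : Type*} [Field F] [Fintype F] [DecidableEq F] (hF : Odd (Fintype.card F)) (n : ℕ) (hn : 7 ≤ n) (hodd : Odd n) (t : Matrix.SpecialLinearGroup (Fin n) F) (ht : (t : Matrix (Fin n) (Fin n) F) = Matrix.diagonal (fun i : Fin n => if (i : ℕ) + 1 = n then (1 : F) else -1)) : Cfsg.IsStandardSubgroup ((Cfsg.layer ↥(Subgroup.centralizer ({t} : Set (Matrix.SpecialLinearGroup (Fin n) F)))).map (Subgroup.centralizer ({t} : Set (Matrix.SpecialLinearGroup (Fin n) F))).subtype) := by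
  obtain ⟨m, rfl⟩ : ∃ m, n = m + 1 := ⟨n - 1, by omega⟩
  have D : H19.Blk.Dat Matrix.SpecialLinearGroup.coeMonoidHom (MonoidHom.id _) t :=
    ⟨H19.Blk.two_ne hF, Matrix.SpecialLinearGroup.coeMonoidHom_injective, fun _ => rfl,
      ht.trans H19.Blk.blk_diag.symm⟩
  have q : IsQuasisimple (Matrix.SpecialLinearGroup (Fin m) F) :=
    H19.Blk.quasi_sl (by omega) fun h => by omega
  rw [D.layer_eq q]
  exact D.standard (by omega) (by obtain ⟨k, hk⟩ := hodd; exact ⟨k, by omega⟩) q
    fun x => x.det_coe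

end Cfsg.Agent.S1348
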