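import Cfsg.Statements.S1451
import Cfsg.Agent.Base
import Cfsg.Agent.H48.Rank2Solv

set_option autoImplicit false
open Cfsg

namespace Cfsg.Agent.S1451

/-- Let G be a solvable group of odd order such that G, or its Fitting subgroup, has no elementary abelian subgroup of order q ^ 3 for any prime q. Then G' is nilpotent; for every Sylow subgroup S of G, every characteristic subgroup T of S with T ≤ [S, S] is normal in G; and for every prime p, G has a characteristic subgroup that is a Hall subgroup for the set of primes greater than p. -/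
theorem result {G : Type*} [Group G] [Finite G] [Group.IsSolvable G] (hodd : Odd (Nat.card G)) (hr : Cfsg.RankLE 2 G ∨ Cfsg.RankLE 2 (Cfsg.fittingSubgroup G)) :
    Group.IsNilpotent ↥(commutator G) ∧
      (∀ (q : ℕ) [Fact q.Prime] (S : Sylow q G) (T : Subgroup ↥(S : Subgroup G)), T.Characteristic → T.map (S : Subgroup G).subtype ≤ ⁅(S : Subgroup G), (S : Subgroup G)⁆ →
        (T.map (S : Subgroup G).subtype).Normal) ∧
      ∀ p : ℕ, ∃ N : Subgroup G, N.Characteristic ∧ Cfsg.IsPiHall {q | q.Prime ∧ p < q} N := by
  have h : ∀ q : ℕ, q.Prime → PRankLE q 2 (pCore q G) :=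
    H48.pRankLE_pCore_of_fitting (hr.elim (fun h q hq => H48.pRankLE_subgroup (h q hq) _) id)
  have h1 := H48.commutator_le_fitting hodd h
  refine ⟨H2.isNilpotent_of_le_fitting h1, fun q _ S T hT hTS => ?_, fun p => ?_⟩
  · exact H48.normal_of_le_commutator_sylow h1 S
      (H2.normalizer_le_normalizer_map_subtype (S : Subgroup G) T) hTS
  · exact ⟨_, inferInstance, H48.isPiHall_piCore hodd h
      fun q r _ hr _ _ hq hqr => ⟨hr, hq.2.trans_le hqr⟩⟩

end Cfsg.Agent.S1451
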