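import Cfsg.Statements.S1454
import Cfsg.Agent.H52.Sec5d
import Cfsg.Agent.H48.Blackburn

set_option autoImplicit false
open Cfsg

namespace Cfsg.Agent.S1454

/-- Let G be a finite group, p an odd prime, R a narrow p-subgroup and A a solvable subgroup of odd order normalizing R with A ∩ C_G(R) = 1. Then [A, A] ≤ O_p(A) and the index of O_p(A) in A is coprime to p; if R has an elementary abelian subgroup of order p ^ 3 then the order of every element of A of order coprime to p divides p − 1; and if the order of A is a prime not dividing p(p − 1), then 2·#A divides p + 1, and if in addition [R, A] = R and R is non-abelian then #R = p ^ 3. -/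
theorem result {G : Type*} [Group G] [Finite G] (p : ℕ) [Fact p.Prime] (hp : p ≠ 2) (R A : Subgroup G) (hR : IsPGroup p R) (hRn : Cfsg.IsNarrow p R)
    (hA : (A ≤ Subgroup.normalizer (R : Set G))) (hAs : Group.IsSolvable A) (hAodd : Odd (Nat.card A)) (hfaith : A ⊓ Subgroup.centralizer (R : Set G) = ⊥) :
    (commutator ↥A ≤ Cfsg.pCore p ↥A ∧ ((Cfsg.pCore p ↥A).index).Coprime p) ∧
      (¬ Cfsg.PRankLE p 2 R → ∀ a ∈ A, (orderOf a).Coprime p → orderOf a ∣ p - 1) ∧
      ((Nat.card A).Prime → ¬ Nat.card A ∣ p * (p - 1) →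
        2 * Nat.card A ∣ p + 1 ∧ (⁅R, A⁆ = R → ¬ IsMulCommutative R → Nat.card R = p ^ 3)) := by
  have hp' : p.Prime := Fact.out
  have hodd : Odd (Nat.card R) := by
    obtain ⟨k, hk⟩ := IsPGroup.iff_card.1 hR
    rw [hk]
    exact (hp'.odd_of_ne_two hp).pow
  have hinj : Function.Injective (H48.conjHom R A hA) := by
    rw [← MonoidHom.ker_eq_bot_iff, H48.ker_conjHom, ← Subgroup.inf_subgroupOf_right, inf_comm,
      hfaith, Subgroup.bot_subgroupOf]
  have h1 : commutator A ≤ pCore p A := by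
    refine H2.le_pCore fun g => ?_
    obtain ⟨k, hk⟩ := H52.narrow_pow_pow_eq_one hp hR hRn hAodd (H48.conjHom R A hA) g.2
    refine ⟨k, Subtype.ext (hinj ?_)⟩
    simpa using hk
  have h2 : ¬ Cfsg.PRankLE p 2 R → ∀ a ∈ A, (orderOf a).Coprime p → orderOf a ∣ p - 1 := by
    intro hr a ha hc
    have h3 := H52.narrow_pow_pred_eq_one hp hR hRn hr (a := H48.conjHom R A hA ⟨a, ha⟩)
      (by rw [orderOf_injective _ hinj, Subgroup.orderOf_mk]; exact hc)
    rw [← map_pow, map_eq_one_iff _ hinj] at h3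
    exact orderOf_dvd_of_pow_eq_one (congrArg Subtype.val h3)
  refine ⟨⟨h1, ((Nat.Prime.coprime_iff_not_dvd hp').2 (H52.not_dvd_index_pCore h1)).symm⟩, h2,
    fun hq hd => ?_⟩
  have hco : (Nat.card A).Coprime (p * (p - 1)) := (Nat.Prime.coprime_iff_not_dvd hq).2 hd
  have hr : Cfsg.PRankLE p 2 R := by
    by_contra hr
    obtain ⟨x, hx, hx'⟩ := H46.cauchy hq (dvd_refl (Nat.card A))
    have h3 := h2 hr x hx (hx' ▸ Nat.Coprime.coprime_mul_right_right hco)
    exact hd ((hx' ▸ h3).trans (Dvd.intro_left _ rfl))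
  refine ⟨?_, fun h3 h4 => H52.card_eq_cube_of_commutator hp' hR hodd
    ((H52.pRank_le_iff hp').2 hr) hA hAodd hco h3 h4⟩
  have h3 : (Subgroup.centralizer (R : Set G)).relIndex A = Nat.card A := by
    rw [← Subgroup.inf_relIndex_right, inf_comm, hfaith, Subgroup.relIndex_bot_left]
  obtain ⟨-, -, h4⟩ := H48.prime_dvd_relIndex_centralizer hp hR hr hA hq
    (fun e => hd (e ▸ Dvd.intro _ rfl)) (by rw [h3])
  obtain ⟨m, hm⟩ := hp'.odd_of_ne_two hp
  rcases h4 with h4 | h4
  · have e : p + 1 = 2 * ((p + 1) / 2) := by omega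
    rw [e]
    exact Nat.mul_dvd_mul_left 2 h4
  · have e : p - 1 = 2 * ((p - 1) / 2) := by omega
    exact absurd (Dvd.dvd.mul_left (e ▸ Dvd.dvd.mul_left h4 2) p) hd

end Cfsg.Agent.S1454
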