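import Cfsg.Agent.Base
import Cfsg.Statements.S1463
import Cfsg.Agent.H49.OddQuad

set_option autoImplicit false
open scoped MatrixGroups
open Cfsg

namespace Cfsg.Agent.S1463

open Matrix in
theorem wedge_eq_zero {F : Type*} [Field F] {A : Matrix (Fin 2) (Fin 2) F} (hA : A ≠ 0)
    {u v : Fin 2 → F} (hu : A *ᵥ u = 0) (hv : A *ᵥ v = 0) : H49.wedge u v = 0 := by
  by_contra h
  apply hA
  have hu0 := congrFun hu 0
  have hu1 := congrFun hu 1
  have hv0 := congrFun hv 0
  have hv1 := congrFun hv 1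
  simp only [Matrix.mulVec, dotProduct, Fin.sum_univ_two, Pi.zero_apply, H49.wedge] at *
  ext i j
  fin_cases i <;> fin_cases j <;> apply mul_left_cancel₀ h <;> simp
  · right; apply mul_left_cancel₀ h; linear_combination (v 1) * hu0 - (u 1) * hv0
  · right; apply mul_left_cancel₀ h; linear_combination (u 0) * hv0 - (v 0) * hu0
  · right; apply mul_left_cancel₀ h; linear_combination (v 1) * hu1 - (u 1) * hv1
  · right; apply mul_left_cancel₀ h; linear_combination (u 0) * hv1 - (v 0) * hu1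

/-- Let F be a field of odd characteristic p and H a finite subgroup of odd order of GL(2, F) that leaves no 1-dimensional subspace of F² invariant. Then p does not divide the order of H. -/
theorem result {F : Type*} [Field F] (p : ℕ) [Fact p.Prime] [CharP F p] (hp : p ≠ 2)
    (H : Subgroup (GL (Fin 2) F)) [Finite H] (hodd : Odd (Nat.card H))
    (hirr : ∀ v : Fin 2 → F, v ≠ 0 → ∃ g ∈ H, (g : Matrix (Fin 2) (Fin 2) F).mulVec v ∉ Submodule.span F {v}) :
    ¬ p ∣ Nat.card H := by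
  intro hdvd
  obtain ⟨x, hx⟩ := exists_prime_orderOf_dvd_card' (G := H) p hdvd
  let μ : H →* Matrix (Fin 2) (Fin 2) F := (Units.coeHom _).comp H.subtype
  have hμ : Function.Injective μ := Units.val_injective.comp H.subtype_injective
  let ρ : H →* Module.End F (Fin 2 → F) :=
    (Matrix.toLinAlgEquiv' (R := F) (n := Fin 2) : Matrix (Fin 2) (Fin 2) F →* _).comp μ
  have hρ : ∀ g v, ρ g v = (μ g).mulVec v := fun g v => Matrix.toLinAlgEquiv'_apply _ _
  obtain ⟨U, h1, h2, h3⟩ := H49.exists_unipotent_subgroup (by simp) hodd ρ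
  have hxU : x ∈ U := h2 x (H49.isNilpotent_sub_one_of_pow_eq_one (p := p) (k := 1) (by
    rw [pow_one, ← map_pow, ← hx, pow_orderOf_eq_one, map_one]))
  have hx1 : μ x - 1 ≠ 0 := by
    intro h
    have : x = 1 := hμ (by rw [sub_eq_zero.mp h, map_one])
    rw [this, orderOf_one] at hx
    exact (Fact.out : p.Prime).one_lt.ne hx
  have hsub : ∀ (g : H) v, (ρ g - 1) v = (μ g - 1).mulVec v := fun g v => by
    rw [Matrix.sub_mulVec, Matrix.one_mulVec, ← hρ]; rfl
  obtain ⟨z, hz⟩ : ∃ z, (μ x - 1).mulVec z ≠ 0 := by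
    by_contra h
    push Not at h
    exact hx1 (Matrix.ext_of_mulVec_single fun i => by rw [h, Matrix.zero_mulVec])
  have hfix : ∀ u ∈ U, (μ u - 1).mulVec ((μ x - 1).mulVec z) = 0 := fun u hu => by
    rw [← hsub, ← hsub, ← Module.End.mul_apply, h3 u hu x hxU]; rfl
  obtain ⟨g, hg, hgz⟩ := hirr _ hz
  apply hgz
  have hU : U.Normal := Subgroup.Normal.of_commutator_le _ h1
  have hc : (⟨g, hg⟩ : H)⁻¹ * x * ⟨g, hg⟩ ∈ U := by
    simpa using hU.conj_mem x hxU (⟨g, hg⟩ : H)⁻¹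
  have h4 : (μ x - 1).mulVec ((μ ⟨g, hg⟩).mulVec ((μ x - 1).mulVec z)) = 0 := by
    have e : (μ x - 1) * μ ⟨g, hg⟩ = μ ⟨g, hg⟩ * (μ ((⟨g, hg⟩ : H)⁻¹ * x * ⟨g, hg⟩) - 1) := by
      rw [mul_sub, sub_mul, ← map_mul, ← map_mul, one_mul, mul_one]
      congr 2
      group
    rw [Matrix.mulVec_mulVec _ (μ x - 1), e, ← Matrix.mulVec_mulVec, hfix _ hc, Matrix.mulVec_zero]
  obtain ⟨c, hc⟩ := H49.exists_smul_of_wedge hz (wedge_eq_zero hx1 (hfix x hxU) h4)
  exact Submodule.mem_span_singleton.mpr ⟨c, hc.symm⟩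

end Cfsg.Agent.S1463
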