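import Cfsg.Statements.S1478
import Cfsg.Agent.H20.CN4

set_option autoImplicit false
open Cfsg

namespace Cfsg.Agent.S1478

/-- Let G be a minimal simple group of odd order in which every non-identity element has nilpotent centralizer. Then no subgroup of G is a three-step group with respect to any prime. -/
theorem result {G : Type*} [Group G] [Finite G] (hG : Cfsg.IsMinSimpleOddOrder G) (hCN : Cfsg.IsCNGroup G) :
    ∀ (H : Subgroup G) (p : ℕ), ¬ Cfsg.IsThreeStepGroup p ↥H := by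
  rintro H p ⟨hO, A, -, -, -, -, -, hne, ⟨n, hn⟩, -, -⟩
  have hH : H ≠ ⊤ := by
    rintro rfl
    have := H51.mFT_simple hG
    have : IsSimpleGroup (⊤ : Subgroup G) := Subgroup.topEquiv.isSimpleGroup
    rcases (inferInstance : (Cfsg.pCore p (⊤ : Subgroup G)).Normal).eq_bot_or_eq_top with h | h
    · exact hO h
    · exact hne (by simp [h])
  have := H51.mFT_sol hG hH
  obtain ⟨r, M, hr, hM, hMO, hM1, -, hMr, -⟩ :=
    H2.exists_elementaryAbelian_normal_le (Cfsg.pCore p H) hO
  have : Fact r.Prime := ⟨hr⟩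
  have hrp : r ∣ p := by
    obtain ⟨⟨x, hx⟩, hx1⟩ := Subgroup.ne_bot_iff_exists_ne_one.1 hM1
    obtain ⟨k, hk⟩ := (IsPGroup.iff_orderOf.1 hMr) ⟨x, hx⟩
    obtain ⟨j, hj⟩ := H2.pCore_isPGroup p H ⟨x, hMO hx⟩
    have h1 : orderOf (⟨x, hx⟩ : M) ∣ p ^ j :=
      orderOf_dvd_of_pow_eq_one (Subtype.ext (by simpa using congrArg Subtype.val hj))
    refine hr.dvd_of_dvd_pow (dvd_trans ?_ h1)
    rw [hk]
    refine dvd_pow_self r ?_
    rintro rfl
    exact hx1 (orderOf_eq_one_iff.1 (by simpa using hk))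
  obtain ⟨R⟩ : Nonempty (Sylow r H) := inferInstance
  have hR := H20.cn_sylow_normal hG hCN (H46.normalIn_map_subtype hM) (hMr.map H.subtype)
    (by rwa [Ne, Subgroup.map_eq_bot_iff_of_injective _ H.subtype_injective]) R
  have hRp : IsPGroup p R := fun x => by
    obtain ⟨k, hk⟩ := R.isPGroup' x
    obtain ⟨c, hc⟩ := pow_dvd_pow_of_dvd hrp k
    exact ⟨k, by rw [hc, pow_mul, hk, one_pow]⟩
  have h1 := Subgroup.index_dvd_of_le ((H2.le_pCore hRp).trans (le_sup_left (b := A)))
  apply R.not_dvd_index (dvd_trans ?_ h1)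
  rw [hn]
  refine hrp.trans (dvd_pow_self p ?_)
  rintro rfl
  exact hne (Subgroup.index_eq_one.1 (by simpa using hn))

end Cfsg.Agent.S1478
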