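import Cfsg.Statements.S1483
import Cfsg.Agent.H20.CN4

set_option autoImplicit false
open Cfsg

namespace Cfsg.Agent.S1483

/-- Let G be a minimal simple group of odd order in which every non-identity element has nilpotent centralizer. Then any two nilpotent subgroups each contained in no larger nilpotent subgroup are either conjugate or of coprime orders; and for primes p, q, r: if some elements x, y ≠ 1 of p-power and q-power order commute, and some elements y', z ≠ 1 of q-power and r-power order commute, then some elements of p-power and r-power order, both ≠ 1, commute. -/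
theorem result {G : Type*} [Group G] [Finite G] (hG : Cfsg.IsMinSimpleOddOrder G) (hCN : Cfsg.IsCNGroup G) :
    (∀ H₁ H₂ : Subgroup G, (Group.IsNilpotent ↥H₁ ∧ ∀ L : Subgroup G, Group.IsNilpotent L → H₁ ≤ L → L = H₁) → (Group.IsNilpotent ↥H₂ ∧ ∀ L : Subgroup G, Group.IsNilpotent L → H₂ ≤ L → L = H₂) → (∃ g : G, H₂ = H₁.map (MulAut.conj g).toMonoidHom) ∨ (Nat.card H₁).Coprime (Nat.card H₂)) ∧
      ∀ (p q r : ℕ), p.Prime → q.Prime → r.Prime → ∀ (x y y' z : G), x ≠ 1 → y ≠ 1 → y' ≠ 1 → z ≠ 1 →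
        IsPGroup p (Subgroup.zpowers x) → IsPGroup q (Subgroup.zpowers y) → IsPGroup q (Subgroup.zpowers y') → IsPGroup r (Subgroup.zpowers z) →
        x * y = y * x → y' * z = z * y' →
        ∃ x' z' : G, x' ≠ 1 ∧ z' ≠ 1 ∧ IsPGroup p (Subgroup.zpowers x') ∧ IsPGroup r (Subgroup.zpowers z') ∧ x' * z' = z' * x' := by
  refine ⟨fun H₁ H₂ h1 h2 => ?_, ?_⟩
  · by_cases hc : (Nat.card H₁).Coprime (Nat.card H₂)
    · exact Or.inr hc
    · obtain ⟨p, hp, hp1, hp2⟩ := Nat.Prime.not_coprime_iff_dvd.1 hc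
      exact Or.inl (H20.MaxNil.conj_of_dvd hG hCN h1 h2 hp hp1 hp2)
  intro p q r hp hq hr x y y' z hx hy hy' hz px py py' pz hxy hyz
  have key : ∀ a b : G, a * b = b * a → ∃ H : Subgroup G, H20.MaxNil H ∧ a ∈ H ∧ b ∈ H := by
    intro a b hab
    by_cases ha : a = 1
    · obtain ⟨H, hH, hle⟩ := H20.exists_maxNil_ge (A := Subgroup.zpowers b)
        (H2.isNilpotent_of_isMulCommutative _)
      exact ⟨H, hH, ha ▸ H.one_mem, hle (Subgroup.mem_zpowers b)⟩
    · obtain ⟨H, hH, hle⟩ := H20.exists_maxNil_ge (hCN a ha)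
      exact ⟨H, hH, hle (H20.mem_cent1.2 (Commute.refl a)), hle (H20.mem_cent1.2 hab.symm)⟩
  have hd : ∀ (s : ℕ), s.Prime → ∀ (H : Subgroup G) (a : G), a ≠ 1 → a ∈ H →
      IsPGroup s (Subgroup.zpowers a) → s ∣ Nat.card H := by
    intro s hs H a ha haH hp
    have : Fact s.Prime := ⟨hs⟩
    obtain ⟨k, hk⟩ := hp.exists_card_eq
    rw [Nat.card_zpowers] at hk
    refine dvd_trans ?_ (Subgroup.orderOf_dvd_natCard H haH)
    rw [hk]
    refine dvd_pow_self s ?_
    rintro rfl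
    exact ha (orderOf_eq_one_iff.1 (by simpa using hk))
  obtain ⟨H, hH, hxH, hyH⟩ := key x y hxy
  obtain ⟨K, hK, hyK, hzK⟩ := key y' z hyz
  obtain ⟨g, hg⟩ := hH.conj_of_dvd hG hCN hK hq (hd q hq H y hy hyH py) (hd q hq K y' hy' hyK py')
  have : Fact r.Prime := ⟨hr⟩
  obtain ⟨w, -, hw, hwc⟩ := H20.exists_center_prime_of_nil hH.1 (p := r) (by
    rw [← H46.card_cj g, ← hg]; exact hd r hr K z hz hzK pz)
  exact ⟨x, w, hx, fun h => hr.one_lt.ne (by simpa [h] using hw), px,
    H20.isPGroup_zpowers_of_orderOf (k := 1) (by simpa using hw), hwc x hxH⟩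

end Cfsg.Agent.S1483
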