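import Cfsg.Statements.S1484
import Cfsg.Agent.H20.CN4

set_option autoImplicit false
open Cfsg

namespace Cfsg.Agent.S1484

/-- Let G be a minimal simple group of odd order in which every non-identity element has nilpotent centralizer, and M₁, …, M_k maximal subgroups, pairwise non-conjugate, such that every maximal subgroup is conjugate to some M_i. Let H_i be the largest normal nilpotent Hall subgroup of M_i. Then the orders of the H_i are pairwise coprime, their product is the order of G, and every element of G is conjugate to an element of some H_i. -/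
theorem result {G : Type*} [Group G] [Finite G] (hG : Cfsg.IsMinSimpleOddOrder G) (hCN : Cfsg.IsCNGroup G) (k : ℕ) (Mrep : Fin k → Subgroup G) (hmax : ∀ i, IsCoatom (Mrep i))
    (hnc : ∀ i j, i ≠ j → ∀ g : G, Mrep j ≠ (Mrep i).map (MulAut.conj g).toMonoidHom) (hall : ∀ M : Subgroup G, IsCoatom M → ∃ i, ∃ g : G, M = (Mrep i).map (MulAut.conj g).toMonoidHom) :
    (∀ i j, i ≠ j → (Nat.card (Cfsg.fittingHallOf (Mrep i))).Coprime (Nat.card (Cfsg.fittingHallOf (Mrep j)))) ∧
      ∏ i, Nat.card (Cfsg.fittingHallOf (Mrep i)) = Nat.card G ∧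
      ∀ x : G, ∃ i, ∃ g : G, g * x * g⁻¹ ∈ Cfsg.fittingHallOf (Mrep i) := by
  have hH := fun i => H20.cn_maxNil_fcore hG hCN (hmax i)
  have h1 : ∀ i j, i ≠ j → (Nat.card (Cfsg.fittingHallOf (Mrep i))).Coprime
      (Nat.card (Cfsg.fittingHallOf (Mrep j))) := by
    intro i j hij
    by_contra hc
    obtain ⟨p, hp, hp1, hp2⟩ := Nat.Prime.not_coprime_iff_dvd.1 hc
    obtain ⟨g, hg⟩ := (hH i).1.conj_of_dvd hG hCN (hH j).1 hp hp1 hp2
    apply hnc i j hij g
    rw [← (hH j).2, hg, ← H46.cj_nrm, (hH i).2]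
  have h2 : ∀ A : Subgroup G, Group.IsNilpotent A →
      ∃ i, ∃ g : G, A ≤ H46.cj g (Cfsg.fittingHallOf (Mrep i)) := by
    intro A hA
    obtain ⟨H, h, hle⟩ := H20.exists_maxNil_ge hA
    obtain ⟨hM, e⟩ := h.exists_coatom hG hCN
    obtain ⟨i, g, hg⟩ := hall _ hM
    refine ⟨i, g, ?_⟩
    rw [H6.cj_fcore, ← show H46.Nrm H = H46.cj g (Mrep i) from hg, e]
    exact hle
  refine ⟨h1, Nat.dvd_antisymm ?_ ?_, fun x => ?_⟩
  · exact Finset.prod_dvd_of_isRelPrime (fun i _ j _ hij => Nat.coprime_iff_isRelPrime.1 (h1 i j hij))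
      fun i _ => Subgroup.card_subgroup_dvd_card _
  · rw [Nat.dvd_iff_prime_pow_dvd_dvd]
    intro p n hp hd
    have : Fact p.Prime := ⟨hp⟩
    obtain ⟨A, hA⟩ := Sylow.exists_subgroup_card_pow_prime p hd
    obtain ⟨i, g, hg⟩ := h2 A (IsPGroup.of_card hA).isNilpotent
    have := Subgroup.card_dvd_of_le hg
    rw [hA, H46.card_cj] at this
    exact this.trans (Finset.dvd_prod_of_mem _ (Finset.mem_univ i))
  · obtain ⟨i, g, hg⟩ := h2 (Subgroup.zpowers x) (H2.isNilpotent_of_isMulCommutative _)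
    exact ⟨i, g⁻¹, by simpa using H46.mem_cj.1 (hg (Subgroup.mem_zpowers x))⟩

end Cfsg.Agent.S1484
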