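import Cfsg.Statements.S1485
import Cfsg.Agent.Base
import Cfsg.Agent.H45.Clifford

set_option autoImplicit false
open Cfsg

namespace Cfsg.Agent.S1485

/-- Let H be a normal subgroup of the finite group G and θ an irreducible character of H. On H, the function induced from θ equals r times the sum of the distinct G-conjugates of θ, where r is the number of elements of G fixing θ under conjugation divided by the order of H (the index of H in the inertia group). -/
theorem result {G : Type*} [Group G] [Fintype G] (H : Subgroup G) [hN : H.Normal] (θ : H → ℂ) (hθ : Cfsg.IsIrrCharacter H θ) : (fun h : H => Cfsg.indFun H θ h) = ((Nat.card {g : G // ∀ h : H, θ ⟨g * h * g⁻¹, hN.conj_mem h h.2 g⟩ = θ h} : ℂ) / (Nat.card H : ℂ)) • ∑ᶠ ψ ∈ {ψ : H → ℂ | ∃ g : G, ψ = fun h : H => θ ⟨g * h * g⁻¹, hN.conj_mem h h.2 g⟩}, ψ := by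
  classical
  have hn : (⊤ : Subgroup G) ≤ Subgroup.normalizer (H : Set G) := by
    rw [Subgroup.normalizer_eq_top]
  have hθ' := H42.ext_mem_Irr.2 hθ
  have h := congrArg (H42.dn H) (H45.ind_eq_sum_cfclass le_top hn (H42.Irr.cf hθ'))
  rw [H42.ind_top_ext, map_smul, map_sum] at h
  refine Eq.trans h ?_
  have e1 : ∀ g : G, H42.dn H (H42.cj g (H42.ext H θ)) =
      fun h : H => θ ⟨g * h * g⁻¹, hN.conj_mem h h.2 g⟩ := fun g => funext fun h => by
    rw [H42.dn_apply, H42.cj_apply, H42.ext_of_mem _ (hN.conj_mem h h.2 g)]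
  congr 1
  · rw [← H42.card_div_card (le_inf le_top (H45.le_inertia (H42.Irr.cf hθ')))]
    congr 2
    refine Nat.card_congr (Equiv.subtypeEquivRight fun g => ?_)
    rw [top_inf_eq, H45.mem_inertia]
    constructor
    · intro e h
      have := congrFun (congrArg (H42.dn H) e) h
      rwa [e1, H42.dn_ext] at this
    · intro e
      refine H42.CF.ext (H42.CF.cj (H42.Irr.cf hθ') (hn (Subgroup.mem_top g))) (H42.Irr.cf hθ')
        fun x hx => ?_
      rw [H42.cj_apply, H42.ext_of_mem _ hx, H42.ext_of_mem _ (hN.conj_mem x hx g)]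
      exact e ⟨x, hx⟩
  · have e2 : {ψ : H → ℂ | ∃ g : G, ψ = fun h : H => θ ⟨g * h * g⁻¹, hN.conj_mem h h.2 g⟩} =
        ((H45.cfclass ⊤ (H42.ext H θ)).image (H42.dn H) : Finset (H → ℂ)) := by
      ext ψ
      simp only [Set.mem_setOf_eq, Finset.coe_image, Set.mem_image, Finset.mem_coe, H45.mem_cfclass]
      constructor
      · rintro ⟨g, rfl⟩
        exact ⟨_, ⟨g, Subgroup.mem_top g, rfl⟩, e1 g⟩
      · rintro ⟨_, ⟨g, -, rfl⟩, rfl⟩
        exact ⟨g, e1 g⟩
    rw [e2, finsum_mem_coe_finset, Finset.sum_image]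
    intro a ha b hb e
    rw [← H42.CF.ext_dn (H42.Irr.cf (H45.cfclass_subset_Irr hn hθ' ha)), e,
      H42.CF.ext_dn (H42.Irr.cf (H45.cfclass_subset_Irr hn hθ' hb))]

end Cfsg.Agent.S1485
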