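import Cfsg.Statements.S1486
import Cfsg.Agent.Base
import Cfsg.Agent.H45.Clifford

set_option autoImplicit false
open Cfsg

namespace Cfsg.Agent.S1486

/-- Let H be a normal subgroup of the finite group G and θ, φ irreducible characters of H. If φ is a G-conjugate of θ then the functions induced from θ and φ coincide; if φ is not a G-conjugate of θ then the induced functions are orthogonal. -/
theorem result {G : Type*} [Group G] [Fintype G] (H : Subgroup G) [hN : H.Normal] (θ φ : H → ℂ) (hθ : Cfsg.IsIrrCharacter H θ) (hφ : Cfsg.IsIrrCharacter H φ) : ((∃ g : G, φ = fun h : H => θ ⟨g * h * g⁻¹, hN.conj_mem h h.2 g⟩) → Cfsg.indFun H φ = Cfsg.indFun H θ) ∧ ((¬ ∃ g : G, φ = fun h : H => θ ⟨g * h * g⁻¹, hN.conj_mem h h.2 g⟩) → Cfsg.classInner (Cfsg.indFun H φ) (Cfsg.indFun H θ) = 0) := by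
  have hn : (⊤ : Subgroup G) ≤ Subgroup.normalizer (H : Set G) := by
    rw [Subgroup.normalizer_eq_top]
  have hθ' := H42.ext_mem_Irr.2 hθ
  have hφ' := H42.ext_mem_Irr.2 hφ
  have key : (∃ g : G, φ = fun h : H => θ ⟨g * h * g⁻¹, hN.conj_mem h h.2 g⟩) ↔
      H42.ext H φ ∈ H45.cfclass ⊤ (H42.ext H θ) := by
    rw [H45.mem_cfclass]
    constructor
    · rintro ⟨g, rfl⟩
      refine ⟨g, Subgroup.mem_top g, H42.CF.ext (H42.CF.cj (H42.Irr.cf hθ') (hn (Subgroup.mem_top g)))
        (H42.Irr.cf hφ') fun x hx => ?_⟩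
      rw [H42.cj_apply, H42.ext_of_mem _ hx, H42.ext_of_mem _ (hN.conj_mem x hx g)]
    · rintro ⟨g, -, e⟩
      refine ⟨g, funext fun h => ?_⟩
      have := congrFun e h
      rw [H42.cj_apply, H42.ext_coe, H42.ext_of_mem _ (hN.conj_mem h h.2 g)] at this
      exact this.symm
  rw [key, ← H42.ind_top_ext, ← H42.ind_top_ext, ← H42.ip_top]
  exact ⟨H45.ind_eq_of_mem_cfclass hn, fun h =>
    H42.ip_comm_zero (H45.ip_ind_ind_eq_zero le_top hn hθ' hφ' h)⟩

end Cfsg.Agent.S1486
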