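import Cfsg.Statements.S1487
import Cfsg.Agent.Base
import Cfsg.Agent.H45.Clifford

set_option autoImplicit false
open Cfsg

namespace Cfsg.Agent.S1487

/-- Let A ≤ H be normal subgroups of the finite group G and θ an irreducible character of H. Then θ takes the value θ 1 on all of A if and only if the function induced from θ to G takes its value at 1 on all of A. -/
theorem result {G : Type*} [Group G] [Fintype G] (A H : Subgroup G) [A.Normal] [H.Normal] (hAH : A ≤ H) (θ : H → ℂ) (hθ : Cfsg.IsIrrCharacter H θ) : (∀ a : H, (a : G) ∈ A → θ a = θ 1) ↔ (∀ a : G, a ∈ A → Cfsg.indFun H θ a = Cfsg.indFun H θ 1) := by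
  have hn : (⊤ : Subgroup G) ≤ Subgroup.normalizer (A : Set G) := by
    rw [Subgroup.normalizer_eq_top]
  have hθ' := H42.Irr.isChar (H42.ext_mem_Irr.2 hθ)
  have h := H45.le_ker_ind_iff hAH le_top hn hθ'
  rw [(hθ'.ind le_top).le_ker_iff le_top, hθ'.le_ker_iff hAH, H42.ind_top_ext] at h
  rw [h]
  constructor
  · intro h1 a ha
    rw [H42.ext_of_mem _ (hAH ha), H42.ext_one_apply]
    exact h1 _ ha
  · intro h1 a ha
    have := h1 a ha
    rwa [H42.ext_coe, H42.ext_one_apply] at this

end Cfsg.Agent.S1487
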