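import Cfsg.Statements.S1488
import Cfsg.Agent.Base
import Cfsg.Agent.H33.Ind

set_option autoImplicit false
open Cfsg

namespace Cfsg.Agent.S1488

/-- Let A be a normal subgroup of the finite group G contained in the subgroup H, let θ be a function on H and θ₁ a function on the image of H in G ⧸ A whose composite with the projection is θ. Then the function induced from θ₁ to G ⧸ A, composed with the projection G → G ⧸ A, equals the function induced from θ to G. -/
theorem result {G : Type*} [Group G] [Fintype G] (A H : Subgroup G) [A.Normal] (hAH : A ≤ H) [Fintype (G ⧸ A)] [Fintype ↥(H.map (QuotientGroup.mk' A))] (θ : H → ℂ) (θ₁ : ↥(H.map (QuotientGroup.mk' A)) → ℂ) (hθ : ∀ x : H, θ₁ ⟨QuotientGroup.mk' A x, Subgroup.mem_map_of_mem _ x.2⟩ = θ x) (g : G) : Cfsg.indFun (H.map (QuotientGroup.mk' A)) θ₁ (QuotientGroup.mk' A g) = Cfsg.indFun H θ g := by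
  classical
  have key : ∀ y : G, extendByZero (H.map (QuotientGroup.mk' A)) θ₁ (QuotientGroup.mk' A y) =
      extendByZero H θ y := by
    intro y
    by_cases hy : y ∈ H
    · rw [H33.ext0_of_mem _ _ hy, H33.ext0_of_mem _ _ (Subgroup.mem_map_of_mem _ hy)]
      exact hθ ⟨y, hy⟩
    · rw [H33.ext0_of_not_mem _ _ hy, H33.ext0_of_not_mem]
      rintro ⟨z, hz, e⟩
      apply hy
      have : z⁻¹ * y ∈ A := QuotientGroup.eq.1 e
      simpa using H.mul_mem hz (hAH this)
  have hsum : ∀ F : G ⧸ A → ℂ, ∑ x : G, F (QuotientGroup.mk' A x) = Nat.card A * ∑ q, F q := by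
    intro F
    rw [← Finset.sum_fiberwise (g := QuotientGroup.mk' A) Finset.univ, Finset.mul_sum]
    refine Finset.sum_congr rfl fun q _ => ?_
    rw [Finset.sum_congr rfl (g := fun _ => F q) fun x hx => by rw [(Finset.mem_filter.1 hx).2],
      Finset.sum_const, nsmul_eq_mul]
    congr 2
    obtain ⟨y, rfl⟩ := QuotientGroup.mk'_surjective A q
    rw [← Fintype.card_subtype, ← Nat.card_eq_fintype_card]
    refine Nat.card_congr ⟨fun x => ⟨y⁻¹ * x.1, QuotientGroup.eq.1 x.2.symm⟩,
      fun a => ⟨y * a.1, (QuotientGroup.eq.2 (by simp)).symm⟩, fun x => Subtype.ext (by simp),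
      fun a => by simp⟩
  have hcard : (Nat.card H : ℂ) = Nat.card A * Nat.card (H.map (QuotientGroup.mk' A)) := by
    have h1 := Subgroup.card_mul_index (A.subgroupOf H)
    rw [Nat.card_congr (Subgroup.subgroupOfEquivOfLe hAH).toEquiv] at h1
    have h2 : Nat.card (H.map (QuotientGroup.mk' A)) = (A.subgroupOf H).index := by
      rw [← Subgroup.relIndex_ker, QuotientGroup.ker_mk', Subgroup.relIndex]
    rw [h2, ← h1]; push_cast; rfl
  rw [H33.indFun_apply, H33.indFun_apply]
  have h3 := hsum fun q => extendByZero (H.map (QuotientGroup.mk' A)) θ₁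
    (q⁻¹ * QuotientGroup.mk' A g * q)
  simp only [← map_inv, ← map_mul, key] at h3
  rw [h3, hcard, mul_inv, mul_assoc, mul_left_comm _ (Nat.card A : ℂ), ← mul_assoc,
    inv_mul_cancel₀ (H33.natCard_ne_zero A), one_mul]

end Cfsg.Agent.S1488
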