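import Cfsg.Statements.S1489
import Cfsg.Agent.Base
import Cfsg.Agent.H45.Bridge1

set_option autoImplicit false
open Cfsg

namespace Cfsg.Agent.S1489

/-- Let H be a normal subgroup of the finite group G, θ an irreducible character of H, and T the inertia group of θ (the elements g with θ(g h g⁻¹) = θ(h) for all h ∈ H). If ψ and ψ' are irreducible characters of T having nonzero inner product with the function induced from θ to T, then the function induced from ψ to G is an irreducible character of G, and it equals the one induced from ψ' only if ψ = ψ'. -/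
theorem result {G : Type*} [Group G] [Fintype G] (H T : Subgroup G) [hN : H.Normal] [Fintype T] (θ : H → ℂ) (hθ : Cfsg.IsIrrCharacter H θ) (hT : ∀ g : G, g ∈ T ↔ ∀ h : H, θ ⟨g * h * g⁻¹, hN.conj_mem h h.2 g⟩ = θ h) (hHT : H ≤ T) (ψ ψ' : T → ℂ) (hψ : Cfsg.IsIrrCharacter T ψ) (hψ' : Cfsg.IsIrrCharacter T ψ') (hc : Cfsg.classInner (Cfsg.indFun (H.subgroupOf T) (fun x => θ ⟨(x : T), Subgroup.mem_subgroupOf.mp x.2⟩)) ψ ≠ 0) (hc' : Cfsg.classInner (Cfsg.indFun (H.subgroupOf T) (fun x => θ ⟨(x : T), Subgroup.mem_subgroupOf.mp x.2⟩)) ψ' ≠ 0) : Cfsg.IsIrrCharacter G (Cfsg.indFun T ψ) ∧ (Cfsg.indFun T ψ = Cfsg.indFun T ψ' → ψ = ψ') := by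
  have hn := H45.top_le_normalizer H
  have hθ' := H42.ext_mem_Irr.2 hθ
  have hT' := H45.eq_inertia_ext H T θ hT
  rw [H45.classInner_indFun_subgroupOf hHT θ (H28.Cfsg.IsIrrCharacter.isClassFunction hψ)] at hc
  rw [H45.classInner_indFun_subgroupOf hHT θ (H28.Cfsg.IsIrrCharacter.isClassFunction hψ')] at hc'
  have c1 : H42.ip H (H42.ext T ψ) (H42.ext H θ) ≠ 0 := fun e => hc (H42.ip_comm_zero e)
  have c2 : H42.ip H (H42.ext T ψ') (H42.ext H θ) ≠ 0 := fun e => hc' (H42.ip_comm_zero e)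
  rw [← H42.ind_top_ext, ← H42.ind_top_ext]
  exact ⟨H42.mem_Irr_top.1 (H45.clifford_ind_mem_Irr le_top hn hθ' hT' (H42.ext_mem_Irr.2 hψ) c1).1,
    fun e => H42.ext_injective T (H45.clifford_ind_inj le_top hn hθ' hT' (H42.ext_mem_Irr.2 hψ) c1
      (H42.ext_mem_Irr.2 hψ') c2 e)⟩

end Cfsg.Agent.S1489
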