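import Cfsg.Statements.S1492
import Cfsg.Agent.Base
import Cfsg.Agent.H45.IrrKer

set_option autoImplicit false
open Cfsg

namespace Cfsg.Agent.S1492

/-- Let ψ be an irreducible character of the finite group G and B ≤ D ≤ C subgroups with B normal in C, every commutator of an element of D with an element of C lying in B (so D/B is central in C/B), and ψ constant equal to ψ 1 on B. Then ψ(1) ^ 2 * |C| * |D| ≤ |G| ^ 2. -/
theorem result {G : Type*} [Group G] [Finite G] (ψ : G → ℂ) (hψ : Cfsg.IsIrrCharacter G ψ) (B C D : Subgroup G) (hBD : B ≤ D) (hDC : D ≤ C) (hBn : ∀ c ∈ C, ∀ b ∈ B, c * b * c⁻¹ ∈ B) (hcent : ∀ d ∈ D, ∀ c ∈ C, d * c * d⁻¹ * c⁻¹ ∈ B) (hker : ∀ b ∈ B, ψ b = ψ 1) : ‖ψ 1‖ ^ 2 * (Nat.card C : ℝ) * (Nat.card D : ℝ) ≤ (Nat.card G : ℝ) ^ 2 := by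
  have hψ' := H42.mem_Irr_top.2 hψ
  have h := H45.Irr_degree_sq_le (hBD.trans hDC) hDC le_top hψ' ((H42.Irr.le_ker_iff hψ').2 hker)
    (fun d hd c hc => by
      have := B.inv_mem (hcent d hd c hc)
      simpa [mul_assoc] using this)
  obtain ⟨n, -, hn⟩ := H42.Irr.exists_degree_pos hψ'
  rw [hn] at h ⊢
  rw [Complex.natCast_re] at h
  rw [Complex.norm_natCast, ← Subgroup.card_top (G := G), ← H45.card_mul_relIndex (le_top : C ≤ ⊤)]
  have e := H45.card_mul_relIndex hDC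
  have hC : (0 : ℝ) ≤ Nat.card C := by positivity
  have hD : (0 : ℝ) ≤ Nat.card D := by positivity
  calc _ ≤ (C.relIndex ⊤ : ℝ) ^ 2 * D.relIndex C * Nat.card C * Nat.card D := by gcongr
    _ = (C.relIndex ⊤ : ℝ) ^ 2 * Nat.card C * ((Nat.card D * D.relIndex C : ℕ) : ℝ) := by
      push_cast; ring
    _ = _ := by rw [e]; push_cast; ring

end Cfsg.Agent.S1492
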