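import Cfsg.Statements.S1499
import Cfsg.Agent.Base
import Cfsg.Agent.H45.DadeGroup

set_option autoImplicit false
open Cfsg

namespace Cfsg.Agent.S1499

/-- Under the Dade hypothesis for (A, L, H), let a, b ∈ A. If an element of the coset a·H(a) is conjugate in G to an element of b·H(b), then a and b are conjugate by an element of L. Moreover the set normaliser of the coset a·H(a) is the centraliser of a. -/
theorem result {G : Type*} [Group G] [Finite G] (A : Set G) (L : Subgroup G) (H : G → Subgroup G) (hD : Cfsg.DadeHypothesis A L H) (a b : G) (ha : a ∈ A) (hb : b ∈ A) : ((∃ u ∈ H a, ∃ v ∈ H b, ∃ g : G, g * (a * u) * g⁻¹ = b * v) → ∃ x ∈ L, x * a * x⁻¹ = b) ∧ Subgroup.normalizer ((fun u : G => a * u) '' (H a : Set G)) = Subgroup.centralizer ({a} : Set G) := by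
  refine ⟨fun ⟨u, hu, v, hv, g, h⟩ => H45.dade_conj_in_L hD ha hb hu hv h, ?_⟩
  ext g
  rw [H45.mem_cent_iff, Subgroup.mem_set_normalizer_iff]
  constructor
  · intro h
    obtain ⟨v, hv, e⟩ := (h a).1 ⟨1, (H a).one_mem, by simp⟩
    have e' : g * (a * 1) * g⁻¹ = a * v := by simpa using e.symm
    have h1 := (H45.dade_conj_eq hD ha ha (H a).one_mem hv e').1
    show a * g = g * a
    conv_lhs => rw [← h1]
    group
  · intro hc
    have key : ∀ c : G, Commute a c → ∀ y, y ∈ (fun u : G => a * u) '' (H a : Set G) →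
        c * y * c⁻¹ ∈ (fun u : G => a * u) '' (H a : Set G) := by
      rintro c hc _ ⟨u, hu, rfl⟩
      refine ⟨c * u * c⁻¹, hD.conj_mem_H a ha c (H45.mem_cent_iff.2 hc) u hu, ?_⟩
      show a * (c * u * c⁻¹) = c * (a * u) * c⁻¹
      calc _ = (a * c) * u * c⁻¹ := by group
        _ = _ := by rw [hc.eq]; group
    intro y
    refine ⟨key g hc y, fun hy => ?_⟩
    have := key g⁻¹ hc.inv_right _ hy
    simpa [mul_assoc] using this

end Cfsg.Agent.S1499
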