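import Cfsg.Statements.S1504
import Cfsg.Agent.H43.Bridge3

set_option autoImplicit false
open Cfsg

namespace Cfsg.Agent.S1504

/-- Let W₁, W₂ be subgroups of a finite group with W₁ ⊓ W₂ = ⊥ whose elements commute, and W = W₁ ⊔ W₂. For linear characters φ, ψ of W with φ trivial on W₂ and ψ trivial on W₁, the function (1 − φ)(1 − ψ) vanishes on W₁ ∪ W₂; and the family of these functions, indexed by pairs (φ, ψ) with φ ≠ 1 ≠ ψ, is linearly independent over ℂ. -/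
theorem result {G : Type*} [Group G] [Finite G] (W₁ W₂ : Subgroup G) (hdisj : W₁ ⊓ W₂ = ⊥) (hcomm : ∀ a ∈ W₁, ∀ b ∈ W₂, a * b = b * a) : (∀ φ ψ : ↥(W₁ ⊔ W₂) →* ℂˣ, (∀ w : ↥(W₁ ⊔ W₂), (w : G) ∈ W₂ → φ w = 1) → (∀ w : ↥(W₁ ⊔ W₂), (w : G) ∈ W₁ → ψ w = 1) → ∀ w : ↥(W₁ ⊔ W₂), ((w : G) ∈ W₁ ∨ (w : G) ∈ W₂) → (1 - (φ w : ℂ) - (ψ w : ℂ) + (φ w : ℂ) * (ψ w : ℂ)) = 0) ∧ LinearIndependent ℂ (fun p : {p : (↥(W₁ ⊔ W₂) →* ℂˣ) × (↥(W₁ ⊔ W₂) →* ℂˣ) // p.1 ≠ 1 ∧ p.2 ≠ 1 ∧ (∀ w : ↥(W₁ ⊔ W₂), (w : G) ∈ W₂ → p.1 w = 1) ∧ (∀ w : ↥(W₁ ⊔ W₂), (w : G) ∈ W₁ → p.2 w = 1)} => fun w : ↥(W₁ ⊔ W₂) => 1 - (p.1.1 w : ℂ) - (p.1.2 w : ℂ) + (p.1.1 w : ℂ) * (p.1.2 w : ℂ)) := by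
  classical
  constructor
  · intro φ ψ h1 h2 w hw
    rcases hw with hw | hw
    · rw [h2 w hw]; simp
    · rw [h1 w hw]; simp
  · have inj : ∀ φ ψ : ↥(W₁ ⊔ W₂) →* ℂˣ, H43.r₁ φ = H43.r₁ ψ → H43.r₂ φ = H43.r₂ ψ → φ = ψ := by
      intro φ ψ e1 e2
      ext ⟨w, hw⟩
      obtain ⟨x, hx, y, hy, rfl⟩ := (H43.mem_sup_of_comm hcomm).1 hw
      have a : φ ⟨x, Subgroup.mem_sup_left hx⟩ = ψ ⟨x, Subgroup.mem_sup_left hx⟩ :=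
        DFunLike.congr_fun (congrArg H43.Lin.hom e1) ⟨x, hx⟩
      have b : φ ⟨y, Subgroup.mem_sup_right hy⟩ = ψ ⟨y, Subgroup.mem_sup_right hy⟩ :=
        DFunLike.congr_fun (congrArg H43.Lin.hom e2) ⟨y, hy⟩
      have c : (⟨x * y, hw⟩ : ↥(W₁ ⊔ W₂)) =
          ⟨x, Subgroup.mem_sup_left hx⟩ * ⟨y, Subgroup.mem_sup_right hy⟩ := rfl
      rw [c, map_mul, map_mul, a, b]
    rw [linearIndependent_iff']
    intro s g hg p hp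
    have key : ∀ q : {p : (↥(W₁ ⊔ W₂) →* ℂˣ) × (↥(W₁ ⊔ W₂) →* ℂˣ) // p.1 ≠ 1 ∧ p.2 ≠ 1 ∧
        (∀ w : ↥(W₁ ⊔ W₂), (w : G) ∈ W₂ → p.1 w = 1) ∧
        (∀ w : ↥(W₁ ⊔ W₂), (w : G) ∈ W₁ → p.2 w = 1)},
        H42.ip (W₁ ⊔ W₂) (H42.ext (W₁ ⊔ W₂) fun w : ↥(W₁ ⊔ W₂) =>
          1 - (q.1.1 w : ℂ) - (q.1.2 w : ℂ) + (q.1.1 w : ℂ) * (q.1.2 w : ℂ))
          (H43.lin (H43.Lin.mk (p.1.1 * p.1.2))) = if q = p then 1 else 0 := by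
      intro q
      obtain ⟨a1, a2, a3, a4⟩ := p.2
      obtain ⟨b1, b2, b3, b4⟩ := q.2
      rw [← H43.r₂_eq_one] at a3 b3
      rw [← H43.r₁_eq_one] at a4 b4
      have a5 : H43.r₁ p.1.1 ≠ 1 := fun e => a1 (inj _ _ e a3)
      have a6 : H43.r₂ p.1.2 ≠ 1 := fun e => a2 (inj _ _ a4 e)
      have r1 : H43.r₁ (p.1.1 * p.1.2) = H43.r₁ p.1.1 := by rw [H43.r₁_mul, a4, mul_one]
      have r2 : H43.r₂ (p.1.1 * p.1.2) = H43.r₂ p.1.2 := by rw [H43.r₂_mul, a3, one_mul]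
      have e : (H42.ext (W₁ ⊔ W₂) fun w : ↥(W₁ ⊔ W₂) =>
          1 - (q.1.1 w : ℂ) - (q.1.2 w : ℂ) + (q.1.1 w : ℂ) * (q.1.2 w : ℂ)) =
          H43.lin (H43.Lin.mk (1 : ↥(W₁ ⊔ W₂) →* ℂˣ)) - H43.lin (H43.Lin.mk q.1.1) - H43.lin (H43.Lin.mk q.1.2) +
            H43.lin (H43.Lin.mk (q.1.1 * q.1.2)) := by
        simp only [H43.lin, ← map_sub, ← map_add]
        congr 1
      have n1 : H43.Lin.mk (1 : ↥(W₁ ⊔ W₂) →* ℂˣ) ≠ H43.Lin.mk (p.1.1 * p.1.2) := fun z =>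
        a5 (by rw [← r1, ← H43.Lin.mk_injective z]; rfl)
      have n2 : H43.Lin.mk q.1.1 ≠ H43.Lin.mk (p.1.1 * p.1.2) := fun z =>
        a6 (by rw [← r2, ← H43.Lin.mk_injective z, b3])
      have n3 : H43.Lin.mk q.1.2 ≠ H43.Lin.mk (p.1.1 * p.1.2) := fun z =>
        a5 (by rw [← r1, ← H43.Lin.mk_injective z, b4])
      rw [e, H42.ip_add_left, H42.ip_sub_left, H42.ip_sub_left, H43.ip_lin, H43.ip_lin, H43.ip_lin,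
        H43.ip_lin, if_neg n1, if_neg n2, if_neg n3]
      by_cases z : q = p
      · rw [z]; simp
      · rw [if_neg z, if_neg]
        · simp
        · intro z'
          have z2 := H43.Lin.mk_injective z'
          have c1 : H43.r₁ q.1.1 = H43.r₁ p.1.1 := by
            rw [← r1, ← z2, H43.r₁_mul, b4, mul_one]
          have c2 : H43.r₂ q.1.2 = H43.r₂ p.1.2 := by
            rw [← r2, ← z2, H43.r₂_mul, b3, one_mul]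
          exact z (Subtype.ext (Prod.ext (inj _ _ c1 (by rw [a3, b3]))
            (inj _ _ (by rw [a4, b4]) c2)))
    have := congrArg (fun f => H42.ip (W₁ ⊔ W₂) (H42.ext (W₁ ⊔ W₂) f)
      (H43.lin (H43.Lin.mk (p.1.1 * p.1.2)))) hg
    simp only [map_sum, map_smul, H42.ip_sum_left, H42.ip_smul_left, key, map_zero,
      H42.ip_zero_left] at this
    simpa [hp] using this

end Cfsg.Agent.S1504
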