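import Cfsg.Statements.S1505
import Cfsg.Agent.H43.Bridge3

set_option autoImplicit false
open Cfsg

namespace Cfsg.Agent.S1505

open Classical in
/-- Let W₁, W₂ ≤ G form a self-normalising cyclic subgroup W = W₁ ⊔ W₂. For nontrivial linear characters φ, φ' of W trivial on W₂ and ψ, ψ' trivial on W₁, put α = (1 − φ)(1 − ψ) and α' = (1 − φ')(1 − ψ'). Then the function induced from α to G has inner product 1 with the principal character, and the inner product of the functions induced from α and α' is 1 + a + b + ab where a = 1 if φ = φ' (else 0) and b = 1 if ψ = ψ' (else 0). -/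
theorem result {G : Type*} [Group G] [Fintype G] (W₁ W₂ : Subgroup G) (hW : Cfsg.IsSelfNormalizingCyclic W₁ W₂) (φ φ' ψ ψ' : ↥(W₁ ⊔ W₂) →* ℂˣ) (hφ : φ ≠ 1) (hφ' : φ' ≠ 1) (hψ : ψ ≠ 1) (hψ' : ψ' ≠ 1) (hφ₂ : ∀ w : ↥(W₁ ⊔ W₂), (w : G) ∈ W₂ → φ w = 1 ∧ φ' w = 1) (hψ₁ : ∀ w : ↥(W₁ ⊔ W₂), (w : G) ∈ W₁ → ψ w = 1 ∧ ψ' w = 1) : Cfsg.classInner (Cfsg.indFun (W₁ ⊔ W₂) (fun w => 1 - (φ w : ℂ) - (ψ w : ℂ) + (φ w : ℂ) * (ψ w : ℂ))) (fun _ => 1) = 1 ∧ Cfsg.classInner (Cfsg.indFun (W₁ ⊔ W₂) (fun w => 1 - (φ w : ℂ) - (ψ w : ℂ) + (φ w : ℂ) * (ψ w : ℂ))) (Cfsg.indFun (W₁ ⊔ W₂) (fun w => 1 - (φ' w : ℂ) - (ψ' w : ℂ) + (φ' w : ℂ) * (ψ' w : ℂ))) = 1 + (if φ = φ' then 1 else 0) + (if ψ = ψ' then 1 else 0) + (if φ = φ' then 1 else 0) * (if ψ = ψ' then 1 else 0) := by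
  have h : H43.CycTI0 ⊤ W₁ W₂ := H43.cycTI0_top_iff.2 hW
  have a := H43.r₂_eq_one.2 fun w hw => (hφ₂ w hw).1
  have a' := H43.r₂_eq_one.2 fun w hw => (hφ₂ w hw).2
  have b := H43.r₁_eq_one.2 fun w hw => (hψ₁ w hw).1
  have b' := H43.r₁_eq_one.2 fun w hw => (hψ₁ w hw).2
  rw [← h.dn_alp a b, ← h.dn_alp a' b', ← H42.ind_top, ← H42.ind_top, ← H42.ip_top, ← H42.ip_top]
  constructor
  · have := h.ip_ind_alp_one (h.res_ne_one₁ hφ a) (h.res_ne_one₂ hψ b)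
    rwa [H42.one_top] at this
  · rw [h.ip_ind (h.alp_supp _ _) (h.alp_supp _ _), h.ip_alp (h.res_ne_one₁ hφ a)
      (h.res_ne_one₁ hφ' a') (h.res_ne_one₂ hψ b) (h.res_ne_one₂ hψ' b')]
    have e1 : H43.r₁ φ = H43.r₁ φ' ↔ φ = φ' := by rw [← h.res_inj, a, a']; simp
    have e2 : H43.r₂ ψ = H43.r₂ ψ' ↔ ψ = ψ' := by rw [← h.res_inj, b, b']; simp
    simp only [e1, e2]
    ring

end Cfsg.Agent.S1505
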