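import Cfsg.Statements.S1506
import Cfsg.Agent.H43.Bridge3

set_option autoImplicit false
open Cfsg

namespace Cfsg.Agent.S1506

/-- Let W₁, W₂ ≤ G form a self-normalising cyclic subgroup W = W₁ ⊔ W₂ and χ an orthonormal family of irreducible characters of G up to sign, indexed by the linear characters ω of W, with χ_1 = 1, χ_ω = ω on W outside W₁ ∪ W₂, and the induction identity for (1 − φ)(1 − ψ). Let θ be a class function of G vanishing at every element of W outside W₁ ∪ W₂. For linear characters φ, φ' of W trivial on W₂ and ψ, ψ' trivial on W₁, the inner products a(ω) = ⟨θ, χ ω⟩ satisfy a(φψ) + a(φ'ψ') = a(φψ') + a(φ'ψ). -/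
theorem result {G : Type*} [Group G] [Fintype G] (W₁ W₂ : Subgroup G) (hW : Cfsg.IsSelfNormalizingCyclic W₁ W₂) (χ : (↥(W₁ ⊔ W₂) →* ℂˣ) → (G → ℂ)) (hχ : Cfsg.IsCyclicTIFamily W₁ W₂ χ) (θ : G → ℂ) (hθ : Cfsg.IsClassFunction G θ) (hθV : ∀ w : ↥(W₁ ⊔ W₂), (w : G) ∉ W₁ → (w : G) ∉ W₂ → θ w = 0) (φ φ' ψ ψ' : ↥(W₁ ⊔ W₂) →* ℂˣ) (hφ₂ : ∀ w : ↥(W₁ ⊔ W₂), (w : G) ∈ W₂ → φ w = 1 ∧ φ' w = 1) (hψ₁ : ∀ w : ↥(W₁ ⊔ W₂), (w : G) ∈ W₁ → ψ w = 1 ∧ ψ' w = 1) : Cfsg.classInner θ (χ (φ * ψ)) + Cfsg.classInner θ (χ (φ' * ψ')) = Cfsg.classInner θ (χ (φ * ψ')) + Cfsg.classInner θ (χ (φ' * ψ)) := by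
  have h : H43.CycTI0 ⊤ W₁ W₂ := H43.cycTI0_top_iff.2 hW
  have a := H43.r₂_eq_one.2 fun w hw => (hφ₂ w hw).1
  have a' := H43.r₂_eq_one.2 fun w hw => (hφ₂ w hw).2
  have b := H43.r₁_eq_one.2 fun w hw => (hψ₁ w hw).1
  have b' := H43.r₁_eq_one.2 fun w hw => (hψ₁ w hw).2
  have e := (H43.isEta_of_family h hχ).ip_exchange h (H42.mem_CF_top.2 hθ)
    (fun v hv => hθV ⟨v, hv.1⟩ hv.2.1 hv.2.2) (H43.r₁ φ) (H43.r₁ φ') (H43.r₂ ψ) (H43.r₂ ψ')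
  have key : ∀ φ ψ : ↥(W₁ ⊔ W₂) →* ℂˣ, H43.r₂ φ = 1 → H43.r₁ ψ = 1 →
      (h.omL (H43.r₁ φ) (H43.r₂ ψ)).hom = φ * ψ := fun φ ψ a b => by
    rw [← h.omL_res (φ * ψ), H43.r₁_mul, H43.r₂_mul, a, b, mul_one, one_mul]
  simpa only [H42.ip_top, key _ _ a b, key _ _ a b', key _ _ a' b, key _ _ a' b'] using e

end Cfsg.Agent.S1506
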