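import Cfsg.Statements.S1507
import Cfsg.Agent.H43.Bridge3

set_option autoImplicit false
open Cfsg

namespace Cfsg.Agent.S1507

open Classical in
/-- Let W₁, W₂ ≤ G form a self-normalising cyclic subgroup W = W₁ ⊔ W₂ of odd order with Nat.card W₁ < Nat.card W₂, and χ an orthonormal family of irreducible characters of G up to sign, indexed by the linear characters ω of W, with χ_1 = 1, χ_ω = ω on W outside W₁ ∪ W₂, and the induction identity for (1 − φ)(1 − ψ). Let θ be a class function of G vanishing on W outside W₁ ∪ W₂, and suppose fewer than 2 · Nat.card W₁ linear characters ω of W have ⟨θ, χ ω⟩ ≠ 0. Then one of: all ⟨θ, χ ω⟩ vanish; or there are ψ₀ and a with ⟨θ, χ ω⟩ = a when ω ψ₀⁻¹ is trivial on W₂ and 0 otherwise; or there are φ₀ and a with ⟨θ, χ ω⟩ = a when ω φ₀⁻¹ is trivial on W₁ and 0 otherwise. -/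
theorem result {G : Type*} [Group G] [Fintype G] (W₁ W₂ : Subgroup G) (hW : Cfsg.IsSelfNormalizingCyclic W₁ W₂) (hodd : Odd (Nat.card ↥(W₁ ⊔ W₂))) (χ : (↥(W₁ ⊔ W₂) →* ℂˣ) → (G → ℂ)) (hχ : Cfsg.IsCyclicTIFamily W₁ W₂ χ) (hlt : Nat.card W₁ < Nat.card W₂) (θ : G → ℂ) (hθ : Cfsg.IsClassFunction G θ) (hθV : ∀ w : ↥(W₁ ⊔ W₂), (w : G) ∉ W₁ → (w : G) ∉ W₂ → θ w = 0) (hfew : Nat.card {ω : ↥(W₁ ⊔ W₂) →* ℂˣ // Cfsg.classInner θ (χ ω) ≠ 0} < 2 * Nat.card W₁) : (∀ ω, Cfsg.classInner θ (χ ω) = 0) ∨ (∃ (ψ₀ : ↥(W₁ ⊔ W₂) →* ℂˣ) (a : ℂ), ∀ ω, Cfsg.classInner θ (χ ω) = if (∀ w : ↥(W₁ ⊔ W₂), (w : G) ∈ W₂ → (ω * ψ₀⁻¹) w = 1) then a else 0) ∨ (∃ (φ₀ : ↥(W₁ ⊔ W₂) →* ℂˣ) (a : ℂ), ∀ ω, Cfsg.classInner θ (χ ω) = if (∀ w : ↥(W₁ ⊔ W₂), (w : G) ∈ W₁ → (ω * φ₀⁻¹) w = 1) then a else 0) := by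
  have h : H43.CycTI ⊤ W₁ W₂ := ⟨H43.cycTI0_top_iff.2 hW, hodd⟩
  have h0 := h.toCycTI0
  have hc : Nat.card {ω : ↥(W₁ ⊔ W₂) →* ℂˣ // Cfsg.classInner θ (χ ω) ≠ 0} =
      H43.NC ⊤ W₁ W₂ θ := by
    rw [H43.NC_def, ← Fintype.card_subtype, ← Nat.card_eq_fintype_card]
    refine Nat.card_congr ⟨fun ω => ⟨(H43.r₁ ω.1, H43.r₂ ω.1), ?_⟩,
      fun p => ⟨(h0.omL p.1.1 p.1.2).hom, ?_⟩, fun ω => Subtype.ext (h0.omL_res _),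
      fun p => Subtype.ext (Prod.ext (h0.res_omL _ _).1 (h0.res_omL _ _).2)⟩
    · rw [H42.ip_top, ← H43.family_eq_eta h hχ]; exact ω.2
    · rw [H43.family_eq_eta h hχ, (h0.res_omL _ _).1, (h0.res_omL _ _).2, ← H42.ip_top]
      exact p.2
  by_cases hz : ∀ ω, Cfsg.classInner θ (χ ω) = 0
  · exact Or.inl hz
  right
  push Not at hz
  obtain ⟨ω₀, hω₀⟩ := hz
  rw [H43.family_eq_eta h hχ, ← H42.ip_top] at hω₀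
  rcases h.small_NC (H42.mem_CF_top.2 hθ) (fun v hv => hθV ⟨v, hv.1⟩ hv.2.1 hv.2.2)
    (by rw [← hc, min_eq_left hlt.le]; exact hfew) hω₀ with e | e
  · refine Or.inl ⟨ω₀, H42.ip ⊤ θ (H43.eta ⊤ W₁ W₂ (H43.r₁ ω₀) (H43.r₂ ω₀)), fun ω => ?_⟩
    rw [H43.family_eq_eta h hχ, ← H42.ip_top, e]
    simp only [← H43.r₂_eq_one, H43.r₂_mul, H43.r₂_inv, mul_inv_eq_one]
  · refine Or.inr ⟨ω₀, H42.ip ⊤ θ (H43.eta ⊤ W₁ W₂ (H43.r₁ ω₀) (H43.r₂ ω₀)), fun ω => ?_⟩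
    rw [H43.family_eq_eta h hχ, ← H42.ip_top, e]
    simp only [← H43.r₁_eq_one, H43.r₁_mul, H43.r₁_inv, mul_inv_eq_one]

end Cfsg.Agent.S1507
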