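import Cfsg.Statements.S1508
import Cfsg.Agent.H43.Bridge3

set_option autoImplicit false
open Cfsg

namespace Cfsg.Agent.S1508

/-- Let W₁, W₂ ≤ G form a self-normalising cyclic subgroup W = W₁ ⊔ W₂ of odd order and χ an orthonormal family of irreducible characters of G up to sign, indexed by the linear characters ω of W, with χ_1 = 1, χ_ω = ω on W outside W₁ ∪ W₂, and the induction identity for (1 − φ)(1 − ψ). Let ω be a linear character of W and g an element of G whose order is coprime to the order of ω. Then χ ω g is an integer. -/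
theorem result {G : Type*} [Group G] [Fintype G] (W₁ W₂ : Subgroup G) (hW : Cfsg.IsSelfNormalizingCyclic W₁ W₂) (hodd : Odd (Nat.card ↥(W₁ ⊔ W₂))) (χ : (↥(W₁ ⊔ W₂) →* ℂˣ) → (G → ℂ)) (hχ : Cfsg.IsCyclicTIFamily W₁ W₂ χ) (ω : ↥(W₁ ⊔ W₂) →* ℂˣ) (g : G) (hg : Nat.Coprime (orderOf g) (orderOf ω)) : ∃ n : ℤ, χ ω g = n := by
  have h : H43.CycTI ⊤ W₁ W₂ := ⟨H43.cycTI0_top_iff.2 hW, hodd⟩
  rw [H43.family_eq_eta h hχ]
  apply h.eta_int
  refine Nat.Coprime.mul_right (hg.coprime_dvd_right ?_) (hg.coprime_dvd_right ?_)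
  · apply orderOf_dvd_of_pow_eq_one
    change H43.r₁ (ω ^ orderOf ω) = 1
    rw [pow_orderOf_eq_one]; rfl
  · apply orderOf_dvd_of_pow_eq_one
    change H43.r₂ (ω ^ orderOf ω) = 1
    rw [pow_orderOf_eq_one]; rfl

end Cfsg.Agent.S1508
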