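import Cfsg.Statements.S1511
import Cfsg.Agent.H43.Bridge3
import Cfsg.Agent.H43.PrimeTI2
import Cfsg.Agent.H45.Bridge1

set_option autoImplicit false
open Cfsg

namespace Cfsg.Agent.S1511

/-- Let L be a finite group with K normal with complement W₁ ≠ 1 a cyclic Hall subgroup, and W₂ ≠ 1 a cyclic subgroup of K equal to C_K(x) for every non-identity x ∈ W₁, with W₁W₂ of odd order. Then there are a map μ from the linear characters of W = W₁ ⊔ W₂ to irreducible characters of L, injective, and a sign δ(ω) ∈ {1, −1} depending only on the values of ω on W₂, such that: for ω, ω' agreeing on W₂, the function induced to L from ω − ω' equals δ(ω) • (μ ω − μ ω'); μ ω x = δ(ω) ω x for x ∈ W outside W₂; every irreducible character of L not of the form μ ω vanishes on W outside W₂; and μ ω 1 − δ(ω) is an integer multiple of Nat.card W₁. -/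
theorem result {L : Type*} [Group L] [Fintype L] (K W₁ W₂ : Subgroup L) [hK : K.Normal] (hKW₁ : K ⊓ W₁ = ⊥) (hKW₁' : K ⊔ W₁ = ⊤) (hW₁ : W₁ ≠ ⊥) (hW₁c : IsCyclic W₁) (hHall : Nat.Coprime (Nat.card W₁) W₁.index) (hW₂ : W₂ ≠ ⊥) (hW₂c : IsCyclic W₂) (hW₂K : W₂ ≤ K) (hC : ∀ x ∈ W₁, x ≠ 1 → K ⊓ Subgroup.centralizer ({x} : Set L) = W₂) (hodd : Odd (Nat.card ↥(W₁ ⊔ W₂))) : ∃ (μ : (↥(W₁ ⊔ W₂) →* ℂˣ) → (L → ℂ)) (δ : (↥(W₁ ⊔ W₂) →* ℂˣ) → ℂ), Function.Injective μ ∧ (∀ ω, Cfsg.IsIrrCharacter L (μ ω)) ∧ (∀ ω, δ ω = 1 ∨ δ ω = -1) ∧ (∀ ω ω' : ↥(W₁ ⊔ W₂) →* ℂˣ, (∀ w : ↥(W₁ ⊔ W₂), (w : L) ∈ W₂ → ω w = ω' w) → δ ω = δ ω' ∧ Cfsg.indFun (W₁ ⊔ W₂) (fun w => (ω w : ℂ) - (ω' w : ℂ)) = δ ω • (μ ω - μ ω')) ∧ (∀ ω, ∀ w : ↥(W₁ ⊔ W₂), (w : L) ∉ W₂ → μ ω w = δ ω * (ω w : ℂ)) ∧ (∀ θ : L → ℂ, Cfsg.IsIrrCharacter L θ → (∀ ω, θ ≠ μ ω) → ∀ w : ↥(W₁ ⊔ W₂), (w :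 L) ∉ W₂ → θ w = 0) ∧ (∀ ω, ∃ n : ℤ, μ ω 1 - δ ω = n * (Nat.card W₁ : ℂ)) := by
  have h : H43.PrimeTI ⊤ K W₁ W₂ := ⟨H45.top_le_normalizer K, hKW₁, hKW₁', hW₁, hW₁c,
    by rwa [Subgroup.relIndex_top_right], hW₂, hW₂c, hW₂K, hC, hodd⟩
  have h0 := h.cycTI0
  refine ⟨fun ω => H43.mu ⊤ W₁ W₂ (H43.r₁ ω) (H43.r₂ ω), fun ω => H43.delta ⊤ W₁ W₂ (H43.r₂ ω),
    fun ω ω' e => h0.res_inj.1 (h.mu_inj e), fun ω => H42.mem_Irr_top.1 (h.mu_mem_Irr _ _),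
    fun ω => H43.delta_eq' _ _ _ _, fun ω ω' e => ?_, fun ω w hw => ?_, fun θ hθ hne w hw => ?_,
    fun ω => ?_⟩
  · have e2 : H43.r₂ ω = H43.r₂ ω' := by
      apply H43.Lin.hom_injective
      ext x
      exact congrArg Units.val (e ⟨x, Subgroup.mem_sup_right x.2⟩ x.2)
    refine ⟨by simp only [e2], ?_⟩
    simp only [← e2]
    rw [← h.ind_sub, H42.ind_top]
    congr 1
    funext w
    rw [H42.dn_apply, Pi.sub_apply, h0.om_res, e2, h0.om_res]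
  · beta_reduce
    rw [h.mu_apply _ _ w.2 hw, h0.om_res]
  · refine h.not_mu_vanish' (H42.mem_Irr_top.2 hθ) (fun i j e => hne (h0.omL i j).hom ?_)
      fun hk => hw (h.W_inf_K w.2 hk)
    simp only [(h0.res_omL i j).1, (h0.res_omL i j).2, e]
  · obtain ⟨n, hn⟩ := h.mu_degree (H43.r₁ ω) (H43.r₂ ω)
    exact ⟨n, by simp only [hn]; ring⟩

end Cfsg.Agent.S1511
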