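import Cfsg.Statements.S1513
import Cfsg.Agent.H43.Bridge3
import Cfsg.Agent.H43.PrimeTI2
import Cfsg.Agent.H45.Bridge1

set_option autoImplicit false
open Cfsg

namespace Cfsg.Agent.S1513

/-- Let L be a finite group with K normal with complement W₁ ≠ 1 a cyclic Hall subgroup, and W₂ ≠ 1 a cyclic subgroup of K equal to C_K(x) for every non-identity x ∈ W₁, with W₁W₂ of odd order. For an irreducible character θ of K: if θ is not fixed under conjugation by some element of W₁, then the function induced from θ to L is an irreducible character of L; and the irreducible characters of K fixed by all of W₁ are exactly Nat.card W₂ in number, each inducing to the sum of Nat.card W₁ pairwise distinct irreducible characters of L. -/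
theorem result {L : Type*} [Group L] [Fintype L] (K W₁ W₂ : Subgroup L) [hK : K.Normal] (hKW₁ : K ⊓ W₁ = ⊥) (hKW₁' : K ⊔ W₁ = ⊤) (hW₁ : W₁ ≠ ⊥) (hW₁c : IsCyclic W₁) (hHall : Nat.Coprime (Nat.card W₁) W₁.index) (hW₂ : W₂ ≠ ⊥) (hW₂c : IsCyclic W₂) (hW₂K : W₂ ≤ K) (hC : ∀ x ∈ W₁, x ≠ 1 → K ⊓ Subgroup.centralizer ({x} : Set L) = W₂) (hodd : Odd (Nat.card ↥(W₁ ⊔ W₂))) : (∀ θ : K → ℂ, Cfsg.IsIrrCharacter K θ → (∃ x ∈ W₁, (fun k : K => θ ⟨x * k * x⁻¹, hK.conj_mem (k : L) k.2 x⟩) ≠ θ) → Cfsg.IsIrrCharacter L (Cfsg.indFun K θ)) ∧ Nat.card {θ : Cfsg.IrrCharacter K // ∀ x ∈ W₁, (fun k : K => (θ : K → ℂ) ⟨x * k * x⁻¹, hK.conj_mem (k : L) k.2 x⟩) = θ} = Nat.card W₂ ∧ (∀ θ : K → ℂ, Cfsg.IsIrrCharacter K θ → (∀ x ∈ W₁, (fun k : K => θ ⟨x * k * x⁻¹, hK.conj_mem (k : L) k.2 x⟩) = θ) → ∃ C : Finset (L → ℂ), C.card = Nat.card W₁ ∧ (∀ μ ∈ C, Cfsg.IsIrrCharacter L μ) ∧ Cfsg.indFun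 K θ = ∑ μ ∈ C, μ) := by
  have h : H43.PrimeTI ⊤ K W₁ W₂ := ⟨H45.top_le_normalizer K, hKW₁, hKW₁', hW₁, hW₁c,
    by rwa [Subgroup.relIndex_top_right], hW₂, hW₂c, hW₂K, hC, hodd⟩
  have inv : ∀ θ : K → ℂ, (∀ x ∈ W₁, (fun k : K => θ ⟨x * k * x⁻¹, hK.conj_mem (k : L) k.2 x⟩) = θ) ↔
      W₁ ≤ H45.inertia (H42.ext K θ) := fun θ =>
    forall₂_congr fun x _ => by rw [H45.mem_inertia_ext, funext_iff]
  have key : ∀ θ : K → ℂ, Cfsg.IsIrrCharacter K θ →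
      (W₁ ≤ H45.inertia (H42.ext K θ) ↔ ∃ j, H42.ext K θ = H43.chiRes ⊤ K W₁ W₂ j) := by
    intro θ hθ
    constructor
    · intro hI
      obtain ⟨x, hx, hx1⟩ := h.exists_ne_one₁
      exact h.exists_chiRes_of_fixed (H42.ext_mem_Irr.2 hθ) hx hx1 (hI hx)
    · rintro ⟨j, hj⟩
      rw [hj]; exact le_top.trans (h.le_inertia_chiRes j)
  refine ⟨fun θ hθ hx => ?_, ?_, fun θ hθ hI => ?_⟩
  · rw [← H42.ind_top_ext, ← H42.mem_Irr_top, h.ind_mem_Irr_iff (H42.ext_mem_Irr.2 hθ)]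
    intro j hj
    obtain ⟨x, hx, hne⟩ := hx
    exact hne ((inv θ).2 ((key θ hθ).2 ⟨j, hj⟩) x hx)
  · rw [← h.cycTI0.card_Lin₂, ← Nat.card_eq_fintype_card]
    have hirr : ∀ j, Cfsg.IsIrrCharacter K (H42.dn K (H43.chiRes ⊤ K W₁ W₂ j)) := fun j =>
      (H42.mem_Irr.1 (h.chiRes_mem_Irr j)).2
    have hext : ∀ j, H42.ext K (H42.dn K (H43.chiRes ⊤ K W₁ W₂ j)) = H43.chiRes ⊤ K W₁ W₂ j :=
      fun j => H42.CF.ext_dn (h.chiRes_cf j)
    refine (Nat.card_eq_of_bijective (fun j : H43.Lin W₂ => (⟨⟨_, hirr j⟩,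
      (inv _).2 ((key _ (hirr j)).2 ⟨j, hext j⟩)⟩ : {θ : Cfsg.IrrCharacter K // ∀ x ∈ W₁,
        (fun k : K => (θ : K → ℂ) ⟨x * k * x⁻¹, hK.conj_mem (k : L) k.2 x⟩) = θ})) ⟨?_, ?_⟩).symm
    · intro j k e
      apply h.chiRes_inj
      rw [← hext j, ← hext k]
      exact congrArg (H42.ext K) (congrArg (fun θ => θ.1.1) e)
    · rintro ⟨⟨θ, hθ⟩, hI⟩
      obtain ⟨j, hj⟩ := (key θ hθ).1 ((inv θ).1 hI)
      refine ⟨j, Subtype.ext (Subtype.ext ?_)⟩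
      show H42.dn K _ = θ
      rw [← hj, H42.dn_ext]
  · classical
    obtain ⟨j, hj⟩ := (key θ hθ).1 ((inv θ).1 hI)
    have hinj : Function.Injective fun i => H43.mu ⊤ W₁ W₂ i j := fun i i' e => (h.mu_inj e).1
    refine ⟨Finset.univ.image fun i => H43.mu ⊤ W₁ W₂ i j, ?_, ?_, ?_⟩
    · rw [Finset.card_image_of_injective _ hinj, Finset.card_univ, h.cycTI0.card_Lin₁]
    · intro μ hμ
      obtain ⟨i, -, rfl⟩ := Finset.mem_image.1 hμ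
      exact H42.mem_Irr_top.1 (h.mu_mem_Irr i j)
    · rw [Finset.sum_image fun i _ i' _ e => hinj e, ← H42.ind_top_ext, hj, h.ind_chiRes]
      rfl

end Cfsg.Agent.S1513
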