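import Cfsg.Statements.S1514
import Cfsg.Agent.H44.Bridge

set_option autoImplicit false
open Cfsg

namespace Cfsg.Agent.S1514

open H42 H44

/-- Let S be a nonempty set of irreducible characters of the finite group L, closed under complex conjugation and containing no real-valued member, and τ a linear isometry on the integer combinations of S vanishing at 1, with values virtual characters of G vanishing at 1. Then there is a choice R making (S, τ, R) a coherence system. -/
theorem result {L : Type*} [Group L] [Fintype L] {G : Type*} [Group G] [Fintype G] (S : Set (L → ℂ)) (hS : S.Nonempty) (hirr : ∀ χ ∈ S, Cfsg.IsIrrCharacter L χ) (hconj : ∀ χ ∈ S, Cfsg.conjFun χ ∈ S ∧ Cfsg.conjFun χ ≠ χ) (τ : (L → ℂ) → (G → ℂ)) (hτ : Cfsg.IsLinearIsometryOn (Cfsg.zspanOn S {1}ᶜ) τ) (hτ1 : ∀ α ∈ Cfsg.zspanOn S {1}ᶜ, τ α 1 = 0) : ∃ R : (L → ℂ) → Finset (G → ℂ), Cfsg.IsCoherenceSystem S τ R := by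
  obtain ⟨T, hT, hI⟩ := exists_isom0 hτ hτ1
  obtain ⟨R, hR, -⟩ := irr_subcoh hI (fun χ hχ => mem_Irr_top.2 (hirr χ hχ))
    (fun χ hχ => (hconj χ hχ).1) fun χ hχ => (hconj χ hχ).2
  exact ⟨R, system_of_subcoh hT hR hS hτ hτ1⟩

end Cfsg.Agent.S1514
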