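import Cfsg.Statements.S1515
import Cfsg.Agent.H44.Bridge

set_option autoImplicit false
open Cfsg

namespace Cfsg.Agent.S1515

open H42 H44 Submodule

/-- Let (S, τ, R) be a coherence system from L to G, χ ∈ S, and ψ an integer combination of S with ⟨χ, ψ⟩ = ⟨conj χ, ψ⟩ = 0. Let τ₁ be a linear isometry on the integer combinations of χ − ψ and χ − conj χ, with virtual-character values, agreeing with τ on integer multiples of χ − conj χ. Then the sum over α ∈ R χ of the squared absolute values of ⟨τ₁(χ − ψ), α⟩ is at least ⟨χ, χ⟩; and if ⟨τ₁(χ − ψ), τ₁(χ − ψ)⟩ minus that sum is at least ⟨ψ, ψ⟩, then the sum equals ⟨χ, χ⟩ and every ⟨τ₁(χ − ψ), α⟩ with α ∈ R χ is 0 or 1. -/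
theorem result {L : Type*} [Group L] [Fintype L] {G : Type*} [Group G] [Fintype G] (S : Set (L → ℂ)) (τ : (L → ℂ) → (G → ℂ)) (R : (L → ℂ) → Finset (G → ℂ)) (hS : Cfsg.IsCoherenceSystem S τ R) (χ : L → ℂ) (hχ : χ ∈ S) (ψ : L → ℂ) (hψ : ψ ∈ Cfsg.zspan S) (h1 : Cfsg.classInner χ ψ = 0) (h2 : Cfsg.classInner (Cfsg.conjFun χ) ψ = 0) (τ₁ : (L → ℂ) → (G → ℂ)) (hτ₁ : Cfsg.IsLinearIsometryOn (Cfsg.zspan {χ - ψ, χ - Cfsg.conjFun χ}) τ₁) (hagree : ∀ n : ℤ, τ₁ (n • (χ - Cfsg.conjFun χ)) = τ (n • (χ - Cfsg.conjFun χ))) : (Cfsg.classInner χ χ).re ≤ ∑ α ∈ R χ, ‖Cfsg.classInner (τ₁ (χ - ψ)) α‖ ^ 2 ∧ ((Cfsg.classInner ψ ψ).re ≤ (Cfsg.classInner (τ₁ (χ - ψ)) (τ₁ (χ - ψ))).re - ∑ α ∈ R χ, ‖Cfsg.classInner (τ₁ (χ - ψ)) α‖ ^ 2 → (∑ α ∈ R χ, ‖Cfsg.classInner (τ₁ (χ - ψ)) α‖ ^ 2 = (Cfsg.classInner χ χ).re ∧ ∀ α ∈ R χ, Cfsg.classInner (τ₁ (χ - ψ)) α = 0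 ∨ Cfsg.classInner (τ₁ (χ - ψ)) α = 1)) := by
  obtain ⟨T, hT, h⟩ := subcoh_of_system hS
  have m1 : χ - ψ ∈ Cfsg.zspan {χ - ψ, χ - Cfsg.conjFun χ} := subset_span (by simp)
  have m2 : χ - Cfsg.conjFun χ ∈ Cfsg.zspan {χ - ψ, χ - Cfsg.conjFun χ} := subset_span (by simp)
  have hβ : τ₁ (χ - ψ) ∈ VChar ⊤ := mem_VChar_top.2 (hτ₁.2.2.2 _ m1)
  obtain ⟨x, hx, y, hy, e, o1, o2⟩ := h.split hχ hβ
  simp only [← ip_top] at h1 h2 ⊢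
  rw [conjFun_eq_star] at h2
  have e1 : T (χ - star χ) = τ₁ (χ - Cfsg.conjFun χ) := by
    rw [hT _ (h.sub_conj_mem hχ) (h.sub_conj_apply_one hχ)]
    simpa [conjFun_eq_star] using (hagree 1).symm
  have hn : nsq ⊤ (x - y) = nsq ⊤ χ + nsq ⊤ ψ := by
    rw [← e, ← ip_self_re, ip_top, hτ₁.2.2.1 _ m1 _ m1, ← ip_top, ip_self_re, nsq_sub_of_ortho h1]
  have key := h.norm_of hχ (x := x) (y := y) (n := nsq ⊤ ψ) (e ▸ hβ) (by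
    rw [← e, e1, ip_top, hτ₁.2.2.1 _ m1 _ m2, ← ip_top, conjFun_eq_star]
    simp [h.ip_conj hχ, ip_comm_zero h1, ip_comm_zero h2, ip_self]) hn
    (VChar.cf (h.zspan_R_le hχ hx)) o2 o1
  have hxα : ∀ α ∈ R χ, ip ⊤ (τ₁ (χ - ψ)) α = ip ⊤ x α := fun α hα => by simp [e, o1 α hα]
  have hs : ∑ α ∈ R χ, ‖ip ⊤ (τ₁ (χ - ψ)) α‖ ^ 2 = nsq ⊤ x := by
    obtain ⟨c, -, rfl⟩ := (mem_span_finset (s := R χ)).1 (cspan_of_zspan hx)
    rw [Finset.sum_congr rfl fun α hα => by rw [hxα α hα]]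
    have := (h.on hχ).nsq_sum c
    simp only [id] at this
    rw [this]
    refine Finset.sum_congr rfl fun α hα => ?_
    have := (h.on hχ).ip_sum c hα
    simp only [id] at this
    rw [this]
  rw [hs, ip_self_re, ip_self_re, ip_self_re, e, nsq_sub_of_ortho o2]
  refine ⟨key.1, fun hle => ?_⟩
  obtain ⟨k1, -, E, hE, rfl, -⟩ := key.2.2 (by linarith)
  refine ⟨k1, fun α hα => ?_⟩
  rw [← e, hxα α hα]
  by_cases hm : α ∈ E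
  · exact Or.inr (((h.on hχ).mono hE).ip_sum' hm)
  · left
    rw [ip_sum_left]
    exact Finset.sum_eq_zero fun β hβ => h.R_orth χ hχ β (hE hβ) α hα fun e => hm (e ▸ hβ)

end Cfsg.Agent.S1515
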