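import Cfsg.Statements.S1520
import Cfsg.Agent.H44.Bridge
import Cfsg.Agent.H44.Coh6a

set_option autoImplicit false
open Cfsg

namespace Cfsg.Agent.S1520

open H42 H44 Submodule H46

/-- Let K be a solvable normal subgroup of the finite group L and (S, τ, R) a coherence system from L to G with S the functions induced from non-principal irreducible characters of K; S(A) the members of S induced from characters whose kernel contains A. Let M ≤ H₁ ≤ H ≤ K be normal subgroups of L such that every term of the lower central series of H eventually lies in M (H/M nilpotent), S(H₁) is coherent and [H:H₁] > 4 * [L:K]^2 + 1. Then S(M) is coherent. -/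
theorem result {L : Type*} [Group L] [Fintype L] {G : Type*} [Group G] [Fintype G] (K : Subgroup L) [hK : K.Normal] (hsolv : Group.IsSolvable K) (τ : (L → ℂ) → (G → ℂ)) (R : (L → ℂ) → Finset (G → ℂ)) (hS : Cfsg.IsCoherenceSystem (Cfsg.inducedIrrAbove K ⊥) τ R) (M H₁ H : Subgroup L) [M.Normal] [H₁.Normal] [H.Normal] (hMH₁ : M ≤ H₁) (hH₁H : H₁ ≤ H) (hHK : H ≤ K) [(M.subgroupOf H).Normal] (hnil : Group.IsNilpotent (↥H ⧸ M.subgroupOf H)) (hcoh : Cfsg.IsCoherent (Cfsg.inducedIrrAbove K H₁) {1}ᶜ τ) (hbig : 4 * K.index ^ 2 + 1 < H₁.relIndex H) : Cfsg.IsCoherent (Cfsg.inducedIrrAbove K M) {1}ᶜ τ := by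
  obtain ⟨T, hT, h⟩ := subcoh_of_system hS
  have hMK := hMH₁.trans (hH₁H.trans hHK)
  rw [inducedIrrAbove_eq bot_le] at hT h
  rw [inducedIrrAbove_eq (hH₁H.trans hHK)] at hcoh
  rw [inducedIrrAbove_eq hMK]
  have hsub : ∀ N : Subgroup L, (sIndD ⊤ K K N : Set (L → ℂ)) ⊆ sIndD ⊤ K K ⊥ :=
    fun N => Finset.coe_subset.2 sIndD_subset_bot
  have hM := normalIn_top_iff.2 ‹M.Normal›
  obtain ⟨φ, hφ⟩ := sIndD_nonempty (L := ⊤) (H := K) hMK (le_top.trans hM.2) fun hKM => by
    rw [Subgroup.relIndex_eq_one.2 (hHK.trans (hKM.trans hMH₁))] at hbig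
    omega
  obtain ⟨e⟩ := nonempty_quo_equiv_quotient (H := H) (N := M) (le_top.trans hM.2)
  refine isCoherent_of_coh (hT.mono (hsub M)) (bounded_seqIndD_coherence h (normalIn_top_iff.2 hK)
    hsolv hM (normalIn_top_iff.2 ‹_›) (normalIn_top_iff.2 ‹_›) hMH₁ hH₁H hHK
    (Group.nilpotent_of_mulEquiv e.symm) (coh_of_isCoherent (hT.mono (hsub H₁)) hcoh)
    (by rwa [Subgroup.relIndex_top_right])) (h.nondeg (hsub M) hφ (sIndD.star_mem hφ))

end Cfsg.Agent.S1520
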