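import Cfsg.Statements.S1521
import Cfsg.Agent.H44.Bridge
import Cfsg.Agent.H44.Coh6a

set_option autoImplicit false
open Cfsg

namespace Cfsg.Agent.S1521

open H42 H44 Submodule H46

/-- Let K be a solvable normal subgroup of the finite group L of odd order and (S, τ, R) a coherence system from L to G with S the functions induced from non-principal irreducible characters of K; S(A) as before. Let M ≤ K be normal in L with K/M nilpotent, H₁ = [K, K] ⊔ M, H₁ < K < L, and suppose every element of K outside H₁ is centralised modulo H₁ only from inside K (L/H₁ is a Frobenius group with kernel K/H₁). Suppose one of the following: some normal subgroup of L lies strictly between H₁ and K; or [K:H₁] > 4[L:K]^2 + 1; or [K:M] is not a prime power; or [K,K] ≤ M; or [K:M] is a power of a prime p with [L:K] dividing p − 1. Then S(M) is coherent. -/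
theorem result {L : Type*} [Group L] [Fintype L] {G : Type*} [Group G] [Fintype G] (K : Subgroup L) [hK : K.Normal] (hsolv : Group.IsSolvable K) (τ : (L → ℂ) → (G → ℂ)) (R : (L → ℂ) → Finset (G → ℂ)) (hS : Cfsg.IsCoherenceSystem (Cfsg.inducedIrrAbove K ⊥) τ R) (hodd : Odd (Nat.card L)) (M : Subgroup L) [M.Normal] (hMK : M ≤ K) [(M.subgroupOf K).Normal] (hnil : Group.IsNilpotent (↥K ⧸ M.subgroupOf K)) (H₁ : Subgroup L) (hH₁ : H₁ = ⁅K, K⁆ ⊔ M) (hH₁K : H₁ < K) (hKL : K < ⊤) (hfrob : ∀ k ∈ K, k ∉ H₁ → ∀ x : L, x * k * x⁻¹ * k⁻¹ ∈ H₁ → x ∈ K) (hgood : (∃ N : Subgroup L, N.Normal ∧ H₁ < N ∧ N < K) ∨ 4 * K.index ^ 2 + 1 < H₁.relIndex K ∨ (¬ ∃ p m : ℕ, p.Prime ∧ M.relIndex K = p ^ m) ∨ ⁅K, K⁆ ≤ M ∨ (∃ p m : ℕ, p.Prime ∧ M.relIndex K = p ^ m ∧ K.index ∣ p - 1)) : Cfsg.IsCoherent (Cfsg.inducedIrrAbove K M) {1}ᶜ τ := by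
  obtain ⟨T, hT, h⟩ := subcoh_of_system hS
  rw [inducedIrrAbove_eq bot_le] at hT h
  rw [inducedIrrAbove_eq hMK]
  have hsub : (sIndD ⊤ K K M : Set (L → ℂ)) ⊆ sIndD ⊤ K K ⊥ := Finset.coe_subset.2 sIndD_subset_bot
  have hM := normalIn_top_iff.2 ‹M.Normal›
  subst hH₁
  obtain ⟨φ, hφ⟩ := sIndD_nonempty (L := ⊤) (H := K) hMK (le_top.trans hM.2) fun hKM =>
    hH₁K.not_ge (hKM.trans le_sup_right)
  obtain ⟨e⟩ := nonempty_quo_equiv_quotient (H := K) (N := M) (le_top.trans hM.2)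
  refine isCoherent_of_coh (hT.mono hsub) (by_contra fun hn => ?_) (h.nondeg hsub hφ (sIndD.star_mem hφ))
  obtain ⟨hch, hb, p, hp, ⟨m, hm⟩, h1, h2⟩ := non_coherent_chief h (normalIn_top_iff.2 hK)
    (by rwa [Subgroup.card_top]) hM hMK (Group.nilpotent_of_mulEquiv e.symm)
    (fun k hk hk' x _ hx => hfrob k hk hk' x hx) hn
  rw [Subgroup.relIndex_top_right] at hb h2
  rcases hgood with ⟨N, hN, n1, n2⟩ | h' | h' | h' | ⟨q, n, hq, e', h'⟩
  · exact (hch.2.2.2 N n1.le n2.le (normalIn_top_iff.2 hN).2).elim n1.ne' n2.ne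
  · omega
  · exact h' ⟨p, m, hp, hm⟩
  · exact h1 h'
  · have hm0 : m ≠ 0 := fun e => hH₁K.not_ge
      ((Subgroup.relIndex_eq_one.1 (by rw [hm, e, pow_zero])).trans le_sup_right)
    have : p ∣ q ^ n := by rw [← e', hm]; exact dvd_pow_self p hm0
    rw [(Nat.prime_dvd_prime_iff_eq hp hq).1 (hp.dvd_of_dvd_pow this)] at h2
    exact h2 h'

end Cfsg.Agent.S1521
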