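import Cfsg.Statements.S1522
import Cfsg.Agent.H44.Bridge
import Cfsg.Agent.H44.Coh6b

set_option autoImplicit false
open Cfsg

namespace Cfsg.Agent.S1522

open H42 H44 Submodule H46

/-- Let K be a nilpotent normal subgroup of the finite group L of odd order with [K,K] < K < L and L/[K,K] a Frobenius group with kernel K/[K,K] (elements of K outside [K,K] are centralised modulo [K,K] only from inside K); let (S, τ, R) be a coherence system from L to G with S the functions induced from non-principal irreducible characters of K. Let Z be a nontrivial normal subgroup of L contained in the centre of K, and suppose every member of S outside S(Z) is an irreducible character of L. Then S minus S(Z) is the set of irreducible characters χ of L with χ z ≠ χ 1 for some z ∈ Z, and it is coherent. -/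
theorem result {L : Type*} [Group L] [Fintype L] {G : Type*} [Group G] [Fintype G] (K : Subgroup L) [hK : K.Normal] (hsolv : Group.IsSolvable K) (τ : (L → ℂ) → (G → ℂ)) (R : (L → ℂ) → Finset (G → ℂ)) (hS : Cfsg.IsCoherenceSystem (Cfsg.inducedIrrAbove K ⊥) τ R) (hodd : Odd (Nat.card L)) (hnil : Group.IsNilpotent K) (hH₁K : ⁅K, K⁆ < K) (hKL : K < ⊤) (hfrob : ∀ k ∈ K, k ∉ ⁅K, K⁆ → ∀ x : L, x * k * x⁻¹ * k⁻¹ ∈ ⁅K, K⁆ → x ∈ K) (Z : Subgroup L) [Z.Normal] (hZ1 : Z ≠ ⊥) (hZK : Z ≤ K) (hZc : ∀ z ∈ Z, ∀ k ∈ K, z * k = k * z) (hirr : ∀ χ ∈ Cfsg.inducedIrrAbove K ⊥ \ Cfsg.inducedIrrAbove K Z, Cfsg.IsIrrCharacter L χ) : Cfsg.inducedIrrAbove K ⊥ \ Cfsg.inducedIrrAbove K Z = {χ | Cfsg.IsIrrCharacter L χ ∧ ∃ z ∈ Z, χ z ≠ χ 1} ∧ Cfsg.IsCoherent (Cfsg.inducedIrrAbove K ⊥ \ Cfsg.inducedIrrAbove K Z) {1}ᶜ τ := by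
  obtain ⟨T, hT, h⟩ := subcoh_of_system hS
  have hKn := normalIn_top_iff.2 hK
  have hZn := normalIn_top_iff.2 ‹Z.Normal›
  have e : Cfsg.inducedIrrAbove K ⊥ \ Cfsg.inducedIrrAbove K Z = sIndD ⊤ K Z ⊥ := by
    rw [inducedIrrAbove_eq bot_le, inducedIrrAbove_eq hZK]
    ext φ
    simp only [Set.mem_diff, Finset.mem_coe]
    exact ⟨fun h => (mem_sIndD_cases Z h.1).resolve_left h.2, fun h => ⟨sIndD_subset_C1 hZK h,
      Finset.disjoint_left.1 (disjoint_sIndD le_top hKn.2 hZn.2 le_rfl) h⟩⟩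
  rw [e] at hirr ⊢
  rw [inducedIrrAbove_eq bot_le] at hT h
  have hirr' : ∀ χ ∈ sIndD ⊤ K Z ⊥, χ ∈ Irr ⊤ := fun χ hχ => mem_Irr_top.2 (hirr χ hχ)
  have hsub : (sIndD ⊤ K Z ⊥ : Set (L → ℂ)) ⊆ sIndD ⊤ K K ⊥ := Finset.coe_subset.2 (sIndD_subset_C1 hZK)
  refine ⟨?_, ?_⟩
  · ext χ
    rw [Finset.mem_coe, mem_sIndD_iff_of_irr le_top hKn.2 hZK bot_le hZn.2 (NormalIn.bot ⊤).2 hirr',
      Set.mem_setOf_eq, ← mem_Irr_top]
    refine and_congr_right fun hχ => ?_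
    rw [Irr.le_ker_iff hχ (A := Z)]
    simp
  obtain ⟨φ, hφ⟩ := sIndD_nonempty (L := ⊤) (H := Z) (K := K) bot_le (NormalIn.bot K).2
    fun h => hZ1 (le_bot_iff.1 h)
  exact isCoherent_of_coh (hT.mono hsub) (seqIndD_irr_coherence h hKn (by rwa [Subgroup.card_top]) hnil
    (fun k hk hk' x _ hx => hfrob k hk hk' x hx) hZn
    (fun z hz => ⟨hZK hz, mem_cent.2 fun k hk => (hZc z hz k hk).symm⟩) hirr')
    (h.nondeg hsub hφ (sIndD.star_mem hφ))

end Cfsg.Agent.S1522
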