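import Cfsg.Statements.S1529
import Cfsg.Agent.H44.Bridge

set_option autoImplicit false
open Cfsg

namespace Cfsg.Agent.S1529

open H42 H44

/-- Let N be a subgroup of the finite group G, S a set of irreducible characters of N with at least two members, and τ₁ a linear isometry on the integer combinations of S with virtual-character values such that τ₁ α vanishes at 1 whenever α ∈ ℤ[S] does. Then there is ε ∈ {1, −1} such that ε • τ₁ χ is an irreducible character of G for every χ ∈ S, and distinct members of S give distinct characters. -/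
theorem result {G : Type*} [Group G] [Fintype G] (N : Subgroup G) [Fintype N] (S : Set (N → ℂ)) (hirr : ∀ χ ∈ S, Cfsg.IsIrrCharacter N χ) (htwo : ∃ χ ∈ S, ∃ ψ ∈ S, χ ≠ ψ) (τ₁ : (N → ℂ) → (G → ℂ)) (hτ₁ : Cfsg.IsLinearIsometryOn (Cfsg.zspan S) τ₁) (h0 : ∀ α ∈ Cfsg.zspan S, α 1 = 0 → τ₁ α 1 = 0) : ∃ ε : ℂ, (ε = 1 ∨ ε = -1) ∧ (∀ χ ∈ S, Cfsg.IsIrrCharacter G (ε • τ₁ χ)) ∧ (∀ χ ∈ S, ∀ ψ ∈ S, τ₁ χ = τ₁ ψ → χ = ψ) := by
  obtain ⟨ν, hν⟩ := exists_linear_of_isometryOn hτ₁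
  have hν' : ∀ a ∈ Submodule.span ℤ S, ν a = τ₁ a := hν
  have hC : CohWith ⊤ ⊤ S ν ν := ⟨fun a ha b hb => by
      rw [hν' a (Submodule.subset_span ha), hν' b (Submodule.subset_span hb), ip_top, ip_top]
      exact hτ₁.2.2.1 a (Submodule.subset_span ha) b (Submodule.subset_span hb),
    fun a ha => by
      rw [hν' a (Submodule.subset_span ha)]
      exact mem_VChar_top.2 (hτ₁.2.2.2 a (Submodule.subset_span ha)), fun _ _ _ => rfl⟩
  have hI : Isom0 ⊤ ⊤ S ν := ⟨fun a ha _ b hb _ => hC.ip_eq_z ha hb, fun a ha _ => hC.mem_Z_z ha,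
    fun a ha h1 => by rw [hν' a ha]; exact h0 a ha h1⟩
  have hS : S ⊆ Irr (⊤ : Subgroup N) := fun χ hχ => mem_Irr_top.2 (hirr χ hχ)
  obtain ⟨e, he, h⟩ := hC.exists_sign hI hS
  refine ⟨e, by rcases he with rfl | rfl <;> simp, fun χ hχ => ?_, fun χ hχ ψ hψ e => ?_⟩
  · rw [← hν' χ (Submodule.subset_span hχ)]; exact mem_Irr_top.1 (h χ hχ)
  · rw [← hν' χ (Submodule.subset_span hχ), ← hν' ψ (Submodule.subset_span hψ)] at e
    refine Irr.eq_of_ip_ne_zero (hS hχ) (hS hψ) ?_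
    rw [← hC.ip_eq χ hχ ψ hψ, ← e, hC.ip_eq χ hχ χ hχ, Irr.ip_self (hS hχ)]
    exact one_ne_zero

end Cfsg.Agent.S1529
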