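import Cfsg.Statements.S1531
import Cfsg.Agent.H44.Bridge

set_option autoImplicit false
open Cfsg

namespace Cfsg.Agent.S1531

open H42 H44 Submodule

/-- Let N be a subgroup of the finite group G, S a set of irreducible characters of N, and α a linear isometry on the integer combinations of S vanishing at 1 with values virtual characters of G vanishing at 1. Let X, Y ⊆ S be disjoint, each with at least two members, and σ, τ linear isometries on ℤ[X], ℤ[Y] into virtual characters agreeing with α on the members vanishing at 1. Then ⟨σ χ, τ η⟩ = 0 for χ ∈ X, η ∈ Y; and if for some χ₀ ∈ X, η₀ ∈ Y with degrees c = χ₀ 1, e = η₀ 1 one has α (c • η₀ − e • χ₀) = c • τ η₀ − e • σ χ₀, then (X ∪ Y, N minus 1, α) is coherent. -/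
theorem result {G : Type*} [Group G] [Fintype G] (N : Subgroup G) [Fintype N] (S X Y : Set (N → ℂ)) (hirr : ∀ ξ ∈ S, Cfsg.IsIrrCharacter N ξ) (hXS : X ⊆ S) (hYS : Y ⊆ S) (hXY : Disjoint X Y) (hX2 : ∃ a ∈ X, ∃ b ∈ X, a ≠ b) (hY2 : ∃ a ∈ Y, ∃ b ∈ Y, a ≠ b) (α : (N → ℂ) → (G → ℂ)) (hα : Cfsg.IsLinearIsometryOn (Cfsg.zspanOn S {1}ᶜ) α) (hα1 : ∀ θ ∈ Cfsg.zspanOn S {1}ᶜ, α θ 1 = 0) (σ τ : (N → ℂ) → (G → ℂ)) (hσ : Cfsg.IsLinearIsometryOn (Cfsg.zspan X) σ) (hσα : ∀ θ ∈ Cfsg.zspanOn X {1}ᶜ, σ θ = α θ) (hτ : Cfsg.IsLinearIsometryOn (Cfsg.zspan Y) τ) (hτα : ∀ θ ∈ Cfsg.zspanOn Y {1}ᶜ, τ θ = α θ) : (∀ χ ∈ X, ∀ η ∈ Y, Cfsg.classInner (σ χ) (τ η) = 0) ∧ ((∃ χ₀ ∈ X, ∃ η₀ ∈ Y, α (χ₀ 1 • η₀ - η₀ 1 • χ₀) = χ₀ 1 • τ η₀ - η₀ 1 • σ χ₀) → Cfsg.IsCoherent (X ∪ Y) {1}ᶜ α) := by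
  obtain ⟨T, hT, hI⟩ := exists_isom0 hα hα1
  obtain ⟨ν₁, h₁, e₁⟩ := exists_cohWith (hT.mono hXS) hσ hσα
  obtain ⟨ν₂, h₂, e₂⟩ := exists_cohWith (hT.mono hYS) hτ hτα
  have hS : S ⊆ Irr (⊤ : Subgroup N) := fun χ hχ => mem_Irr_top.2 (hirr χ hχ)
  have hU : X ∪ Y ⊆ S := Set.union_subset hXS hYS
  have other : ∀ Z : Set (N → ℂ), (∃ a ∈ Z, ∃ b ∈ Z, a ≠ b) → ∀ c, ∃ d ∈ Z, c ≠ d := by
    rintro Z ⟨a, ha, b, hb, hab⟩ c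
    by_cases e : c = a
    · exact ⟨b, hb, e ▸ hab⟩
    · exact ⟨a, ha, e⟩
  have ho : ∀ χ ∈ X, ∀ η ∈ Y, ip ⊤ (ν₁ χ) (ν₂ η) = 0 := fun χ hχ η hη =>
    let ⟨_, h1, n1⟩ := other X hX2 χ
    let ⟨_, h2, n2⟩ := other Y hY2 η
    h₁.irr_ortho h₂ (hI.mono hU) (hXS.trans hS) (hYS.trans hS) hXY hχ h1 n1 hη h2 n2
  refine ⟨fun χ hχ η hη => ?_, fun ⟨χ₀, hχ₀, η₀, hη₀, e⟩ => ?_⟩
  · rw [← e₁ χ (subset_span hχ), ← e₂ η (subset_span hη), ← ip_top]; exact ho χ hχ η hη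
  have hp : PosDeg (X ∪ Y) := posDeg_of_Irr (hU.trans hS)
  have hne : ∀ χ ∈ X, ∀ η ∈ Y, η ≠ χ := fun χ hχ η hη e => Set.disjoint_left.1 hXY hχ (e ▸ hη)
  obtain ⟨ν, hν, -⟩ := h₂.bridge h₁ (hp.mono Set.subset_union_right) (hp.mono Set.subset_union_left)
    (fun a ha b hb => by
      rw [ip_comm_zero (ho b hb a ha), Irr.ip_of_ne (hS (hYS ha)) (hS (hXS hb)) (hne b hb a ha)])
    (χ := χ₀ 1 • η₀) (φ := η₀ 1 • χ₀) (smul_mem _ _ (subset_span hη₀)) (smul_mem _ _ (subset_span hχ₀))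
    (by simp [mul_comm]) (by
      simpa using ⟨hp.ne_zero (Or.inl hχ₀), hp.ne_zero (Or.inr hη₀)⟩) (by
      rw [(hT.mono hU) _ (hp.cross_mem (Or.inr hη₀) (Or.inl hχ₀)) (cross_apply_one _ _), e, map_smul,
        map_smul, e₁ _ (subset_span hχ₀), e₂ _ (subset_span hη₀)])
  rw [Set.union_comm] at hν
  exact isCoherent_of_coh (hT.mono hU) ⟨ν, hν⟩
    (nondeg_of_irr (hU.trans hS) (Or.inr hη₀) (Or.inl hχ₀) (hne _ hχ₀ _ hη₀))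

end Cfsg.Agent.S1531
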