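import Cfsg.Agent.Base
import Cfsg.Statements.S1552
import Cfsg.Agent.H72.Stabs

set_option autoImplicit false
open scoped Pointwise
open Cfsg

namespace Cfsg.Agent.S1552

open H72 MulAction
open scoped Pointwise

theorem o1 : (orbit ↥(M24 ⊓ stabilizer P24 (decX tet0)) (decX 8388649)).ncard = 90 :=
  codX.ncard_orbit Sex_eq (gSex_mem.mono inf_le_left) (by decide +kernel) 90 (by decide +kernel)

theorem o2 : (orbit ↥(M24 ⊓ stabilizer P24 (decX tet0)) (decX 8388619)).ncard = 240 :=
  codX.ncard_orbit Sex_eq (gSex_mem.mono inf_le_left) (by decide +kernel) 240 (by decide +kernel)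

theorem o3 : (orbit ↥(M24 ⊓ stabilizer P24 (decX tet0)) (decX 8388633)).ncard = 1440 :=
  codX.ncard_orbit Sex_eq (gSex_mem.mono inf_le_left) (by decide +kernel) 1440 (by decide +kernel)

/-- A sextet stabiliser has four orbits on the 1771 sextets, of sizes 1, 90, 240, 1440; and the stabiliser is a maximal proper subgroup. -/
theorem result (S : Finset (Finset Cfsg.GolayPt)) (hS : S ∈ Cfsg.sextets) : ∃ X₁ ∈ Cfsg.sextets, ∃ X₂ ∈ Cfsg.sextets, ∃ X₃ ∈ Cfsg.sextets, (MulAction.orbit ↥(MulAction.stabilizer Cfsg.M24 S) X₁).ncard = 90 ∧ (MulAction.orbit ↥(MulAction.stabilizer Cfsg.M24 S) X₂).ncard = 240 ∧ (MulAction.orbit ↥(MulAction.stabilizer Cfsg.M24 S) X₃).ncard = 1440 ∧ Cfsg.sextets = {S} ∪ MulAction.orbit ↥(MulAction.stabilizer Cfsg.M24 S) X₁ ∪ MulAction.orbit ↥(MulAction.stabilizer Cfsg.M24 S) X₂ ∪ MulAction.orbit ↥(MulAction.stabilizer Cfsg.M24 S) X₃ ∧ IsCoatom (MulAction.stabilizer Cfsg.M24 S) := by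
  obtain ⟨g, hg, rfl⟩ := sextet_trans hS
  have ho1 := (ncard_orbit_stab hg _ _).trans o1
  have ho2 := (ncard_orbit_stab hg _ _).trans o2
  have ho3 := (ncard_orbit_stab hg _ _).trans o3
  refine ⟨g • decX 8388649, smul_mem_sextets hg (decX_mem (by decide +kernel)),
    g • decX 8388619, smul_mem_sextets hg (decX_mem (by decide +kernel)),
    g • decX 8388633, smul_mem_sextets hg (decX_mem (by decide +kernel)),
    ho1, ho2, ho3, ?_, ?_⟩
  · have hc := cover_of_ncard (G := stabilizer M24 (g • decX tet0)) sextets (Set.toFinite _)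
      (fun h y hy => smul_mem_sextets h.1.2 hy) [g • decX tet0, g • decX 8388649, g • decX 8388619, g • decX 8388633]
      (by
        simp only [List.mem_cons, List.not_mem_nil, or_false, forall_eq_or_imp, forall_eq]
        exact ⟨smul_mem_sextets hg (decX_mem (by decide +kernel)), smul_mem_sextets hg (decX_mem (by decide +kernel)), smul_mem_sextets hg (decX_mem (by decide +kernel)), smul_mem_sextets hg (decX_mem (by decide +kernel))⟩)
      [1, 90, 240, 1440] (by simp only [List.map_cons, List.map_nil, orbit_stabilizer_self, Set.ncard_singleton, ho1, ho2, ho3]) (by decide) (by rw [ncard_sextets]; rfl)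
    refine hc.trans ?_
    ext y
    simp [orbit_stabilizer_self, or_assoc]
  · exact isCoatom_of_subdegrees (G := M24) (g • decX tet0) [g • decX 8388649, g • decX 8388619, g • decX 8388633]
      (by
        have e : orbit M24 (g • decX tet0) = sextets := by
          rw [← orbit_sex0]; exact orbit_smul (⟨g, hg⟩ : M24) _
        simp only [e, List.mem_cons, List.not_mem_nil, or_false, forall_eq_or_imp, forall_eq]
        exact ⟨smul_mem_sextets hg (decX_mem (by decide +kernel)), smul_mem_sextets hg (decX_mem (by decide +kernel)), smul_mem_sextets hg (decX_mem (by decide +kernel))⟩)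
      [90, 240, 1440] (by simp only [List.map_cons, List.map_nil, ho1, ho2, ho3]) (by decide) 1771
      (by rw [← ncard_sextets, ← orbit_sex0]; exact congrArg _ (orbit_smul (⟨g, hg⟩ : M24) _))
      (by decide) (by decide) (by decide)

end Cfsg.Agent.S1552
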