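import Cfsg.Agent.Base
import Cfsg.Statements.S1559
import Cfsg.Agent.H72.Stabs

set_option autoImplicit false
open scoped Pointwise
open Cfsg

namespace Cfsg.Agent.S1559

open H72 MulAction
open scoped Pointwise

theorem o1 : (orbit ↥(M24 ⊓ stabilizer P24 (decT tri0)) (decT 72571905728521)).ncard = 42 :=
  codT.ncard_orbit Tri_eq (gTri_mem.mono inf_le_left) (by decide +kernel) 42 (by decide +kernel)

theorem o2 : (orbit ↥(M24 ⊓ stabilizer P24 (decT tri0)) (decT 92916528275465)).ncard = 56 :=
  codT.ncard_orbit Tri_eq (gTri_mem.mono inf_le_left) (by decide +kernel) 56 (by decide +kernel)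

theorem o3 : (orbit ↥(M24 ⊓ stabilizer P24 (decT tri0)) (decT 35745650135041)).ncard = 1008 :=
  codT.ncard_orbit Tri_eq (gTri_mem.mono inf_le_left) (by decide +kernel) 1008 (by decide +kernel)

theorem o4 : (orbit ↥(M24 ⊓ stabilizer P24 (decT tri0)) (decT 44536475111425)).ncard = 2688 :=
  codT.ncard_orbit Tri_eq (gTri_mem.mono inf_le_left) (by decide +kernel) 2688 (by decide +kernel)

/-- A trio stabiliser has five orbits on the 3795 trios, of sizes 1, 42, 56, 1008, 2688; and the stabiliser is a maximal proper subgroup. -/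
theorem result (T : Finset (Finset Cfsg.GolayPt)) (hT : T ∈ Cfsg.trios) : ∃ X₁ ∈ Cfsg.trios, ∃ X₂ ∈ Cfsg.trios, ∃ X₃ ∈ Cfsg.trios, ∃ X₄ ∈ Cfsg.trios, (MulAction.orbit ↥(MulAction.stabilizer Cfsg.M24 T) X₁).ncard = 42 ∧ (MulAction.orbit ↥(MulAction.stabilizer Cfsg.M24 T) X₂).ncard = 56 ∧ (MulAction.orbit ↥(MulAction.stabilizer Cfsg.M24 T) X₃).ncard = 1008 ∧ (MulAction.orbit ↥(MulAction.stabilizer Cfsg.M24 T) X₄).ncard = 2688 ∧ Cfsg.trios = {T} ∪ MulAction.orbit ↥(MulAction.stabilizer Cfsg.M24 T) X₁ ∪ MulAction.orbit ↥(MulAction.stabilizer Cfsg.M24 T) X₂ ∪ MulAction.orbit ↥(MulAction.stabilizer Cfsg.M24 T) X₃ ∪ MulAction.orbit ↥(MulAction.stabilizer Cfsg.M24 T) X₄ ∧ IsCoatom (MulAction.stabilizer Cfsg.M24 T) := by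
  obtain ⟨g, hg, rfl⟩ := trio_trans hT
  have ho1 := (ncard_orbit_stab hg _ _).trans o1
  have ho2 := (ncard_orbit_stab hg _ _).trans o2
  have ho3 := (ncard_orbit_stab hg _ _).trans o3
  have ho4 := (ncard_orbit_stab hg _ _).trans o4
  refine ⟨g • decT 72571905728521, smul_mem_trios hg (decT_mem (by decide +kernel)),
    g • decT 92916528275465, smul_mem_trios hg (decT_mem (by decide +kernel)),
    g • decT 35745650135041, smul_mem_trios hg (decT_mem (by decide +kernel)),
    g • decT 44536475111425, smul_mem_trios hg (decT_mem (by decide +kernel)),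
    ho1, ho2, ho3, ho4, ?_, ?_⟩
  · have hc := cover_of_ncard (G := stabilizer M24 (g • decT tri0)) trios (Set.toFinite _)
      (fun h y hy => smul_mem_trios h.1.2 hy) [g • decT tri0, g • decT 72571905728521, g • decT 92916528275465, g • decT 35745650135041, g • decT 44536475111425]
      (by
        simp only [List.mem_cons, List.not_mem_nil, or_false, forall_eq_or_imp, forall_eq]
        exact ⟨smul_mem_trios hg (decT_mem (by decide +kernel)), smul_mem_trios hg (decT_mem (by decide +kernel)), smul_mem_trios hg (decT_mem (by decide +kernel)), smul_mem_trios hg (decT_mem (by decide +kernel)), smul_mem_trios hg (decT_mem (by decide +kernel))⟩)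
      [1, 42, 56, 1008, 2688] (by simp only [List.map_cons, List.map_nil, orbit_stabilizer_self, Set.ncard_singleton, ho1, ho2, ho3, ho4]) (by decide) (by rw [ncard_trios]; rfl)
    refine hc.trans ?_
    ext y
    simp [orbit_stabilizer_self, or_assoc]
  · exact isCoatom_of_subdegrees (G := M24) (g • decT tri0) [g • decT 72571905728521, g • decT 92916528275465, g • decT 35745650135041, g • decT 44536475111425]
      (by
        have e : orbit M24 (g • decT tri0) = trios := by
          rw [← orbit_tri0]; exact orbit_smul (⟨g, hg⟩ : M24) _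
        simp only [e, List.mem_cons, List.not_mem_nil, or_false, forall_eq_or_imp, forall_eq]
        exact ⟨smul_mem_trios hg (decT_mem (by decide +kernel)), smul_mem_trios hg (decT_mem (by decide +kernel)), smul_mem_trios hg (decT_mem (by decide +kernel)), smul_mem_trios hg (decT_mem (by decide +kernel))⟩)
      [42, 56, 1008, 2688] (by simp only [List.map_cons, List.map_nil, ho1, ho2, ho3, ho4]) (by decide) 3795
      (by rw [← ncard_trios, ← orbit_tri0]; exact congrArg _ (orbit_smul (⟨g, hg⟩ : M24) _))
      (by decide) (by decide) (by decide)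

end Cfsg.Agent.S1559
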