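import Cfsg.Agent.Base
import Cfsg.Statements.S1560
import Cfsg.Agent.H72.Std

set_option autoImplicit false
open scoped Pointwise
open Cfsg

namespace Cfsg.Agent.S1560

open H72 MulAction
open scoped Pointwise

/-- Intersection numbers of dodecads: a dodecad meets every other dodecad in 0, 4, 6 or 8 points, meeting 495 of them in 4 points, 1584 in 6 points and 495 in 8 points. -/
theorem result (d : Finset Cfsg.GolayPt) (hd : d ∈ Cfsg.dodecads) : (∀ d' ∈ Cfsg.dodecads, d' ≠ d → (d ∩ d').card = 0 ∨ (d ∩ d').card = 4 ∨ (d ∩ d').card = 6 ∨ (d ∩ d').card = 8) ∧ {d' : Finset Cfsg.GolayPt | d' ∈ Cfsg.dodecads ∧ (d ∩ d').card = 4}.ncard = 495 ∧ {d' : Finset Cfsg.GolayPt | d' ∈ Cfsg.dodecads ∧ (d ∩ d').card = 6}.ncard = 1584 ∧ {d' : Finset Cfsg.GolayPt | d' ∈ Cfsg.dodecads ∧ (d ∩ d').card = 8}.ncard = 495 := by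
  obtain ⟨g, hg, rfl⟩ := dodecad_trans hd
  have key : ∀ k, {o | o ∈ dodecads ∧ (g • ofMask dod0 ∩ o).card = k}.ncard =
      (dodL.filter fun m => Nat.beq (pop (Nat.land dod0 m)) k).length := by
    intro k
    rw [← ncard_dodecads_filter (fun o => (ofMask dod0 ∩ o).card = k) _
      (fun m _ => by rw [card_inter_ofMask, Nat.beq_eq])]
    exact ncard_smul_eq g _ _ fun x => by
      simp only [Set.mem_ofPred_eq, smul_mem_dodecads_iff hg, card_smul_inter]
  simp only [key]
  refine ⟨fun d' hd' hne => ?_, by decide +kernel⟩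
  have h3 := card_of_mem_cSets (symmDiff_mem_cSets hd.1 hd'.1)
  have h4 := card_symmDiff_add (g • ofMask dod0) d'
  have h5 : (symmDiff (g • ofMask dod0) d').card ≠ 0 := by
    rw [Ne, Finset.card_eq_zero, ← Finset.bot_eq_empty, symmDiff_eq_bot]; exact hne.symm
  rw [hd.2, hd'.2] at h4
  omega

end Cfsg.Agent.S1560
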