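import Cfsg.Agent.Base
import Cfsg.Statements.S1561
import Cfsg.Agent.H72.Coding

set_option autoImplicit false
open scoped Pointwise
open Cfsg

namespace Cfsg.Agent.S1561

open H72 MulAction
open scoped Pointwise

/-- Two dodecads meeting a fixed dodecad in equally many points lie in one orbit of its stabiliser. -/
theorem result (d d' d'' : Finset Cfsg.GolayPt) (hd : d ∈ Cfsg.dodecads) (hd' : d' ∈ Cfsg.dodecads) (hd'' : d'' ∈ Cfsg.dodecads) (h : (d ∩ d').card = (d ∩ d'').card) : ∃ g : Equiv.Perm Cfsg.GolayPt, g ∈ Cfsg.M24 ∧ g • d = d ∧ g • d' = d'' := by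
  obtain ⟨g, hg, rfl⟩ := dodecad_trans hd
  obtain ⟨a, ha, e1⟩ := mem_dodecads_iff.1 (smul_mem_dodecads (Subgroup.inv_mem _ hg) hd')
  obtain ⟨b, hb, e2⟩ := mem_dodecads_iff.1 (smul_mem_dodecads (Subgroup.inv_mem _ hg) hd'')
  rw [eq_inv_smul_iff] at e1 e2
  subst e1 e2
  rw [card_smul_inter, card_smul_inter, card_inter_ofMask, card_inter_ofMask] at h
  obtain ⟨k, hk, e⟩ := codC.conj pg12_mem M12_le dodL isG_of_mem_dodL (fun _ => true)
    (fun c => pop (Nat.land dod0 c)) [340831, 16436384, 11472927, 16748578, 8245261] (by decide +kernel) 1585 (by decide +kernel) ha hb rfl rfl h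
  refine ⟨g * k * g⁻¹, Subgroup.mul_mem _ (Subgroup.mul_mem _ hg hk.1) (Subgroup.inv_mem _ hg), ?_, ?_⟩
  · rw [mul_smul, inv_smul_smul, mul_smul, smul_dod0 hk]
  · rw [mul_smul, inv_smul_smul, mul_smul, e]

end Cfsg.Agent.S1561
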