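import Cfsg.Agent.Base
import Cfsg.Statements.S1564
import Cfsg.Agent.H72.Stabs

set_option autoImplicit false
open scoped Pointwise
open Cfsg

namespace Cfsg.Agent.S1564

open H72 MulAction
open scoped Pointwise

theorem o0 : (orbit ↥(M24 ⊓ stabilizer P24 (ofMask trd0)) (ofMask 7)).ncard = 63 :=
  codS.ncard_orbit Trd_eq (gTrd_mem.mono inf_le_left) (by decide +kernel) 63 (by decide +kernel)

theorem o1 : (orbit ↥(M24 ⊓ stabilizer P24 (ofMask trd0)) (ofMask 44)).ncard = 210 :=
  codS.ncard_orbit Trd_eq (gTrd_mem.mono inf_le_left) (by decide +kernel) 210 (by decide +kernel)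

theorem o2 : (orbit ↥(M24 ⊓ stabilizer P24 (ofMask trd0)) (ofMask 13)).ncard = 630 :=
  codS.ncard_orbit Trd_eq (gTrd_mem.mono inf_le_left) (by decide +kernel) 630 (by decide +kernel)

theorem o3 : (orbit ↥(M24 ⊓ stabilizer P24 (ofMask trd0)) (ofMask 28)).ncard = 1120 :=
  codS.ncard_orbit Trd_eq (gTrd_mem.mono inf_le_left) (by decide +kernel) 1120 (by decide +kernel)

/-- The stabiliser of a set of three points (setwise) is a maximal proper subgroup of the group of the length-24 code. -/
theorem result (s : Finset Cfsg.GolayPt) (hs : s.card = 3) : IsCoatom (MulAction.stabilizer Cfsg.M24 s) := by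
  obtain ⟨g, hg, rfl⟩ := set_trans (card_trd0.trans hs.symm) (by rw [card_trd0]; norm_num)
  have h0 := (ncard_orbit_stab hg _ _).trans o0
  have h1 := (ncard_orbit_stab hg _ _).trans o1
  have h2 := (ncard_orbit_stab hg _ _).trans o2
  have h3 := (ncard_orbit_stab hg _ _).trans o3
  have e := orbit_eq_card (g • ofMask trd0) (by rw [hs]; norm_num)
  rw [hs] at e
  exact isCoatom_of_subdegrees (G := M24) (g • ofMask trd0) [g • ofMask 7, g • ofMask 44, g • ofMask 13, g • ofMask 28]
    (by
      simp only [e, List.mem_cons, List.not_mem_nil, or_false, forall_eq_or_imp, forall_eq,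
        Set.mem_ofPred_eq, Finset.card_smul_finset, card_ofMask]
      decide +kernel)
    [63, 210, 630, 1120] (by simp only [List.map_cons, List.map_nil, h0, h1, h2, h3]) (by decide) 2024
    (by rw [e, ncard_card_eq]; rfl) (by decide) (by decide) (by decide)

end Cfsg.Agent.S1564
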