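import Cfsg.Agent.Base
import Cfsg.Statements.S1565
import Cfsg.Agent.H72.Stabs

set_option autoImplicit false
open scoped Pointwise
open Cfsg

namespace Cfsg.Agent.S1565

open H72 MulAction
open scoped Pointwise

theorem o1 : (orbit ↥(M24 ⊓ stabilizer P24 (ofMask oct0)) (ofMask 6889680)).ncard = 30 :=
  codC.ncard_orbit Oct_eq (gOct_mem.mono inf_le_left) (by decide +kernel) 30 (by decide +kernel)

theorem o2 : (orbit ↥(M24 ⊓ stabilizer P24 (ofMask oct0)) (ofMask 13062145)).ncard = 280 :=
  codC.ncard_orbit Oct_eq (gOct_mem.mono inf_le_left) (by decide +kernel) 280 (by decide +kernel)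

theorem o3 : (orbit ↥(M24 ⊓ stabilizer P24 (ofMask oct0)) (ofMask 4845570)).ncard = 448 :=
  codC.ncard_orbit Oct_eq (gOct_mem.mono inf_le_left) (by decide +kernel) 448 (by decide +kernel)

/-- The stabiliser of an octad is a maximal proper subgroup of the group of the length-24 code. -/
theorem result (o : Finset Cfsg.GolayPt) (ho : o ∈ Cfsg.octads) : IsCoatom (MulAction.stabilizer Cfsg.M24 o) := by
  obtain ⟨g, hg, rfl⟩ := octad_trans ho
  have ho1 := (ncard_orbit_stab hg _ _).trans o1
  have ho2 := (ncard_orbit_stab hg _ _).trans o2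
  have ho3 := (ncard_orbit_stab hg _ _).trans o3
  exact isCoatom_of_subdegrees (G := M24) (g • ofMask oct0) [g • ofMask 6889680, g • ofMask 13062145, g • ofMask 4845570]
      (by
        have e : orbit M24 (g • ofMask oct0) = octads := by
          rw [← orbit_oct0]; exact orbit_smul (⟨g, hg⟩ : M24) _
        simp only [e, List.mem_cons, List.not_mem_nil, or_false, forall_eq_or_imp, forall_eq]
        exact ⟨smul_mem_octads hg (ofMask_mem_octads (by decide +kernel)), smul_mem_octads hg (ofMask_mem_octads (by decide +kernel)), smul_mem_octads hg (ofMask_mem_octads (by decide +kernel))⟩)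
      [30, 280, 448] (by simp only [List.map_cons, List.map_nil, ho1, ho2, ho3]) (by decide) 759
      (by rw [← ncard_octads, ← orbit_oct0]; exact congrArg _ (orbit_smul (⟨g, hg⟩ : M24) _))
      (by decide) (by decide) (by decide)

end Cfsg.Agent.S1565
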