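import Cfsg.Statements.S1568
import Cfsg.Agent.H79.Trans

set_option autoImplicit false
open Cfsg

namespace Cfsg.Agent.S1568

theorem ex_count (a : ℤ) (l : List ℤ) (hl : l.Nodup) (hlen : l.length ≤ 17)
    (hP : ∀ t, -8 ≤ t → t ≤ 8 → (|t| ≠ a ↔ t ∈ l)) :
    {x : Cfsg.GolayPt → ℤ | x ∈ Cfsg.leechLattice ∧ Cfsg.sqNorm x = 48 ∧ ∃ i, |x i| = a}.ncard +
      H79.cntL l 48 = 16773120 := by
  rw [← H79.shell_count' l hl hlen 48 (by norm_num) (fun t => |t| ≠ a) hP, ← H79.shell48,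
    ← Set.ncard_union_eq _ ((H79.shell_finite 48).subset fun x hx => ⟨hx.1, hx.2.1⟩)
      ((H79.shell_finite 48).subset fun x hx => ⟨hx.1, hx.2.1⟩)]
  · congr 1
    ext x
    simp only [Set.mem_union, Set.mem_ofPred_eq, Nat.cast_ofNat]
    constructor
    · rintro (h | h) <;> exact ⟨h.1, h.2.1⟩
    · rintro ⟨h1, h2⟩
      by_cases h : ∃ i, |x i| = a
      · exact Or.inl ⟨h1, h2, h⟩
      · exact Or.inr ⟨h1, h2, fun i hi => h ⟨i, hi⟩⟩
  · rw [Set.disjoint_left]
    rintro x ⟨-, -, i, hi⟩ ⟨-, -, h⟩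
    exact h i hi

/-- Shape census of the lattice vectors of sum of squares 48 (customary norm 6): the four families (2^12, 0^12), (±3^3, ±1^21), (±4, ±2^8, 0^15) and (±5, ±1^23) have 5275648, 8290304, 3108864 and 98304 members. -/
theorem result : {x : Cfsg.GolayPt → ℤ | x ∈ Cfsg.leechLattice ∧ Cfsg.sqNorm x = 48 ∧ ∀ i, x i = 0 ∨ x i = 2 ∨ x i = -2}.ncard = 5275648 ∧ {x : Cfsg.GolayPt → ℤ | x ∈ Cfsg.leechLattice ∧ Cfsg.sqNorm x = 48 ∧ ∃ i j k, i ≠ j ∧ j ≠ k ∧ i ≠ k ∧ |x i| = 3 ∧ |x j| = 3 ∧ |x k| = 3}.ncard = 8290304 ∧ {x : Cfsg.GolayPt → ℤ | x ∈ Cfsg.leechLattice ∧ Cfsg.sqNorm x = 48 ∧ ∃ i, |x i| = 4}.ncard = 3108864 ∧ {x : Cfsg.GolayPt → ℤ | x ∈ Cfsg.leechLattice ∧ Cfsg.sqNorm x = 48 ∧ ∃ i, |x i| = 5}.ncard = 98304 := by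
  classical
  refine ⟨?_, ?_, ?_, ?_⟩
  · have h := H79.shell_count' [0, 2, -2] (by decide) (by decide) 48 (by norm_num)
      (fun t => t = 0 ∨ t = 2 ∨ t = -2) (by intro t _ _; simp)
    have h2 : H79.cntL [0, 2, -2] 48 = 5275648 := by decide +kernel
    rw [← h2, ← h]; rfl
  · have h := H79.shell_count' [1, -1, 3, -3] (by decide) (by decide) 48 (by norm_num)
      (fun t => t = 1 ∨ t = -1 ∨ t = 3 ∨ t = -3) (by intro t _ _; simp)
    have h2 : H79.cntL [1, -1, 3, -3] 48 = 8290304 := by decide +kernel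
    rw [← h2, ← h]
    congr 1
    ext x
    simp only [Set.mem_ofPred_eq, Nat.cast_ofNat]
    refine and_congr_right fun hx => and_congr_right fun hn => ⟨?_, ?_⟩
    · rintro ⟨i, j, k, hij, hjk, hik, hi, hj, hk⟩ l
      have h3 := H79.leech_parity hx l i
      have h4 : x l ^ 2 ≤ 21 := by
        have sq : ∀ m, |x m| = 3 → x m ^ 2 = 9 := fun m hm => by rw [← sq_abs, hm]; norm_num
        by_cases hl : l ∈ ({i, j, k} : Finset Cfsg.GolayPt)
        · simp only [Finset.mem_insert, Finset.mem_singleton] at hl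
          rcases hl with rfl | rfl | rfl
          · rw [sq _ hi]; norm_num
          · rw [sq _ hj]; norm_num
          · rw [sq _ hk]; norm_num
        · have : ∑ m ∈ insert l ({i, j, k} : Finset Cfsg.GolayPt), x m ^ 2 ≤ Cfsg.sqNorm x :=
            Finset.sum_le_sum_of_subset_of_nonneg (Finset.subset_univ _) fun _ _ _ => sq_nonneg _
          rw [Finset.sum_insert hl, Finset.sum_insert (by simp [hij, hik]),
            Finset.sum_insert (by simp [hjk]), Finset.sum_singleton, sq _ hi, sq _ hj, sq _ hk,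
            hn] at this
          omega
      have h5 : -4 ≤ x l ∧ x l ≤ 4 := by constructor <;> nlinarith
      rcases abs_cases (x i) with a | a <;> omega
    · intro hv
      have h3 : Cfsg.sqNorm x = ∑ m, (1 + 8 * if |x m| = 3 then (1 : ℤ) else 0) := by
        apply Finset.sum_congr rfl
        intro m _
        rcases hv m with a | a | a | a <;> rw [a] <;> norm_num
      rw [Finset.sum_add_distrib, H79.sum_const_golay, ← Finset.mul_sum, Finset.sum_boole,
        hn] at h3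
      have h4 : (Finset.univ.filter fun m => |x m| = 3).card = 3 := by omega
      obtain ⟨i, j, k, hij, hik, hjk, e⟩ := Finset.card_eq_three.1 h4
      have hm : ∀ m, m ∈ ({i, j, k} : Finset Cfsg.GolayPt) → |x m| = 3 := fun m hm => by
        rw [← e] at hm; exact (Finset.mem_filter.1 hm).2
      exact ⟨i, j, k, hij, hjk, hik, hm _ (by simp), hm _ (by simp), hm _ (by simp)⟩
  · have h := ex_count 4 [-8, -7, -6, -5, -3, -2, -1, 0, 1, 2, 3, 5, 6, 7, 8] (by decide)
      (by decide) (by intro t h1 h2; interval_cases t <;> simp)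
    have h2 : H79.cntL [-8, -7, -6, -5, -3, -2, -1, 0, 1, 2, 3, 5, 6, 7, 8] 48 = 13664256 := by
      decide +kernel
    omega
  · have h := ex_count 5 [-8, -7, -6, -4, -3, -2, -1, 0, 1, 2, 3, 4, 6, 7, 8] (by decide)
      (by decide) (by intro t h1 h2; interval_cases t <;> simp)
    have h2 : H79.cntL [-8, -7, -6, -4, -3, -2, -1, 0, 1, 2, 3, 4, 6, 7, 8] 48 = 16674816 := by
      decide +kernel
    omega

end Cfsg.Agent.S1568
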