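import Cfsg.Statements.S1581
import Cfsg.Agent.H77.Conf

set_option autoImplicit false
open Cfsg

namespace Cfsg.Agent.S1581

/-- The McLaughlin group acts with rank 3 and subdegrees 1, 112, 162 on its 275 points: the point stabiliser has two orbits on the remaining points, distinguished by customary inner product 1 or 2 with the fixed point. -/
theorem result (u v x : ↥Cfsg.leechLattice) (hu : Cfsg.sqNorm (u : Cfsg.GolayPt → ℤ) = 48) (hv : Cfsg.sqNorm (v : Cfsg.GolayPt → ℤ) = 32 ∧ Cfsg.sqNorm ((u - v) : Cfsg.GolayPt → ℤ) = 32) (hx : x ∈ {x : ↥Cfsg.leechLattice | Cfsg.sqNorm (x : Cfsg.GolayPt → ℤ) = 32 ∧ Cfsg.sqNorm ((u - x) : Cfsg.GolayPt → ℤ) = 32 ∧ Cfsg.dotInt (v : Cfsg.GolayPt → ℤ) (x : Cfsg.GolayPt → ℤ) = 16}) : {y : ↥Cfsg.leechLattice | y ∈ {x : ↥Cfsg.leechLattice | Cfsg.sqNorm (x : Cfsg.GolayPt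 → ℤ) = 32 ∧ Cfsg.sqNorm ((u - x) : Cfsg.GolayPt → ℤ) = 32 ∧ Cfsg.dotInt (v : Cfsg.GolayPt → ℤ) (x : Cfsg.GolayPt → ℤ) = 16} ∧ Cfsg.dotInt (x : Cfsg.GolayPt → ℤ) (y : Cfsg.GolayPt → ℤ) = 8}.ncard = 112 ∧ {y : ↥Cfsg.leechLattice | y ∈ {x : ↥Cfsg.leechLattice | Cfsg.sqNorm (x : Cfsg.GolayPt → ℤ) = 32 ∧ Cfsg.sqNorm ((u - x) : Cfsg.GolayPt → ℤ) = 32 ∧ Cfsg.dotInt (v : Cfsg.GolayPt → ℤ) (x : Cfsg.GolayPt → ℤ) = 16} ∧ y ≠ x ∧ Cfsg.dotInt (x : Cfsg.GolayPt → ℤ) (y : Cfsg.GolayPt → ℤ) = 16}.ncard = 162 ∧ ∀ y ∈ {x : ↥Cfsg.leechLattice | Cfsg.sqNorm (x : Cfsg.GolayPt → ℤ) = 32 ∧ Cfsg.sqNorm ((u - x) : Cfsg.GolayPt → ℤ) = 32 ∧ Cfsg.dotInt (v : Cfsg.GolayPt → ℤ) (x : Cfsg.GolayPt → ℤ) = 16}, ∀ y' ∈ {x : ↥Cfsg.leechLattice | Cfsg.sqNorm (x : Cfsg.GolayPt → ℤ) = 32 ∧ Cfsg.sqNorm ((u - x) : Cfsg.GolayPt → ℤ) = 32 ∧ Cfsg.dotInt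 (v : Cfsg.GolayPt → ℤ) (x : Cfsg.GolayPt → ℤ) = 16}, y ≠ x → y' ≠ x → Cfsg.dotInt (x : Cfsg.GolayPt → ℤ) (y : Cfsg.GolayPt → ℤ) = Cfsg.dotInt (x : Cfsg.GolayPt → ℤ) (y' : Cfsg.GolayPt → ℤ) → ∃ g : ↥Cfsg.Co0, g • u = u ∧ g • v = v ∧ g • x = x ∧ g • y = y' := by
  rw [H77.set275 hu] at hx ⊢
  obtain ⟨g, e1, e2, e3⟩ := H77.exists_VUX ((H77.nm_neg u).trans hu) hv.1
    ((H77.sub_iff hu hv.1).1 hv.2) hx
  obtain ⟨⟨-, h2, h3⟩, h⟩ := H77.u43_275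
  have a := h2.map3 g
  have b := h3.map3 g
  have c : ∀ y ∈ H77.S2 (-u) (-24) v 16, H77.dt x y = 32 ∨ H77.dt x y = 16 ∨ H77.dt x y = 8 := by
    intro y hy
    rw [← e1, ← e2, ← smul_inv_smul g y, H77.smul_mem_S2] at hy
    rw [← e3, ← smul_inv_smul g y, H77.dt_smul]
    exact h _ hy
  rw [e1, e2, e3] at a b
  refine ⟨b.1, ?_, fun y hy y' hy' hn hn' e => ?_⟩
  · rw [← a.1]
    congr 1
    ext y
    refine and_congr_right fun hy => ⟨fun h => h.2, fun h => ⟨?_, h⟩⟩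
    rintro rfl
    have := (H77.dt_self y).trans hx.1.1
    have h' : H77.dt y y = 16 := h
    omega
  · have : ∃ k ∈ H77.St3 (-u) v x, k • y = y' := by
      rcases c y hy with h | h | h
      · exact absurd h (H77.dt_ne_of_ne hx.1.1 hy.1.1 hn)
      · exact a.trans ⟨hy, h⟩ ⟨hy', e.symm.trans h⟩
      · exact b.trans ⟨hy, h⟩ ⟨hy', e.symm.trans h⟩
    obtain ⟨k, hk, e'⟩ := this
    exact ⟨k, (H77.smul_neg_iff k u).1 hk.1.1, hk.1.2, hk.2, e'⟩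

end Cfsg.Agent.S1581
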