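import Cfsg.Statements.S1584
import Cfsg.Agent.H77.Conf

set_option autoImplicit false
open Cfsg

namespace Cfsg.Agent.S1584

/-- The Higman–Sims group acts with rank 3 and subdegrees 1, 22, 77 on its 100 points, the orbits of a point stabiliser being distinguished by customary inner product 1 with the fixed point. -/
theorem result (v w x : ↥Cfsg.leechLattice) (hv : Cfsg.sqNorm (v : Cfsg.GolayPt → ℤ) = 48) (hw : Cfsg.sqNorm (w : Cfsg.GolayPt → ℤ) = 48) (hvw : Cfsg.dotInt (v : Cfsg.GolayPt → ℤ) (w : Cfsg.GolayPt → ℤ) = -32) (hx : x ∈ {x : ↥Cfsg.leechLattice | Cfsg.sqNorm (x : Cfsg.GolayPt → ℤ) = 32 ∧ Cfsg.dotInt (v : Cfsg.GolayPt → ℤ) (x : Cfsg.GolayPt → ℤ) = 24 ∧ Cfsg.dotInt (w : Cfsg.GolayPt → ℤ) (x : Cfsg.GolayPt → ℤ) = -24}) : {y : ↥Cfsg.leechLattice | y ∈ {x : ↥Cfsg.leechLattice | Cfsg.sqNorm (x : Cfsg.GolayPt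 → ℤ) = 32 ∧ Cfsg.dotInt (v : Cfsg.GolayPt → ℤ) (x : Cfsg.GolayPt → ℤ) = 24 ∧ Cfsg.dotInt (w : Cfsg.GolayPt → ℤ) (x : Cfsg.GolayPt → ℤ) = -24} ∧ Cfsg.dotInt (x : Cfsg.GolayPt → ℤ) (y : Cfsg.GolayPt → ℤ) = 8}.ncard = 22 ∧ {y : ↥Cfsg.leechLattice | y ∈ {x : ↥Cfsg.leechLattice | Cfsg.sqNorm (x : Cfsg.GolayPt → ℤ) = 32 ∧ Cfsg.dotInt (v : Cfsg.GolayPt → ℤ) (x : Cfsg.GolayPt → ℤ) = 24 ∧ Cfsg.dotInt (w : Cfsg.GolayPt → ℤ) (x : Cfsg.GolayPt → ℤ) = -24} ∧ y ≠ x ∧ Cfsg.dotInt (x : Cfsg.GolayPt → ℤ) (y : Cfsg.GolayPt → ℤ) ≠ 8}.ncard = 77 ∧ ∀ y ∈ {x : ↥Cfsg.leechLattice | Cfsg.sqNorm (x : Cfsg.GolayPt → ℤ) = 32 ∧ Cfsg.dotInt (v : Cfsg.GolayPt → ℤ) (x : Cfsg.GolayPt → ℤ) = 24 ∧ Cfsg.dotInt (w : Cfsg.GolayPt → ℤ) (x : Cfsg.GolayPt → ℤ) = -24}, ∀ y' ∈ {x : ↥Cfsg.leechLattice | Cfsg.sqNorm (x : Cfsg.GolayPt → ℤ) = 32 ∧ Cfsg.dotInt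 (v : Cfsg.GolayPt → ℤ) (x : Cfsg.GolayPt → ℤ) = 24 ∧ Cfsg.dotInt (w : Cfsg.GolayPt → ℤ) (x : Cfsg.GolayPt → ℤ) = -24}, y ≠ x → y' ≠ x → (Cfsg.dotInt (x : Cfsg.GolayPt → ℤ) (y : Cfsg.GolayPt → ℤ) = 8 ↔ Cfsg.dotInt (x : Cfsg.GolayPt → ℤ) (y' : Cfsg.GolayPt → ℤ) = 8) → ∃ g : ↥Cfsg.Co0, g • v = v ∧ g • w = w ∧ g • x = x ∧ g • y = y' := by
  rw [H77.set_third v w 24 (-24) 0] at hx ⊢
  obtain ⟨g₀, d1, d2⟩ := H77.exists_hs hv hw hvw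
  obtain ⟨g, e1, e2, e3⟩ := H77.exists_triple H77.hs_552.1.1
    (H77.mem_S2.2 ⟨H77.nm_U, H77.dt_VU, H77.dt_U1U⟩) g₀ (x' := x) (by rw [d1, d2]; exact hx)
  rw [d1] at e1
  rw [d2] at e2
  obtain ⟨⟨-, h2, h3⟩, h⟩ := H77.m22_100
  rw [← H77.St3_comm] at h2 h3
  have a := h2.map3 g
  have b := h3.map3 g
  have c : ∀ y ∈ H77.S2 w (-24) (-(v + w)) 0,
      H77.dt x y = 32 ∨ H77.dt x y = 16 ∨ H77.dt x y = 8 := by
    intro y hy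
    rw [← e2, ← e1, ← smul_inv_smul g y, H77.smul_mem_S2] at hy
    rw [← e3, ← smul_inv_smul g y, H77.dt_smul]
    exact h _ hy
  rw [e1, e2, e3] at a b
  refine ⟨b.1, ?_, fun y hy y' hy' hn hn' e => ?_⟩
  · rw [← a.1]
    congr 1
    ext y
    refine and_congr_right fun hy => ⟨fun h => ?_, fun h => ?_⟩
    · rcases c y hy with h' | h' | h'
      · exact absurd h' (H77.dt_ne_of_ne hx.1.1 hy.1.1 h.1)
      · exact h'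
      · exact absurd h' h.2
    · have h' : H77.dt x y = 16 := h
      refine ⟨?_, fun h'' : H77.dt x y = 8 => by omega⟩
      rintro rfl
      have := (H77.dt_self y).trans hx.1.1
      omega
  · have : ∃ k ∈ H77.St3 w (-(v + w)) x, k • y = y' := by
      rcases c y hy with h | h | h
      · exact absurd h (H77.dt_ne_of_ne hx.1.1 hy.1.1 hn)
      · rcases c y' hy' with h' | h' | h'
        · exact absurd h' (H77.dt_ne_of_ne hx.1.1 hy'.1.1 hn')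
        · exact a.trans ⟨hy, h⟩ ⟨hy', h'⟩
        · have : H77.dt x y = 8 := e.2 h'
          omega
      · exact b.trans ⟨hy, h⟩ ⟨hy', e.1 h⟩
    obtain ⟨k, hk, e'⟩ := this
    have hk' : k ∈ H77.St2 v w := by rw [H77.St2_third]; exact hk.1
    exact ⟨k, hk'.1, hk'.2, hk.2, e'⟩

end Cfsg.Agent.S1584
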