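import Cfsg.Statements.S1585
import Cfsg.Agent.H77.Conf

set_option autoImplicit false
open Cfsg

namespace Cfsg.Agent.S1585

/-- Two vectors of customary norm 6 with inner product −4 are exchanged by some automorphism of the lattice. -/
theorem result (v w : ↥Cfsg.leechLattice) (hv : Cfsg.sqNorm (v : Cfsg.GolayPt → ℤ) = 48) (hw : Cfsg.sqNorm (w : Cfsg.GolayPt → ℤ) = 48) (hvw : Cfsg.dotInt (v : Cfsg.GolayPt → ℤ) (w : Cfsg.GolayPt → ℤ) = -32) : ∃ g : ↥Cfsg.Co0, g • v = w ∧ g • w = v := by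
  obtain ⟨g, e1, e2⟩ := H77.exists_hs hv hw hvw
  obtain ⟨k, d1, d2⟩ := H77.exists_hs hw hv ((H77.dt_comm w v).trans hvw)
  have h1 : (k * g⁻¹) • w = v := by rw [mul_smul, ← e1, inv_smul_smul, d1]
  have h2 : (k * g⁻¹) • (-(v + w)) = -(w + v) := by rw [mul_smul, ← e2, inv_smul_smul, d2]
  rw [H77.smul_neg_co0, H77.smul_add_co0, h1, neg_inj] at h2
  exact ⟨k * g⁻¹, add_right_cancel h2, h1⟩

end Cfsg.Agent.S1585
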