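import Cfsg.Statements.S1595
import Cfsg.Agent.Base
import Cfsg.Agent.H76.Steiner

set_option autoImplicit false
open Cfsg

namespace Cfsg.Agent.S1595

/-- Leech triangle of S(5, 6, 12): blocks meet in 0, 2, 3 or 4 points, and a block is met exactly in a given 2-, 3- or 4-subset by 3, 2, 3 blocks respectively. -/
theorem result {α : Type*} [Fintype α] [DecidableEq α] (hα : Fintype.card α = 12) {B : Set (Finset α)} (hB : Cfsg.IsSteinerSystem 5 6 B) (b : Finset α) (hb : b ∈ B) : (∀ c ∈ B, c ≠ b → (b ∩ c).card = 0 ∨ (b ∩ c).card = 2 ∨ (b ∩ c).card = 3 ∨ (b ∩ c).card = 4) ∧ ∀ s ⊆ b, (s.card = 2 → {c : Finset α | c ∈ B ∧ b ∩ c = s}.ncard = 3) ∧ (s.card = 3 → {c : Finset α | c ∈ B ∧ b ∩ c = s}.ncard = 2) ∧ (s.card = 4 → {c : Finset α | c ∈ B ∧ b ∩ c = s}.ncard = 3) := by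
  classical
  constructor
  · intro c hc hne
    have h5 : ¬ 5 ≤ (b ∩ c).card := fun h => hne (H76.steiner_eq_of_le_inter hB hb hc h).symm
    have h1 := H76.steiner_inter_ne hB (by norm_num) hb hc 1 (by rw [hα]; decide)
    omega
  · intro s hs
    have h := H76.steiner_inter_block hB (by norm_num) hb s hs
    rw [hα] at h
    rw [H76.ncard_sep_blocks]
    refine ⟨fun h2 => ?_, fun h2 => ?_, fun h2 => ?_⟩
    · rw [h2, show H76.tri (H76.lam 5 6 12) 2 (6 - 2) = 3 by decide] at h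
      exact_mod_cast h
    · rw [h2, show H76.tri (H76.lam 5 6 12) 3 (6 - 3) = 2 by decide] at h
      exact_mod_cast h
    · rw [h2, show H76.tri (H76.lam 5 6 12) 4 (6 - 4) = 3 by decide] at h
      exact_mod_cast h

end Cfsg.Agent.S1595
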