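import Cfsg.Agent.Base
import Cfsg.Statements.S1604
import Cfsg.Agent.H72.Std2

set_option autoImplicit false
open scoped Pointwise
open Cfsg

namespace Cfsg.Agent.S1604

open H72 MulAction
open scoped Pointwise

/-- A hexad stabiliser in the two-point stabiliser has orbits of sizes 1, 16, 60 on the 77 hexads: the 16 hexads disjoint from it and the 60 meeting it in two points. -/
theorem result (p q : Cfsg.GolayPt) (hpq : p ≠ q) (o o' o'' : Finset Cfsg.GolayPt) (ho : o ∈ Cfsg.octads) (ho' : o' ∈ Cfsg.octads) (ho'' : o'' ∈ Cfsg.octads) (hp : p ∈ o ∧ p ∈ o' ∧ p ∈ o'') (hq : q ∈ o ∧ q ∈ o' ∧ q ∈ o'') (h : (o ∩ o').card = (o ∩ o'').card) : {x : Finset Cfsg.GolayPt | x ∈ Cfsg.octads ∧ p ∈ x ∧ q ∈ x ∧ (o ∩ x).card = 2}.ncard = 16 ∧ {x : Finset Cfsg.GolayPt | x ∈ Cfsg.octads ∧ p ∈ x ∧ q ∈ x ∧ (o ∩ x).card = 4}.ncard = 60 ∧ ∃ g : Equiv.Perm Cfsg.GolayPt, g ∈ Cfsg.M24 ∧ g p = p ∧ g q = q ∧ g • o = o ∧ g • o' = o'' := by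
  obtain ⟨g, hg, rfl, e⟩ := std_oct_list ho [p, q] (by simp) (by simpa using hpq)
    (by simp [hp.1, hq.1])
  obtain ⟨rfl, rfl⟩ : g (pt 23) = p ∧ g (pt 0) = q := by simpa using e
  have key : ∀ k, {o' | o' ∈ octads ∧ g (pt 23) ∈ o' ∧ g (pt 0) ∈ o' ∧
      (g • ofMask oct0 ∩ o').card = k}.ncard =
      (octL.filter fun m => tb m 23 && (tb m 0 && Nat.beq (pop (Nat.land oct0 m)) k)).length :=
    fun k => ncard_oct_smul hg _ _ fun m _ => by
      rw [card_smul_inter, card_inter_ofMask, apply_mem_smul_iff, apply_mem_smul_iff,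
        Bool.and_eq_true, Bool.and_eq_true, Nat.beq_eq, tb_iff (by norm_num), tb_iff (by norm_num)]
  simp only [key]
  refine ⟨by decide +kernel, by decide +kernel, ?_⟩
  obtain ⟨a, ha, rfl⟩ := exists_oct_smul hg ho'
  obtain ⟨b, hb, rfl⟩ := exists_oct_smul hg ho''
  rw [card_smul_inter, card_smul_inter, card_inter_ofMask, card_inter_ofMask] at h
  simp only [apply_mem_smul_iff, ← tb_iff (i := 23) (by norm_num),
    ← tb_iff (i := 0) (by norm_num)] at hp hq
  obtain ⟨k, hk, e⟩ := codC.conj (K := stabM [2 ^ 23, 2 ^ 0, oct0]) (gs := [nat_lit 971573949278346800961123130797504672, nat_lit 964659618574428407554014744822233632])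
    (allIn_stabM (by decide +kernel)) (stabM_le _) octL isG_of_mem_octL (fun c => tb c 23 && tb c 0)
    (fun c => pop (Nat.land oct0 c)) [8536111, 11575377, 13062145] (by decide +kernel) 61 (by decide +kernel) ha hb
    (by rw [hp.2.1, hq.2.1]; rfl) (by rw [hp.2.2, hq.2.2]; rfl) h
  exact ⟨_, conj_mem' hg hk.1, conj_apply g (stabM_pt hk (by norm_num) (by simp)),
    conj_apply g (stabM_pt hk (by norm_num) (by simp)),
    conj_smul g (hk.2 _ (by simp)), conj_smul g e⟩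

end Cfsg.Agent.S1604
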