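import Cfsg.Agent.Base
import Cfsg.Statements.S1605
import Cfsg.Agent.H72.Std2

set_option autoImplicit false
open scoped Pointwise
open Cfsg

namespace Cfsg.Agent.S1605

open H72 MulAction
open scoped Pointwise

/-- The two-point stabiliser acts on the 176 octads through the first point avoiding the second with rank 3 and subdegrees 1, 70, 105 (intersections 8, 2, 4). -/
theorem result (p q : Cfsg.GolayPt) (hpq : p ≠ q) : {x : Finset Cfsg.GolayPt | (x ∈ Cfsg.octads ∧ p ∈ x ∧ q ∉ x)}.ncard = 176 ∧ (∀ o o' : Finset Cfsg.GolayPt, (o ∈ Cfsg.octads ∧ p ∈ o ∧ q ∉ o) → (o' ∈ Cfsg.octads ∧ p ∈ o' ∧ q ∉ o') → ∃ g : Equiv.Perm Cfsg.GolayPt, g ∈ Cfsg.M24 ∧ g p = p ∧ g q = q ∧ g • o = o') ∧ ∀ o : Finset Cfsg.GolayPt, (o ∈ Cfsg.octads ∧ p ∈ o ∧ q ∉ o) → {x : Finset Cfsg.GolayPt | (x ∈ Cfsg.octads ∧ p ∈ x ∧ q ∉ x) ∧ (o ∩ x).card = 2}.ncard = 70 ∧ {x : Finset Cfsg.GolayPt | (x ∈ Cfsg.octads ∧ p ∈ x ∧ q ∉ x) ∧ (o ∩ x).card = 4}.ncard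 = 105 ∧ ∀ o' o'' : Finset Cfsg.GolayPt, (o' ∈ Cfsg.octads ∧ p ∈ o' ∧ q ∉ o') → (o'' ∈ Cfsg.octads ∧ p ∈ o'' ∧ q ∉ o'') → (o ∩ o').card = (o ∩ o'').card → ∃ g : Equiv.Perm Cfsg.GolayPt, g ∈ Cfsg.M24 ∧ g p = p ∧ g q = q ∧ g • o = o ∧ g • o' = o'' := by
  refine ⟨?_, ?_, ?_⟩
  · obtain ⟨g, hg, rfl, rfl⟩ := std_pt2 hpq
    rw [ncard_oct_smul hg _ (fun m => tb m 23 && !tb m 0) fun m _ => by
      rw [apply_mem_smul_iff, apply_mem_smul_iff, Bool.and_eq_true, tb_iff (by norm_num),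
        not_tb_iff (by norm_num)]]
    decide +kernel
  · intro o o' ho ho'
    obtain ⟨g, hg, rfl, rfl, e⟩ := std_oct_out ho.1 [p] (by simp) (by simp) (by simpa using ho.2.1)
      ho.2.2
    obtain ⟨k, hk, rfl, e1, e'⟩ := std_oct_out ho'.1 [p] (by simp) (by simp)
      (by simpa using ho'.2.1) ho'.2.2
    have e2 : g (pt 23) = p := by simpa using e
    have e3 : k (pt 23) = p := by simpa using e'
    refine ⟨k * g⁻¹, Subgroup.mul_mem _ hk (Subgroup.inv_mem _ hg), ?_, by simp [e1],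
      by simp [mul_smul]⟩
    conv_lhs => rw [← e2]
    simp [e3]
  intro o ho
  obtain ⟨g, hg, rfl, rfl, e⟩ := std_oct_out ho.1 [p] (by simp) (by simp) (by simpa using ho.2.1)
    ho.2.2
  obtain rfl : g (pt 23) = p := by simpa using e
  have key : ∀ k, {o' | (o' ∈ octads ∧ g (pt 23) ∈ o' ∧ g (pt 4) ∉ o') ∧
      (g • ofMask oct0 ∩ o').card = k}.ncard =
      (octL.filter fun m => tb m 23 && (!tb m 4 && Nat.beq (pop (Nat.land oct0 m)) k)).length := by
    intro k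
    simp only [and_assoc]
    exact ncard_oct_smul hg _ _ fun m _ => by
      rw [card_smul_inter, card_inter_ofMask, apply_mem_smul_iff, apply_mem_smul_iff,
        Bool.and_eq_true, Bool.and_eq_true, Nat.beq_eq, tb_iff (by norm_num),
        not_tb_iff (by norm_num)]
  simp only [key]
  refine ⟨by decide +kernel, by decide +kernel, fun o' o'' ho' ho'' h => ?_⟩
  obtain ⟨a, ha, rfl⟩ := exists_oct_smul hg ho'.1
  obtain ⟨b, hb, rfl⟩ := exists_oct_smul hg ho''.1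
  rw [card_smul_inter, card_smul_inter, card_inter_ofMask, card_inter_ofMask] at h
  simp only [apply_mem_smul_iff, ← tb_iff (i := 23) (by norm_num),
    ← not_tb_iff (i := 4) (by norm_num)] at ho' ho''
  obtain ⟨k, hk, e⟩ := codC.conj (K := stabM [2 ^ 23, 2 ^ 4, oct0]) (gs := [nat_lit 979610371798633173102478248550894657, nat_lit 971308761983300455947307461453726787])
    (allIn_stabM (by decide +kernel)) (stabM_le _) octL isG_of_mem_octL (fun c => tb c 23 && !tb c 4)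
    (fun c => pop (Nat.land oct0 c)) [8536111, 13938692, 13062145] (by decide +kernel) 106 (by decide +kernel) ha hb
    (by rw [ho'.2.1, ho'.2.2]; rfl) (by rw [ho''.2.1, ho''.2.2]; rfl) h
  exact ⟨_, conj_mem' hg hk.1, conj_apply g (stabM_pt hk (by norm_num) (by simp)),
    conj_apply g (stabM_pt hk (by norm_num) (by simp)),
    conj_smul g (hk.2 _ (by simp)), conj_smul g e⟩

end Cfsg.Agent.S1605
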