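import Cfsg.Agent.Base
import Cfsg.Statements.S1607
import Cfsg.Agent.H72.Std2

set_option autoImplicit false
open scoped Pointwise
open Cfsg

namespace Cfsg.Agent.S1607

open H72 MulAction
open scoped Pointwise

/-- The point stabiliser acts on the 253 heptads of its S(4, 7, 23) with rank 3 and subdegrees 1, 112, 140 (intersections 8, 2, 4). -/
theorem result (x : Cfsg.GolayPt) (o : Finset Cfsg.GolayPt) (ho : o ∈ Cfsg.octads) (hx : x ∈ o) : {o' : Finset Cfsg.GolayPt | o' ∈ Cfsg.octads ∧ x ∈ o' ∧ (o ∩ o').card = 2}.ncard = 112 ∧ {o' : Finset Cfsg.GolayPt | o' ∈ Cfsg.octads ∧ x ∈ o' ∧ (o ∩ o').card = 4}.ncard = 140 ∧ ∀ o' o'' : Finset Cfsg.GolayPt, o' ∈ Cfsg.octads → o'' ∈ Cfsg.octads → x ∈ o' → x ∈ o'' → (o ∩ o').card = (o ∩ o'').card → ∃ g : Equiv.Perm Cfsg.GolayPt, g ∈ Cfsg.M24 ∧ g x = x ∧ g • o = o ∧ g • o' = o'' := by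
  obtain ⟨g, hg, rfl, e⟩ := std_oct_list ho [x] (by simp) (by simp) (by simpa using hx)
  obtain rfl : g (pt 23) = x := by simpa using e
  have key : ∀ k, {o' | o' ∈ octads ∧ g (pt 23) ∈ o' ∧ (g • ofMask oct0 ∩ o').card = k}.ncard =
      (octL.filter fun m => tb m 23 && Nat.beq (pop (Nat.land oct0 m)) k).length := fun k =>
    ncard_oct_smul hg _ _ fun m _ => by
      rw [card_smul_inter, card_inter_ofMask, apply_mem_smul_iff, Bool.and_eq_true, Nat.beq_eq,
        tb_iff (by norm_num)]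
  simp only [key]
  refine ⟨by decide +kernel, by decide +kernel, fun o' o'' ho' ho'' h1 h2 h => ?_⟩
  obtain ⟨a, ha, rfl⟩ := exists_oct_smul hg ho'
  obtain ⟨b, hb, rfl⟩ := exists_oct_smul hg ho''
  rw [card_smul_inter, card_smul_inter, card_inter_ofMask, card_inter_ofMask] at h
  rw [apply_mem_smul_iff, ← tb_iff (by norm_num)] at h1 h2
  obtain ⟨k, hk, e⟩ := codC.conj (K := stabM [2 ^ 23, oct0]) (gs := [nat_lit 968836807425477950712350029044157442, nat_lit 980508260300272300480849399892853825])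
    (allIn_stabM (by decide +kernel)) (stabM_le _) octL isG_of_mem_octL (fun c => tb c 23)
    (fun c => pop (Nat.land oct0 c)) [8536111, 13938692, 13062145] (by decide +kernel) 141 (by decide +kernel) ha hb h1 h2 h
  exact ⟨_, conj_mem' hg hk.1, conj_apply g (stabM_pt hk (by norm_num) (by simp)),
    conj_smul g (hk.2 _ (by simp)), conj_smul g e⟩

end Cfsg.Agent.S1607
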