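import Cfsg.Agent.Base
import Cfsg.Statements.S1608
import Cfsg.Agent.H72.Std2

set_option autoImplicit false
open scoped Pointwise
open Cfsg

namespace Cfsg.Agent.S1608

open H72 MulAction
open scoped Pointwise

/-- The point stabiliser acts on the 506 octads avoiding the point with rank 4 and subdegrees 1, 15, 210, 280, the suborbits being given by intersection size with the fixed octad. -/
theorem result (x : Cfsg.GolayPt) (o : Finset Cfsg.GolayPt) (ho : o ∈ Cfsg.octads) (hx : x ∉ o) : {o' : Finset Cfsg.GolayPt | o' ∈ Cfsg.octads ∧ x ∉ o' ∧ (o ∩ o').card = 0}.ncard = 15 ∧ {o' : Finset Cfsg.GolayPt | o' ∈ Cfsg.octads ∧ x ∉ o' ∧ (o ∩ o').card = 4}.ncard = 210 ∧ {o' : Finset Cfsg.GolayPt | o' ∈ Cfsg.octads ∧ x ∉ o' ∧ (o ∩ o').card = 2}.ncard = 280 ∧ ∀ o' o'' : Finset Cfsg.GolayPt, o' ∈ Cfsg.octads → o'' ∈ Cfsg.octads → x ∉ o' → x ∉ o'' → (o ∩ o').card = (o ∩ o'').card → ∃ g : Equiv.Perm Cfsg.GolayPt, g ∈ Cfsg.M24 ∧ g x = x ∧ g • o = o ∧ g • o' = o'' :=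 by
  obtain ⟨g, hg, rfl, rfl, -⟩ := std_oct_out ho [] (by simp) (by simp) (by simp) hx
  have key : ∀ k, {o' | o' ∈ octads ∧ g (pt 4) ∉ o' ∧ (g • ofMask oct0 ∩ o').card = k}.ncard =
      (octL.filter fun m => !tb m 4 && Nat.beq (pop (Nat.land oct0 m)) k).length := fun k =>
    ncard_oct_smul hg _ _ fun m _ => by
      rw [card_smul_inter, card_inter_ofMask, apply_mem_smul_iff, Bool.and_eq_true, Nat.beq_eq,
        not_tb_iff (by norm_num)]
  simp only [key]
  refine ⟨by decide +kernel, by decide +kernel, by decide +kernel, fun o' o'' ho' ho'' h1 h2 h => ?_⟩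
  obtain ⟨a, ha, rfl⟩ := exists_oct_smul hg ho'
  obtain ⟨b, hb, rfl⟩ := exists_oct_smul hg ho''
  rw [card_smul_inter, card_smul_inter, card_inter_ofMask, card_inter_ofMask] at h
  rw [apply_mem_smul_iff, ← not_tb_iff (by norm_num)] at h1 h2
  obtain ⟨k, hk, e⟩ := codC.conj (K := stabM [2 ^ 4, oct0]) (gs := [nat_lit 235695949936186875200568352286181090, nat_lit 139393022127712798562919291625191607])
    (allIn_stabM (by decide +kernel)) (stabM_le _) octL isG_of_mem_octL (fun c => !tb c 4)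
    (fun c => pop (Nat.land oct0 c)) [8536111, 4038912, 13062145, 4845570] (by decide +kernel) 281 (by decide +kernel) ha hb h1 h2 h
  exact ⟨_, conj_mem' hg hk.1, conj_apply g (stabM_pt hk (by norm_num) (by simp)),
    conj_smul g (hk.2 _ (by simp)), conj_smul g e⟩

end Cfsg.Agent.S1608
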