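import Cfsg.Statements.S1610
import Cfsg.Agent.H6.Hexa

set_option autoImplicit false
open Cfsg

namespace Cfsg.Agent.S1610
open H6.Hexa

/-- The hexacode has 64 words, minimum weight 4, and weight distribution 0^1 4^45 6^18. -/
theorem result (F : Type*) [Field F] [Fintype F] [DecidableEq F] (hF : Fintype.card F = 4) (ω : F) (hω : ω ^ 2 + ω + 1 = 0) : Nat.card ↥(Cfsg.hexacode F ω) = 64 ∧ (∀ x ∈ Cfsg.hexacode F ω, x ≠ 0 → (Finset.univ.filter fun i => x i ≠ 0).card = 4 ∨ (Finset.univ.filter fun i => x i ≠ 0).card = 6) ∧ {x : Fin 6 → F | x ∈ Cfsg.hexacode F ω ∧ (Finset.univ.filter fun i => x i ≠ 0).card = 4}.ncard = 45 ∧ {x : Fin 6 → F | x ∈ Cfsg.hexacode F ω ∧ (Finset.univ.filter fun i => x i ≠ 0).card = 6}.ncard = 18 := by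
  have h2 := two_eq hF
  obtain ⟨a, b, c⟩ := weights hF hω
  refine ⟨?_, fun x hx h0 => ?_, (ncard_enc h2 hω _).trans a, (ncard_enc h2 hω _).trans b⟩
  · have := ncard_enc h2 hω fun _ => True
    simp only [and_true, Finset.filter_true, Finset.card_univ, Fintype.card_prod, hF] at this
    exact this
  · rw [← ((mem_iff h2 hω).1 hx).eq] at h0 ⊢
    exact c _ h0

end Cfsg.Agent.S1610
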