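import Cfsg.Statements.S1612
import Cfsg.Agent.Base
import Cfsg.Agent.H75.Fischer

set_option autoImplicit false
open Cfsg

namespace Cfsg.Agent.S1612


/-- In a 3-transposition group (no solvable normal subgroup, perfect derived group), the normaliser of a commuting set of transpositions of maximum size contains a Sylow 2-subgroup and is doubly transitive on the set. -/
theorem result {G : Type*} [Group G] [Finite G] (hsol : ∀ N : Subgroup G, N.Normal → Group.IsSolvable ↥N → N = ⊥) (hperf : ⁅commutator G, commutator G⁆ = commutator G) {D : Set G} (hD : Cfsg.IsThreeTranspositionClass D) {E : Set G} (hE : E ⊆ D) (hc : ∀ a ∈ E, ∀ b ∈ E, Commute a b) (hmax : ∀ E' : Set G, E' ⊆ D → (∀ a ∈ E', ∀ b ∈ E', Commute a b) → E'.ncard ≤ E.ncard) : (∃ P : Sylow 2 G, (P : Subgroup G) ≤ Subgroup.normalizer E) ∧ ∀ a ∈ E, ∀ b ∈ E, ∀ c ∈ E, ∀ d ∈ E, a ≠ b → c ≠ d → ∃ g ∈ Subgroup.normalizer E, g * a * g⁻¹ = c ∧ g * b * g⁻¹ = d := by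
  obtain ⟨hprim, hw⟩ := H75.prim_of_fischer hsol hperf hD
  have hG := H75.class_group hD
  constructor
  · obtain ⟨P, hP⟩ := (H75.isPGroup_two_closure_of_commute
      (fun a ha => H75.tt_sq hD.1 (hE ha)) hc).exists_le_sylow
    refine ⟨P, fun g hg => H75.mem_normalizer_of_cj_subset ?_⟩
    rintro _ ⟨x, hx, rfl⟩
    refine H75.mem_of_max_commute hE hc hmax (hG.2.1 g x (hE hx)) fun a ha => ?_
    exact H75.tt_commute_of_mem_two_group hD.1 P.isPGroup' (hE ha) (hG.2.1 g x (hE hx))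
      (mul_mem (hP (Subgroup.subset_closure ha))
        (mul_mem (mul_mem hg (hP (Subgroup.subset_closure hx))) (inv_mem hg)))
  · intro a ha b hb c hc' d hd hab hcd
    obtain ⟨g, h1, h2⟩ := H75.trans_comm_pairs hG hprim (hE ha) (hE hb) (hE hc') (hE hd) hab hcd
      (hc a ha b hb) (hc c hc' d hd)
    have hF : ∀ u ∈ H75.cj g E, ∀ v ∈ H75.cj g E, Commute u v := by
      rintro _ ⟨u, hu, rfl⟩ _ ⟨v, hv, rfl⟩
      exact H75.commute_conj_iff.2 (hc u hu v hv)
    obtain ⟨x, hx, h3⟩ := H75.exists_conj_commute hD.1 hG.2.1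
      (C := Subgroup.centralizer {c, d}) (E := E) (F := H75.cj g E) hE
      (by rintro _ ⟨u, hu, rfl⟩; exact hG.2.1 g u (hE hu))
      (fun u hu => Subgroup.mem_centralizer_iff.2 (by
        rintro _ (rfl | rfl)
        exacts [hc _ hc' u hu, hc _ hd u hu]))
      (fun u hu => Subgroup.mem_centralizer_iff.2 (by
        rintro _ (rfl | rfl)
        exacts [hF _ ⟨a, ha, h1⟩ u hu, hF _ ⟨b, hb, h2⟩ u hu])) hc hF
    have hxc : x * c * x⁻¹ = c := H75.conj_eq_iff_commute.2
      (Subgroup.mem_centralizer_iff.1 hx c (by simp)).symm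
    have hxd : x * d * x⁻¹ = d := H75.conj_eq_iff_commute.2
      (Subgroup.mem_centralizer_iff.1 hx d (by simp)).symm
    refine ⟨x * g, H75.mem_normalizer_of_cj_subset ?_, by rw [← hxc, ← h1]; group,
      by rw [← hxd, ← h2]; group⟩
    rintro _ ⟨u, hu, rfl⟩
    refine H75.mem_of_max_commute hE hc hmax (hG.2.1 _ u (hE hu)) fun v hv => ?_
    have := h3 v hv _ ⟨u, hu, rfl⟩
    convert this using 1
    group

end Cfsg.Agent.S1612
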