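import Cfsg.Statements.S1614
import Cfsg.Agent.Base
import Cfsg.Agent.H75.Main

set_option autoImplicit false
open Cfsg

namespace Cfsg.Agent.S1614


/-- If the commuting transpositions of one transposition generate a solvable group, a Fischer 3-transposition group is S5, S6, PSU(4, 2) or PSU(5, 2). -/
theorem result {G : Type*} [Group G] [Finite G] (hsol : ∀ N : Subgroup G, N.Normal → Group.IsSolvable ↥N → N = ⊥) (hperf : ⁅commutator G, commutator G⁆ = commutator G) {D : Set G} (hD : Cfsg.IsThreeTranspositionClass D) (x : G) (hx : x ∈ D) (hs : Group.IsSolvable ↥(Subgroup.closure {y : G | y ∈ D ∧ y ≠ x ∧ Commute x y})) : Nonempty (G ≃* Equiv.Perm (Fin 5)) ∨ Nonempty (G ≃* Equiv.Perm (Fin 6)) ∨ ∃ (F : Type) (_ : Field F) (_ : Fintype F), Fintype.card F = 4 ∧ (Nonempty (G ≃* Cfsg.PSU 4 F 2) ∨ Nonempty (G ≃* Cfsg.PSU 5 F 2)) := by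
  have h3 := H75.rank3_of_fischer hsol hperf hD
  have hG := H75.class_group hD
  have hZ := H75.center_eq_bot_of_fischer hsol
  have hA : ¬ H75.HasA4 (H75.Dd D x) := fun h => h.not_solvable (h3.toTT.Dd x) hs
  by_cases hw : H75.WTriv (H75.Dd D x)
  swap
  · exact .inl ⟨(H75.convSym hG hZ (by norm_num) (H75.jobO3 G D h3 x hx hw)).choose⟩
  rcases h3.sp_or_u hx fun hv => (h3.rank3_Dd hx hv hw).not_solvable hs with ⟨n, hn, k⟩ | ⟨n, hn, k⟩
  · rcases hn.eq_or_lt with rfl | hn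
    · exact .inr (.inl ⟨(H75.convSym hG hZ (by norm_num) (H95.jobSp4 G D k)).choose⟩)
    · exact absurd (H95.jobSpA4 G D h3.toTT n hn k x hx) hA
  · obtain rfl | rfl | hn : n = 4 ∨ n = 5 ∨ 6 ≤ n := by omega
    · exact .inr (.inr ⟨H75.F4, _, _, H55.card_F4, .inl ⟨(H39.convU G D hG hZ 4 hn k).choose⟩⟩)
    · exact .inr (.inr ⟨H75.F4, _, _, H55.card_F4, .inr ⟨(H39.convU G D hG hZ 5 hn k).choose⟩⟩)
    · exact absurd (H39.jobUA4 G D h3.toTT n hn k x hx) hA

end Cfsg.Agent.S1614
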