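import Cfsg.Statements.S1616
import Cfsg.Agent.Base
import Cfsg.Agent.H75.Main

set_option autoImplicit false
open Cfsg

namespace Cfsg.Agent.S1616


/-- If O₂(⟨D_x⟩) is not central in ⟨D_x⟩ for some transposition x, the 3-transposition group is some Sp(2n, 2) or PSU(n, 2). -/
theorem result {G : Type*} [Group G] [Finite G] (hsol : ∀ N : Subgroup G, N.Normal → Group.IsSolvable ↥N → N = ⊥) (hperf : ⁅commutator G, commutator G⁆ = commutator G) {D : Set G} (hD : Cfsg.IsThreeTranspositionClass D) (x : G) (hx : x ∈ D) (h : ¬ Cfsg.pCore 2 ↥(Subgroup.closure {y : G | y ∈ D ∧ y ≠ x ∧ Commute x y}) ≤ Subgroup.center ↥(Subgroup.closure {y : G | y ∈ D ∧ y ≠ x ∧ Commute x y})) : (∃ n : ℕ, Nonempty (G ≃* Matrix.symplecticGroup (Fin n) (ZMod 2))) ∨ ∃ (F : Type) (_ : Field F) (_ : Fintype F) (n : ℕ), Fintype.card F = 4 ∧ Nonempty (G ≃* Cfsg.PSU n F 2) := by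
  have h3 := H75.rank3_of_fischer hsol hperf hD
  have hG := H75.class_group hD
  have hZ := H75.center_eq_bot_of_fischer hsol
  rcases h3.sp_or_u hx fun hv => h (((h3.toTT.Dd x).pCore_two_iff
    fun y hy => h3.exists_line_Dd hx hy).2 hv) with ⟨n, hn, k⟩ | ⟨n, hn, k⟩
  · obtain ⟨m, -, e, -⟩ := H95.convSp G D hG hZ n (by omega) k
    exact .inl ⟨m, ⟨e⟩⟩
  · exact .inr ⟨H75.F4, _, _, n, H55.card_F4, ⟨(H39.convU G D hG hZ n hn k).choose⟩⟩

end Cfsg.Agent.S1616
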