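import Cfsg.Statements.S1633
import Cfsg.Agent.H77.Conf
import Cfsg.Agent.H77.IsoU35

set_option autoImplicit false
open Cfsg

namespace Cfsg.Agent.S1633

open H77

/-- The Higman–Sims group acts transitively on 352 vectors, a set closed under x ↦ −w − x, with vector stabiliser isomorphic to PSU(3, 5). -/
theorem result (v w : ↥Cfsg.leechLattice) (hv : Cfsg.sqNorm (v : Cfsg.GolayPt → ℤ) = 48) (hw : Cfsg.sqNorm (w : Cfsg.GolayPt → ℤ) = 48) (hvw : Cfsg.dotInt (v : Cfsg.GolayPt → ℤ) (w : Cfsg.GolayPt → ℤ) = -32) (F : Type) [Field F] [Fintype F] (hF : Fintype.card F = 25) : {x : ↥Cfsg.leechLattice | Cfsg.sqNorm (x : Cfsg.GolayPt → ℤ) = 32 ∧ Cfsg.dotInt (v : Cfsg.GolayPt → ℤ) (x : Cfsg.GolayPt → ℤ) = 16 ∧ Cfsg.dotInt (w : Cfsg.GolayPt → ℤ) (x : Cfsg.GolayPt → ℤ) = -24}.ncard = 352 ∧ (∀ x ∈ {x : ↥Cfsg.leechLattice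 | Cfsg.sqNorm (x : Cfsg.GolayPt → ℤ) = 32 ∧ Cfsg.dotInt (v : Cfsg.GolayPt → ℤ) (x : Cfsg.GolayPt → ℤ) = 16 ∧ Cfsg.dotInt (w : Cfsg.GolayPt → ℤ) (x : Cfsg.GolayPt → ℤ) = -24}, -w - x ∈ {x : ↥Cfsg.leechLattice | Cfsg.sqNorm (x : Cfsg.GolayPt → ℤ) = 32 ∧ Cfsg.dotInt (v : Cfsg.GolayPt → ℤ) (x : Cfsg.GolayPt → ℤ) = 16 ∧ Cfsg.dotInt (w : Cfsg.GolayPt → ℤ) (x : Cfsg.GolayPt → ℤ) = -24}) ∧ (∀ x ∈ {x : ↥Cfsg.leechLattice | Cfsg.sqNorm (x : Cfsg.GolayPt → ℤ) = 32 ∧ Cfsg.dotInt (v : Cfsg.GolayPt → ℤ) (x : Cfsg.GolayPt → ℤ) = 16 ∧ Cfsg.dotInt (w : Cfsg.GolayPt → ℤ) (x : Cfsg.GolayPt → ℤ) = -24}, ∀ x' ∈ {x : ↥Cfsg.leechLattice | Cfsg.sqNorm (x : Cfsg.GolayPt → ℤ) = 32 ∧ Cfsg.dotInt (v : Cfsg.GolayPt → ℤ) (x : Cfsg.GolayPt → ℤ) = 16 ∧ Cfsg.dotInt (w : Cfsg.GolayPt → ℤ) (x : Cfsg.GolayPt → ℤ) = -24}, ∃ g : ↥Cfsg.Co0,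 g • v = v ∧ g • w = w ∧ g • x = x') ∧ ∀ x ∈ {x : ↥Cfsg.leechLattice | Cfsg.sqNorm (x : Cfsg.GolayPt → ℤ) = 32 ∧ Cfsg.dotInt (v : Cfsg.GolayPt → ℤ) (x : Cfsg.GolayPt → ℤ) = 16 ∧ Cfsg.dotInt (w : Cfsg.GolayPt → ℤ) (x : Cfsg.GolayPt → ℤ) = -24}, Nonempty (↥(MulAction.stabilizer ↥Cfsg.Co0 v ⊓ MulAction.stabilizer ↥Cfsg.Co0 w ⊓ MulAction.stabilizer ↥Cfsg.Co0 x) ≃* Cfsg.PSU 3 F 5) := by
  obtain ⟨g, rfl, hg⟩ := exists_hs hv hw hvw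
  have hO := hs_552.1.2.1.map2 g
  rw [hg] at hO
  have hs := set_third v (g • vV) 16 (-24) 8
  refine ⟨hs ▸ hO.1, ?_, ?_, ?_⟩
  · rintro x ⟨h1, h2, h3⟩
    change nm x = 32 at h1
    change dt v x = 16 at h2
    change dt (g • vV) x = -24 at h3
    change nm _ = 48 at hw
    change dt _ _ = -32 at hvw
    refine ⟨?_, ?_, ?_⟩
    · show nm (-(g • vV) - x) = 32
      rw [nm_sub, nm_neg, dt_neg_left, h1, h3, hw]; rfl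
    · show dt v (-(g • vV) - x) = 16
      rw [dt_sub_right, dt_neg_right, h2, hvw]; rfl
    · show dt (g • vV) (-(g • vV) - x) = -24
      rw [dt_sub_right, dt_neg_right, h3, dt_self, hw]; rfl
  · rw [hs]
    intro x hx x' hx'
    obtain ⟨k, hk, e⟩ := hO.trans hx hx'
    rw [← St2_third, mem_St2] at hk
    exact ⟨k, hk.1, hk.2, e⟩
  · rw [hs, ← hg]
    intro x hx
    obtain ⟨k, h1, h2, rfl⟩ := exists_triple hs_552.1.2.1 vY_mem g hx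
    obtain ⟨e⟩ := pu35_iso F hF
    refine ⟨(conjEquiv k fun l => ?_).symm.trans e⟩
    rw [← conj_mem_St3 k vV, h1, h2, hg]
    show _ ∈ St2 _ _ ⊓ _ ↔ _ ∈ St2 _ _ ⊓ _
    rw [St2_third v]

end Cfsg.Agent.S1633
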