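import Cfsg.Statements.S1635
import Cfsg.Agent.Base
import Cfsg.Agent.H76.M24Mod

set_option autoImplicit false
open Cfsg

namespace Cfsg.Agent.S1635

/-- Coset leaders of the length-24 code: a coset contains a unique word of weight ≤ 3, or else exactly six words of weight 4 and none lighter. -/
theorem result (w : Cfsg.GolayPt → ZMod 2) : ({v : Cfsg.GolayPt → ZMod 2 | hammingNorm v ≤ 4 ∧ w - v ∈ Cfsg.golayCode}.ncard = 1 ∧ ∃ v : Cfsg.GolayPt → ZMod 2, hammingNorm v ≤ 3 ∧ w - v ∈ Cfsg.golayCode) ∨ ({v : Cfsg.GolayPt → ZMod 2 | hammingNorm v ≤ 4 ∧ w - v ∈ Cfsg.golayCode}.ncard = 6 ∧ ∀ v : Cfsg.GolayPt → ZMod 2, w - v ∈ Cfsg.golayCode → hammingNorm v ≤ 4 → hammingNorm v = 4) := by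
  have hset : {v : Cfsg.GolayPt → ZMod 2 | hammingNorm v ≤ 4 ∧ w - v ∈ Cfsg.golayCode} =
      H76.ind '' {s | s.card ≤ 4 ∧ H76.ind s - w ∈ Cfsg.golayCode} := by
    ext v
    constructor
    · rintro ⟨h1, h2⟩
      refine ⟨support₂ v, ⟨by rwa [← H76.hammingNorm_eq_card], ?_⟩, H76.ind_support₂ v⟩
      rw [H76.ind_support₂, ← neg_sub]; exact Cfsg.golayCode.neg_mem h2
    · rintro ⟨s, ⟨h1, h2⟩, rfl⟩
      exact ⟨by rwa [H76.hammingNorm_ind], by rw [← neg_sub]; exact Cfsg.golayCode.neg_mem h2⟩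
  have key : ∀ s t : Finset Cfsg.GolayPt, s.card ≤ 4 → t.card ≤ 4 → H76.ind s - w ∈ Cfsg.golayCode →
      H76.ind t - w ∈ Cfsg.golayCode → s ≠ t → s.card = 4 ∧ t.card = 4 := by
    intro s t hs ht h1 h2 hne
    have := H76.coset_small Cfsg.golayCode H76.golay_min hs ht
      (by simpa using Cfsg.golayCode.sub_mem h1 h2) hne
    exact ⟨this.1, this.2.1⟩
  rw [hset, Set.ncard_image_of_injective _ H76.ind_injective]
  by_cases h : ∃ s : Finset Cfsg.GolayPt, s.card ≤ 3 ∧ H76.ind s - w ∈ Cfsg.golayCode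
  · obtain ⟨s, h1, h2⟩ := h
    refine Or.inl ⟨Set.ncard_eq_one.2 ⟨s, ?_⟩, H76.ind s, by rwa [H76.hammingNorm_ind],
      by rw [← neg_sub]; exact Cfsg.golayCode.neg_mem h2⟩
    ext t
    constructor
    · rintro ⟨h3, h4⟩
      by_contra hne
      have := key t s h3 (by omega) h4 h2 hne
      omega
    · rintro rfl; exact ⟨by omega, h2⟩
  · have h6 := (H76.coset_dichotomy H72.card_golayPt Cfsg.golayCode H72.finrank_golayCode
      H76.golay_min w).resolve_left h
    push Not at h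
    refine Or.inr ⟨?_, fun v h1 h2 => ?_⟩
    · rw [← h6, ← Set.ncard_coe_finset]
      congr 1
      ext s
      rw [Finset.mem_coe, H76.mem_cosetTetrads]
      exact ⟨fun hs => ⟨by have := mt (h s) (not_not.2 hs.2); have := hs.1; omega, hs.2⟩,
        fun hs => ⟨hs.1.le, hs.2⟩⟩
    · have := mt (h (support₂ v)) (not_not.2 (by
        rw [H76.ind_support₂, ← neg_sub]; exact Cfsg.golayCode.neg_mem h1))
      rw [← H76.hammingNorm_eq_card] at this
      omega

end Cfsg.Agent.S1635
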