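import Cfsg.Statements.S1636
import Cfsg.Agent.Base
import Cfsg.Agent.H76.M24Mod

set_option autoImplicit false
open Cfsg

namespace Cfsg.Agent.S1636

set_option maxRecDepth 100000

theorem norm_restrict (w : Cfsg.GolayPt → ZMod 2) :
    hammingNorm (fun x : ZMod 23 => w (some x)) = ((Cfsg.support₂ w).erase none).card := by
  rw [H76.hammingNorm_eq_card, ← Finset.card_map Function.Embedding.some]
  congr 1
  ext (_ | x) <;> simp [H76.mem_support₂]

theorem seven_le {w : Cfsg.GolayPt → ZMod 2} (hw : w ∈ Cfsg.golayCode) (h0 : w ≠ 0) :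
    7 ≤ hammingNorm (fun x : ZMod 23 => w (some x)) := by
  have h1 := H76.golay_min w hw h0
  have h2 := Finset.pred_card_le_card_erase (s := Cfsg.support₂ w) (a := none)
  rw [norm_restrict]
  rw [H76.hammingNorm_eq_card] at h1
  omega

theorem count (P : ℕ → Prop) (f : ℕ → Bool) (hf : ∀ n, f n = true ↔ P n) :
    {u : ZMod 23 → ZMod 2 | u ∈ {u : ZMod 23 → ZMod 2 | ∃ w ∈ Cfsg.golayCode, ∀ x : ZMod 23,
      u x = w (some x)} ∧ P (hammingNorm u)}.ncard =
    (((List.range 4096).map H72.enc).filter (fun m => f (H72.pop (Nat.land m 8388607)))).length := by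
  have h1 : ∀ m, H72.pop (Nat.land m 8388607) = ((H72.ofMask m).erase none).card := by
    intro m
    have : H72.ofMask 8388607 = Finset.univ.erase none := by decide +kernel
    rw [← H72.card_ofMask, H72.ofMask_land, this, Finset.inter_erase, Finset.inter_univ]
  rw [← H72.ncard_of_list _ (H72.codeL_nodup.filter _)
    (fun m hm => H72.lt_of_isG (H72.mem_codeL.1 (List.mem_filter.1 hm).1))
    {s | s ∈ H72.cSets ∧ P (s.erase none).card} (fun s => ?_)]
  · symm
    apply Set.ncard_congr (fun s _ => fun x : ZMod 23 => H76.ind s (some x))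
    · intro s hs
      exact ⟨⟨_, H76.ind_mem_golay.2 hs.1, fun _ => rfl⟩, by
        rw [norm_restrict, H76.support₂_ind]; exact hs.2⟩
    · intro s t hs ht hst
      by_contra hne
      have := seven_le (Cfsg.golayCode.sub_mem (H76.ind_mem_golay.2 hs.1) (H76.ind_mem_golay.2 ht.1))
        (fun h => hne (H76.ind_injective (sub_eq_zero.1 h)))
      rw [show (fun x : ZMod 23 => (H76.ind s - H76.ind t) (some x)) = 0 from
        funext fun x => sub_eq_zero.2 (congrFun hst x), hammingNorm_zero] at this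
      omega
    · rintro u ⟨⟨w, hw, hu⟩, hP⟩
      obtain rfl : u = fun x => w (some x) := funext hu
      exact ⟨Cfsg.support₂ w, ⟨H72.support_mem_cSets_iff.2 hw, by rwa [← norm_restrict]⟩,
        by rw [H76.ind_support₂]⟩
  · simp only [Set.mem_setOf_eq, List.mem_filter, H72.mem_codeL, H72.mem_cSets_iff, hf, h1]
    constructor
    · rintro ⟨⟨m, hm, rfl⟩, h⟩; exact ⟨m, ⟨hm, h⟩, rfl⟩
    · rintro ⟨m, ⟨hm, h⟩, rfl⟩; exact ⟨⟨m, hm, rfl⟩, h⟩


/-- The punctured length-23 code has weight distribution 0^1 7^253 8^506 11^1288 12^1288 15^506 16^253 23^1. -/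
theorem result : {u : ZMod 23 → ZMod 2 | ∃ w ∈ Cfsg.golayCode, ∀ x : ZMod 23, u x = w (some x)}.ncard = 4096 ∧ {u : ZMod 23 → ZMod 2 | u ∈ {u : ZMod 23 → ZMod 2 | ∃ w ∈ Cfsg.golayCode, ∀ x : ZMod 23, u x = w (some x)} ∧ hammingNorm u = 7}.ncard = 253 ∧ {u : ZMod 23 → ZMod 2 | u ∈ {u : ZMod 23 → ZMod 2 | ∃ w ∈ Cfsg.golayCode, ∀ x : ZMod 23, u x = w (some x)} ∧ hammingNorm u = 8}.ncard = 506 ∧ {u : ZMod 23 → ZMod 2 | u ∈ {u : ZMod 23 → ZMod 2 | ∃ w ∈ Cfsg.golayCode, ∀ x : ZMod 23, u x = w (some x)} ∧ hammingNorm u = 11}.ncard = 1288 ∧ {u : ZMod 23 → ZMod 2 | u ∈ {u : ZMod 23 → ZMod 2 | ∃ w ∈ Cfsg.golayCode, ∀ x : ZMod 23, u x = w (some x)} ∧ hammingNorm u = 12}.ncard = 1288 ∧ {u : ZMod 23 → ZMod 2 | u ∈ {u : ZMod 23 → ZMod 2 | ∃ w ∈ Cfsg.golayCode, ∀ x : ZMod 23, u x = w (some x)} ∧ hammingNorm u = 15}.ncard = 506 ∧ {u : ZMod 23 → ZMod 2 | u ∈ {u : ZMod 23 → ZMod 2 | ∃ w ∈ Cfsg.golayCode, ∀ x : ZMod 23, u x = w (some x)} ∧ hammingNorm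 u = 16}.ncard = 253 ∧ ∀ u ∈ {u : ZMod 23 → ZMod 2 | ∃ w ∈ Cfsg.golayCode, ∀ x : ZMod 23, u x = w (some x)}, u ≠ 0 → 7 ≤ hammingNorm u := by
  have key : ∀ k, _ := fun k => count (fun n => n = k) (fun n => Nat.beq n k) (fun _ => Nat.beq_eq.to_iff)
  refine ⟨?_, (key 7).trans (by decide +kernel), (key 8).trans (by decide +kernel),
    (key 11).trans (by decide +kernel), (key 12).trans (by decide +kernel),
    (key 15).trans (by decide +kernel), (key 16).trans (by decide +kernel), ?_⟩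
  · have := count (fun _ => True) (fun _ => true) (by simp)
    simpa using this
  · rintro u ⟨w, hw, hu⟩ h0
    obtain rfl : u = fun x => w (some x) := funext hu
    exact seven_le hw (fun h => h0 (by rw [h]; rfl))

end Cfsg.Agent.S1636
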