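import Cfsg.Statements.S1637
import Cfsg.Agent.Base
import Cfsg.Agent.H76.M24Mod
import Cfsg.Agent.S1636

set_option autoImplicit false
open Cfsg

namespace Cfsg.Agent.S1637

/-- The punctured length-23 code is a perfect 3-error-correcting code: each word of length 23 is within distance 3 of exactly one codeword. -/
theorem result (u : ZMod 23 → ZMod 2) : ∃! c : ZMod 23 → ZMod 2, c ∈ {u : ZMod 23 → ZMod 2 | ∃ w ∈ Cfsg.golayCode, ∀ x : ZMod 23, u x = w (some x)} ∧ hammingDist u c ≤ 3 := by
  let w : Cfsg.GolayPt → ZMod 2 := fun p => match p with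
    | none => 1 + ∑ x, u x
    | some x => u x
  have z1 : ∀ a b : ZMod 2, -a + (a - b) = b := by decide
  have z2 : ∀ a b : ZMod 2, -a + b = a - b := by decide
  have hw : ∑ p, w p = 1 := by
    rw [Fintype.sum_option]
    show 1 + ∑ x, u x + ∑ x, u x = 1
    rw [add_assoc, CharTwo.add_self_eq_zero, add_zero]
  have hsum : ∀ c ∈ Cfsg.golayCode, ∑ p, c p = 0 := fun c hc => by
    simpa using H72.dot_eq_zero hc (w := 1) (Submodule.subset_span (Set.mem_union_right _ rfl))
  obtain ⟨s, hs, hsw⟩ := (H76.coset_dichotomy H72.card_golayPt Cfsg.golayCode H72.finrank_golayCode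
      H76.golay_min w).resolve_right (fun h6 => by
    obtain ⟨s, hs⟩ := Finset.card_pos.1 (show 0 < (H76.cosetTetrads Cfsg.golayCode w).card by omega)
    rw [H76.mem_cosetTetrads] at hs
    have h1 := hsum _ hs.2
    have h2 : ∑ p, H76.ind s p = (s.card : ZMod 2) := by simp [H76.ind]
    simp only [Pi.sub_apply, Finset.sum_sub_distrib, hw, h2, hs.1] at h1
    exact absurd h1 (by decide))
  refine ⟨fun x => (w - H76.ind s) (some x), ⟨⟨w - H76.ind s, by
    rw [← neg_sub]; exact Cfsg.golayCode.neg_mem hsw, fun _ => rfl⟩, ?_⟩, ?_⟩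
  · rw [hammingDist_eq_hammingNorm]
    have h1 := Cfsg.Agent.S1636.norm_restrict (H76.ind s)
    rw [H76.support₂_ind] at h1
    have h2 := Finset.card_erase_le (s := s) (a := none)
    have h3 : (-u + fun x => (w - H76.ind s) (some x)) = fun x => H76.ind s (some x) := by
      ext x; exact z1 _ _
    rw [h3]; omega
  · rintro c ⟨⟨v, hv, hc⟩, hd⟩
    obtain rfl : c = fun x => v (some x) := funext hc
    by_cases hne : v - (w - H76.ind s) = 0
    · rw [sub_eq_zero.1 hne]
    exfalso
    have h1 := Cfsg.Agent.S1636.seven_le (Cfsg.golayCode.sub_mem hv (show w - H76.ind s ∈ _ by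
      rw [← neg_sub]; exact Cfsg.golayCode.neg_mem hsw)) hne
    have h2 := Cfsg.Agent.S1636.norm_restrict (H76.ind s)
    rw [H76.support₂_ind] at h2
    have h3 := Finset.card_erase_le (s := s) (a := none)
    have h4 := hammingDist_triangle_left (fun x => v (some x)) (fun x => (w - H76.ind s) (some x)) u
    have h5 : hammingDist u (fun x => (w - H76.ind s) (some x)) =
        hammingNorm (fun x => H76.ind s (some x)) := by
      rw [hammingDist_eq_hammingNorm]; congr 1; ext x; exact z1 _ _
    have h6 : hammingDist (fun x => v (some x)) (fun x => (w - H76.ind s) (some x)) =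
        hammingNorm (fun x => (v - (w - H76.ind s)) (some x)) := by
      rw [hammingDist_eq_hammingNorm]; congr 1; ext x; exact z2 _ _
    omega

end Cfsg.Agent.S1637
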