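import Cfsg.Agent.Base
import Cfsg.Statements.S1639
import Cfsg.Agent.H72.Coding

set_option autoImplicit false
open scoped Pointwise
open Cfsg

namespace Cfsg.Agent.S1639

open H72 MulAction
open scoped Pointwise

/-- The point stabiliser acts on the 1288 dodecads through the point with rank 4 and subdegrees 1, 165, 330, 792, distinguished by intersection 4, 8, 6 with the fixed dodecad. -/
theorem result (x : Cfsg.GolayPt) (d : Finset Cfsg.GolayPt) (hd : d ∈ Cfsg.dodecads) (hx : x ∈ d) : {d' : Finset Cfsg.GolayPt | d' ∈ Cfsg.dodecads ∧ x ∈ d' ∧ (d ∩ d').card = 4}.ncard = 165 ∧ {d' : Finset Cfsg.GolayPt | d' ∈ Cfsg.dodecads ∧ x ∈ d' ∧ (d ∩ d').card = 8}.ncard = 330 ∧ {d' : Finset Cfsg.GolayPt | d' ∈ Cfsg.dodecads ∧ x ∈ d' ∧ (d ∩ d').card = 6}.ncard = 792 ∧ ∀ d' d'' : Finset Cfsg.GolayPt, d' ∈ Cfsg.dodecads → d'' ∈ Cfsg.dodecads → x ∈ d' → x ∈ d'' → (d ∩ d').card = (d ∩ d'').card → ∃ g : Equiv.Perm Cfsg.GolayPt,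 g ∈ Cfsg.M24 ∧ g x = x ∧ g • d = d ∧ g • d' = d'' := by
  obtain ⟨g, hg, rfl, rfl⟩ := std_dod_pt hd hx
  have key : ∀ k, {o | o ∈ dodecads ∧ g (pt 0) ∈ o ∧ (g • ofMask dod0 ∩ o).card = k}.ncard =
      (dodL.filter fun m => tb m 0 && Nat.beq (pop (Nat.land dod0 m)) k).length := by
    intro k
    rw [← ncard_dodecads_filter (fun o => pt 0 ∈ o ∧ (ofMask dod0 ∩ o).card = k) _
      (fun m _ => by
        rw [card_inter_ofMask, Bool.and_eq_true, Nat.beq_eq, tb_eq, pt_mem_ofMask (by norm_num)])]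
    exact ncard_smul_eq g _ _ fun x => by
      simp only [Set.mem_ofPred_eq, smul_mem_dodecads_iff hg, card_smul_inter, apply_mem_smul_iff]
  simp only [key]
  refine ⟨by decide +kernel, by decide +kernel, by decide +kernel, fun d' d'' hd' hd'' h1 h2 h => ?_⟩
  obtain ⟨a, ha, e1⟩ := mem_dodecads_iff.1 (smul_mem_dodecads (Subgroup.inv_mem _ hg) hd')
  obtain ⟨b, hb, e2⟩ := mem_dodecads_iff.1 (smul_mem_dodecads (Subgroup.inv_mem _ hg) hd'')
  rw [eq_inv_smul_iff] at e1 e2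
  subst e1 e2
  rw [card_smul_inter, card_smul_inter, card_inter_ofMask, card_inter_ofMask] at h
  rw [apply_mem_smul_iff, pt_mem_ofMask (by norm_num), ← tb_eq] at h1 h2
  obtain ⟨k, hk, e⟩ := codC.conj pg11_mem (fun _ h => h.1.1) dodL isG_of_mem_dodL (fun c => tb c 0)
    (fun c => pop (Nat.land dod0 c)) [340831, 15974505, 11472927, 8245261] (by decide +kernel) 793 (by decide +kernel) ha hb h1 h2 h
  rw [mem_M11] at hk
  refine ⟨g * k * g⁻¹, Subgroup.mul_mem _ (Subgroup.mul_mem _ hg hk.1) (Subgroup.inv_mem _ hg), ?_, ?_, ?_⟩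
  · simp [hk.2.2]
  · rw [mul_smul, inv_smul_smul, mul_smul, hk.2.1]
  · rw [mul_smul, inv_smul_smul, mul_smul, e]

end Cfsg.Agent.S1639
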