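import Cfsg.Statements.S1641
import Cfsg.Agent.H77.Conf

set_option autoImplicit false
open Cfsg

namespace Cfsg.Agent.S1641

/-- The third Conway group acts on the 11178 cosets of the Higman–Sims group with rank 5 and subdegrees 1, 352, 1100, 4125, 5600. -/
theorem result (u x : ↥Cfsg.leechLattice) (hu : Cfsg.sqNorm (u : Cfsg.GolayPt → ℤ) = 48) (hx : x ∈ {x : ↥Cfsg.leechLattice | Cfsg.sqNorm (x : Cfsg.GolayPt → ℤ) = 32 ∧ Cfsg.dotInt (u : Cfsg.GolayPt → ℤ) (x : Cfsg.GolayPt → ℤ) = -16}) : ∃ y₁ ∈ {x : ↥Cfsg.leechLattice | Cfsg.sqNorm (x : Cfsg.GolayPt → ℤ) = 32 ∧ Cfsg.dotInt (u : Cfsg.GolayPt → ℤ) (x : Cfsg.GolayPt → ℤ) = -16}, ∃ y₂ ∈ {x : ↥Cfsg.leechLattice | Cfsg.sqNorm (x : Cfsg.GolayPt → ℤ) = 32 ∧ Cfsg.dotInt (u : Cfsg.GolayPt → ℤ) (x : Cfsg.GolayPt → ℤ) = -16}, ∃ y₃ ∈ {x : ↥Cfsg.leechLattice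 | Cfsg.sqNorm (x : Cfsg.GolayPt → ℤ) = 32 ∧ Cfsg.dotInt (u : Cfsg.GolayPt → ℤ) (x : Cfsg.GolayPt → ℤ) = -16}, ∃ y₄ ∈ {x : ↥Cfsg.leechLattice | Cfsg.sqNorm (x : Cfsg.GolayPt → ℤ) = 32 ∧ Cfsg.dotInt (u : Cfsg.GolayPt → ℤ) (x : Cfsg.GolayPt → ℤ) = -16}, (MulAction.orbit ↥(MulAction.stabilizer ↥Cfsg.Co0 u ⊓ MulAction.stabilizer ↥Cfsg.Co0 x) y₁).ncard = 352 ∧ (MulAction.orbit ↥(MulAction.stabilizer ↥Cfsg.Co0 u ⊓ MulAction.stabilizer ↥Cfsg.Co0 x) y₂).ncard = 1100 ∧ (MulAction.orbit ↥(MulAction.stabilizer ↥Cfsg.Co0 u ⊓ MulAction.stabilizer ↥Cfsg.Co0 x) y₃).ncard = 4125 ∧ (MulAction.orbit ↥(MulAction.stabilizer ↥Cfsg.Co0 u ⊓ MulAction.stabilizer ↥Cfsg.Co0 x) y₄).ncard = 5600 ∧ {x : ↥Cfsg.leechLattice | Cfsg.sqNorm (x : Cfsg.GolayPt → ℤ) = 32 ∧ Cfsg.dotInt (u : Cfsg.GolayPt → ℤ) (x : Cfsg.GolayPt → ℤ) =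 -16} = {x} ∪ MulAction.orbit ↥(MulAction.stabilizer ↥Cfsg.Co0 u ⊓ MulAction.stabilizer ↥Cfsg.Co0 x) y₁ ∪ MulAction.orbit ↥(MulAction.stabilizer ↥Cfsg.Co0 u ⊓ MulAction.stabilizer ↥Cfsg.Co0 x) y₂ ∪ MulAction.orbit ↥(MulAction.stabilizer ↥Cfsg.Co0 u ⊓ MulAction.stabilizer ↥Cfsg.Co0 x) y₃ ∪ MulAction.orbit ↥(MulAction.stabilizer ↥Cfsg.Co0 u ⊓ MulAction.stabilizer ↥Cfsg.Co0 x) y₄ := by
  obtain ⟨g, rfl, rfl⟩ := H77.exists_VU1 hu hx.1 hx.2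
  obtain ⟨⟨-, h2, h3, h4, h5⟩, h⟩ := H77.hs_11178
  have a := h5.map2 g
  have b := h2.map2 g
  have c := h4.map2 g
  have d := h3.map2 g
  obtain ⟨y1, hy1⟩ := a.exists_mem
  obtain ⟨y2, hy2⟩ := b.exists_mem
  obtain ⟨y3, hy3⟩ := c.exists_mem
  obtain ⟨y4, hy4⟩ := d.exists_mem
  refine ⟨y1, hy1.1, y2, hy2.1, y3, hy3.1, y4, hy4.1, a.ncard_orbit hy1, b.ncard_orbit hy2,
    c.ncard_orbit hy3, d.ncard_orbit hy4, ?_⟩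
  rw [a.2 y1 hy1, b.2 y2 hy2, c.2 y3 hy3, d.2 y4 hy4]
  ext y
  simp only [Set.mem_union, Set.mem_singleton_iff]
  constructor
  · intro hy
    have hy' : y ∈ H77.S1 (g • H77.vV) (-16) := hy
    have := h (g⁻¹ • y) (by rw [← H77.smul_mem_S1 g, smul_inv_smul]; exact hy')
    rw [← H77.dt_smul g, smul_inv_smul] at this
    rcases this with e | e | e | e | e
    · exact Or.inl (Or.inl (Or.inl (Or.inl (H77.eq_of_dt hx.1 hy.1 e))))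
    · exact Or.inl (Or.inl (Or.inr ⟨hy', e⟩))
    · exact Or.inr ⟨hy', e⟩
    · exact Or.inl (Or.inr ⟨hy', e⟩)
    · exact Or.inl (Or.inl (Or.inl (Or.inr ⟨hy', e⟩)))
  · rintro ((((rfl | e) | e) | e) | e)
    · exact hx
    all_goals exact e.1

end Cfsg.Agent.S1641
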