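import Cfsg.Statements.S1652
import Cfsg.Agent.H4.JL16

set_option autoImplicit false
open Cfsg

namespace Cfsg.Agent.S1652

/-- A group of J₃ type contains SL(2,16):2: let a finite simple group have a single conjugacy class of involutions and an involution t whose centraliser C has a normal extraspecial subgroup Q of order 32 with no elementary abelian subgroup of order 8, whose centraliser in C lies in Q, with C / Q isomorphic to the alternating group of degree 5. Then some subgroup H has a normal subgroup of index 2 isomorphic to the special linear group of dimension 2 over a field with 16 elements. -/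
theorem result {G : Type*} [Group G] [Finite G] [IsSimpleGroup G] (t : G) (ht : orderOf t = 2) (Q : Subgroup (Subgroup.centralizer ({t} : Set G))) [Q.Normal] (hQ : Cfsg.IsExtraspecial 2 Q) (hcard : Nat.card Q = 32) (hminus : ∀ E : Subgroup Q, Cfsg.IsElementaryAbelian 2 E → Nat.card E ≤ 2 ^ 2) (h2c : Subgroup.centralizer (Q : Set (Subgroup.centralizer ({t} : Set G))) ≤ Q) (e : (Subgroup.centralizer ({t} : Set G)) ⧸ Q ≃* alternatingGroup (Fin 5)) (hone : ∀ x y : G, orderOf x = 2 → orderOf y = 2 → IsConj x y) : ∃ (H : Subgroup G) (N : Subgroup H) (K : Type) (_ : Field K) (_ : Fintype K), N.Normal ∧ N.index = 2 ∧ Fintype.card K = 16 ∧ Nonempty (N ≃* Matrix.SpecialLinearGroup (Fin 2) K) := by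
  have hf := H4.hf_of_simple ht hcard
  obtain ⟨j, T, ⟨φ⟩⟩ := (H4.JT_of_quot ht Q hcard hQ e hf).one hf hone
  refine H4.M3.l216 T (φ.toMonoidHom.comp (QuotientGroup.mk' _)) (fun x e => H4.M3.cube
    ((QuotientGroup.eq_one_iff x).mp (φ.injective (e.trans φ.map_one.symm)))) ?_
  exact (congrArg φ ((QuotientGroup.eq_one_iff _).mpr H4.M3.tau8)).trans φ.map_one

end Cfsg.Agent.S1652
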