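import Cfsg.Statements.S1679
import Cfsg.Agent.H95.G24
import Cfsg.Agent.H71.Coset

set_option autoImplicit false
open Cfsg

namespace Cfsg.Agent.S1679

/-- In the presented sporadic Suzuki group (generators a, …, g), the subgroup generated by the images of a, …, f is isomorphic to the adjoint Chevalley group of type G₂ over a field with four elements. -/
theorem result : ∃ (K : Type) (_ : Field K) (_ : Fintype K), Fintype.card K = 4 ∧ Nonempty ((((Subgroup.closure ({Cfsg.Spor.Suz.a, Cfsg.Spor.Suz.b, Cfsg.Spor.Suz.c, Cfsg.Spor.Suz.d, Cfsg.Spor.Suz.e, Cfsg.Spor.Suz.f} : Set (FreeGroup Cfsg.Spor.Suz.Gen))).map (PresentedGroup.mk (Cfsg.Spor.coxRelators Cfsg.Spor.Suz.edges ∪ {r | r ∈ Cfsg.Spor.Suz.extra})))) ≃* Cfsg.Lie.chevG2.group K) := by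
  have hH := (H71.map_closure_eq_gen (PresentedGroup.mk (Cfsg.Spor.coxRelators Cfsg.Spor.Suz.edges ∪
    {r | r ∈ Cfsg.Spor.Suz.extra})) H71.Suz.val
    [Spor.Suz.a, Spor.Suz.b, Spor.Suz.c, Spor.Suz.d, Spor.Suz.e, Spor.Suz.f] [0, 1, 2, 3, 4, 5] rfl
    (X := {Spor.Suz.a, Spor.Suz.b, Spor.Suz.c, Spor.Suz.d, Spor.Suz.e, Spor.Suz.f})
    (by ext; simp))
  obtain ⟨φ⟩ := H95.G24.equiv_F4
  exact ⟨H6.F4, inferInstance, inferInstance, rfl, ⟨(MulEquiv.subgroupCongr hH).trans φ⟩⟩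

end Cfsg.Agent.S1679
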