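import Cfsg.Statements.S1688
import Cfsg.Agent.H71.Fi23

set_option autoImplicit false
open Cfsg

namespace Cfsg.Agent.S1688

/-- In the presented Fischer group Fi₂₃, the subgroup generated by the images of a, …, i is a non-split double cover of the presented Fischer group Fi₂₂. -/
theorem result : Cfsg.IsNonsplitDoubleCover (((Subgroup.closure ({Cfsg.Spor.Fi23.a, Cfsg.Spor.Fi23.b, Cfsg.Spor.Fi23.c, Cfsg.Spor.Fi23.d, Cfsg.Spor.Fi23.e, Cfsg.Spor.Fi23.f, Cfsg.Spor.Fi23.g, Cfsg.Spor.Fi23.h, Cfsg.Spor.Fi23.i} : Set (FreeGroup Cfsg.Spor.Fi23.Gen))).map (PresentedGroup.mk (Cfsg.Spor.coxRelators Cfsg.Spor.Fi23.edges ∪ {r | r ∈ Cfsg.Spor.Fi23.extra})))) Cfsg.Spor.Fi22 := by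
  rw [(H71.map_closure_eq_gen (PresentedGroup.mk (Cfsg.Spor.coxRelators Cfsg.Spor.Fi23.edges ∪
    {r | r ∈ Cfsg.Spor.Fi23.extra})) H71.Fi23.val
    [Spor.Fi23.a, Spor.Fi23.b, Spor.Fi23.c, Spor.Fi23.d, Spor.Fi23.e, Spor.Fi23.f, Spor.Fi23.g,
      Spor.Fi23.h, Spor.Fi23.i] [2, 3, 4, 5, 6, 7, 8, 9, 10] rfl
    (X := {Spor.Fi23.a, Spor.Fi23.b, Spor.Fi23.c, Spor.Fi23.d, Spor.Fi23.e, Spor.Fi23.f, Spor.Fi23.g,
      Spor.Fi23.h, Spor.Fi23.i}) (by ext; simp))]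
  exact H71.Fi23.nonsplitH

end Cfsg.Agent.S1688
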