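import Cfsg.Statements.S1712
import Cfsg.Agent.H73.J4M

set_option autoImplicit false
open Cfsg

namespace Cfsg.Agent.S1712

/-- In the presented fourth Janko group (generators x, y, t), the subgroup generated by the images of x, y and (y * w⁻¹ * t * w) ^ 3 with w = (y * x) ^ 4 * y⁻¹ * x has index 173067389. -/
theorem result : (((Subgroup.closure ({Cfsg.Spor.J4.x, Cfsg.Spor.J4.y, (Cfsg.Spor.J4.y * ((Cfsg.Spor.J4.y * Cfsg.Spor.J4.x) ^ 4 * Cfsg.Spor.J4.y⁻¹ * Cfsg.Spor.J4.x)⁻¹ * Cfsg.Spor.J4.t * ((Cfsg.Spor.J4.y * Cfsg.Spor.J4.x) ^ 4 * Cfsg.Spor.J4.y⁻¹ * Cfsg.Spor.J4.x)) ^ 3} : Set (FreeGroup Cfsg.Spor.J4.Gen))).map (PresentedGroup.mk (Cfsg.Spor.coxRelators Cfsg.Spor.J4.edges ∪ {r | r ∈ Cfsg.Spor.J4.extra})))).index = 173067389 := by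
  rw [← H73.J4T.index_Ht]
  congr 1
  rw [MonoidHom.map_closure, H73.J4T.Ht, H73.genW]
  congr 1
  have key : ∀ r : FreeGroup Cfsg.Spor.J4.Gen, PresentedGroup.mk (Cfsg.Spor.coxRelators Cfsg.Spor.J4.edges ∪ {r | r ∈ Cfsg.Spor.J4.extra}) r =
      H71.evw H73.J4s.val (H71.fw 2 H73.J4s.code r) := by
    intro r
    rw [H71.evw_fw H73.J4s.hv]
    refine DFunLike.congr_fun (FreeGroup.ext_hom _ _ fun g => ?_) r
    rw [FreeGroup.lift_apply_of, H73.J4s.hval]; rfl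
  ext g
  simp only [Set.image_insert_eq, Set.image_singleton, Set.mem_insert_iff, Set.mem_singleton_iff, key,
    List.mem_cons, List.not_mem_nil, or_false, Set.mem_setOf_eq, exists_eq_or_imp, exists_eq_left]
  rw [show H71.fw 2 H73.J4s.code Cfsg.Spor.J4.x = [2] by decide +kernel,
    show H71.fw 2 H73.J4s.code Cfsg.Spor.J4.y = [0] by decide +kernel,
    show H71.fw 2 H73.J4s.code ((Cfsg.Spor.J4.y * ((Cfsg.Spor.J4.y * Cfsg.Spor.J4.x) ^ 4 * Cfsg.Spor.J4.y⁻¹ * Cfsg.Spor.J4.x)⁻¹ * Cfsg.Spor.J4.t * ((Cfsg.Spor.J4.y * Cfsg.Spor.J4.x) ^ 4 * Cfsg.Spor.J4.y⁻¹ * Cfsg.Spor.J4.x)) ^ 3) = H73.J4T.W0 by decide +kernel]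
  simp only [eq_comm]

end Cfsg.Agent.S1712
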