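import Cfsg.Statements.S1722
import Cfsg.Agent.H4.JOm
import Cfsg.Agent.H4.JM2d

set_option autoImplicit false
open Cfsg

namespace Cfsg.Agent.S1722

/-- Sylow 5-structure of a group of Hall–Janko type (large-extraspecial hypothesis with Q of order 32, quotient Ω⁻(4, 2), z not weakly closed in Q, more than one class of involutions): a Sylow 5-subgroup P is its own centraliser, has order 25, its normaliser has order 300, and the subgroups of order 5 fall into exactly two conjugacy classes. -/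
theorem result {G : Type*} [Group G] [Finite G] (z : G) (hz : orderOf z = 2) (Q : Subgroup (Subgroup.centralizer ({z} : Set G))) [Q.Normal] (hF : Cfsg.generalizedFittingSubgroup (Subgroup.centralizer ({z} : Set G)) = Q) (hQ : Cfsg.IsExtraspecial 2 Q) (hcard : Nat.card Q = 2 ^ 5) (e : (Subgroup.centralizer ({z} : Set G)) ⧸ Q ≃* Cfsg.Omega (ZMod 2) (Cfsg.quadFormMinus 1 (ZMod 2) 1 1)) (hnwc : ∃ g : G, (∃ hq : g * z * g⁻¹ ∈ Subgroup.centralizer ({z} : Set G), (⟨g * z * g⁻¹, hq⟩ : Subgroup.centralizer ({z} : Set G)) ∈ Q) ∧ g * z * g⁻¹ ≠ z) (hcl : ∃ x y : G, orderOf x = 2 ∧ orderOf y = 2 ∧ ¬ IsConj x y) (P : Sylow 5 G) : Subgroup.centralizer ((P : Subgroup G) : Set G) = P ∧ Nat.card P = 25 ∧ Nat.card (Subgroup.normalizer ((P : Subgroup G) : Set G)) = 300 ∧ ∃ X Y : Subgroup G, Nat.card X = 5 ∧ Nat.card Y = 5 ∧ (∀ g : G, X.map (MulAut.conj g).toMonoidHom ≠ Y) ∧ ∀ W : Subgroup G, Nat.card W = 5 → ∃ g : G, W.map (MulAut.conj g).toMonoidHom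 = X ∨ W.map (MulAut.conj g).toMonoidHom = Y := by
  obtain ⟨φ, -⟩ := H4.j2_of_large hz Q hQ hcard e hnwc hcl
  obtain ⟨ψ, hψ⟩ := H4.exists_equiv_sylow (m := 24192) φ H4.M2.card_P5
    (by rw [H4.M2.card]; norm_num) (by norm_num) P
  have e1 := (H4.M2.P5.map_equiv_normalizer_eq ψ).symm
  have key : ∀ x c : H4.M2.X, (Subgroup.zpowers (ψ x)).map (MulAut.conj (ψ c)).toMonoidHom =
      (Subgroup.zpowers (c * x * c⁻¹)).map ψ.toMonoidHom := fun x c => by
    simp [MonoidHom.map_zpowers]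
  rw [hψ, H4.map_cent_equiv, H4.M2.cent_P5, e1, Subgroup.card_map_of_injective ψ.injective,
    Subgroup.card_map_of_injective ψ.injective]
  refine ⟨rfl, H4.M2.card_P5, H4.M2.card_N5, Subgroup.zpowers (ψ H4.M2.f1),
    Subgroup.zpowers (ψ H4.M2.f2), by rw [Nat.card_zpowers, MulEquiv.orderOf_eq, H4.M2.ord_f1],
    by rw [Nat.card_zpowers, MulEquiv.orderOf_eq, H4.M2.ord_f2], fun g h => ?_, fun W hW => ?_⟩
  · obtain ⟨c, rfl⟩ := ψ.surjective g
    rw [key] at h
    exact H4.M2.not_f12 c (Subgroup.map_injective (f := ψ.toMonoidHom) ψ.injective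
      (h.trans (MonoidHom.map_zpowers ψ.toMonoidHom _).symm))
  · have : Nontrivial W := Finite.one_lt_card_iff_nontrivial.mp (by omega)
    obtain ⟨⟨w, hw⟩, h1⟩ := exists_ne (1 : W)
    obtain ⟨h2, rfl⟩ := H4.eq_zpowers (r := 5) hW hw fun e => h1 (Subtype.ext e)
    obtain ⟨x, rfl⟩ := ψ.surjective w
    rw [MulEquiv.orderOf_eq] at h2
    obtain ⟨d, hd⟩ := H4.M2.five_conj h2
    refine ⟨ψ d, hd.imp (fun h => ?_) fun h => ?_⟩ <;> rw [key, h] <;>
      exact MonoidHom.map_zpowers ψ.toMonoidHom _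

end Cfsg.Agent.S1722
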