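import Cfsg.Statements.S1723
import Cfsg.Agent.H4.JOm
import Cfsg.Agent.H4.JM2d
import Cfsg.Agent.H9.Cube

set_option autoImplicit false
open Cfsg

namespace Cfsg.Agent.S1723

/-- Sylow 3-structure of a group of Hall–Janko type (large-extraspecial hypothesis with Q of order 32, quotient Ω⁻(4, 2), z not weakly closed in Q, more than one class of involutions): a Sylow 3-subgroup P is extraspecial of order 27, its normaliser has order 216, and the elements of order 3 form exactly two conjugacy classes. -/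
theorem result {G : Type*} [Group G] [Finite G] (z : G) (hz : orderOf z = 2) (Q : Subgroup (Subgroup.centralizer ({z} : Set G))) [Q.Normal] (hF : Cfsg.generalizedFittingSubgroup (Subgroup.centralizer ({z} : Set G)) = Q) (hQ : Cfsg.IsExtraspecial 2 Q) (hcard : Nat.card Q = 2 ^ 5) (e : (Subgroup.centralizer ({z} : Set G)) ⧸ Q ≃* Cfsg.Omega (ZMod 2) (Cfsg.quadFormMinus 1 (ZMod 2) 1 1)) (hnwc : ∃ g : G, (∃ hq : g * z * g⁻¹ ∈ Subgroup.centralizer ({z} : Set G), (⟨g * z * g⁻¹, hq⟩ : Subgroup.centralizer ({z} : Set G)) ∈ Q) ∧ g * z * g⁻¹ ≠ z) (hcl : ∃ x y : G, orderOf x = 2 ∧ orderOf y = 2 ∧ ¬ IsConj x y) (P : Sylow 3 G) : Cfsg.IsExtraspecial 3 (P : Subgroup G) ∧ Nat.card P = 27 ∧ Nat.card (Subgroup.normalizer ((P : Subgroup G) : Set G)) = 216 ∧ ∃ a b : G, orderOf a = 3 ∧ orderOf b = 3 ∧ ¬ IsConj a b ∧ ∀ c : G, orderOf c = 3 → IsConj c a ∨ IsConj c b := by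
  obtain ⟨φ, -⟩ := H4.j2_of_large hz Q hQ hcard e hnwc hcl
  have : Fact (Nat.Prime 3) := ⟨by norm_num⟩
  obtain ⟨ψ, hψ⟩ := H4.exists_equiv_sylow (m := 22400) φ H4.M2.card_P3
    (by rw [H4.M2.card]; norm_num) (by norm_num) P
  have e1 := (H4.M2.P3.map_equiv_normalizer_eq ψ).symm
  have hc : Nat.card P = 3 ^ 3 := by
    rw [hψ, Subgroup.card_map_of_injective ψ.injective, H4.M2.card_P3]
  refine ⟨H9.isExtraspecial_of_card_cube hc ?_, hc, ?_, ψ H4.M2.y, ψ H4.M2.g,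
    by rw [MulEquiv.orderOf_eq, H4.M2.ord_y], by rw [MulEquiv.orderOf_eq, H4.M2.ord_g],
    fun h => H4.M2.not_yg (by simpa using ψ.symm.toMonoidHom.map_isConj h), fun c hc => ?_⟩
  · rw [hψ]
    refine fun h => H4.M2.nc_P3 ⟨⟨fun a b => (ψ.subgroupMap _).injective ?_⟩⟩
    rw [map_mul, map_mul]
    exact h.is_comm.comm _ _
  · rw [hψ, e1, Subgroup.card_map_of_injective ψ.injective, H4.M2.card_N3]
  · obtain ⟨c, rfl⟩ := ψ.surjective c
    rw [MulEquiv.orderOf_eq] at hc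
    exact (H4.M2.three_conj hc).imp ψ.toMonoidHom.map_isConj ψ.toMonoidHom.map_isConj

end Cfsg.Agent.S1723
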