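import Cfsg.Statements.S1724
import Cfsg.Agent.H4.JOm
import Cfsg.Agent.H4.JM2d

set_option autoImplicit false
open Cfsg

namespace Cfsg.Agent.S1724

/-- In a group of Hall–Janko type (large-extraspecial hypothesis with Q of order 32, quotient Ω⁻(4, 2), z not weakly closed in Q, more than one class of involutions), a Sylow 7-subgroup is its own centraliser and its normaliser is non-abelian of order 42. -/
theorem result {G : Type*} [Group G] [Finite G] (z : G) (hz : orderOf z = 2) (Q : Subgroup (Subgroup.centralizer ({z} : Set G))) [Q.Normal] (hF : Cfsg.generalizedFittingSubgroup (Subgroup.centralizer ({z} : Set G)) = Q) (hQ : Cfsg.IsExtraspecial 2 Q) (hcard : Nat.card Q = 2 ^ 5) (e : (Subgroup.centralizer ({z} : Set G)) ⧸ Q ≃* Cfsg.Omega (ZMod 2) (Cfsg.quadFormMinus 1 (ZMod 2) 1 1)) (hnwc : ∃ g : G, (∃ hq : g * z * g⁻¹ ∈ Subgroup.centralizer ({z} : Set G), (⟨g * z * g⁻¹, hq⟩ : Subgroup.centralizer ({z} : Set G)) ∈ Q) ∧ g * z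 * g⁻¹ ≠ z) (hcl : ∃ x y : G, orderOf x = 2 ∧ orderOf y = 2 ∧ ¬ IsConj x y) (D : Sylow 7 G) : Subgroup.centralizer ((D : Subgroup G) : Set G) = D ∧ Nat.card (Subgroup.normalizer ((D : Subgroup G) : Set G)) = 42 ∧ ¬ IsMulCommutative (Subgroup.normalizer ((D : Subgroup G) : Set G)) := by
  obtain ⟨φ, -⟩ := H4.j2_of_large hz Q hQ hcard e hnwc hcl
  have : Fact (Nat.Prime 7) := ⟨by norm_num⟩
  obtain ⟨ψ, hψ⟩ := H4.exists_equiv_sylow (m := 86400) φ H4.M2.card_P7
    (by rw [H4.M2.card]; norm_num) (by norm_num) D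
  have e1 := (H4.M2.P7.map_equiv_normalizer_eq ψ).symm
  rw [hψ, H4.map_cent_equiv, H4.M2.cent_P7, e1, Subgroup.card_map_of_injective ψ.injective]
  refine ⟨rfl, H4.M2.card_N7, fun h => H4.M2.nc_N7 ⟨⟨fun a b => (ψ.subgroupMap _).injective ?_⟩⟩⟩
  rw [map_mul, map_mul]
  exact h.is_comm.comm _ _

end Cfsg.Agent.S1724
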