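import Cfsg.Statements.S1725
import Cfsg.Agent.H78.SuzIso
import Cfsg.Agent.H88.SuzLoc

set_option autoImplicit false
open Cfsg

namespace Cfsg.Agent.S1725

open H78

/-- A 3-local step in the uniqueness proof for the sporadic Suzuki group: let G satisfy the large-extraspecial hypothesis with Q of order 2 ^ 7, quotient Ω⁻(6, 2) and z not weakly closed in Q, and let X be a subgroup of order 3 of the centraliser C of z with the commutator subgroup of Q and X of order 8 and non-abelian (a quaternion group). Then for any Sylow 3-subgroup P of the normaliser of X in G, P is a Sylow 3-subgroup of G (its index in G is prime to 3), and P contains an elementary abelian subgroup A of order 3 ^ 5 with C_G(A) = A and N_G(A) / A isomorphic to the Mathieu group M₁₁. -/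
theorem result {G : Type*} [Group G] [Finite G] (z : G) (hz : orderOf z = 2) (Q : Subgroup (Subgroup.centralizer ({z} : Set G))) [Q.Normal] (hF : Cfsg.generalizedFittingSubgroup (Subgroup.centralizer ({z} : Set G)) = Q) (hQ : Cfsg.IsExtraspecial 2 Q) (hcard : Nat.card Q = 2 ^ 7) (e : (Subgroup.centralizer ({z} : Set G)) ⧸ Q ≃* Cfsg.Omega (ZMod 2) (Cfsg.quadFormMinus 2 (ZMod 2) 1 1)) (hnwc : ∃ g : G, (∃ hq : g * z * g⁻¹ ∈ Subgroup.centralizer ({z} : Set G), (⟨g * z * g⁻¹, hq⟩ : Subgroup.centralizer ({z} : Set G)) ∈ Q) ∧ g * z * g⁻¹ ≠ z) (X : Subgroup (Subgroup.centralizer ({z} : Set G))) (hX : Nat.card X = 3) (hQX : Nat.card ↥⁅Q, X⁆ = 8) (hQXna : ¬ IsMulCommutative ↥⁅Q, X⁆) (P : Sylow 3 ↥(Subgroup.normalizer ((X.map (Subgroup.subtype (Subgroup.centralizer ({z} : Set G))) : Subgroup G) : Set G))) : ¬ 3 ∣ (((P : Subgroup ↥(Subgroup.normalizer ((X.map (Subgroup.subtype (Subgroup.centralizer ({z} : Set G))) : Subgroup G) : Set G))).map (Subgroup.subtype (Subgroup.normalizer ((X.map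 (Subgroup.subtype (Subgroup.centralizer ({z} : Set G))) : Subgroup G) : Set G)))).index) ∧ ∃ A : Subgroup G, A ≤ (P : Subgroup ↥(Subgroup.normalizer ((X.map (Subgroup.subtype (Subgroup.centralizer ({z} : Set G))) : Subgroup G) : Set G))).map (Subgroup.subtype (Subgroup.normalizer ((X.map (Subgroup.subtype (Subgroup.centralizer ({z} : Set G))) : Subgroup G) : Set G))) ∧ Cfsg.IsElementaryAbelian 3 A ∧ Nat.card A = 3 ^ 5 ∧ Subgroup.centralizer (A : Set G) = A ∧ ∃ _ : (A.subgroupOf (Subgroup.normalizer (A : Set G))).Normal, Cfsg.Spor.IsoM11 (↥(Subgroup.normalizer (A : Set G)) ⧸ A.subgroupOf (Subgroup.normalizer (A : Set G))) := by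
  obtain ⟨Γ, Qh, s, D, h⟩ := Suz.setup hz hF hQ hcard e hnwc
  obtain ⟨φ, -⟩ := h.iso
  have : Fact (Nat.Prime 3) := ⟨Nat.prime_three⟩
  obtain ⟨y, -, h3, e1⟩ := eq_zpowers_of_three hX
  have hn : ((X.map (Subgroup.subtype _)).subgroupOf
      (Subgroup.centralizer (X.map (Subgroup.subtype _) : Set G))).Normal := instNormalCent _
  obtain ⟨-, ⟨ψ⟩, -⟩ := h.u43 hX hQX rfl
  have hS := H17.sylIn_map_subtype P
  generalize X.map (Subgroup.subtype _) = W at *
  generalize P.toSubgroup.map (Subgroup.subtype _) = R at *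
  have c1 : Nat.card (Subgroup.centralizer (W : Set G)) = 3 ^ 7 * 4480 := by
    rw [Subgroup.card_eq_card_quotient_mul_card_subgroup (W.subgroupOf _), ← Nat.card_congr ψ.toEquiv,
      H41.U43.card_X, Nat.card_congr (Subgroup.subgroupOfEquivOfLe (by
        rw [e1]; exact Subgroup.zpowers_le.2 ((mem_centralizer_zpowers_iff _ _).2 rfl))).toEquiv, e1,
      Nat.card_zpowers, h3]
    norm_num
  have c2 : 3 ^ 7 ∣ Nat.card R := by
    have := (Dvd.intro _ c1.symm).trans (Subgroup.card_dvd_of_le (Subgroup.centralizer_le_normalizer _))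
    rw [← Subgroup.card_mul_index (R.subgroupOf _),
      Nat.card_congr (Subgroup.subgroupOfEquivOfLe hS.1).toEquiv] at this
    exact (Nat.Coprime.pow_left 7 ((Nat.Prime.coprime_iff_not_dvd Nat.prime_three).2
      hS.2.2)).dvd_of_dvd_mul_right this
  have c3 : ¬ 3 ∣ R.index := fun c => by
    have := Nat.mul_dvd_mul c2 c
    rw [R.card_mul_index, ← Nat.card_congr φ.toEquiv, H71.Suz.card] at this
    norm_num at this
  exact ⟨c3, H88.SuzLoc.three φ.symm (hS.2.1.toSylow c3)⟩

end Cfsg.Agent.S1725
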