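import Cfsg.Statements.S1756
import Cfsg.Agent.H9.ExtraAut

set_option autoImplicit false
open Cfsg

namespace Cfsg.Agent.S1756

open scoped commutatorElement

/-- Let Q be an extraspecial 2-subgroup of the finite group G (special with centre of order 2) and t an involution of G normalizing Q such that the centralizer of t in Q has index at most 2 in Q. Then t lies in the product of Q with the centralizer of Q. -/
theorem result {G : Type*} [Group G] [Finite G] (Q : Subgroup G)
    (hQ : Cfsg.IsExtraspecial 2 ↥Q) (t : G) (ht : orderOf t = 2) (htN : t ∈ Subgroup.normalizer (Q : Set G))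
    (hi : (Subgroup.centralizer ({t} : Set G) ⊓ Q).relIndex Q ≤ 2) :
    t ∈ Q ⊔ Subgroup.centralizer (Q : Set G) := by
  have ht2 : t * t = 1 := by rw [← pow_two, ← ht, pow_orderOf_eq_one]
  have hN : ∀ x ∈ Q, t * x * t⁻¹ ∈ Q := fun x hx => (Subgroup.mem_normalizer_iff.mp htN x).mp hx
  set C := Subgroup.centralizer ({t} : Set G) with hC
  have hmem : ∀ x, x ∈ C ↔ t * x * t⁻¹ = x := fun x => by
    rw [hC, Subgroup.mem_centralizer_singleton_iff, mul_inv_eq_iff_eq_mul, eq_comm]
  rw [Subgroup.inf_relIndex_right] at hi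
  have hpos : C.relIndex Q ≠ 0 := Subgroup.index_ne_zero_of_finite
  have hmul : ∀ x ∈ Q, ∀ y ∈ Q, x ∉ C → y ∉ C → x * y ∈ C := by
    intro x hx y hy hxC hyC
    rcases (by omega : C.relIndex Q = 1 ∨ C.relIndex Q = 2) with h | h
    · exact absurd (Subgroup.relIndex_eq_one.mp h hx) hxC
    · exact (Subgroup.mul_mem_iff_of_index_two h (a := ⟨x, hx⟩) (b := ⟨y, hy⟩)).mpr
        (iff_of_false hxC hyC)
  obtain ⟨e, he, h⟩ := H9.mem_sup_centralizer_of_isExtraspecial hQ (g := t) fun x hx => by
    refine ⟨Q.mul_mem (hN x hx) (Q.inv_mem hx), ?_⟩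
    by_cases hxC : x ∈ C
    · rw [commutatorElement_def, (hmem x).mp hxC, mul_inv_cancel]
      exact Subgroup.one_mem _
    have hx' : t * x * t⁻¹ ∉ C := fun h => hxC (by
      have h1 : t ∈ C := (hmem t).mpr (by group)
      have := C.mul_mem (C.mul_mem (C.inv_mem h1) h) h1
      simpa [mul_assoc] using this)
    set d := t * x * t⁻¹ * x⁻¹ with hd
    have hdC : d ∈ C := hmul _ (hN x hx) _ (Q.inv_mem hx) hx' (fun h => hxC (by simpa using h))
    have h1 : t * x * t⁻¹ = d * x := by rw [hd, inv_mul_cancel_right]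
    have hdd : d * d = 1 := by
      have h2 : t * (t * x * t⁻¹) * t⁻¹ = x := by
        calc _ = (t * t) * x * (t * t)⁻¹ := by group
          _ = x := by rw [ht2]; group
      rw [h1, show t * (d * x) * t⁻¹ = (t * d * t⁻¹) * (t * x * t⁻¹) by group, (hmem d).mp hdC,
        h1, ← mul_assoc] at h2
      exact mul_eq_right.mp h2
    have hdx : d * x = x * d := by
      have h2 := (hmem _).mp (hmul x hx x hx hxC hxC)
      rw [show t * (x * x) * t⁻¹ = (t * x * t⁻¹) * (t * x * t⁻¹) by group, h1,
        ← mul_assoc, mul_left_inj] at h2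
      calc d * x = d * (d * x * d) := by rw [h2]
        _ = (d * d) * x * d := by group
        _ = x * d := by rw [hdd, one_mul]
    have hdc : ∀ c ∈ Q, c ∈ C → c * d = d * c := by
      intro c hc hcC
      have h2 : x⁻¹ * (c * x) ∈ C := hmul _ (Q.inv_mem hx) _ (Q.mul_mem hc hx)
        (fun h => hxC (by simpa using h)) (fun h => hxC ((C.mul_mem_cancel_left hcC).mp h))
      have h3 := (hmem _).mp h2
      rw [show t * (x⁻¹ * (c * x)) * t⁻¹ = (t * x * t⁻¹)⁻¹ * (t * c * t⁻¹) * (t * x * t⁻¹) by group,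
        h1, (hmem c).mp hcC] at h3
      calc c * d = d * x * ((d * x)⁻¹ * c * (d * x)) * x⁻¹ := by group
        _ = d * c := by rw [h3]; group
    intro y hy
    change y * d = d * y
    by_cases hyC : y ∈ C
    · exact hdc y hy hyC
    · have h2 := hdc _ (Q.mul_mem hy (Q.inv_mem hx))
        (hmul _ hy _ (Q.inv_mem hx) hyC (fun h => hxC (by simpa using h)))
      calc y * d = y * x⁻¹ * (x * d) := by group
        _ = (y * x⁻¹ * d) * x := by rw [← hdx]; group
        _ = d * y := by rw [h2]; group
  rw [← mul_inv_cancel_left e t]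
  exact Subgroup.mul_mem_sup he h

end Cfsg.Agent.S1756
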