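import Cfsg.Statements.S1757
import Cfsg.Agent.H98.Basic

set_option autoImplicit false
open Cfsg

namespace Cfsg.Agent.S1757

/-- Let p be a prime and A, B p-subgroups of the finite group G, each of which meets every conjugate of itself other than itself trivially. Suppose the order of A is at most that of B, A and B intersect trivially, and B normalizes A. Then A and B commute elementwise. -/
theorem result {G : Type*} [Group G] [Finite G] (p : ℕ) [Fact p.Prime] (A B : Subgroup G)
    (hA : IsPGroup p ↥A) (hB : IsPGroup p ↥B)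
    (hAti : ∀ g : G, A.map (MulAut.conj g).toMonoidHom = A ∨ A.map (MulAut.conj g).toMonoidHom ⊓ A = ⊥)
    (hBti : ∀ g : G, B.map (MulAut.conj g).toMonoidHom = B ∨ B.map (MulAut.conj g).toMonoidHom ⊓ B = ⊥)
    (hle : Nat.card ↥A ≤ Nat.card ↥B) (hAB : A ⊓ B = ⊥) (hN : B ≤ Subgroup.normalizer (A : Set G)) : ⁅A, B⁆ = ⊥ := by
  rw [Subgroup.commutator_eq_bot_iff_le_centralizer]
  intro a ha
  by_contra hc
  have key : ∀ b ∈ B, b ≠ 1 → b * a * b⁻¹ ≠ a := by
    intro b hb b1 e
    have e' : a * b * a⁻¹ = b := by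
      rw [mul_inv_eq_iff_eq_mul] at e ⊢
      exact e.symm
    have hm : b ∈ H98.cj a B := e' ▸ H98.conj_mem_cj hb
    rcases hBti a with h | h
    · refine hc fun x hx => ?_
      have h1 : a * x * a⁻¹ * x⁻¹ ∈ A ⊓ B := by
        refine ⟨?_, B.mul_mem (h ▸ H98.conj_mem_cj hx) (B.inv_mem hx)⟩
        have := A.mul_mem ha (H98.conj_mem_of_mem_normalizer (hN hx) (A.inv_mem ha))
        change a * x * a⁻¹ * x⁻¹ ∈ A
        simpa only [mul_assoc] using this
      rw [hAB, Subgroup.mem_bot, mul_inv_eq_one, mul_inv_eq_iff_eq_mul] at h1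
      exact h1.symm
    · exact b1 (Subgroup.mem_bot.1 (h ▸ (⟨hm, hb⟩ : b ∈ H98.cj a B ⊓ B)))
  let f : B → A := fun b => ⟨b * a * (b : G)⁻¹, H98.conj_mem_of_mem_normalizer (hN b.2) ha⟩
  have hi : Function.Injective f := by
    intro b c e
    have e1 : (b : G) * a * (b : G)⁻¹ = c * a * (c : G)⁻¹ := congrArg Subtype.val e
    by_contra hne
    refine key ((c : G)⁻¹ * b) (B.mul_mem (B.inv_mem c.2) b.2)
      (fun h => hne (Subtype.ext (inv_mul_eq_one.1 h).symm)) ?_
    calc (c : G)⁻¹ * b * a * ((c : G)⁻¹ * b)⁻¹ = (c : G)⁻¹ * (b * a * (b : G)⁻¹) * c := by group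
      _ = a := by rw [e1]; group
  obtain ⟨b, hb⟩ := (hi.bijective_of_nat_card_le hle).2 1
  have e : (b : G) * a * (b : G)⁻¹ = 1 := congrArg Subtype.val hb
  have : a = 1 := by simpa using e
  exact hc (this ▸ one_mem _)

end Cfsg.Agent.S1757
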