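import Cfsg.Statements.S1784
import Cfsg.Agent.H9.ExtraAut
import Cfsg.Agent.H14.FStar

set_option autoImplicit false
open Cfsg

namespace Cfsg.Agent.S1784

open scoped commutatorElement

theorem aux {G : Type*} [Group G] [Finite G] {Q : Subgroup G} (hE : Cfsg.IsExtraspecial 2 Q)
    {α : G} (hα : α * α = 1) (hN : ∀ x ∈ Q, α * x * α⁻¹ ∈ Q)
    (hα' : ∀ e ∈ Q, e⁻¹ * α ∉ Subgroup.centralizer (Q : Set G)) (Q₀ : Subgroup G)
    (hQ₀ : ∀ q : G, q ∈ Q₀ ↔ q ∈ Q ∧ α * q * α⁻¹ * q⁻¹ ∈ Subgroup.centralizer (Q : Set G)) :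
    Subgroup.closure ((fun q : G => α * q * α⁻¹ * q⁻¹) '' (Q : Set G)) =
      (Subgroup.center ↥Q₀).map Q₀.subtype := by
  obtain ⟨m, c, hm, -, hZ, hnd⟩ := H27.exists_cform_of_isExtraspecial hE
  let φ : Q →* Q := MonoidHom.mk' (fun x => ⟨α * x * α⁻¹, hN x x.2⟩) fun x y =>
    Subtype.ext (by simp [mul_assoc])
  have hφφ : ∀ x, φ (φ x) = x := fun x => Subtype.ext (by
    change α * (α * x * α⁻¹) * α⁻¹ = x
    calc _ = (α * α) * x * (α * α)⁻¹ := by group
      _ = x := by rw [hα]; group)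
  let ψ : MulAut Q := MonoidHom.toMulEquiv φ φ (MonoidHom.ext hφφ) (MonoidHom.ext hφφ)
  have hζ : ∀ a, φ (c.ζ a) = c.ζ a := H9.cform_aut_ζ c (hZ ▸ inferInstance) ψ
  obtain ⟨T, hT⟩ := c.exists_induced (p := 2) c φ fun a => by rw [hζ, c.π_ζ]
  have hTT : ∀ v, T (T v) = v := fun v => by
    obtain ⟨x, rfl⟩ := c.π_surj v
    rw [hT, hT, hφφ]
  have hTB : ∀ u v, c.B 2 (T u) (T v) = c.B 2 u v := fun u v => by
    obtain ⟨x, rfl⟩ := c.π_surj u
    obtain ⟨y, rfl⟩ := c.π_surj v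
    apply c.ζ_inj
    rw [hT, hT, c.ζ_B, ← map_commutatorElement, ← c.ζ_B 2 x y, hζ]
  let N : (Fin (2 * m) → ZMod 2) →ₗ[ZMod 2] (Fin (2 * m) → ZMod 2) := T - LinearMap.id
  have hN' : ∀ x, N (c.π x) = c.π (φ x * x⁻¹) := fun x => by
    rw [c.π_mul, c.π_inv, ← hT, ← sub_eq_add_neg]; rfl
  have hNN : ∀ v, N (N v) = 0 := fun v => by
    simp only [N, LinearMap.sub_apply, LinearMap.id_apply, map_sub, hTT]
    rw [sub_eq_add_neg, H27.zmod2_neg_eq, ← neg_sub (T v) v, neg_add_cancel]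
  have hNB : ∀ u v, c.B 2 (N u) v = c.B 2 u (N v) := fun u v => by
    simp only [N, LinearMap.sub_apply, LinearMap.id_apply, map_sub]
    rw [← hTB (T u) v, hTT]
  have hcen : ∀ x : Q, c.π x = 0 ↔ (x : G) ∈ Subgroup.centralizer (Q : Set G) := fun x => by
    rw [← c.mem_Z, hZ, Subgroup.mem_center_iff]
    exact ⟨fun h y hy => congrArg Subtype.val (h ⟨y, hy⟩), fun h y => Subtype.ext (h y y.2)⟩
  have hker : ∀ x : Q, (x : G) ∈ Q₀ ↔ N (c.π x) = 0 := fun x => by
    rw [hQ₀, hN', hcen]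
    exact ⟨fun h => h.2, fun h => ⟨x.2, h⟩⟩
  have hle : Q₀ ≤ Q := fun q hq => ((hQ₀ q).mp hq).1
  apply le_antisymm
  · rw [Subgroup.closure_le]
    rintro _ ⟨q, hq, rfl⟩
    have h1 : ((φ ⟨q, hq⟩ * (⟨q, hq⟩ : Q)⁻¹ : Q) : G) ∈ Q₀ := by rw [hker, ← hN', hNN]
    refine ⟨⟨_, h1⟩, Subgroup.mem_center_iff.mpr fun y => Subtype.ext ?_, rfl⟩
    have h2 : c.B 2 (c.π ⟨y, hle y.2⟩) (c.π (φ ⟨q, hq⟩ * (⟨q, hq⟩ : Q)⁻¹)) = 0 := by
      rw [← hN', ← hNB, (hker ⟨y, hle y.2⟩).mp y.2, map_zero, LinearMap.zero_apply]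
    exact (congrArg Subtype.val ((c.B_eq_zero_iff 2).mp h2) :)
  · set K := Subgroup.closure ((fun q : G => α * q * α⁻¹ * q⁻¹) '' (Q : Set G)) with hK
    have hKm : ∀ q : Q, ((φ q * q⁻¹ : Q) : G) ∈ K := fun q => Subgroup.subset_closure ⟨q, q.2, rfl⟩
    have hKζ : ∀ a, (c.ζ a : G) ∈ K := by
      have h1 : ∃ q : Q, N (c.π q) ≠ 0 := by
        by_contra h
        push Not at h
        obtain ⟨e, he, h2⟩ := H9.mem_sup_centralizer_of_isExtraspecial hE (g := α) fun x hx =>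
          ⟨Q.mul_mem (hN x hx) (Q.inv_mem hx), (hcen _).mp ((hN' ⟨x, hx⟩).symm.trans (h _))⟩
        exact hα' e he h2
      obtain ⟨q, hq⟩ := h1
      have h2 : ∃ w, c.B 2 w (N (c.π q)) ≠ 0 := by
        by_contra h
        push Not at h
        exact hq (hnd.2 _ h)
      obtain ⟨w, hw⟩ := h2
      obtain ⟨y, rfl⟩ := c.π_surj w
      have h3 : (c.ζ (c.B 2 (c.π y) (N (c.π q))) : G) ∈ K := by
        rw [hN', c.ζ_B, show ⁅y, φ q * q⁻¹⁆ =
          (φ y * y⁻¹)⁻¹ * (φ (y * q) * (y * q)⁻¹) * (φ q * q⁻¹)⁻¹ by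
            rw [map_mul, commutatorElement_def]; group]
        exact K.mul_mem (K.mul_mem (K.inv_mem (hKm _)) (hKm _)) (K.inv_mem (hKm _))
      intro a
      by_cases ha : a = 0
      · rw [ha, c.ζ_zero]; exact K.one_mem
      · have : a = c.B 2 (c.π y) (N (c.π q)) := by
          revert ha hw
          generalize c.B 2 (c.π y) (N (c.π q)) = b
          revert a b
          decide
        rw [this]; exact h3
    rintro _ ⟨x, hx, rfl⟩
    have h1 : LinearMap.BilinForm.orthogonal (c.B 2) (LinearMap.range N) ≤ LinearMap.ker N := by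
      intro v hv
      refine hnd.2 _ fun u => ?_
      rw [← hNB]
      exact hv _ ⟨u, rfl⟩
    have h2 : c.π ⟨x, hle x.2⟩ ∈ LinearMap.range N := by
      rw [← LinearMap.BilinForm.orthogonal_orthogonal hnd c.isAlt.isRefl (LinearMap.range N)]
      refine LinearMap.BilinForm.orthogonal_le h1 fun v hv => ?_
      obtain ⟨y, rfl⟩ := c.π_surj v
      exact (c.B_eq_zero_iff 2).mpr (Subtype.ext (congrArg Subtype.val
        (Subgroup.mem_center_iff.mp hx ⟨y, (hker y).mpr hv⟩) :))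
    obtain ⟨v, hv⟩ := h2
    obtain ⟨q, rfl⟩ := c.π_surj v
    rw [hN'] at hv
    obtain ⟨a, ha⟩ := c.π_eq_iff.mp hv
    have h3 : (x : G) = ((φ q * q⁻¹ : Q) : G) * c.ζ a := congrArg Subtype.val ha
    change (x : G) ∈ K
    rw [h3]
    exact K.mul_mem (hKm q) (hKζ a)

/-- Let G be a finite group and let z be an involution of G such that Q, the generalized Fitting subgroup of the centralizer C of z, is a 2-group of symplectic type (every characteristic abelian subgroup of Q is cyclic); suppose Q is extraspecial, and view Q inside G. Let α be an involution of C that is not in Q, and let Q₀ be the subgroup of those q ∈ Q whose commutator with α lies in the subgroup generated by z. Then (a) the subgroup generated by the commutators α q α⁻¹ q⁻¹, q ∈ Q, equals the centre of Q₀; and (b) if Q₀ is not contained in the product of the centralizer of α in Q with the subgroup generated by z, then some element of Q conjugates α to α z. -/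
theorem result {G : Type*} [Group G] [Finite G] (z : G) (hz : orderOf z = 2) (hQ : Cfsg.IsOfSymplecticType ↥(Cfsg.generalizedFittingSubgroup ↥(Subgroup.centralizer ({z} : Set G)))) (hE : Cfsg.IsExtraspecial 2 ↥(Cfsg.generalizedFittingSubgroup ↥(Subgroup.centralizer ({z} : Set G))))
    (α : G) (hα : orderOf α = 2) (hαC : α ∈ Subgroup.centralizer ({z} : Set G)) (hαQ : α ∉ (Cfsg.generalizedFittingSubgroup ↥(Subgroup.centralizer ({z} : Set G))).map (Subgroup.centralizer ({z} : Set G)).subtype)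
    (Q₀ : Subgroup G) (hQ₀ : ∀ q : G, q ∈ Q₀ ↔ (q ∈ (Cfsg.generalizedFittingSubgroup ↥(Subgroup.centralizer ({z} : Set G))).map (Subgroup.centralizer ({z} : Set G)).subtype ∧ α * q * α⁻¹ * q⁻¹ ∈ Subgroup.zpowers z)) :
    Subgroup.closure ((fun q : G => α * q * α⁻¹ * q⁻¹) '' ((Cfsg.generalizedFittingSubgroup ↥(Subgroup.centralizer ({z} : Set G))).map (Subgroup.centralizer ({z} : Set G)).subtype : Set G)) = (Subgroup.center ↥Q₀).map Q₀.subtype ∧
      (¬ Q₀ ≤ ((Cfsg.generalizedFittingSubgroup ↥(Subgroup.centralizer ({z} : Set G))).map (Subgroup.centralizer ({z} : Set G)).subtype ⊓ Subgroup.centralizer ({α} : Set G)) ⊔ Subgroup.zpowers z →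
        ∃ q ∈ (Cfsg.generalizedFittingSubgroup ↥(Subgroup.centralizer ({z} : Set G))).map (Subgroup.centralizer ({z} : Set G)).subtype, q * α * q⁻¹ = α * z) := by
  set C := Subgroup.centralizer ({z} : Set G) with hC
  set F := Cfsg.generalizedFittingSubgroup C with hF
  have hFn : F.Normal := H14.fstar_normal C
  have hFc : Subgroup.centralizer (F : Set C) ≤ F := H14.centralizer_fstar_le
  set Q := F.map C.subtype with hQdef
  have hQC : Q ≤ C := Subgroup.map_subtype_le F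
  have hE' : Cfsg.IsExtraspecial 2 Q := by
    obtain ⟨m, c, hm, -, -, hnd⟩ := H27.exists_cform_of_isExtraspecial hE
    have e := F.equivMapOfInjective C.subtype C.subtype_injective
    let c' : H27.CForm Q (Fin (2 * m) → ZMod 2) (ZMod 2) :=
      ⟨fun x => c.π (e.symm x), fun a => e (c.ζ a), fun x y => by rw [map_mul, c.π_mul],
        fun a b => by rw [c.ζ_add, map_mul], c.π_surj.comp e.symm.surjective,
        e.injective.comp c.ζ_inj, fun x => by
          rw [c.π_eq_zero]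
          exact exists_congr fun a => e.eq_symm_apply,
        fun a x => by
          obtain ⟨x, rfl⟩ := e.surjective x
          rw [← map_mul, c.ζ_comm, map_mul]⟩
    have : Nonempty (Fin (2 * m)) := ⟨⟨0, by omega⟩⟩
    refine c'.isExtraspecial (c'.nondeg_of_center fun x hx => ?_)
    change e.symm x ∈ c.Z
    rw [← c.center_eq_of_nondeg hnd, Subgroup.mem_center_iff]
    intro y
    apply e.injective
    rw [map_mul, map_mul, e.apply_symm_apply, Subgroup.mem_center_iff.mp hx]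
  have hzC : z ∈ C := Subgroup.mem_centralizer_singleton_iff.mpr rfl
  have hcen : ∀ g ∈ C, g ∈ Subgroup.centralizer (Q : Set G) → g ∈ Q := fun g hg h =>
    ⟨⟨g, hg⟩, hFc fun y hy => Subtype.ext (h y ⟨y, hy, rfl⟩), rfl⟩
  have hzc : z ∈ Subgroup.centralizer (Q : Set G) := fun y hy =>
    Subgroup.mem_centralizer_singleton_iff.mp (hQC hy)
  have hzQ : z ∈ Q := hcen z hzC hzc
  have hZ : Subgroup.zpowers (⟨z, hzQ⟩ : Q) = Subgroup.center Q :=
    Subgroup.eq_of_le_of_card_ge (Subgroup.zpowers_le.mpr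
      (Subgroup.mem_center_iff.mpr fun y => Subtype.ext (hzc y y.2))) (by
        rw [Nat.card_zpowers, hE'.2, ← Subgroup.orderOf_coe, hz])
  have hN : ∀ x ∈ Q, α * x * α⁻¹ ∈ Q := by
    rintro _ ⟨x, hx, rfl⟩
    exact ⟨_, hFn.conj_mem x hx ⟨α, hαC⟩, rfl⟩
  have hα2 : α * α = 1 := by rw [← pow_two, ← hα, pow_orderOf_eq_one]
  refine ⟨aux hE' hα2 hN (fun e he h => hαQ ?_) Q₀ fun q => ?_, fun h => ?_⟩
  · exact (Q.mul_mem_cancel_left (Q.inv_mem he)).mp
      (hcen _ (C.mul_mem (C.inv_mem (hQC he)) hαC) h)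
  · rw [hQ₀]
    refine and_congr_right fun hq => ⟨fun h => Subgroup.zpowers_le.mpr hzc h, fun h => ?_⟩
    have h1 : (⟨_, Q.mul_mem (hN q hq) (Q.inv_mem hq)⟩ : Q) ∈ Subgroup.center Q :=
      Subgroup.mem_center_iff.mpr fun y => Subtype.ext (h y y.2)
    rw [← hZ] at h1
    obtain ⟨k, hk⟩ := h1
    exact ⟨k, congrArg Subtype.val hk⟩
  · obtain ⟨q, hq, hq'⟩ := SetLike.not_le_iff_exists.mp h
    obtain ⟨h1, h2⟩ := (hQ₀ q).mp hq
    refine ⟨q, h1, ?_⟩
    classical
    rw [mem_zpowers_iff_mem_range_orderOf, hz, Finset.mem_image] at h2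
    obtain ⟨k, hk, h3⟩ := h2
    rw [Finset.mem_range] at hk
    interval_cases k
    · refine absurd (Subgroup.mem_sup_left (Subgroup.mem_inf.mpr ⟨h1, ?_⟩)) hq'
      rw [pow_zero, eq_comm, mul_inv_eq_one, mul_inv_eq_iff_eq_mul] at h3
      exact Subgroup.mem_centralizer_singleton_iff.mpr h3.symm
    · rw [pow_one] at h3
      rw [h3, ← mul_assoc, ← mul_assoc, ← mul_assoc, hα2, one_mul, inv_eq_of_mul_eq_one_right hα2]

end Cfsg.Agent.S1784
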