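import Cfsg.Agent.Base
import Cfsg.Statements.S1785
import Cfsg.Agent.H85.E2

set_option autoImplicit false
open Cfsg

namespace Cfsg.Agent.S1785

open scoped commutatorElement

theorem four_le_card {X : Type*} [Group X] [Finite X] {E : Subgroup X} [E.Normal]
    (hE : H85.E2 E) (hE32 : 32 ≤ Nat.card E) {a : X} (ha : a * a = 1) :
    8 ≤ Nat.card (E ⊓ Subgroup.centralizer ({a} : Set X) : Subgroup X) ∧
    ∀ b : X, b * b = 1 → a * b = b * a →
      4 ≤ Nat.card ((E ⊓ Subgroup.centralizer ({a} : Set X)) ⊓ Subgroup.centralizer ({b} : Set X) :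
        Subgroup X) := by
  have h1 := hE.card_le_sq (x := a) (Subgroup.le_normalizer_of_normal (Subgroup.mem_top a))
    (by rw [ha]; exact one_mem _)
  have hC : H85.E2 (E ⊓ Subgroup.centralizer ({a} : Set X)) := hE.mono inf_le_left
  obtain ⟨n, hn⟩ := hC.exists_card
  have h2 := H85.two_pow_le_of_lt_sq (k := 2) hn (by omega)
  refine ⟨h2, fun b hb hab => ?_⟩
  have h3 := hC.card_le_sq (x := b) (H7.mem_normalizer_of_forall fun x hx => by
    refine Subgroup.mem_inf.2 ⟨Subgroup.Normal.conj_mem ‹_› x hx.1 b, ?_⟩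
    have h4 := Subgroup.mem_centralizer_singleton_iff.1 hx.2
    rw [Subgroup.mem_centralizer_singleton_iff]
    calc b * x * b⁻¹ * a = b * x * b⁻¹ * (a * b) * b⁻¹ := by group
      _ = b * (x * a) * b⁻¹ := by rw [hab]; group
      _ = a * (b * x * b⁻¹) := by rw [h4, ← mul_assoc, ← hab]; group)
    (by rw [hb]; exact one_mem _)
  obtain ⟨m, hm⟩ := (hC.mono (inf_le_left : _ ⊓ Subgroup.centralizer ({b} : Set X) ≤ _)).exists_card
  exact H85.two_pow_le_of_lt_sq (k := 1) hm (by omega)

theorem comm_four {X : Type*} [Group X] {V : Subgroup X} (hV : IsKleinFour V) {a b : X}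
    (ha : a ∈ V) (hb : b ∈ V) (ha1 : a ≠ 1) (hb1 : b ≠ 1) (hab : a ≠ b) {x : X}
    (h1 : x * a = a * x) (h2 : x * b = b * x) : ∀ v ∈ V, v * x = x * v := by
  intro v hv
  rcases (H86.four_mem_iff hV ha hb ha1 hb1 hab v).1 hv with rfl | rfl | rfl | rfl
  · simp
  · exact h1.symm
  · exact h2.symm
  · rw [mul_assoc, ← h2, ← mul_assoc, ← h1, mul_assoc]

theorem exists_cent {X : Type*} [Group X] [Finite X] {E : Subgroup X} [E.Normal]
    (hE : H85.E2 E) (hE32 : 32 ≤ Nat.card E) {V : Subgroup X} (hV : IsKleinFour V) :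
    4 ≤ Nat.card (E ⊓ Subgroup.centralizer (V : Set X) : Subgroup X) := by
  obtain ⟨a, ha, b, hb, ha1, hb1, hab⟩ := H86.four_exists hV
  refine ((four_le_card hE hE32 (H86.four_sq hV ha)).2 b (H86.four_sq hV hb)
    (H86.four_comm hV ha hb)).trans (H99.card_le_card_of_le' ?_)
  rintro x ⟨⟨h1, h2⟩, h3⟩
  exact Subgroup.mem_inf.2 ⟨h1, Subgroup.mem_centralizer_iff.2 (comm_four hV ha hb ha1 hb1 hab
    (Subgroup.mem_centralizer_singleton_iff.1 h2) (Subgroup.mem_centralizer_singleton_iff.1 h3))⟩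

theorem sup_eight {X : Type*} [Group X] {V : Subgroup X} (hV : H85.E2 V) (h4 : Nat.card V = 4)
    {x : X} (hx : x * x = 1) (hc : ∀ v ∈ V, v * x = x * v) (hxV : x ∉ V) :
    H85.E2 (V ⊔ Subgroup.zpowers x) ∧ Nat.card (V ⊔ Subgroup.zpowers x : Subgroup X) = 8 :=
  ⟨hV.sup_zpowers hx hc, by
    rw [H85.card_sup_zpowers_two (by rw [hx]; exact one_mem _) (H85.mem_normalizer_of_comm hc) hxV,
      h4]⟩

/-- Let X be a finite 2-group having a normal elementary abelian subgroup of order at least 32. Then (a) for any two elementary abelian subgroups A, B of X of order 8 there is a chain A = A₁, A₂, …, Aₙ = B of elementary abelian subgroups of order 8 in which consecutive members commute elementwise; and (b) every elementary abelian subgroup of X of order 4 is contained in an elementary abelian subgroup of order 8. -/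
theorem result {X : Type*} [Group X] [Finite X]
    (hX : IsPGroup 2 X) (E : Subgroup X) [E.Normal] (hE : Cfsg.IsElementaryAbelian 2 E) (hE32 : 32 ≤ Nat.card ↥E) :
    (∀ A B : Subgroup X, Cfsg.IsElementaryAbelian 2 A → Nat.card ↥A = 8 → Cfsg.IsElementaryAbelian 2 B → Nat.card ↥B = 8 →
        Relation.ReflTransGen
          (fun C D : Subgroup X => Cfsg.IsElementaryAbelian 2 C ∧ Nat.card ↥C = 8 ∧ Cfsg.IsElementaryAbelian 2 D ∧ Nat.card ↥D = 8 ∧ ⁅C, D⁆ = ⊥)
          A B) ∧
      (∀ V : Subgroup X, Cfsg.IsElementaryAbelian 2 V → Nat.card ↥V = 4 →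
        ∃ A : Subgroup X, V ≤ A ∧ Cfsg.IsElementaryAbelian 2 A ∧ Nat.card ↥A = 8) := by
  haveI : Fact (Nat.Prime 2) := ⟨Nat.prime_two⟩
  have hE2 := H85.e2_iff.2 hE
  constructor
  · let R := fun C D : Subgroup X => Cfsg.IsElementaryAbelian 2 C ∧ Nat.card ↥C = 8 ∧
      Cfsg.IsElementaryAbelian 2 D ∧ Nat.card ↥D = 8 ∧ ⁅C, D⁆ = ⊥
    have hR : ∀ C D : Subgroup X, H85.E2 C → Nat.card C = 8 → H85.E2 D → Nat.card D = 8 →
        D ≤ Subgroup.centralizer (C : Set X) → R C D := fun C D h1 h2 h3 h4 h5 =>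
      ⟨H85.e2_iff.1 h1, h2, H85.e2_iff.1 h3, h4, by
        rw [Subgroup.commutator_comm]
        exact Subgroup.commutator_eq_bot_iff_le_centralizer.2 h5⟩
    have hsymm : ∀ C D, R C D → R D C := fun C D h =>
      ⟨h.2.2.1, h.2.2.2.1, h.1, h.2.1, by rw [Subgroup.commutator_comm]; exact h.2.2.2.2⟩
    have hne : E ≠ ⊥ := by
      intro h
      rw [h, Subgroup.card_bot] at hE32
      omega
    obtain ⟨z, hzE, hz, hz2⟩ := H9.exists_mem_center_orderOf_eq hX hne
    have hzz := H85.ord2_mul_self hz2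
    have hzc : ∀ x, x * z = z * x := Subgroup.mem_center_iff.1 hz
    have hcs : ∀ (V W : Subgroup X) (x : X), W ≤ Subgroup.centralizer (V : Set X) →
        (∀ w ∈ W, w * x = x * w) →
        W ≤ Subgroup.centralizer ((V ⊔ Subgroup.zpowers x : Subgroup X) : Set X) := by
      intro V W x h1 h2
      rw [H99.centralizer_sup']
      refine le_inf h1 fun w hw => Subgroup.mem_centralizer_iff.2 fun y hy => ?_
      obtain ⟨k, rfl⟩ := Subgroup.mem_zpowers_iff.1 hy
      exact ((show Commute w x from h2 w hw).zpow_right k).symm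
    have key : ∀ A : Subgroup X, H85.E2 A → Nat.card A = 8 →
        ∃ A₁ A₂ A₃, R A A₁ ∧ R A₁ A₂ ∧ R A₂ A₃ ∧ A₃ ≤ E := by
      intro A hA hA8
      obtain ⟨V, hVA, hV4, hzV⟩ : ∃ V ≤ A, Nat.card V = 4 ∧ z ∉ V := by
        obtain ⟨V, hVA, hV4⟩ := H85.exists_le_card_two_pow hA.isPGroup (n := 2) (by omega)
        by_cases hzV : z ∈ V
        swap
        · exact ⟨V, hVA, hV4, hzV⟩
        have hV := (hA.mono hVA).isKleinFour hV4
        obtain ⟨v, hv, hv1, hvz⟩ := H86.four_exists_ne hV z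
        obtain ⟨a, ha, haV⟩ : ∃ a ∈ A, a ∉ V := by
          by_contra h
          push Not at h
          have := H99.card_le_card_of_le' (show A ≤ V from h)
          omega
        have ha1 : a ≠ 1 := by rintro rfl; exact haV (one_mem _)
        have hva : v ≠ a := by rintro rfl; exact haV hv
        refine ⟨Subgroup.closure {v, a}, ?_, (H86.isKleinFour_closure (hA v (hVA hv)) (hA a ha)
          (hA.comm (hVA hv) ha) hv1 ha1 hva).card_four, ?_⟩
        · rw [Subgroup.closure_le, Set.insert_subset_iff, Set.singleton_subset_iff]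
          exact ⟨hVA hv, ha⟩
        · rw [H86.mem_closure_four (hA v (hVA hv)) (hA a ha) (hA.comm (hVA hv) ha)]
          rintro (h | h | h | h)
          · exact H85.ord2_ne_one hz2 h
          · exact hvz h.symm
          · exact haV (h ▸ hzV)
          · exact haV ((Subgroup.mul_mem_cancel_left _ hv).1 (h ▸ hzV))
      have hV2 := hA.mono hVA
      have hV := hV2.isKleinFour hV4
      obtain ⟨h1, h1'⟩ := sup_eight hV2 hV4 hzz (fun v _ => hzc v) hzV
      have hCV : H85.E2 (E ⊓ Subgroup.centralizer (V : Set X)) := hE2.mono inf_le_left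
      obtain ⟨W, hzW, hW, hW4⟩ := H85.exists_between_card_two_pow hCV.isPGroup
        (C := Subgroup.zpowers z) (n := 2) (Subgroup.zpowers_le.2 (Subgroup.mem_inf.2 ⟨hzE,
          Subgroup.mem_centralizer_iff.2 fun v _ => hzc v⟩)) (exists_cent hE2 hE32 hV)
        (by rw [Nat.card_zpowers, hz2]; norm_num)
      obtain ⟨a, haV, haW⟩ : ∃ a ∈ V, a ∉ W := by
        by_contra h
        push Not at h
        have := H7.eq_of_le_of_card_le (show V ≤ W from h) (by omega)
        exact hzV (this ▸ hzW (Subgroup.mem_zpowers z))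
      have hWa : ∀ w ∈ W, w * a = a * w := fun w hw =>
        (Subgroup.mem_centralizer_iff.1 (hW hw).2 a haV).symm
      obtain ⟨h2, h2'⟩ := sup_eight (hCV.mono hW) hW4 (hV2 a haV) hWa haW
      have hCa : H85.E2 (E ⊓ Subgroup.centralizer ({a} : Set X)) := hE2.mono inf_le_left
      obtain ⟨A₃, h3, h3'⟩ := H85.exists_le_card_two_pow hCa.isPGroup (n := 3)
        (four_le_card hE2 hE32 (hV2 a haV)).1
      refine ⟨_, _, A₃, hR _ _ hA hA8 h1 h1' ?_, hR _ _ h1 h1' h2 h2' ?_,
        hR _ _ h2 h2' (hCa.mono h3) h3' ?_, h3.trans inf_le_left⟩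
      · exact sup_le (hVA.trans hA.le_centralizer)
          (Subgroup.zpowers_le.2 (Subgroup.mem_centralizer_iff.2 fun v _ => hzc v))
      · exact sup_le (hcs _ _ _ (hW.trans inf_le_right) fun w _ => hzc w)
          (Subgroup.zpowers_le.2 (h1.le_centralizer (Subgroup.mem_sup_left haV)))
      · refine hcs _ _ _ (fun x hx => Subgroup.mem_centralizer_iff.2 fun w hw =>
          hE2.comm (hW hw).1 (h3 hx).1) fun x hx => ?_
        exact Subgroup.mem_centralizer_singleton_iff.1 (h3 hx).2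
    intro A B hA hA8 hB hB8
    obtain ⟨A₁, A₂, A₃, a1, a2, a3, a4⟩ := key A (H85.e2_iff.2 hA) hA8
    obtain ⟨B₁, B₂, B₃, b1, b2, b3, b4⟩ := key B (H85.e2_iff.2 hB) hB8
    have h4 : R A₃ B₃ := hR _ _ (hE2.mono a4) a3.2.2.2.1 (hE2.mono b4) b3.2.2.2.1
      (b4.trans (hE2.le_centralizer.trans (Subgroup.centralizer_le a4)))
    exact ((((((Relation.ReflTransGen.single a1).tail a2).tail a3).tail h4).tail
      (hsymm _ _ b3)).tail (hsymm _ _ b2)).tail (hsymm _ _ b1)
  · intro V hV hV4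
    have hV2 := H85.e2_iff.2 hV
    have h1 := exists_cent hE2 hE32 (hV2.isKleinFour hV4)
    obtain ⟨e, he, heV⟩ : ∃ e ∈ E ⊓ Subgroup.centralizer (V : Set X), e ∉ V := by
      by_contra h
      push Not at h
      have h2 := H7.eq_of_le_of_card_le (show _ ≤ V from h) (by omega)
      have h3 : V ≤ E := h2 ▸ inf_le_left
      rw [inf_eq_left.2 (hE2.le_centralizer.trans (Subgroup.centralizer_le h3))] at h2
      rw [h2] at hE32
      omega
    obtain ⟨h2, h2'⟩ := sup_eight hV2 hV4 (hE2 e he.1) (Subgroup.mem_centralizer_iff.1 he.2) heV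
    exact ⟨_, le_sup_left, H85.e2_iff.1 h2, h2'⟩

end Cfsg.Agent.S1785
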