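import Cfsg.Statements.S1786
import Cfsg.Agent.H66.GF4
import Cfsg.Agent.H14.FStar
import Cfsg.Agent.H9.ClassTwo

set_option autoImplicit false
open Cfsg

namespace Cfsg.Agent.S1786

/-- Let G be a finite group, V an elementary abelian 2-subgroup of G and M the normalizer of V; write Q for the largest normal 2-subgroup of M. Suppose (1) the generalized Fitting subgroup of M equals Q; (2) V is a maximal abelian normal subgroup of M; (3) every conjugate of V equals V or meets V trivially, and for some g ∈ G the conjugate V' = g V g⁻¹ is different from V and contained in Q. Let P be the centralizer of V in Q, W the subgroup generated by V and V', and H the subgroup generated by P and g P g⁻¹. Then: (a) V is contained in g Q g⁻¹; (b) every non-identity element of W lies in exactly one conjugate of V contained in W, H normalizes W, and H modulo the centralizer of W in H is isomorphic to the special linear group of dimension 2 over the field with |V| elements;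 (c) P = Q, and V equals the Frattini subgroup, the centre and the commutator subgroup of Q. -/
theorem result {G : Type*} [Group G] [Finite G] (V : Subgroup G)
    (hV : Cfsg.IsElementaryAbelian 2 V)
    (h1 : (Cfsg.generalizedFittingSubgroup ↥(Subgroup.normalizer (V : Set G))).map (Subgroup.normalizer (V : Set G)).subtype =
      (Cfsg.pCore 2 ↥(Subgroup.normalizer (V : Set G))).map (Subgroup.normalizer (V : Set G)).subtype)
    (h2 : ∀ A : Subgroup G, V ≤ A → A ≤ Subgroup.normalizer (V : Set G) → IsMulCommutative ↥A →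
      (∀ m ∈ Subgroup.normalizer (V : Set G), ∀ a ∈ A, m * a * m⁻¹ ∈ A) → A = V)
    (hti : ∀ x : G, V.map (MulAut.conj x).toMonoidHom = V ∨ V.map (MulAut.conj x).toMonoidHom ⊓ V = ⊥)
    (g : G) (hg : V.map (MulAut.conj g).toMonoidHom ≠ V)
    (hgQ : V.map (MulAut.conj g).toMonoidHom ≤ (Cfsg.pCore 2 ↥(Subgroup.normalizer (V : Set G))).map (Subgroup.normalizer (V : Set G)).subtype) :
    let Q : Subgroup G := (Cfsg.pCore 2 ↥(Subgroup.normalizer (V : Set G))).map (Subgroup.normalizer (V : Set G)).subtype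
    let P : Subgroup G := Q ⊓ Subgroup.centralizer (V : Set G)
    let W : Subgroup G := V ⊔ V.map (MulAut.conj g).toMonoidHom
    let H : Subgroup G := P ⊔ P.map (MulAut.conj g).toMonoidHom
    V ≤ Q.map (MulAut.conj g).toMonoidHom ∧
      (∀ w ∈ W, w ≠ 1 → ∃! U : Subgroup G, (∃ x : G, U = V.map (MulAut.conj x).toMonoidHom) ∧ U ≤ W ∧ w ∈ U) ∧
      H ≤ Subgroup.normalizer (W : Set G) ∧
      (∀ hN : ((Subgroup.centralizer (W : Set G)).subgroupOf H).Normal, ∃ (F : Type) (_ : Field F) (_ : Fintype F), Fintype.card F = Nat.card ↥V ∧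
        Nonempty (↥H ⧸ (Subgroup.centralizer (W : Set G)).subgroupOf H ≃* Matrix.SpecialLinearGroup (Fin 2) F)) ∧
      P = Q ∧ (frattini ↥Q).map Q.subtype = V ∧ (Subgroup.center ↥Q).map Q.subtype = V ∧ (commutator ↥Q).map Q.subtype = V := by
  intro Q P W H
  have : Fact (Nat.Prime 2) := ⟨Nat.prime_two⟩
  have hE : H66.TI.ETI V :=
    { sq := fun v hv => by rw [← pow_two]; exact hV.2 v hv
      ti := fun x v hv hv1 hx => (hti x).resolve_right fun e => by
        have : x * v * x⁻¹ ∈ V.map (MulAut.conj x).toMonoidHom ⊓ V :=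
          ⟨H70.conj_mem_conjBy x hv, hx⟩
        rw [e, Subgroup.mem_bot] at this
        exact hv1 (conj_eq_one_iff.1 this) }
  have hQ : IsPGroup 2 Q := H78.isPGroup_pCoreIn _
  have hQM : ∀ x ∈ Q, Cfsg.conjBy V x = V := fun x hx =>
    H70.conjBy_eq_self_iff.2 (H78.pCoreIn_le 2 _ hx)
  have hQn : ∀ m, Cfsg.conjBy V m = V → ∀ x ∈ Q, m * x * m⁻¹ ∈ Q := fun m hm x hx =>
    H78.conj_mem_pCoreIn (H70.conjBy_eq_self_iff.1 hm) hx
  have h : H66.TI.GF V P := by
    refine H66.TI.GF_of hE hQ hQM hQn (fun K hK h3 h4 => H78.le_pCoreIn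
      (fun x hx => H70.conjBy_eq_self_iff.1 (h3 x hx)) hK
      (fun m hm => h4 m (H70.conjBy_eq_self_iff.2 hm))) (fun y hy hc => ?_) (fun A h3 h4 h5 h6 => ?_)
    · have h3 := H14.centralizer_pCore_le_of_fstar_eq
        (Subgroup.map_injective (Subgroup.subtype_injective _) h1)
      exact ⟨⟨y, H70.conjBy_eq_self_iff.1 hy⟩, h3 fun x hx =>
        Subtype.ext (hc x ⟨x, hx, rfl⟩).symm, rfl⟩
    · exact (h2 A h3 (fun x hx => H70.conjBy_eq_self_iff.1 (h4 x hx))
        (H70.isMulCommutative_iff.2 h5) (fun m hm => h6 m (H70.conjBy_eq_self_iff.2 hm))).le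
  have n : H66.TI.Nb V P (Cfsg.conjBy V g) :=
    { cl := ⟨g, rfl⟩
      ne := hg
      le := fun u hu => ⟨hgQ hu, fun v hv => (H66.TI.comm_of_norm hE (hE.conj g)
        (H66.TI.card_conjBy V g).ge (fun x hx hx' => by
          by_contra hx1; exact hg (hE.eq_of_mem' hx1 hx' hx))
        (fun u hu v hv => H66.TI.conj_mem_of_conjBy_eq (hQM u (hgQ hu)) hv) u hu v hv).symm⟩ }
  have hPQ : P = Q := by
    refine le_antisymm inf_le_left fun x hx => ⟨hx, fun v hv => ?_⟩
    by_cases hv1 : v = 1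
    · simp [hv1]
    obtain ⟨k, hk, hk1, hk'⟩ := H66.TI.exists_center_mod (V := ⊥) (K := V) hQ
      (fun x _ v hv => by simp [Subgroup.mem_bot.1 hv]) (h.le.trans inf_le_left)
      (fun x hx k hk => H66.TI.conj_mem_of_conjBy_eq (hQM x hx) hk)
      (fun e => hv1 (Subgroup.mem_bot.1 (e hv)))
    obtain ⟨m, hm, rfl⟩ := n.exists_conj h hk (fun e => hk1 (Subgroup.mem_bot.2 e)) hv hv1
    have := H66.TI.cm_eq_one.1 (Subgroup.mem_bot.1 (hk' _ (hQn m⁻¹ (H70.conjBy_eq_self_iff.2
      (Subgroup.inv_mem _ (H70.conjBy_eq_self_iff.1 hm))) x hx)))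
    calc m * k * m⁻¹ * x = m * (k * (m⁻¹ * x * m⁻¹⁻¹)) * m⁻¹ := by group
      _ = _ := by rw [this]; group
  have hVc : V ≤ (commutator ↥Q).map Q.subtype := by
    intro v hv
    obtain ⟨u, hu, hu1⟩ := n.exists_ne_one'
    obtain ⟨p, hp, rfl⟩ := n.surj' h hu hu1 hv
    exact ⟨(⟨p, hp.1⟩ : Q) * ⟨u, (n.le hu).1⟩ * (⟨p, hp.1⟩ : Q)⁻¹ * (⟨u, (n.le hu).1⟩ : Q)⁻¹,
      Subgroup.commutator_mem_commutator (Subgroup.mem_top _) (Subgroup.mem_top _), rfl⟩
  have hFV : (frattini ↥Q).map Q.subtype ≤ V :=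
    H9.map_frattini_le_of_forall (p := 2) (fun x hx y hy => h.cmV x (hPQ ▸ hx) y (hPQ ▸ hy))
      (fun x hx => by rw [pow_two]; exact h.psq x (hPQ ▸ hx))
  have hcF := Subgroup.map_mono (f := Q.subtype) (H9.commutator_le_frattini hQ)
  refine ⟨(n.symm_le h).trans (H70.conjBy_mono inf_le_left g), fun w hw hw1 => ?_,
    n.le_normalizer h, fun hN => ?_, hPQ, le_antisymm hFV (hVc.trans hcF), le_antisymm ?_ ?_,
    le_antisymm (hcF.trans hFV) hVc⟩
  · obtain ⟨a, h3, h4⟩ := n.exists_member h hw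
    refine ⟨_, ⟨⟨a, rfl⟩, h3, h4⟩, ?_⟩
    rintro _ ⟨⟨b, rfl⟩, -, h5⟩
    exact hE.eq_of_mem hw1 h5 h4
  · obtain ⟨F, _, _, hc, ρ, hρ, hk⟩ := n.sl2 h
    refine ⟨F, inferInstance, inferInstance, hc, ⟨(QuotientGroup.quotientMulEquivOfEq ?_).trans
      (QuotientGroup.quotientKerEquivOfSurjective ρ hρ)⟩⟩
    ext x
    exact (hk x).symm
  · rintro _ ⟨y, hy, rfl⟩
    exact h.ctr _ (hPQ.ge y.2) fun p hp =>
      congrArg Subtype.val (Subgroup.mem_center_iff.1 hy ⟨p, hp.1⟩).symm
  · intro v hv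
    exact ⟨⟨v, (h.le hv).1⟩, Subgroup.mem_center_iff.2 fun y =>
      Subtype.ext (h.cen y (hPQ.ge y.2) v hv), rfl⟩

end Cfsg.Agent.S1786
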