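import Cfsg.Statements.S1850
import Cfsg.Agent.H52.LocA

set_option autoImplicit false
open Cfsg

namespace Cfsg.Agent.S1850

/-- Let G be a non-abelian finite simple QTKE-group and T a Sylow 2-subgroup of G. If U is a nontrivial 2-subgroup of G with U ∩ Z(T) ≠ 1, then F*(N_G(U)) = O₂(N_G(U)). -/
theorem result {G : Type*} [Group G] [Finite G] [IsSimpleGroup G]
    (hG : ¬ IsMulCommutative G) (hQ : Cfsg.IsQTKE G) (T : Sylow 2 G) (U : Subgroup G)
    (hU : IsPGroup 2 ↥U) (hZ : U ⊓ ((T : Subgroup G) ⊓ Subgroup.centralizer ((T : Subgroup G) : Set G)) ≠ ⊥) :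
    Subgroup.normalizer (U : Set G) ∈ Cfsg.calHe G := by
  obtain ⟨z, hz, o⟩ := H52.Loc.exists_order_p (hU.to_le inf_le_left) hZ
  have hP := H52.Loc.pgroup_zpowers o
  have h1 : Subgroup.zpowers z ≠ ⊥ := by
    rw [Ne, Subgroup.zpowers_eq_bot]
    rintro rfl
    simp at o
  have h2 : (T : Subgroup G) ≤ Subgroup.normalizer (Subgroup.zpowers z : Set G) := by
    refine H98.le_normalizer_of_le_centralizer ?_
    rw [H52.Loc.cen_zpowers]
    exact fun t ht => Subgroup.mem_centralizer_singleton_iff.2 (hz.2.2 t ht)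
  have h3 := H98.charP_iff.2 (hQ.2.2 _ ⟨_, hP, h1, rfl⟩ ⟨T, h2⟩)
  rw [H14.charP_normalizer_iff hP, H52.Loc.cen_zpowers] at h3
  exact H14.charP_iff_fstar.1 (H52.Loc.charP_nor_of_cen hU hz.1 h3)

end Cfsg.Agent.S1850
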