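import Cfsg.Statements.S1957
import Cfsg.Agent.Base
import Cfsg.Agent.H1.CoprimeGen
import Cfsg.Agent.H2.MinNormal

set_option autoImplicit false
open Cfsg

namespace Cfsg.Agent.S1957

open Subgroup in
theorem mem_core {M : Type*} [Group M] [Finite M] (h : Cfsg.IsOfCharacteristicTwo M) {u v : M}
    (hu : ∀ m, m * u = u * m) (u2 : u * u = 1)
    (hv : ∀ o ∈ Cfsg.pCore 2 M, v * o * v⁻¹ = o ∨ v * o * v⁻¹ = o * u) : v ∈ Cfsg.pCore 2 M := by
  have := H2.pCore_characteristic 2 M
  have cu : ∀ m o : M, m * (o * u) * m⁻¹ = m * o * m⁻¹ * u := fun m o => by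
    rw [mul_assoc (m * o) m⁻¹ u, hu m⁻¹]; group
  have key : ∀ m : M, (∀ o ∈ Cfsg.pCore 2 M, m * o * m⁻¹ = o ∨ m * o * m⁻¹ = o * u) →
      ∀ o ∈ Cfsg.pCore 2 M, m * m * o * (m * m)⁻¹ = o := fun m hm o ho => by
    rw [show m * m * o * (m * m)⁻¹ = m * (m * o * m⁻¹) * m⁻¹ by group]
    rcases hm o ho with e | e
    · rw [e, e]
    · rw [e, cu, e, mul_assoc, u2, mul_one]
  let D : Subgroup M :=
    { carrier := {m | ∀ o ∈ Cfsg.pCore 2 M, m * o * m⁻¹ = o ∨ m * o * m⁻¹ = o * u}
      one_mem' := fun o _ => .inl (by group)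
      mul_mem' := fun {a b} ha hb o ho => by
        rw [show a * b * o * (a * b)⁻¹ = a * (b * o * b⁻¹) * a⁻¹ by group]
        rcases hb o ho with e | e <;> rw [e]
        · exact ha o ho
        · rw [cu]
          rcases ha o ho with f | f <;> rw [f]
          · exact .inr rfl
          · exact .inl (by rw [mul_assoc, u2, mul_one])
      inv_mem' := fun {a} ha o ho => by
        have := key a ha o ho
        rw [show a⁻¹ * o * a⁻¹⁻¹ = a⁻¹ * (a * a * o * (a * a)⁻¹) * a by rw [this, inv_inv],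
          show a⁻¹ * (a * a * o * (a * a)⁻¹) * a = a * o * a⁻¹ by group]
        exact ha o ho }
  have hn : D.Normal := ⟨fun a ha g o ho => by
    have := ha (g⁻¹ * o * g) (Normal.conj_mem' inferInstance _ ho _)
    rw [show g * a * g⁻¹ * o * (g * a * g⁻¹)⁻¹ = g * (a * (g⁻¹ * o * g) * a⁻¹) * g⁻¹ by group]
    rcases this with e | e <;> rw [e]
    · exact .inl (by group)
    · exact .inr (by rw [cu]; group)⟩
  refine H2.le_pCore (N := D) (fun a => ?_) hv
  have : a.1 * a.1 ∈ Cfsg.pCore 2 M := h (mem_centralizer_iff.2 fun o ho =>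
    (mul_inv_eq_iff_eq_mul.1 (key a a.2 o ho)).symm)
  obtain ⟨k, hk⟩ := H2.pCore_isPGroup 2 M ⟨_, this⟩
  refine ⟨k + 1, Subtype.ext ?_⟩
  have := congrArg Subtype.val hk
  simp only [SubmonoidClass.coe_pow, OneMemClass.coe_one] at this ⊢
  rw [pow_succ', pow_mul, sq, this]

theorem cyc_inv {C : Type*} [Group C] [Finite C] [IsCyclic C] {a b : C} (ha : a * a = 1) (hb : b * b = 1)
    (a1 : a ≠ 1) : b = 1 ∨ b = a := by
  classical
  have := Fintype.ofFinite C
  by_contra hc
  push Not at hc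
  have h1 := IsCyclic.card_pow_eq_one_le (α := C) (n := 2) (by norm_num)
  have h2 : ({1, a, b} : Finset C) ⊆ Finset.univ.filter fun x => x ^ 2 = 1 := by
    intro x hx
    simp only [Finset.mem_insert, Finset.mem_singleton] at hx
    rcases hx with rfl | rfl | rfl <;> simp [sq, *]
  have h3 := Finset.card_le_card h2
  rw [Finset.card_eq_three.2 ⟨1, a, b, a1.symm, hc.1.symm, hc.2.symm, rfl⟩] at h3
  omega

open Subgroup in
theorem sylow_inv {G : Type*} [Group G] [Finite G] (P T : Sylow 2 G)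
    (hc : IsCyclic ↥((P : Subgroup G) ⊓ centralizer ((P : Subgroup G) : Set G))) {a b : G}
    (haT : a ∈ T) (hbT : b ∈ T) (ac : ∀ t ∈ T, t * a = a * t) (bc : ∀ t ∈ T, t * b = b * t)
    (ha : a * a = 1) (hb : b * b = 1) (a1 : a ≠ 1) : b = 1 ∨ b = a := by
  obtain ⟨g, rfl⟩ := MulAction.exists_smul_eq G T P
  have m : ∀ x ∈ T, (∀ t ∈ T, t * x = x * t) →
      g * x * g⁻¹ ∈ ((g • T : Sylow 2 G) : Subgroup G) ⊓ centralizer (((g • T : Sylow 2 G) : Subgroup G) : Set G) :=
    fun x hx c => by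
      refine ⟨?_, mem_centralizer_iff.2 fun y hy => ?_⟩
      · exact ⟨x, hx, rfl⟩
      · obtain ⟨t, ht, rfl⟩ := hy
        show g * t * g⁻¹ * (g * x * g⁻¹) = g * x * g⁻¹ * (g * t * g⁻¹)
        calc _ = g * (t * x) * g⁻¹ := by group
          _ = _ := by rw [c t ht]; group
  have := cyc_inv (a := (⟨_, m a haT ac⟩ : ↥(_ ⊓ _ : Subgroup G))) (b := ⟨_, m b hbT bc⟩)
    (Subtype.ext (show g * a * g⁻¹ * (g * a * g⁻¹) = 1 by
      rw [show g * a * g⁻¹ * (g * a * g⁻¹) = g * (a * a) * g⁻¹ by group, ha]; group))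
    (Subtype.ext (show g * b * g⁻¹ * (g * b * g⁻¹) = 1 by
      rw [show g * b * g⁻¹ * (g * b * g⁻¹) = g * (b * b) * g⁻¹ by group, hb]; group))
    (fun e => a1 (by simpa using congrArg Subtype.val e))
  exact this.imp (fun e => by simpa using congrArg Subtype.val e) fun e => by
    simpa using congrArg Subtype.val e

/-- Let `G` be a finite non-abelian simple group in which every local subgroup is solvable and which is of characteristic 2 type. Let `P` be a Sylow 2-subgroup of `G` and `U` a normal subgroup of `P` that is a four-group, with `U` central in `P` if the centre of `P` is not cyclic. Then `U` centralizes every subgroup of odd order of `G` that it normalizes. -/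
theorem result {G : Type*} [Group G] [Finite G]
    [IsSimpleGroup G] (hna : ¬ IsMulCommutative G) (hN : Cfsg.IsNGroup G) (h2 : Cfsg.IsCharacteristicTwoType G)
    (P : Sylow 2 G) (U : Subgroup G) (hUP : U ≤ (P : Subgroup G)) (hUn : (P : Subgroup G) ≤ Subgroup.normalizer (U : Set G))
    (hU4 : IsKleinFour ↥U)
    (hUZ : ¬ IsCyclic ↥((P : Subgroup G) ⊓ Subgroup.centralizer ((P : Subgroup G) : Set G)) →
      U ≤ Subgroup.centralizer ((P : Subgroup G) : Set G))
    (K : Subgroup G) (hK : Odd (Nat.card K)) (hUK : U ≤ Subgroup.normalizer (K : Set G)) :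
    U ≤ Subgroup.centralizer (K : Set G) := by
  open Subgroup in
  have sq : ∀ x ∈ U, x * x = 1 := fun x hx => congrArg Subtype.val (IsKleinFour.mul_self (⟨x, hx⟩ : U))
  have := IsKleinFour.isMulCommutative (G := U)
  have cm : ∀ x ∈ U, ∀ y ∈ U, x * y = y * x := fun x hx y hy =>
    congrArg Subtype.val (mul_comm' (⟨x, hx⟩ : U) ⟨y, hy⟩)
  have four : ∀ x ∈ U, ∀ y ∈ U, ∀ w ∈ U, x ≠ 1 → y ≠ 1 → x ≠ y → w = 1 ∨ w = x ∨ w = y ∨ w = x * y :=
    fun x hx y hy w hw x1 y1 xy => by
      by_contra hc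
      push Not at hc
      exact hc.2.2.2 (congrArg Subtype.val (IsKleinFour.eq_mul_of_ne_all (x := (⟨x, hx⟩ : U)) (y := ⟨y, hy⟩)
        (z := ⟨w, hw⟩) (by simpa using x1) (by simpa using y1) (by simpa using xy) (by simpa using hc.1)
        (by simpa using hc.2.1) (by simpa using hc.2.2.1)))
  have cj : ∀ p ∈ (P : Subgroup G), ∀ x ∈ U, p * x * p⁻¹ ∈ U := fun p hp x hx =>
    (mem_normalizer_iff.1 (hUn hp) x).1 hx
  refine le_centralizer_iff.1 (H1.le_of_noncyclic_centralizer_le (A := U) IsKleinFour.not_isCyclic hUK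
    (by rw [hU4.card_four]; exact (Nat.Coprime.pow_left 2 (Nat.coprime_two_left.2 hK) :)) _ fun u hu u1 => ?_)
  have u2 := sq u hu
  have ou : orderOf u = 2 := orderOf_eq_prime (by rw [pow_two, u2]) u1
  set M := normalizer (zpowers u : Set G) with hM
  have hch : Cfsg.IsOfCharacteristicTwo M := h2.2 (zpowers u)
    (IsPGroup.of_card (n := 1) (by rw [Nat.card_zpowers, ou, pow_one])) (by simpa using u1)
  have mM : ∀ m, m ∈ M ↔ m * u = u * m := fun m => by
    refine ⟨fun h => ?_, fun h => ?_⟩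
    · obtain ⟨k, hk⟩ := (mem_normalizer_iff.1 h u).1 (mem_zpowers u)
      rcases Int.even_or_odd' k with ⟨j, rfl | rfl⟩
      · simp only [zpow_mul, zpow_two, u2, one_zpow] at hk
        exact absurd (by simpa using hk.symm) u1
      · simp only [zpow_add, zpow_mul, zpow_two, u2, one_zpow, zpow_one, one_mul] at hk
        exact mul_inv_eq_iff_eq_mul.1 hk.symm
    · refine centralizer_le_normalizer _ (mem_centralizer_iff.2 ?_)
      rintro _ ⟨k, rfl⟩
      exact (Commute.zpow_right h k).eq.symm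
  have uM : ∀ x ∈ U, x ∈ M := fun x hx => (mM x).2 (cm x hx u hu)
  have key : ∀ v (hv : v ∈ U), ∀ o : M, o ∈ Cfsg.pCore 2 M →
      v * o * v⁻¹ = o ∨ v * o * v⁻¹ = o * u := by
    have inP : (P : Subgroup G) ≤ M → ∀ o : M, o ∈ Cfsg.pCore 2 M → o.1 ∈ P := fun h o ho =>
      H2.pCore_le_sylow (P.subtype h) ho
    by_cases hc : U ≤ centralizer ((P : Subgroup G) : Set G)
    · exact fun v hv o ho => .inl (mul_inv_eq_iff_eq_mul.2 (mem_centralizer_iff.1 (hc hv) _
        (inP (fun p hp => (mM p).2 (mem_centralizer_iff.1 (hc hu) p hp)) o ho)).symm)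
    have cyc := not_not.1 (mt hUZ hc)
    have : Group.IsNilpotent P := P.2.isNilpotent
    obtain ⟨⟨z, ⟨hz, hzP⟩, zc⟩, z0⟩ := ne_bot_iff_exists_ne_one.1 (H2.inf_inf_centralizer_ne_bot hUn
      (by rw [inf_eq_left.2 hUP]; rintro rfl; exact u1 hu))
    have z1 : z ≠ 1 := fun e => z0 (Subtype.ext e)
    clear z0
    replace zc : ∀ p ∈ (P : Subgroup G), p * z = z * p := mem_centralizer_iff.1 zc
    have act : ∀ p ∈ (P : Subgroup G), ∀ v ∈ U, p * v * p⁻¹ = v ∨ p * v * p⁻¹ = z * v := fun p hp v hv => by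
      by_cases v1 : v = 1
      · simp [v1]
      by_cases vz : z = v
      · exact .inl (by rw [← vz, zc p hp]; group)
      rcases four z hz v hv _ (cj p hp v hv) z1 v1 vz with e | e | e | e
      · exact absurd (by simpa using e) v1
      · exact absurd (by rw [show v = p⁻¹ * (p * v * p⁻¹) * p by group, e, mul_assoc, ← zc p hp]; group) vz
      exacts [.inl e, .inr e]
    have tr : ∀ v ∈ U, ∀ o : M, (o * v * (o : G)⁻¹ = v ∨ o * v * (o : G)⁻¹ = u * v) →
        (v * o * v⁻¹ = o ∨ v * o * v⁻¹ = o * u) := fun v hv o h => h.imp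
      (fun e => mul_inv_eq_iff_eq_mul.2 (mul_inv_eq_iff_eq_mul.1 e).symm) fun e => by
        have e' : (o : G) * v = u * v * o := mul_inv_eq_iff_eq_mul.1 e
        rw [mul_inv_eq_iff_eq_mul, (mM _).1 o.2, mul_assoc, e', ← mul_assoc, ← mul_assoc, u2, one_mul]
    by_cases uz : z = u
    · exact fun v hv o ho => tr v hv o (uz ▸ act _ (inP (fun p hp => (mM p).2 (uz ▸ zc p hp)) o ho) v hv)
    have main : ∀ o : M, o ∈ Cfsg.pCore 2 M → o * z * (o : G)⁻¹ = z ∨ o * z * (o : G)⁻¹ = u * z := by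
      intro o ho
      obtain ⟨S, hS⟩ := (P.2.comap_subtype (K := M)).exists_le_sylow
      obtain ⟨T, hT⟩ := (S.2.map M.subtype).exists_le_sylow
      have oT : o.1 ∈ T := hT ⟨o, H2.pCore_le_sylow S ho, rfl⟩
      have le : (P : Subgroup G) ⊓ M ≤ T := fun x hx => hT ⟨⟨x, hx.2⟩, hS hx.1, rfl⟩
      by_cases oP : o.1 ∈ (P : Subgroup G) ⊓ M
      · exact .inl (by rw [zc _ oP.1]; group)
      have i1 : ((P : Subgroup G) ⊓ M).relIndex P = 2 := by
        obtain ⟨a, ha, au⟩ : ∃ a ∈ (P : Subgroup G), a * u * a⁻¹ = z * u := by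
          by_contra hn
          refine hc fun x hx => mem_centralizer_iff.2 fun p hp => ?_
          have pu := mul_inv_eq_iff_eq_mul.1 ((act p hp u hu).resolve_right fun e => hn ⟨p, hp, e⟩)
          rcases four z hz u hu x hx z1 u1 uz with rfl | rfl | rfl | rfl
          exacts [by simp, zc p hp, pu, by rw [← mul_assoc, zc p hp, mul_assoc, pu, mul_assoc]]
        refine index_eq_two_iff.2 ⟨⟨a, ha⟩, fun b => ?_⟩
        have e1 : ∀ c : P, c ∈ ((P : Subgroup G) ⊓ M).subgroupOf P ↔ c * u * (c : G)⁻¹ = u := fun c => by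
          rw [mem_subgroupOf, mem_inf, mM, mul_inv_eq_iff_eq_mul]
          exact and_iff_right c.2
        have e2 : (b * a : G) * u * (b * a : G)⁻¹ = z * (b * u * (b : G)⁻¹) := by
          rw [show (b * a : G) * u * (b * a : G)⁻¹ = b * (a * u * a⁻¹) * (b : G)⁻¹ by group, au, ← mul_assoc,
            zc _ b.2]; group
        rw [e1, e1, coe_mul, e2]
        rcases act _ b.2 u hu with e | e <;> rw [e]
        · exact .inr ⟨rfl, by simpa using z1⟩
        · exact .inl ⟨by rw [← mul_assoc, sq z hz, one_mul], by simpa using z1⟩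
      have i2 : (((P : Subgroup G) ⊓ M).subgroupOf T).index = 2 := by
        have a := (((P : Subgroup G) ⊓ M).subgroupOf T).index_mul_card
        have b := (((P : Subgroup G) ⊓ M).subgroupOf P).index_mul_card
        rw [Nat.card_congr (subgroupOfEquivOfLe le).toEquiv] at a
        rw [Nat.card_congr (subgroupOfEquivOfLe inf_le_left).toEquiv, ← relIndex, i1,
          Nat.card_congr (Sylow.equiv P T).toEquiv, ← a] at b
        exact (Nat.eq_of_mul_eq_mul_right Nat.card_pos b).symm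
      have mm : ∀ x ∈ T, ∀ y ∈ T, x * y ∈ (P : Subgroup G) ⊓ M ↔
          (x ∈ (P : Subgroup G) ⊓ M ↔ y ∈ (P : Subgroup G) ⊓ M) := fun x hx y hy =>
        mul_mem_iff_of_index_two i2 (a := ⟨x, hx⟩) (b := ⟨y, hy⟩)
      have gen : ∀ w : G, (∀ p ∈ (P : Subgroup G) ⊓ M, p * w = w * p) → o * w = w * o →
          ∀ t ∈ T, t * w = w * t := fun w h1 h2 t ht => by
        by_cases c : t ∈ (P : Subgroup G) ⊓ M
        · exact h1 t c
        · have := h1 _ ((mm t ht _ (inv_mem oT)).2 (iff_of_false c (by rwa [inv_mem_iff])))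
          calc t * w = t * (o : G)⁻¹ * (o * w) := by group
            _ = t * (o : G)⁻¹ * w * o := by rw [h2]; group
            _ = _ := by rw [this]; group
      have zP : z ∈ (P : Subgroup G) ⊓ M := ⟨hUP hz, uM z hz⟩
      have c1 : ∀ p ∈ (P : Subgroup G) ⊓ M, p * (o * z * (o : G)⁻¹) = o * z * (o : G)⁻¹ * p := fun p hp => by
        have : (o : G)⁻¹ * p * o ∈ (P : Subgroup G) ⊓ M := (mm _ (mul_mem (inv_mem oT) (le hp)) _ oT).2
          (iff_of_false (fun c => oP (by simpa using mul_mem c (inv_mem hp))) oP)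
        calc _ = o * (((o : G)⁻¹ * p * o) * z) * (o : G)⁻¹ := by group
          _ = _ := by rw [zc _ this.1]; group
      have oo : (o * o : G) * z = z * (o * o) := zc _ ((mm _ oT _ oT).2 Iff.rfl).1
      have := sylow_inv P T cyc (a := u) (b := o * z * (o : G)⁻¹ * z) (le ⟨hUP hu, uM u hu⟩)
        (mul_mem (mul_mem (mul_mem oT (le zP)) (inv_mem oT)) (le zP))
        (gen u (fun p hp => (mM p).1 hp.2) ((mM _).1 o.2))
        (gen _ (fun p hp => by rw [← mul_assoc, c1 p hp, mul_assoc, zc p hp.1, ← mul_assoc]) (by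
          calc (o : G) * (o * z * (o : G)⁻¹ * z) = (o * o * z) * ((o : G) * o)⁻¹ * (o * z * (o : G)⁻¹) * o := by
                group
            _ = z * (o * z * (o : G)⁻¹) * o := by rw [oo]; group
            _ = _ := by rw [c1 z zP])) u2 (by
          calc _ = (o : G) * z * (o : G)⁻¹ * (z * (o * z * (o : G)⁻¹)) * z := by group
            _ = o * (z * z) * (o : G)⁻¹ * (z * z) := by rw [c1 z zP]; group
            _ = 1 := by rw [sq z hz]; group) u1
      exact this.imp (fun e => mul_right_cancel (b := z) (e.trans (sq z hz).symm))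
        fun e => mul_right_cancel (b := z) (e.trans (by rw [mul_assoc, sq z hz, mul_one]))
    intro v hv o ho
    refine tr v hv o ?_
    have ou := mul_inv_eq_iff_eq_mul.2 ((mM _).1 o.2)
    rcases four z hz u hu v hv z1 u1 uz with rfl | rfl | rfl | rfl
    · simp
    · exact main o ho
    · exact .inl ou
    · rw [show (o : G) * (z * u) * (o : G)⁻¹ = o * z * (o : G)⁻¹ * (o * u * (o : G)⁻¹) by group, ou]
      exact (main o ho).imp (fun e => by rw [e]) fun e => by rw [e, mul_assoc]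
  rintro k ⟨hk, ku⟩
  have kM : k ∈ M := (mM k).2 (mem_centralizer_singleton_iff.1 ku)
  refine mem_centralizer_iff.2 fun v hv => ?_
  have vO : (⟨v, uM v hv⟩ : M) ∈ Cfsg.pCore 2 M := mem_core hch (u := ⟨u, uM u hu⟩)
    (fun m => Subtype.ext ((mM _).1 m.2)) (Subtype.ext u2) fun o ho =>
      (key v hv o ho).imp Subtype.ext Subtype.ext
  have := H2.pCore_characteristic 2 M
  have m1 : v * k * v⁻¹ * k⁻¹ ∈ (Cfsg.pCore 2 M).map M.subtype :=
    ⟨⟨v, uM v hv⟩ * (⟨k, kM⟩ * ⟨v, uM v hv⟩⁻¹ * ⟨k, kM⟩⁻¹),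
      mul_mem vO (Normal.conj_mem inferInstance _ (inv_mem vO) _), by simp [mul_assoc]⟩
  have m2 : v * k * v⁻¹ * k⁻¹ ∈ K := mul_mem ((mem_normalizer_iff.1 (hUK hv) k).1 hk) (inv_mem hk)
  have := disjoint_def.1 (H2.disjoint_of_isPGroup_of_coprime (H2.isPGroup_map_pCore_subtype M)
    (Nat.coprime_two_right.2 hK)) m1 m2
  rw [mul_inv_eq_one, mul_inv_eq_iff_eq_mul] at this
  exact this

end Cfsg.Agent.S1957
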