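import Cfsg.Statements.S1968
import Cfsg.Agent.Base
import Cfsg.Agent.H16.WellPlaced

set_option autoImplicit false
open Cfsg

namespace Cfsg.Agent.S1968

/-- Let p be a prime, G a finite group with Sylow p-subgroup S and W a conjugacy functor for p on G with Z(P) ≤ W(P) for every p-subgroup P. Let A be a subgroup of Z(S) normalized by N_G(W(S)) that is not weakly closed in S with respect to G. Then there is a subgroup T of S, well placed in S with respect to W, such that: A ≤ T; N_G(W(N_S(T))) normalizes A; N_S(T) is a Sylow p-subgroup of N_G(T); A ≤ Z(N_S(T)); and A is not weakly closed in N_S(T) with respect to N_G(T), that is, some N_G(T)-conjugate of A other than A lies in N_S(T). -/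
theorem result {G : Type*} [Group G] [Finite G] {p : ℕ} [Fact p.Prime] (S : Sylow p G) (W : Subgroup G → Subgroup G) (hW : Cfsg.IsConjugacyFunctor p W) (hWZ : ∀ P : Subgroup G, IsPGroup p ↥P → P ⊓ Subgroup.centralizer (P : Set G) ≤ W P) (A : Subgroup G) (hAZ : A ≤ (S : Subgroup G) ⊓ Subgroup.centralizer ((S : Subgroup G) : Set G)) (hAN : Subgroup.normalizer ((W (S : Subgroup G) : Subgroup G) : Set G) ≤ Subgroup.normalizer ((A : Subgroup G) : Set G)) (hnwc : ¬ Cfsg.IsWeaklyClosed A (S : Subgroup G)) : ∃ T : Subgroup G, Cfsg.IsWellPlaced p W (S : Subgroup G) T ∧ A ≤ T ∧ Subgroup.normalizer ((W ((S : Subgroup G) ⊓ Subgroup.normalizer ((T : Subgroup G) : Set G)) : Subgroup G) : Set G) ≤ Subgroup.normalizer ((A : Subgroup G) : Set G) ∧ ¬ p ∣ ((S : Subgroup G) ⊓ Subgroup.normalizer ((T : Subgroup G) : Set G)).relIndex (Subgroup.normalizer ((T : Subgroup G) : Set G)) ∧ A ≤ Subgroup.centralizer (((S : Subgroup G) ⊓ Subgroup.normalizer ((T : Subgroup G) : Set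 G) : Subgroup G) : Set G) ∧ ∃ g ∈ Subgroup.normalizer ((T : Subgroup G) : Set G), A.map (MulAut.conj g).toMonoidHom ≤ (S : Subgroup G) ⊓ Subgroup.normalizer ((T : Subgroup G) : Set G) ∧ A.map (MulAut.conj g).toMonoidHom ≠ A := by
  have hAS : A ≤ (S : Subgroup G) := hAZ.trans inf_le_left
  have : ∃ g : G, H16.cj g A ≤ S ∧ H16.cj g A ≠ A := by
    by_contra h
    push Not at h
    exact hnwc ⟨hAS, h⟩
  obtain ⟨g, hg1, hg2⟩ := this
  obtain ⟨T, h1, h2, h3, h4⟩ := H16.exists_wp_not_normalizer hW hWZ (H7.isSylowIn_top S)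
    (A := A) hAZ (by rwa [top_inf_eq]) (Subgroup.mem_top g) (H16.cj_le_iff.mp hg1)
    (fun h => hg2 (H16.cj_eq_iff.mpr h))
  rw [top_inf_eq] at h3 h4
  have h5 := H16.wp_top_iff.mp h1
  refine ⟨T, h5, h2, h3, h5.2 0, (hAZ.trans inf_le_right).trans (H16.Ce_anti inf_le_left), ?_⟩
  obtain ⟨x, hx1, hx2⟩ := SetLike.not_le_iff_exists.mp h4
  refine ⟨x, hx1, ?_, fun e => hx2 (H16.cj_eq_iff.mp e)⟩
  have h6 : H16.cj x A ≤ T := (H16.cj_mono x h2).trans (H16.cj_eq_iff.mpr hx1).le
  exact h6.trans (le_inf h1.1 Subgroup.le_normalizer)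

end Cfsg.Agent.S1968
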