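import Cfsg.Statements.S1970
import Cfsg.Agent.Base
import Cfsg.Agent.H16.Transfer

set_option autoImplicit false
universe u
open Cfsg

namespace Cfsg.Agent.S1970

/-- Let p be a prime, G a finite group and W an isomorphism-invariant p-group functor (W assigns to every group Q a subgroup W(Q), nontrivial whenever Q is a nontrivial finite p-group, and every isomorphism from a finite p-group Q onto a group R carries W(Q) onto W(R)). Suppose that for every section G* = K/R of G with C_{G*}(O_p(G*)) ≤ O_p(G*) and every Sylow p-subgroup S* of G*, one has O_p(G*) ∩ (G*)' = O_p(G*) ∩ (N_{G*}(W(S*)))'. Then W controls transfer in every section G* of G: S* ∩ (G*)' = S* ∩ (N_{G*}(W(S*)))' for a Sylow p-subgroup S* of G*. -/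
theorem result {G : Type u} [Group G] [Finite G] {p : ℕ} [Fact p.Prime] (W : ∀ (Q : Type u) [Group Q], Subgroup Q) (hW : Cfsg.IsCharPFunctor.{u} p W) (hloc : ∀ (K R : Subgroup G) [hR : (R.subgroupOf K).Normal], Subgroup.centralizer ((Cfsg.pCore p (↥K ⧸ R.subgroupOf K) : Subgroup (↥K ⧸ R.subgroupOf K)) : Set (↥K ⧸ R.subgroupOf K)) ≤ Cfsg.pCore p (↥K ⧸ R.subgroupOf K) → ∀ T : Sylow p (↥K ⧸ R.subgroupOf K), Cfsg.pCore p (↥K ⧸ R.subgroupOf K) ⊓ commutator (↥K ⧸ R.subgroupOf K) = Cfsg.pCore p (↥K ⧸ R.subgroupOf K) ⊓ ⁅Subgroup.normalizer ((Cfsg.inducedFunctor (G := (↥K ⧸ R.subgroupOf K)) W ((T : Subgroup (↥K ⧸ R.subgroupOf K))) : Subgroup (↥K ⧸ R.subgroupOf K)) : Set (↥K ⧸ R.subgroupOf K)), Subgroup.normalizer ((Cfsg.inducedFunctor (G := (↥K ⧸ R.subgroupOf K)) W ((T : Subgroup (↥K ⧸ R.subgroupOf K))) : Subgroup (↥K ⧸ R.subgroupOf K)) : Set (↥K ⧸ R.subgroupOf K))⁆) : ∀ (K R : Subgroup G) [hR : (R.subgroupOf K).Normal], Cfsg.ControlsTransferIn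 p (Cfsg.inducedFunctor (G := (↥K ⧸ R.subgroupOf K)) W) ⊤ := by
  intro K R hR
  have h𝓦 := H16.forall_singleton hW
  rw [← H16.ft_singleton_iff]
  refine H16.section_induction (fun X _ => H16.FT p {W} X)
    (fun _ _ _ _ _ e h => h.of_equiv h𝓦 e) (fun K R _ hsub hquo => ?_) _
    (H16.involves_section K R)
  by_contra hG
  have hT := H7.isSylowIn_top (default : Sylow p (K ⧸ R.subgroupOf K))
  obtain ⟨hc, ⟨-, h1⟩, ⟨-, h2⟩, -⟩ :=
    H16.min_transfer h𝓦 (Set.singleton_nonempty W) hsub hquo hG hT rfl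
  have hcf := H16.isCF_induced (G := K ⧸ R.subgroupOf K) hW
  have h3 : H16.Nm (inducedFunctor W ((default : Sylow p (K ⧸ R.subgroupOf K)) :
      Subgroup (K ⧸ R.subgroupOf K))) ≠ ⊤ :=
    fun e => hG (H16.ft_of_normal h𝓦 rfl hT (H16.Nm_eq_top_iff.mp e))
  have h4 := h1 _ (H16.cf_le_Nm hcf hT.isPGroup) h3
  have : Nontrivial (K ⧸ R.subgroupOf K) := by
    by_contra h
    rw [not_nontrivial_iff_subsingleton] at h
    exact h3 (Subsingleton.elim _ _)
  refine hG ((H16.ft_iff h𝓦 hT).mpr (H16.le_trSub_of_inf_pCore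
    (H16.inf_comm_le_trSub_sup h𝓦 hsub (hquo _ hc.pCore_ne_bot) hT) ?_))
  exact (hloc K R hc default).le.trans
    ((inf_le_inf_left _ (Subgroup.commutator_mono h4 h4)).trans (h2.trans inf_le_right))

end Cfsg.Agent.S1970
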