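import Cfsg.Statements.S1981
import Cfsg.Agent.Base
import Cfsg.Agent.H16.KInf

set_option autoImplicit false
open Cfsg

namespace Cfsg.Agent.S1981

/-- Let P be a finite p-group generated by its abelian normal subgroups. Then both K-infinity subgroups of P equal P. -/
theorem result {P : Type*} [Group P] [Finite P] {p : ℕ} [Fact p.Prime] (hP : IsPGroup p P) (hgen : ⨆ A ∈ {A : Subgroup P | A.Normal ∧ IsMulCommutative ↥A}, A = ⊤) : Cfsg.kInfLower P = ⊤ ∧ Cfsg.kInfUpper P = ⊤ := by
  rw [← H16.kL_top, ← H16.kU_top, eq_top_iff, eq_top_iff]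
  constructor
  · rw [← hgen]
    refine iSup₂_le fun A ⟨h1, h2⟩ => ?_
    rw [hgen]
    exact H16.abelian_le_kL le_top (Subgroup.le_centralizer A) Subgroup.le_normalizer_of_normal
  · rw [← hgen]
    refine iSup₂_le fun A ⟨h1, h2⟩ => ?_
    rw [hgen]
    exact H16.abelian_le_kU le_top (Subgroup.le_centralizer A) Subgroup.le_normalizer_of_normal

end Cfsg.Agent.S1981
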