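import Cfsg.Statements.S1990
import Cfsg.Agent.Base
import Cfsg.Agent.H16.NPCtl
import Cfsg.Agent.S2795

set_option autoImplicit false
universe u
open Cfsg

namespace Cfsg.Agent.S1990

/-- Let p be an odd prime, G a finite group with Sylow p-subgroup S, and W an isomorphism-invariant p-group functor (W assigns to every group Q a subgroup W(Q), nontrivial whenever Q is a nontrivial finite p-group, and every isomorphism from a finite p-group Q onto a group R carries W(Q) onto W(R)). Suppose N_G(W(S)) has a normal p-complement, and W(T) controls strong fusion in every section G* = K/R of G all of whose sections are p-stable in the normalizer form, for every Sylow p-subgroup T of G*. Then G has a normal p-complement. -/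
theorem result {G : Type u} [Group G] [Finite G] {p : ℕ} [Fact p.Prime] (hp : p ≠ 2) (W : ∀ (Q : Type u) [Group Q], Subgroup Q) (hW : Cfsg.IsCharPFunctor.{u} p W) (S : Sylow p G) (hN : Cfsg.HasNormalPComplement p ↥(Subgroup.normalizer ((Cfsg.inducedFunctor (G := G) W (S : Subgroup G) : Subgroup G) : Set G))) (hctl : ∀ (K R : Subgroup G) [hR : (R.subgroupOf K).Normal], (∀ (K' R' : Subgroup (↥K ⧸ R.subgroupOf K)) [hR' : (R'.subgroupOf K').Normal], Cfsg.IsNormalizerPStable p (↥K' ⧸ R'.subgroupOf K')) → ∀ T : Sylow p (↥K ⧸ R.subgroupOf K), Cfsg.ControlsStrongFusion p (Cfsg.inducedFunctor (G := (↥K ⧸ R.subgroupOf K)) W (T : Subgroup (↥K ⧸ R.subgroupOf K)))) : Cfsg.HasNormalPComplement p G := by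
  refine H16.npc_of_sections hW (fun K R _ hc hq T hT hN => ?_) (H7.isSylowIn_top S) hN
  have := Fact.mk Nat.prime_two
  have hS := H7.isSylowIn_top T
  have h1 := H16.cf_le_Nm (H16.isCF_induced hW) hS.isPGroup
  have h2 := (H16.controlsStrongFusion_iff hS (H16.induced_le W _) h1).mp (hctl K R
    ((S2795.result hp).mp (H11.not_involves_qd_of_comm_sylow hp default
      ((H10.thompsonMinimal_of_coatom T hc hT hq).sylow_isMulCommutative T.isPGroup' hp.symm _))) T)
  refine H16.npc_of_controls hS h1 hN fun x hx g hg => ?_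
  obtain ⟨n, hn, e⟩ := h2 {x} g (Set.singleton_subset_iff.mpr hx) (by rintro _ rfl; exact hg)
  exact ⟨n, hn, e x rfl⟩

end Cfsg.Agent.S1990
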