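import Cfsg.Statements.S2009
import Cfsg.Agent.H17.Inv
import Cfsg.Agent.H83.InvPair

set_option autoImplicit false
open Cfsg

namespace Cfsg.Agent.S2009


/-- Let H be a finite group and z an involution such that every proper normal subgroup of H meets the centralizer of z trivially, and suppose z lies in a Klein four-subgroup E of H all three of whose involutions are conjugate to z in H. Then H is simple. -/
theorem result {H : Type*} [Group H] [Finite H] (z : H) (hz : orderOf z = 2) (hN : ∀ N : Subgroup H, N.Normal → N ≠ ⊤ → N ⊓ Subgroup.centralizer ({z} : Set H) = ⊥) (E : Subgroup H) (hE : IsKleinFour ↥E) (hzE : z ∈ E) (hc : ∀ e ∈ E, e ≠ 1 → IsConj z e) : IsSimpleGroup H := by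
  have hz1 : z ≠ 1 := H83.ne_one_of_orderOf_two hz
  have : Nontrivial H := ⟨⟨z, 1, hz1⟩⟩
  refine ⟨fun N hNn => ?_⟩
  by_contra hne
  push Not at hne
  have hfix : ∀ e ∈ E, e ≠ 1 → ∀ n ∈ N, e * n = n * e → n = 1 := by
    intro e he he1 n hn hen
    obtain ⟨g, rfl⟩ := isConj_iff.mp (hc e he he1)
    have h1 : g⁻¹ * n * g ∈ N ⊓ Subgroup.centralizer ({z} : Set H) := by
      refine Subgroup.mem_inf.mpr ⟨by simpa using hNn.conj_mem n hn g⁻¹, ?_⟩
      rw [Subgroup.mem_centralizer_singleton_iff]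
      calc g⁻¹ * n * g * z = g⁻¹ * (n * (g * z * g⁻¹)) * g := by group
        _ = z * (g⁻¹ * n * g) := by rw [← hen]; group
    rw [hN N hNn hne.2, Subgroup.mem_bot] at h1
    calc n = g * (g⁻¹ * n * g) * g⁻¹ := by group
      _ = 1 := by rw [h1]; group
  have hinv : ∀ e ∈ E, e ≠ 1 → ∀ n ∈ N, e * n * e⁻¹ = n⁻¹ := fun e he he1 =>
    H17.inverts_of_fpf (H17.kleinFour_mul_self hE he)
      (by rw [Subgroup.normalizer_eq_top]; trivial) (hfix e he he1)
  obtain ⟨w, hw, hw1, hwz⟩ := H17.kleinFour_exists_ne hE z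
  apply hne.1
  rw [eq_bot_iff]
  intro n hn
  have hzw : z * w ≠ 1 := by
    intro h
    apply hwz
    rw [← mul_left_cancel_iff (a := z), h, H83.mul_self_of_orderOf_two hz]
  refine hfix (z * w) (E.mul_mem hzE hw) hzw n hn ?_
  rw [← mul_inv_eq_iff_eq_mul]
  calc z * w * n * (z * w)⁻¹ = z * (w * n * w⁻¹) * z⁻¹ := by group
    _ = n := by rw [hinv w hw hw1 n hn, hinv z hzE hz1 _ (N.inv_mem hn), inv_inv]


end Cfsg.Agent.S2009
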