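import Cfsg.Statements.S2008
import Cfsg.Agent.S2009

set_option autoImplicit false
open Cfsg

namespace Cfsg.Agent.S2008


/-- Let H be a finite group and z an involution such that every proper normal subgroup of H meets the centralizer of z trivially, and suppose z lies in a Klein four-subgroup E of H all three of whose involutions are conjugate to z in H. Then H has no non-trivial abelian normal subgroup. -/
theorem result {H : Type*} [Group H] [Finite H] (z : H) (hz : orderOf z = 2) (hN : ∀ N : Subgroup H, N.Normal → N ≠ ⊤ → N ⊓ Subgroup.centralizer ({z} : Set H) = ⊥) (E : Subgroup H) (hE : IsKleinFour ↥E) (hzE : z ∈ E) (hc : ∀ e ∈ E, e ≠ 1 → IsConj z e) (N : Subgroup H) [N.Normal] (hab : IsMulCommutative ↥N) : N = ⊥ := by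
  have hs := Cfsg.Agent.S2009.result z hz hN E hE hzE hc
  rcases hs.eq_bot_or_eq_top_of_normal N inferInstance with h | h
  · exact h
  · exfalso
    subst h
    obtain ⟨w, hw, hw1, hwz⟩ := H17.kleinFour_exists_ne hE z
    obtain ⟨g, hg⟩ := isConj_iff.mp (hc w hw hw1)
    have := congrArg Subtype.val (hab.is_comm.comm ⟨g, trivial⟩ ⟨z, trivial⟩)
    apply hwz
    rw [← hg, mul_inv_eq_iff_eq_mul]
    exact this


end Cfsg.Agent.S2008
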