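import Cfsg.Statements.S2036
import Cfsg.Agent.H81.M22P2
import Cfsg.Agent.H81.M22P3
import Cfsg.Agent.H81.M22C3
import Cfsg.Agent.H81.M22C4
-- import your own Cfsg.Agent.* helpers here

set_option autoImplicit false
open Cfsg

namespace Cfsg.Agent.S2036

/-- The Schur multiplier of the Mathieu group M₂₂ (the permutations in the automorphism group of the length-24 binary code that fix each of two given points) is cyclic of order 12; here the Schur multiplier is described through stem extensions, as in the definitions: surjective homomorphisms onto the group from a finite group, whose kernel is central in that finite group and contained in that finite group's commutator subgroup. -/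
theorem result : Cfsg.HasCyclicSchurMultiplier ↥Cfsg.Spor.M22 12 := by
  have : Finite Cfsg.Spor.M22 := Nat.finite_of_card_ne_zero (by rw [H72.card_M22]; norm_num)
  refine H81.cyclic_of_hasV [(2, 2), (3, 1)] (by simpa using ⟨H81.M22P2.main, H81.M22P3.main⟩) ?_ (by norm_num) (by norm_num) (H81.M22C4.main.hasV.lcm H81.M22C3.main.hasV)
  rw [H72.card_M22]
  exact H81.mem_of_sq_dvd (k := 7) [2, 3, 5, 7, 11] [2, 3] (by norm_num) (by norm_num) (by norm_num)

end Cfsg.Agent.S2036
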