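import Cfsg.Statements.S2047
import Cfsg.Agent.H81.McLP2
import Cfsg.Agent.H81.McLP3
import Cfsg.Agent.H81.McLP5
import Cfsg.Agent.H81.McLC
-- import your own Cfsg.Agent.* helpers here

set_option autoImplicit false
open Cfsg

namespace Cfsg.Agent.S2047

/-- The Schur multiplier of the McLaughlin group (as a two-vector stabiliser in the automorphism group of the rank-24 lattice) is cyclic of order 3; here the Schur multiplier is described through stem extensions, as in the definitions: surjective homomorphisms onto the group from a finite group, whose kernel is central in that finite group and contained in that finite group's commutator subgroup. -/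
theorem result : Cfsg.HasCyclicSchurMultiplier ↥Cfsg.Spor.McL 3 := by
  have : Finite (H77.St2 H77.vV H77.vU) := Nat.finite_of_card_ne_zero (by rw [H77.card_mcl]; norm_num)
  refine H21.multiplier_congr_left (H81.cyclic_of_hasV [(2, 0), (3, 1), (5, 0)] (by simpa using ⟨H81.McLP2.main, H81.McLP3.main, H81.McLP5.main⟩) ?_ (by norm_num) (by norm_num) H81.McLC.main.hasV) H77.mclEquiv
  rw [H77.card_mcl]
  exact H81.mem_of_sq_dvd (k := 7) [2, 3, 5, 7, 11] [2, 3, 5] (by norm_num) (by norm_num) (by norm_num)

end Cfsg.Agent.S2047
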