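import Cfsg.Statements.S2095
import Cfsg.Agent.H65.EO73P2
import Cfsg.Agent.H65.EO73P3
import Cfsg.Agent.H65.EO73C
import Cfsg.Agent.H65.EO73D

set_option autoImplicit false
open Cfsg

namespace Cfsg.Agent.S2095

/-- Exceptional Schur multiplier: over the field with 3 elements, PΩ₇ (for the form x₀² + Σ xᵢyᵢ) has Schur multiplier cyclic of order 6 (the product of cyclic groups of orders 3 and 2; here the Schur multiplier is described through stem extensions, as in the definitions). -/
theorem result {F : Type*} [Field F] [Fintype F] (hF : Fintype.card F = 3) : Cfsg.HasCyclicSchurMultiplier (Cfsg.POmega F (Cfsg.quadFormOdd 3 F)) 6 := by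
  obtain ⟨e⟩ := H65.O73M.equiv F hF
  have : Finite (Cfsg.Omega (ZMod 3) (Cfsg.quadFormOdd 3 (ZMod 3))) :=
    Nat.finite_of_card_ne_zero (by rw [H65.O73M.card]; norm_num)
  refine H21.multiplier_congr_left (H81.cyclic_of_hasV [(2, 1), (3, 1)]
    (by simpa using ⟨H65.EO73P2.main, H65.EO73P3.main⟩) ?_ (by norm_num) (by norm_num)
    (H65.EO73C.main.hasV.lcm H65.EO73D.main.hasV)) e
  rw [H65.O73M.card]
  exact H81.mem_of_sq_dvd (k := 9) [2, 3, 5, 7, 13] [2, 3] (by norm_num) (by norm_num) (by norm_num)

end Cfsg.Agent.S2095
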