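import Cfsg.Statements.S2104
import Cfsg.Agent.H65.EF42P2
import Cfsg.Agent.H65.EF42P3
import Cfsg.Agent.H65.EF42P5
import Cfsg.Agent.H65.EF42P7
import Cfsg.Agent.H65.EF42C

set_option autoImplicit false
open Cfsg

namespace Cfsg.Agent.S2104

/-- Exceptional Schur multiplier: over the field with 2 elements the Chevalley group of type F₄ has Schur multiplier cyclic of order 2 (here the Schur multiplier is described through stem extensions, as in the definitions). -/
theorem result {F : Type*} [Field F] [Fintype F] (hF : Fintype.card F = 2) : Cfsg.HasCyclicSchurMultiplier ↥(Cfsg.Lie.chevF4.group F) 2 := by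
  obtain ⟨e⟩ := H65.F42M.equiv F hF
  have : Finite (Cfsg.Lie.chevF4.group (ZMod 2)) :=
    Nat.finite_of_card_ne_zero (by rw [H65.F42M.card]; norm_num)
  refine H21.multiplier_congr_left (H81.cyclic_of_hasE [(2, 1), (3, 0), (5, 0), (7, 0)]
    (by simpa using ⟨H65.EF42P2.main, H65.EF42P3.main, H65.EF42P5.main, H65.EF42P7.main⟩) ?_
    (by norm_num) (by norm_num) H65.EF42C.main.hasE) e
  rw [H65.F42M.card]
  exact H81.mem_of_sq_dvd (k := 24) [2, 3, 5, 7, 13, 17] [2, 3, 5, 7] (by norm_num) (by norm_num)
    (by norm_num)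

end Cfsg.Agent.S2104
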