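import Cfsg.Statements.S2143
import Cfsg.Agent.Base
import Cfsg.Agent.H26.MinCount


set_option autoImplicit false
open Cfsg

namespace Cfsg.Agent.S2143


/-- Minimal index of a proper subgroup of the odd-dimensional orthogonal groups: for m ≥ 3 and a field F with q elements, q odd and q ≥ 5, every proper subgroup of PΩ_(2m+1)(F) (for the form x₀² + Σ xᵢyᵢ) has index at least (q^(2m) − 1)/(q − 1), and that index is attained. -/
theorem result {F : Type*} [Field F] [Fintype F] {q : ℕ} (hF : Fintype.card F = q) (hodd : Odd q) (h5 : 5 ≤ q) (m : ℕ) (hm : 3 ≤ m) : (∀ H : Subgroup (Cfsg.POmega F (Cfsg.quadFormOdd m F)), H ≠ ⊤ → (q ^ (2 * m) - 1) / (q - 1) ≤ H.index) ∧ (∃ H : Subgroup (Cfsg.POmega F (Cfsg.quadFormOdd m F)), H.index = (q ^ (2 * m) - 1) / (q - 1)) := by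
  subst hF
  have h2 := H58.two_ne_zero_of_odd_card hodd
  have hQ := H58.qOdd_nondeg m h2
  have hn : Module.finrank F (Unit ⊕ (Fin m ⊕ Fin m) → F) = 2 * m + 1 := by simp; ring
  obtain ⟨k, rfl⟩ : ∃ k, m = k + 3 := ⟨m - 3, by omega⟩
  obtain ⟨r, hr⟩ : ∃ r, Fintype.card F = r + 5 := ⟨Fintype.card F - 5, by omega⟩
  have hpos : 1 ≤ Fintype.card F ^ (2 * (k + 3)) := Nat.one_le_pow _ _ Fintype.card_pos
  have H := H26.min_sing hQ (by omega) (T := Fintype.card F ^ (2 * (k + 3)) - 1)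
    (by rw [H58.qOdd, H58.card_zero_qOddc _ one_ne_zero]; omega) ?_ ?_ (fun h8 => by omega)
  · obtain ⟨h1, z, hz⟩ := H
    exact H26.min_index_POmega _ (H58.coe_qOdd _ F) hQ (by omega) h1 hz
  · rw [hn, show 2 * (k + 3) + 1 - 3 = 2 * k + 4 by omega,
      show 2 * (k + 3) = 2 * k + 4 + 2 by ring, pow_add _ (2 * k + 4), hr]
    generalize (r + 5) ^ (2 * k + 4) = X
    refine le_trans (Nat.sub_le _ _) ?_
    rw [show r + 5 - 1 = r + 4 by omega]
    nlinarith [Nat.zero_le (r * X), Nat.zero_le X]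
  · intro c _
    rw [H26.card_qOdd_eq]
    refine le_trans (Nat.mul_le_mul_right _ H26.card_sq_one.1)
      (le_trans ?_ (Nat.mul_le_mul_left _ (Nat.le_add_left _ _)))
    rw [show k + 3 - 1 = k + 2 by omega, mul_assoc, ← pow_succ, two_mul (k + 3), pow_add,
      show k + 2 + 1 = k + 3 by omega]
    have h3 : 1 ≤ Fintype.card F ^ (k + 3) := Nat.one_le_pow _ _ Fintype.card_pos
    obtain ⟨X, hX⟩ : ∃ X, Fintype.card F ^ (k + 3) = X + 1 := ⟨_, (Nat.sub_add_cancel h3).symm⟩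
    rw [hX, hr, show r + 5 - 1 = r + 4 by omega, Nat.add_sub_cancel,
      show (X + 1) * (X + 1) - 1 = X * (X + 2) by
        rw [show (X + 1) * (X + 1) = X * (X + 2) + 1 by ring, Nat.add_sub_cancel]]
    nlinarith [Nat.zero_le (r * X * X), Nat.zero_le (r * X), Nat.zero_le (X * X)]

end Cfsg.Agent.S2143
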