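import Cfsg.Statements.S2144
import Cfsg.Agent.Base
import Cfsg.Agent.H26.MinCount


set_option autoImplicit false
open Cfsg

namespace Cfsg.Agent.S2144


/-- Minimal index of a proper subgroup of the odd-dimensional orthogonal groups over the field with 3 elements: for m ≥ 3, every proper subgroup of PΩ_(2m+1)(3) (for the form x₀² + Σ xᵢyᵢ) has index at least 3^m(3^m − 1)/2, and that index is attained. -/
theorem result {F : Type*} [Field F] [Fintype F] (hF : Fintype.card F = 3) (m : ℕ) (hm : 3 ≤ m) : (∀ H : Subgroup (Cfsg.POmega F (Cfsg.quadFormOdd m F)), H ≠ ⊤ → 3 ^ m * (3 ^ m - 1) / 2 ≤ H.index) ∧ (∃ H : Subgroup (Cfsg.POmega F (Cfsg.quadFormOdd m F)), H.index = 3 ^ m * (3 ^ m - 1) / 2) := by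
  have h2 : (2 : F) ≠ 0 := H58.two_ne_zero_of_odd_card (by rw [hF]; decide)
  have hQ := H58.qOdd_nondeg m h2
  have hn : Module.finrank F (Unit ⊕ (Fin m ⊕ Fin m) → F) = 2 * m + 1 := by simp; ring
  obtain ⟨k, rfl⟩ : ∃ k, m = k + 3 := ⟨m - 3, by omega⟩
  have ha := H26.card_sq_one.2.2.2 h2
  have h3 : 1 ≤ 3 ^ (k + 3) := Nat.one_le_pow _ _ (by norm_num)
  obtain ⟨X, hX⟩ : ∃ X, 3 ^ (k + 3) = X + 1 := ⟨_, (Nat.sub_add_cancel h3).symm⟩
  have hc : ∀ z, H58.qOdd (k + 3) F z ≠ 0 → 2 * (H26.Pst _ z).relIndex (H56.EG (H58.qOdd (k + 3) F)) =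
      (X + 1) * Nat.card {x : F // x ^ 2 = H58.qOdd (k + 3) F z} + (X + 1) * X := by
    intro z hz
    have := H26.relIndex_Pst_ne hQ (by omega) hz
    rw [ha, H26.card_qOdd_eq, hF, show k + 3 - 1 = k + 2 by omega, mul_assoc, ← pow_succ,
      show 3 ^ (k + 2 + 1) = X + 1 from hX, Nat.add_sub_cancel, mul_comm X] at this
    exact this
  obtain ⟨z, -, -, hz⟩ := ((H60.nondeg_top hQ).hasHyp (by rw [finrank_top]; omega)).exists_Q_eq (-1)
  rw [hX, Nat.add_sub_cancel]
  refine H26.min_index_POmega _ (H58.coe_qOdd _ F) hQ (by omega)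
    (H26.min_relIndex hQ (by omega) ?_ (fun z h0 => ?_) fun h8 => by omega) (z := z) ?_
  · rw [hn, hF, show 2 * (k + 3) + 1 - 3 = 2 * (k + 2) by omega]
    refine Nat.div_le_of_le_mul ?_
    have : (X + 1) * (X + 1) = 9 * 3 ^ (2 * (k + 2)) := by rw [← hX]; ring
    nlinarith
  · by_cases hz : H58.qOdd (k + 3) F z = 0
    · have := H26.relIndex_Pst_sing hQ (by omega) h0 hz
      rw [H58.qOdd, H58.card_zero_qOddc _ one_ne_zero, hF, two_mul, pow_add, hX] at this
      refine Nat.div_le_of_le_mul ?_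
      rw [H58.qOdd]
      nlinarith
    · have := hc z hz
      exact Nat.div_le_of_le_mul (by omega)
  · have h1 := hc z (by rw [hz]; simp)
    have : IsEmpty {x : F // x ^ 2 = H58.qOdd (k + 3) F z} := ⟨fun ⟨x, hx⟩ => by
      rw [hz] at hx
      have hx0 : x ≠ 0 := by rintro rfl; simp at hx
      have := FiniteField.pow_card_sub_one_eq_one x hx0
      rw [hF] at this
      exact h2 (by linear_combination hx - this)⟩
    rw [Nat.card_of_isEmpty] at h1
    omega

end Cfsg.Agent.S2144
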