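import Cfsg.Statements.S2145
import Cfsg.Agent.Base
import Cfsg.Agent.H26.MinCount


set_option autoImplicit false
open Cfsg

namespace Cfsg.Agent.S2145


/-- Minimal index of a proper subgroup of the even-dimensional orthogonal groups of plus type: for m ≥ 4 and a field F with q ≥ 4 elements, every proper subgroup of PΩ⁺_2m(F) (for the form Σ xᵢyᵢ) has index at least (q^m − 1)(q^(m−1) + 1)/(q − 1), and that index is attained (the singular points). -/
theorem result {F : Type*} [Field F] [Fintype F] {q : ℕ} (hF : Fintype.card F = q) (hq : 4 ≤ q) (m : ℕ) (hm : 4 ≤ m) : (∀ H : Subgroup (Cfsg.POmega F (Cfsg.quadFormPlus m F)), H ≠ ⊤ → (q ^ m - 1) * (q ^ (m - 1) + 1) / (q - 1) ≤ H.index) ∧ (∃ H : Subgroup (Cfsg.POmega F (Cfsg.quadFormPlus m F)), H.index = (q ^ m - 1) * (q ^ (m - 1) + 1) / (q - 1)) := by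
  subst hF
  have hQ := H58.qPlus_nondeg m F
  obtain ⟨k, rfl⟩ : ∃ k, m = k + 4 := ⟨m - 4, by omega⟩
  have hn : Module.finrank F (Fin (k + 4) ⊕ Fin (k + 4) → F) = 2 * k + 8 := by
    simp; ring
  obtain ⟨r, hr⟩ : ∃ r, Fintype.card F = r + 4 := ⟨Fintype.card F - 4, by omega⟩
  have h3 : 1 ≤ Fintype.card F ^ (k + 4) := Nat.one_le_pow _ _ Fintype.card_pos
  have h4 : 2 ≤ Fintype.card F ^ (k + 3) := Nat.one_lt_pow (by omega) (by omega)
  have H := H26.min_sing hQ (by omega)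
    (T := (Fintype.card F ^ (k + 4) - 1) * (Fintype.card F ^ (k + 4 - 1) + 1))
    (by rw [H58.card_zero_qPlus, mul_add]; omega) ?_ ?_ ?_
  · obtain ⟨h1, z, hz⟩ := H
    exact H26.min_index_POmega _ (H58.coe_qPlus _ F) hQ (by omega) h1 hz
  · rw [hn, show 2 * k + 8 - 3 = (k + 2) + (k + 3) by omega, show k + 4 - 1 = k + 3 by omega,
      pow_add _ (k + 2)]
    refine le_trans (Nat.mul_le_mul_right _ (Nat.sub_le _ _)) ?_
    have h5 : 16 ≤ Fintype.card F ^ (k + 2) :=
      le_trans (Nat.pow_le_pow_left hq 2) (Nat.pow_le_pow_right (by omega) (by omega))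
    rw [pow_succ _ (k + 3), pow_succ _ (k + 2)]
    generalize Fintype.card F ^ (k + 2) = Y at h5
    obtain ⟨Z, rfl⟩ : ∃ Z, Y = Z + 16 := ⟨Y - 16, by omega⟩
    rw [hr, show r + 4 - 1 = r + 3 by omega]
    ring_nf
    nlinarith [Nat.zero_le (r * Z), Nat.zero_le (r * r * Z), Nat.zero_le (Z * Z * r),
      Nat.zero_le (Z * Z * r * r), Nat.zero_le (r * r)]
  · intro c hc
    rw [H58.card_ne_zero_qPlus _ hc, show k + 4 - 1 = k + 3 by omega]
    refine le_trans (Nat.mul_le_mul_right _ H26.card_sq_one.1) ?_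
    rw [mul_left_comm, mul_left_comm _ (_ - 1)]
    refine Nat.mul_le_mul_left _ ?_
    rw [hr, show r + 4 - 1 = r + 3 by omega] at *
    nlinarith
  · intro h8 _
    obtain rfl : k = 0 := by omega
    refine ⟨le_of_eq ?_, hq⟩
    rw [hr, show r + 4 - 1 = r + 3 by omega,
      show (r + 4) ^ (0 + 4) = (r + 3) * (r + 4 + 1) * ((r + 4) ^ 2 + 1) + 1 by ring,
      Nat.add_sub_cancel]
    ring

end Cfsg.Agent.S2145
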