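import Cfsg.Statements.S2146
import Cfsg.Agent.Base
import Cfsg.Agent.H26.MinCount


set_option autoImplicit false
open Cfsg

namespace Cfsg.Agent.S2146


/-- Minimal index of a proper subgroup of the even-dimensional orthogonal groups of plus type over the field with 2 elements: for m ≥ 4, every proper subgroup of Ω⁺_2m(2) (for the form Σ xᵢyᵢ) has index at least 2^(m−1)(2^m − 1), and that index is attained. -/
theorem result {F : Type*} [Field F] [Fintype F] (hF : Fintype.card F = 2) (m : ℕ) (hm : 4 ≤ m) : (∀ H : Subgroup (Cfsg.POmega F (Cfsg.quadFormPlus m F)), H ≠ ⊤ → 2 ^ (m - 1) * (2 ^ m - 1) ≤ H.index) ∧ (∃ H : Subgroup (Cfsg.POmega F (Cfsg.quadFormPlus m F)), H.index = 2 ^ (m - 1) * (2 ^ m - 1)) := by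
  have hQ := H58.qPlus_nondeg m F
  obtain ⟨k, rfl⟩ : ∃ k, m = k + 4 := ⟨m - 4, by omega⟩
  have hn : Module.finrank F (Fin (k + 4) ⊕ Fin (k + 4) → F) = 2 * k + 8 := by
    simp; ring
  have ha : Nat.card {c : F // c * c = 1} = 1 :=
    le_antisymm (by simpa [hF] using (H26.card_sq_one (F := F)).2.1) H26.card_sq_one.2.2.1
  have hc : ∀ z, H58.qPlus (k + 4) F z ≠ 0 → (H26.Pst _ z).relIndex (H56.EG (H58.qPlus (k + 4) F)) =
      2 ^ (k + 4 - 1) * (2 ^ (k + 4) - 1) := by
    intro z hz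
    have := H26.relIndex_Pst_ne hQ (by omega) hz
    rwa [ha, H58.card_ne_zero_qPlus _ hz, hF, one_mul, mul_comm] at this
  obtain ⟨z, -, -, hz⟩ := ((H60.nondeg_top hQ).hasHyp (by rw [finrank_top]; omega)).exists_Q_eq 1
  refine H26.min_index_POmega _ (H58.coe_qPlus _ F) hQ (by omega)
    (H26.min_relIndex hQ (by omega) ?_ (fun z h0 => ?_) fun h8 _ => ?_) (hc z (by simp [hz]))
  · rw [hn, hF]
    refine le_trans (Nat.mul_le_mul_left _ (Nat.sub_le _ _)) (le_of_eq ?_)
    rw [show 2 * k + 8 - 3 = 2 * k + 5 by omega, show k + 4 - 1 = k + 3 by omega]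
    ring
  · by_cases hz : H58.qPlus (k + 4) F z = 0
    · have := H26.relIndex_Pst_sing hQ (by omega) h0 hz
      rw [H58.card_zero_qPlus, hF, mul_comm (_ - 1) (2 ^ _)] at this
      have h3 : 1 ≤ 2 ^ (k + 4) := Nat.one_le_pow _ _ (by norm_num)
      omega
    · exact (hc z hz).ge
  · obtain rfl : k = 0 := by omega
    rw [hF]
    norm_num

end Cfsg.Agent.S2146
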