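import Cfsg.Statements.S2147
import Cfsg.Agent.Base
import Cfsg.Agent.H26.MinCount


set_option autoImplicit false
open Cfsg

namespace Cfsg.Agent.S2147


/-- Minimal index of a proper subgroup of the even-dimensional orthogonal groups of minus type: for m ≥ 4 and a field F with q elements, every proper subgroup of PΩ⁻_2m(F) (for the form Σ_{i<m−1} xᵢyᵢ + z₁² + a z₁z₂ + b z₂² with anisotropic binary part) has index at least (q^m + 1)(q^(m−1) − 1)/(q − 1), and that index is attained. -/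
theorem result {F : Type*} [Field F] [Fintype F] {q : ℕ} (hF : Fintype.card F = q) (m : ℕ) (hm : 4 ≤ m) (a b : F) (hab : ∀ z₁ z₂ : F, z₁ ^ 2 + a * z₁ * z₂ + b * z₂ ^ 2 = 0 → z₁ = 0 ∧ z₂ = 0) : (∀ H : Subgroup (Cfsg.POmega F (Cfsg.quadFormMinus (m - 1) F a b)), H ≠ ⊤ → (q ^ m + 1) * (q ^ (m - 1) - 1) / (q - 1) ≤ H.index) ∧ (∃ H : Subgroup (Cfsg.POmega F (Cfsg.quadFormMinus (m - 1) F a b)), H.index = (q ^ m + 1) * (q ^ (m - 1) - 1) / (q - 1)) := by
  subst hF
  have hQ := H58.qMinus_nondeg (m - 1) hab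
  obtain ⟨k, rfl⟩ : ∃ k, m = k + 4 := ⟨m - 4, by omega⟩
  have hn : Module.finrank F ((Fin (k + 4 - 1) ⊕ Fin (k + 4 - 1)) ⊕ Fin 2 → F) = 2 * k + 8 := by
    simp; ring
  obtain ⟨r, hr⟩ : ∃ r, Fintype.card F = r + 2 := ⟨Fintype.card F - 2, by
    have : 1 < Fintype.card F := Fintype.one_lt_card; omega⟩
  have h3 : 1 ≤ Fintype.card F ^ (k + 3) := Nat.one_le_pow _ _ Fintype.card_pos
  obtain ⟨X, hX⟩ : ∃ X, Fintype.card F ^ (k + 3) = X + 1 := ⟨_, (Nat.sub_add_cancel h3).symm⟩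
  have hT : (Fintype.card F ^ (k + 4) + 1) * (Fintype.card F ^ (k + 4 - 1) - 1) + 1 =
      Fintype.card F ^ (k + 4 - 1) + (Fintype.card F ^ (k + 4 - 1) - 1) *
        Fintype.card F ^ (k + 4 - 1 - 1) * Fintype.card F ^ 2 := by
    rw [mul_assoc, ← pow_add, show k + 4 - 1 - 1 + 2 = k + 3 + 1 by omega,
      show k + 4 - 1 = k + 3 by omega, pow_succ, hX, Nat.add_sub_cancel]
    ring
  have H := H26.min_sing hQ (by omega)
    (T := (Fintype.card F ^ (k + 4) + 1) * (Fintype.card F ^ (k + 4 - 1) - 1))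
    (by rw [H58.card_zero_qMinus _ hab, hT]) ?_ ?_
    (fun _ hp => absurd hp (H58.not_isPlus_qMinus _ hab))
  · obtain ⟨h1, z, hz⟩ := H
    exact H26.min_index_POmega _ (H58.coe_qMinus _ F a b) hQ (by omega) h1 hz
  · have hY : Fintype.card F * Fintype.card F ^ (2 * k + 5) = (X + 1) * (X + 1) := by
      rw [← hX]; ring
    rw [hn, show 2 * k + 8 - 3 = 2 * k + 5 by omega, show k + 4 - 1 = k + 3 by omega, pow_succ, hX,
      Nat.add_sub_cancel]
    generalize Fintype.card F ^ (2 * k + 5) = Y at hY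
    rw [hr] at hY ⊢
    rw [show r + 2 - 1 = r + 1 by omega]
    have : ((X + 1) * (r + 2) + 1) * X ≤ (r + 2) * ((X + 1) * (X + 1)) := by
      nlinarith [Nat.zero_le (r * X)]
    rw [← hY] at this
    nlinarith [Nat.zero_le (r * Y)]
  · intro c _
    have := H26.card_qMinus_ge (k + 4 - 1) hab c
    exact Nat.mul_le_mul H26.card_sq_one.2.1 (by omega)

end Cfsg.Agent.S2147
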