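import Cfsg.Statements.S2153
import Cfsg.Agent.Base
import Cfsg.Agent.H26.MinU6


set_option autoImplicit false
open Cfsg

namespace Cfsg.Agent.S2153


/-- Minimal index of a proper subgroup of the unitary groups PSU_n(2) with n divisible by 6, realised over the field with 4 elements: every proper subgroup has index at least 2^(n−1)(2^n − 1)/3, and that index is attained. -/
theorem result {F : Type*} [Field F] [Fintype F] (hF : Fintype.card F = 4) (n : ℕ) (hn : 6 ∣ n) (hpos : 6 ≤ n) : (∀ H : Subgroup (Cfsg.PSU n F 2), H ≠ ⊤ → 2 ^ (n - 1) * (2 ^ n - 1) / 3 ≤ H.index) ∧ (∃ H : Subgroup (Cfsg.PSU n F 2), H.index = 2 ^ (n - 1) * (2 ^ n - 1) / 3) := by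
  have heven : Even n := even_iff_two_dvd.2 (dvd_trans (by norm_num) hn)
  have h := H26.MU.min_ne (q := 2) (hF.trans (by norm_num)) (n := n) (by omega) (by
    simp only [H59.numIso, if_pos heven]
    rw [mul_comm (2 ^ n - 1), ← mul_assoc]
    exact Nat.mul_le_mul_right _ (by omega))
  simpa only [if_pos heven] using h

end Cfsg.Agent.S2153
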