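import Cfsg.Statements.S2155
import Cfsg.Agent.H63.CUJ
import Cfsg.Agent.H14.FStar

set_option autoImplicit false
open Cfsg

namespace Cfsg.Agent.S2155

open Cfsg.Lie H63 H64 H65

/-- In a Chevalley group of type G₂, B₂, D₄, F₄, E₆, E₇ or E₈ over a finite field of characteristic p (for types G₂ and B₂ the field is assumed to have at least 3 elements, so that the group is simple), the generalized Fitting subgroup of every proper standard parabolic subgroup P_J is a p-group (P_J is p-constrained with trivial largest normal subgroup of order prime to p). -/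
theorem result {F : Type*} [Field F] [Fintype F] (p : ℕ) [Fact p.Prime] [CharP F p] (D : Cfsg.Lie.ChevalleyDatum) (hD : D ∈ [Cfsg.Lie.chevG2, Cfsg.Lie.chevB2, Cfsg.Lie.chevD4, Cfsg.Lie.chevF4, Cfsg.Lie.chevE6, Cfsg.Lie.chevE7, Cfsg.Lie.chevE8]) (hq : (D = Cfsg.Lie.chevG2 ∨ D = Cfsg.Lie.chevB2) → 3 ≤ Fintype.card F) (J : Set ℕ) (hJ : ∃ i, i < D.rank ∧ i ∉ J) : IsPGroup p ↥(Cfsg.generalizedFittingSubgroup ↥(D.parabolicSubgroup F J)) := by
  obtain ⟨_, _, h, hA⟩ := ad_of_mem hD F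
  have hJ' : nodes D J ≠ Set.univ := fun e => by
    obtain ⟨i, hi, h1⟩ := hJ
    exact h1 (e ▸ Set.mem_univ _ : (⟨i, hi⟩ : Fin D.rank) ∈ nodes D J)
  rw [h.P_eq]
  have hU : IsPGroup p h.T.U := by
    have := (hA.isPGroup_U p).map (D.group F).subtype
    rwa [RGD.U, StB.rgd_X, map_gen_xG] at this
  have hN : ((h.T.UJ (nodes D J)).subgroupOf (h.T.PJ (nodes D J))).Normal :=
    Subgroup.normal_subgroupOf_of_le_normalizer (h.T.PJ_le_normalizer_UJ _)
  have hle := H2.le_pCore (N := (h.T.UJ (nodes D J)).subgroupOf (h.T.PJ (nodes D J)))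
    (hU.to_le (h.T.UJ_le_U _)).comap_subtype
  rw [H14.fstar_eq_pCore_iff_centralizer.2 fun g hg => hle ?_]
  · exact H2.pCore_isPGroup p _
  refine mem_UJ_of_comm h.stB (fun g hg => h.eq_one_of_comm hg) hJ' (h.T.PJ_le_Gp _ g.2)
    fun u hu => ?_
  exact (congrArg Subtype.val (hg ⟨u, h.T.B_le_PJ _ (h.T.U_le_B (h.T.UJ_le_U _ hu))⟩ (hle hu))).symm

end Cfsg.Agent.S2155
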