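import Cfsg.Statements.S2158
import Cfsg.Agent.H63.AdMat

set_option autoImplicit false
open Cfsg

namespace Cfsg.Agent.S2158

open Cfsg.Lie H63 H64

/-- In a Chevalley group of type G₂, B₂, D₄, F₄, E₆, E₇ or E₈ over any field, an element of the group whose matrix is the diagonal matrix `ĥ(χ)` of a character `χ` of the root lattice already lies in the diagonal subgroup H (the non-trivial inclusion of the statement that the group meets the group of all such diagonal matrices in H). -/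
theorem result {F : Type*} [Field F] (D : Cfsg.Lie.ChevalleyDatum) (hD : D ∈ [Cfsg.Lie.chevG2, Cfsg.Lie.chevB2, Cfsg.Lie.chevD4, Cfsg.Lie.chevF4, Cfsg.Lie.chevE6, Cfsg.Lie.chevE7, Cfsg.Lie.chevE8]) (χ : ℕ → Fˣ) (hχ : D.IsRootCharacter χ) (g : GL D.Idx F) (hg : g ∈ D.group F)
    (hgχ : (g : Matrix D.Idx D.Idx F) = D.charDiag F χ) : g ∈ D.diagonalSubgroup F := by
  obtain ⟨_, _, h, hA⟩ := ad_of_mem hD F
  obtain rfl : g = dgU D χ := Units.ext hgχ
  have key : ∀ r : Rt D, Mp D (xG D F) (MulAut.conj ⟨_, hg⟩) r r := fun r =>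
    mp_of_surj hA.toStB.toStN.toSt (f := fun t => χ r * t)
      (fun t => ⟨(χ r)⁻¹ * t, by simp⟩) fun t => Subtype.ext (dgU_conj hχ r t)
  rw [diagonalSubgroup_eq]
  exact mem_HH_xG.1 (hA.mem_H_of_isStd (g := ⟨_, hg⟩) (π := id) fun i => ⟨key _, key _⟩)

end Cfsg.Agent.S2158
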