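import Cfsg.Statements.S2160
import Cfsg.Agent.H63.AdMat

set_option autoImplicit false
open Cfsg

namespace Cfsg.Agent.S2160

open Cfsg.Lie H63 H64

/-- In a Chevalley group of type G₂, B₂, D₄, F₄, E₆, E₇ or E₈ over a finite field, every field automorphism commutes with every graph automorphism. -/
theorem result {F : Type*} [Field F] [Finite F] (D : Cfsg.Lie.ChevalleyDatum) (hD : D ∈ [Cfsg.Lie.chevG2, Cfsg.Lie.chevB2, Cfsg.Lie.chevD4, Cfsg.Lie.chevF4, Cfsg.Lie.chevE6, Cfsg.Lie.chevE7, Cfsg.Lie.chevE8]) (f g : ↥(D.group F) ≃* ↥(D.group F))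
    (hf : D.IsFieldAut f) (hg : D.IsGraphAut g) (y : ↥(D.group F)) : f (g y) = g (f y) := by
  obtain ⟨_, _, h, hA⟩ := ad_of_mem hD F
  obtain ⟨σ, rfl⟩ := (isFieldAut_iff hA).1 hf
  obtain ⟨π, -, hd⟩ := isGraphAut_iff.1 hg
  have : (g.trans (fieldAut D σ)).toMonoidHom = ((fieldAut D σ).trans g).toMonoidHom :=
    hA.hom_ext fun i t => by simp [(hd i _).1, (hd i _).2]
  exact DFunLike.congr_fun this y

end Cfsg.Agent.S2160
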