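import Cfsg.Statements.S2161
import Cfsg.Agent.H63.AdMat

set_option autoImplicit false
open Cfsg

namespace Cfsg.Agent.S2161

open Cfsg.Lie H63 H64 H65

theorem aux {F G : Type*} [Field F] [Group G] {D : ChevalleyDatum} [RS D] {x : ℕ → F → G}
    (h : StN D x) (hl : ∀ i : Fin D.rank, D.isLong (D.simple i) = false)
    {π : Equiv.Perm (Fin D.rank)} (hπ : D.IsDiagramSymmetry π) {φ : G ≃* G}
    (hφ : ∀ (i : Fin D.rank) t, φ (x (D.simple i) t) = x (D.simple (π i)) t ∧
      φ (x (D.neg (D.simple i)) t) = x (D.neg (D.simple (π i))) t) (r : Rt D) :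
    ∃ ε : F, ε * ε = 1 ∧ ∀ t, φ (x r t) = x (D.permRoot π r) (ε * t) := by
  have hlen : ∀ r s : Rt D, RS.len r = RS.len s := by
    have : ∀ r s : Rt D, RS.len r ≤ RS.len s := fun r s => by
      obtain ⟨i, e⟩ := exists_len_eq_simple r
      rw [e]
      by_contra hc
      have := (isLong_iff (r := simpleR i)).2 ⟨s, not_le.1 hc⟩
      rw [simpleR_val, hl] at this
      exact absurd this (by simp)
    exact fun r s => le_antisymm (this r s) (this s r)
  have hco : ∀ (r : Rt D) (i : Fin D.rank), co D r i = rt r i := fun r i => by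
    have := co_len r i
    rw [hlen (simpleR i) r] at this
    exact mul_right_cancel₀ (len_pos r).ne' this
  have hc : ∀ i j : Fin D.rank, D.cartan (π i) (D.simple (π j)) = D.cartan i (D.simple j) := by
    intro i j
    by_cases hij : i = j
    · rw [hij, cartan_simple_self, cartan_simple_self]
    have sy : ∀ i j : Fin D.rank, D.cartan i (D.simple j) = D.cartan j (D.simple i) := fun i j => by
      have := gram_symm (D := D) i j
      rw [gram, gram, hlen (simpleR i) (simpleR j)] at this
      exact mul_left_cancel₀ (len_pos _).ne' this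
    have := hπ i j hij
    rw [ChevalleyDatum.bonds, ChevalleyDatum.bonds, sy (π j), sy j] at this
    have h1 := cartan_simple_nonpos (D := D) hij
    have h2 := cartan_simple_nonpos (D := D) (π.injective.ne hij)
    nlinarith
  have key : ∃ s : Rt D, (∀ i, rt s (π i) = rt r i) ∧
      ∃ ε : F, ε * ε = 1 ∧ ∀ t, φ (x r t) = x s (ε * t) := by
    induction r using root_induction with
    | h1 i => exact ⟨simpleR (π i), fun j => by simp [Pi.single_apply], 1, one_mul _,
        fun t => by rw [one_mul]; exact (hφ i t).1⟩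
    | h2 i r ih =>
      obtain ⟨s, h1, ε, h2, h3⟩ := ih
      obtain ⟨a, a1, a2⟩ := h.sgn_n i r
      obtain ⟨b, b1, b2⟩ := h.sgn_n (π i) s
      have hs : b * (ε * a) * (b * (ε * a)) = 1 := by
        linear_combination (ε * a) ^ 2 * b1 + a * a * h2 + a1
      refine ⟨sref (π i) s, fun j => ?_, b * (ε * a), hs, fun t => ?_⟩
      · have : D.cartan (π i) s = D.cartan i r := by
          rw [cartan_eq, cartan_eq, ← Equiv.sum_comp π]
          simp only [h1, hc]
        simp [rt_sref, h1, this, Pi.single_apply]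
      · have e : φ (nn D x (D.simple i) 1) = nn D x (D.simple (π i)) 1 := by
          simp only [nn_eq, map_mul, (hφ _ _).1, (hφ _ _).2]
        have e1 := (a2 (a * t)).1
        rw [← mul_assoc a, a1, one_mul] at e1
        have e2 := (b2 (ε * (a * t))).1
        change _ = x (sref i r) t at e1
        change _ = x (sref (π i) s) _ at e2
        rw [← e1, map_mul, map_mul, map_inv, e, h3, e2]
        congr 1; ring
  obtain ⟨s, h1, h2⟩ := key
  have : D.permRoot π r = s := by
    unfold ChevalleyDatum.permRoot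
    cases e : List.find? _ (List.range D.nroots) with
    | none =>
      have := List.find?_eq_none.1 e s (List.mem_range.2 s.2)
      simp only [List.all_eq_true, beq_iff_eq] at this
      exact absurd (fun i _ => (hco s _).trans ((h1 i).trans (hco r i).symm)) this
    | some u =>
      have hu := List.mem_range.1 (List.mem_of_find?_eq_some e)
      have := List.find?_some e
      simp only [List.all_eq_true, beq_iff_eq] at this
      refine congrArg Fin.val (rt_inj (r := ⟨u, hu⟩) (funext fun j => ?_))
      obtain ⟨i, rfl⟩ := π.surjective j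
      exact (hco ⟨u, hu⟩ _).symm.trans ((this i (List.mem_finRange i)).trans
        ((hco r i).trans (h1 i).symm))
  rwa [this]

/-- For the Chevalley groups of types D₄ and E₆ (one root length) over any field: if `π` is a symmetry of the Dynkin diagram and `φ` is an automorphism sending `x_{p_i}(t)` to `x_{p_{π i}}(t)` and `x_{-p_i}(t)` to `x_{-p_{π i}}(t)` for every fundamental root `p_i`, then for every root `r` there is a sign `ε = ±1` with `φ(x_r(t)) = x_{π·r}(ε t)` for all `t`, where `π·r` is the root whose coefficients are those of `r` permuted by `π`. -/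
theorem result {F : Type*} [Field F] (D : Cfsg.Lie.ChevalleyDatum) (hD : D ∈ [Cfsg.Lie.chevD4, Cfsg.Lie.chevE6])
    (π : Equiv.Perm (Fin D.rank)) (hπ : D.IsDiagramSymmetry π) (φ : ↥(D.group F) ≃* ↥(D.group F))
    (hφ : ∀ (g : ↥(D.group F)) (i : Fin D.rank) (t : F),
      (((g : GL D.Idx F) : Matrix D.Idx D.Idx F) = D.x F (D.simple i) t →
        ((φ g : GL D.Idx F) : Matrix D.Idx D.Idx F) = D.x F (D.simple (π i)) t) ∧
      (((g : GL D.Idx F) : Matrix D.Idx D.Idx F) = D.x F (D.neg (D.simple i)) t →
        ((φ g : GL D.Idx F) : Matrix D.Idx D.Idx F) = D.x F (D.neg (D.simple (π i))) t))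
    (r : ℕ) (hr : r < D.nroots) :
    ∃ ε : F, (ε = 1 ∨ ε = -1) ∧ ∀ (g : ↥(D.group F)) (t : F),
      ((g : GL D.Idx F) : Matrix D.Idx D.Idx F) = D.x F r t →
        ((φ g : GL D.Idx F) : Matrix D.Idx D.Idx F) = D.x F (D.permRoot π r) (ε * t) := by
  obtain ⟨_, _, -, h⟩ := ad_of_mem (D := D) (by
    simp only [List.mem_cons, List.not_mem_nil, or_false] at hD ⊢; tauto) F
  obtain ⟨ε, h1, h2⟩ := aux h.toStB.toStN (by
    simp only [List.mem_cons, List.not_mem_nil, or_false] at hD
    rcases hD with rfl | rfl <;> decide +kernel) hπ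
    (fun i t => ⟨val_eq_xG.1 ((hφ _ i t).1 rfl), val_eq_xG.1 ((hφ _ i t).2 rfl)⟩) ⟨r, hr⟩
  refine ⟨ε, mul_self_eq_one_iff.1 h1, fun g t e => ?_⟩
  rw [val_eq_xG] at e ⊢
  rw [e]; exact h2 t

end Cfsg.Agent.S2161
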