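import Cfsg.Statements.S2298
import Cfsg.Agent.Base
import Cfsg.Agent.H33.GL2Deg

set_option autoImplicit false
open Cfsg

namespace Cfsg.Agent.S2298

/-- Over a finite field F with q elements, every irreducible complex character of GL₂ has degree 1, q − 1, q or q + 1; and when q ≥ 3 (so that these four numbers are distinct) there are exactly q − 1 irreducible characters of degree 1, exactly q − 1 of degree q, exactly (q − 1)(q − 2)/2 of degree q + 1 and exactly q(q − 1)/2 of degree q − 1. -/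
theorem result {F : Type*} [Field F] [Fintype F] :
    (∀ χ : Matrix.GeneralLinearGroup (Fin 2) F → ℂ, Cfsg.IsIrrCharacter (Matrix.GeneralLinearGroup (Fin 2) F) χ →
      χ 1 = 1 ∨ χ 1 = (Fintype.card F : ℂ) - 1 ∨ χ 1 = (Fintype.card F : ℂ) ∨ χ 1 = (Fintype.card F : ℂ) + 1) ∧
    (3 ≤ Fintype.card F →
      Nat.card {χ : Cfsg.IrrCharacter (Matrix.GeneralLinearGroup (Fin 2) F) // (χ : Matrix.GeneralLinearGroup (Fin 2) F → ℂ) 1 = 1} = Fintype.card F - 1 ∧
      Nat.card {χ : Cfsg.IrrCharacter (Matrix.GeneralLinearGroup (Fin 2) F) // (χ : Matrix.GeneralLinearGroup (Fin 2) F → ℂ) 1 = (Fintype.card F : ℂ)} = Fintype.card F - 1 ∧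
      Nat.card {χ : Cfsg.IrrCharacter (Matrix.GeneralLinearGroup (Fin 2) F) // (χ : Matrix.GeneralLinearGroup (Fin 2) F → ℂ) 1 = (Fintype.card F : ℂ) + 1} = (Fintype.card F - 1) * (Fintype.card F - 2) / 2 ∧
      Nat.card {χ : Cfsg.IrrCharacter (Matrix.GeneralLinearGroup (Fin 2) F) // (χ : Matrix.GeneralLinearGroup (Fin 2) F → ℂ) 1 = (Fintype.card F : ℂ) - 1} = Fintype.card F * (Fintype.card F - 1) / 2) := by
  classical
  obtain ⟨e, he⟩ := H33.exists_isEll (F := F)
  refine ⟨fun χ hχ => ?_, fun hq => ⟨?_, ?_, ?_, ?_⟩⟩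
  · rcases H33.gl2_irr_cases' he hχ with h | h | h | h
    · exact Or.inl (H33.of_mem_linSet h).2.1
    · exact Or.inr (Or.inr (Or.inl (H33.of_mem_stSet h).2.1))
    · exact Or.inr (Or.inr (Or.inr (H33.of_mem_psSet h).2.1))
    · exact Or.inr (Or.inl (H33.of_mem_cuspSet he h).2.1)
  · rw [H33.card_irr_subtype_eq _ (fun χ => χ 1 = 1) fun χ => H33.gl2_deg_one hq, H33.card_linSet]
  · rw [H33.card_irr_subtype_eq _ (fun χ => χ 1 = (Fintype.card F : ℂ)) fun χ => H33.gl2_deg_q,
      H33.card_stSet]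
  · rw [H33.card_irr_subtype_eq _ (fun χ => χ 1 = (Fintype.card F : ℂ) + 1)
      fun χ => H33.gl2_deg_q_add, ← H33.card_psSet]
    omega
  · rw [H33.card_irr_subtype_eq _ (fun χ => χ 1 = (Fintype.card F : ℂ) - 1)
      fun χ => H33.gl2_deg_q_sub he hq, ← H33.card_cuspSet he]
    omega

end Cfsg.Agent.S2298
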