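import Cfsg.Statements.S2301
import Cfsg.Agent.Base
import Cfsg.Agent.H33.SL2Unip

set_option autoImplicit false
open Cfsg

namespace Cfsg.Agent.S2301

/-- Over a finite field with q elements of odd characteristic p, the elements of order p of SL₂ (the non-identity unipotent elements) fall into exactly two conjugacy classes, each of size (q² − 1)/2; two upper unitriangular matrices with non-zero off-diagonal entries b and b′ are conjugate exactly when bb′ is a square. -/
theorem result {F : Type*} [Field F] [Fintype F] (p : ℕ) [Fact p.Prime] [CharP F p] (hp : p ≠ 2) :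
    Nat.card {C : ConjClasses (Matrix.SpecialLinearGroup (Fin 2) F) // ∃ g : Matrix.SpecialLinearGroup (Fin 2) F, orderOf g = p ∧ ConjClasses.mk g = C} = 2 ∧
    (∀ g : Matrix.SpecialLinearGroup (Fin 2) F, orderOf g = p → Nat.card (ConjClasses.mk g).carrier = (Fintype.card F ^ 2 - 1) / 2) ∧
    ∀ g h : Matrix.SpecialLinearGroup (Fin 2) F, (g : Matrix (Fin 2) (Fin 2) F) 0 0 = 1 → (g : Matrix (Fin 2) (Fin 2) F) 1 1 = 1 → (g : Matrix (Fin 2) (Fin 2) F) 1 0 = 0 → (g : Matrix (Fin 2) (Fin 2) F) 0 1 ≠ 0 →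
      (h : Matrix (Fin 2) (Fin 2) F) 0 0 = 1 → (h : Matrix (Fin 2) (Fin 2) F) 1 1 = 1 → (h : Matrix (Fin 2) (Fin 2) F) 1 0 = 0 → (h : Matrix (Fin 2) (Fin 2) F) 0 1 ≠ 0 →
      (IsConj g h ↔ IsSquare ((g : Matrix (Fin 2) (Fin 2) F) 0 1 * (h : Matrix (Fin 2) (Fin 2) F) 0 1)) := by
  classical
  have hF : ringChar F ≠ 2 := by rwa [ringChar.eq F p]
  have hodd := Nat.odd_iff.1 (H33.ringChar_ne_two_iff.1 hF)
  have h1 := Fintype.one_lt_card (α := F)
  refine ⟨?_, fun g hg => ?_, fun g h g00 g11 g10 g01 h00 h11 h10 h01 => ?_⟩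
  · obtain ⟨ν, hν⟩ := FiniteField.exists_nonsquare hF
    have h0 : ν ≠ 0 := fun h => hν (h ▸ IsSquare.zero)
    rw [Nat.card_eq_two_iff]
    refine ⟨⟨ConjClasses.mk (H33.uS 1), _, H33.orderOf_uS p one_ne_zero, rfl⟩,
      ⟨ConjClasses.mk (H33.uS ν), _, H33.orderOf_uS p h0, rfl⟩, fun h => hν ?_, ?_⟩
    · have := (H33.isConj_uS_iff one_ne_zero h0).1
        (ConjClasses.mk_eq_mk_iff_isConj.1 (congrArg Subtype.val h))
      rwa [one_mul] at this
    · rw [Set.eq_univ_iff_forall]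
      rintro ⟨_, g, hg, rfl⟩
      obtain ⟨b, hb, hc⟩ := H33.exists_isConj_uS_of_orderOf p hg
      simp only [Set.mem_insert_iff, Set.mem_singleton_iff, Subtype.mk.injEq,
        ConjClasses.mk_eq_mk_iff_isConj]
      by_cases hs : IsSquare b
      · exact .inl (hc.trans ((H33.isConj_uS_iff hb one_ne_zero).2 (by rwa [mul_one])))
      · refine .inr (hc.trans ((H33.isConj_uS_iff hb h0).2 ?_))
        have := (IsSquare.sq b).mul (H33.isSquare_inv_mul hs hν)
        rwa [show b ^ 2 * (b⁻¹ * ν) = b * ν by field_simp] at this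
  · obtain ⟨b, hb, hc⟩ := H33.exists_isConj_uS_of_orderOf p hg
    have := H33.card_carrier_unip hb hc
    rw [Nat.gcd_eq_right (by omega)] at this
    omega
  · have e : ∀ x : H33.SL2 F, (x : H33.M2 F) 0 0 = 1 → (x : H33.M2 F) 1 1 = 1 →
        (x : H33.M2 F) 1 0 = 0 → x = H33.uS ((x : H33.M2 F) 0 1) := fun x a b c =>
      Subtype.ext (H33.m2_ext (by simp [a]) (by simp) (by simp [c]) (by simp [b]))
    rw [← H33.isConj_uS_iff g01 h01, ← e g g00 g11 g10, ← e h h00 h11 h10]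

end Cfsg.Agent.S2301
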