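import Cfsg.Statements.S2308
import Cfsg.Agent.Base
import Cfsg.Agent.H33.GL2St
import Cfsg.Agent.H33.PermChar

set_option autoImplicit false
open Cfsg

namespace Cfsg.Agent.S2308

/-- Values of the permutation character of GL₂ over a finite field F with q elements on the cosets of its upper triangular subgroup (equivalently, the number of lines of F² that an element maps to themselves): q + 1 at a scalar matrix, 2 at a diagonal matrix with two different diagonal entries, 0 at an element with no eigenvector in F², and 1 at an upper triangular matrix with equal diagonal entries and non-zero upper right entry. -/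
theorem result {F : Type*} [Field F] [Fintype F] (g : Matrix.GeneralLinearGroup (Fin 2) F) :
    ((∃ a : F, (g : Matrix (Fin 2) (Fin 2) F) = a • (1 : Matrix (Fin 2) (Fin 2) F)) → Cfsg.fixedPointCharacter (Cfsg.upperTriangularGL 2 F) g = Fintype.card F + 1) ∧
    ((g : Matrix (Fin 2) (Fin 2) F) 0 1 = 0 → (g : Matrix (Fin 2) (Fin 2) F) 1 0 = 0 → (g : Matrix (Fin 2) (Fin 2) F) 0 0 ≠ (g : Matrix (Fin 2) (Fin 2) F) 1 1 →
      Cfsg.fixedPointCharacter (Cfsg.upperTriangularGL 2 F) g = 2) ∧
    ((∀ (c : F) (v : Fin 2 → F), v ≠ 0 → (g : Matrix (Fin 2) (Fin 2) F).mulVec v ≠ c • v) → Cfsg.fixedPointCharacter (Cfsg.upperTriangularGL 2 F) g = 0) ∧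
    ((g : Matrix (Fin 2) (Fin 2) F) 1 0 = 0 → (g : Matrix (Fin 2) (Fin 2) F) 0 0 = (g : Matrix (Fin 2) (Fin 2) F) 1 1 → (g : Matrix (Fin 2) (Fin 2) F) 0 1 ≠ 0 →
      Cfsg.fixedPointCharacter (Cfsg.upperTriangularGL 2 F) g = 1) := by
  classical
  have e : Cfsg.fixedPointCharacter (Cfsg.upperTriangularGL 2 F) g =
      H33.psVal (fun _ _ => 1) (g : H33.M2 F) := by
    refine Eq.trans ?_ (H33.indFun_borel (MonoidHom.id (H33.GL2 F))
      (fun i => Matrix.SpecialLinearGroup.toGL (H33.xrep i)) (fun _ => rfl) (H33.Bor F)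
      (fun _ => H33.mem_Bor) (fun _ _ => 1) (fun _ => 1) (fun _ => rfl) g)
    rw [H33.indFun_one_eq_card_fixedBy]
    rfl
  rw [e]
  refine ⟨fun h => ?_, fun h01 h10 h => ?_, fun h => ?_, fun h10 heq h01 => ?_⟩
  · rw [H33.psVal_scalar _ (H33.isSc_iff_smul.2 h), mul_one]
  · rw [H33.psVal_split _ h10 h]; norm_num
  · exact H33.psVal_ell _ h
  · exact H33.psVal_jordan _ h10 heq h01

end Cfsg.Agent.S2308
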