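import Cfsg.Statements.S2309
import Cfsg.Agent.Base
import Cfsg.Agent.H33.GL2Deg

set_option autoImplicit false
open Cfsg

namespace Cfsg.Agent.S2309

/-- Over a finite field F with q elements: every irreducible complex character of GL₂ of degree q − 1 vanishes at every diagonal matrix with two distinct entries, and every irreducible complex character of degree q + 1 vanishes at every element with no eigenvector in F². -/
theorem result {F : Type*} [Field F] [Fintype F] (χ : Matrix.GeneralLinearGroup (Fin 2) F → ℂ) (hχ : Cfsg.IsIrrCharacter (Matrix.GeneralLinearGroup (Fin 2) F) χ) (g : Matrix.GeneralLinearGroup (Fin 2) F) :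
    (χ 1 = (Fintype.card F : ℂ) - 1 → (g : Matrix (Fin 2) (Fin 2) F) 0 1 = 0 → (g : Matrix (Fin 2) (Fin 2) F) 1 0 = 0 → (g : Matrix (Fin 2) (Fin 2) F) 0 0 ≠ (g : Matrix (Fin 2) (Fin 2) F) 1 1 → χ g = 0) ∧
    (χ 1 = (Fintype.card F : ℂ) + 1 → (∀ (c : F) (v : Fin 2 → F), v ≠ 0 → (g : Matrix (Fin 2) (Fin 2) F).mulVec v ≠ c • v) → χ g = 0) := by
  classical
  obtain ⟨e, he⟩ := H33.exists_isEll (F := F)
  refine ⟨fun hd h01 h10 hne => ?_, fun hd hg => ?_⟩
  · have hq := H33.three_le_card_of_ne (H33.upper_ne_zero h10).1 (H33.upper_ne_zero h10).2 hne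
    obtain ⟨θ, -, rfl⟩ := (H33.mem_cuspSet he).1 ((H33.gl2_deg_q_sub he hq).2 ⟨hχ, hd⟩)
    exact H33.cusp_split he θ h10 hne
  · obtain ⟨α, β, -, rfl⟩ := H33.mem_psSet.1 (H33.gl2_deg_q_add.2 ⟨hχ, hd⟩)
    exact H33.ps_ell α β hg

end Cfsg.Agent.S2309
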