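import Cfsg.Statements.S2315
import Cfsg.Agent.Base
import Cfsg.Agent.H54.CDInst
import Cfsg.Agent.H54.LieSt

set_option autoImplicit false
open Cfsg

namespace Cfsg.Agent.S2315

/-- Steinberg's count of unipotent elements for the general linear group: over a finite field with q elements of characteristic p, the number of elements of GL_n of p-power order (the unipotent matrices) is q^(n(n−1)). -/
theorem result {F : Type*} [Field F] [Fintype F] (p : ℕ) [Fact p.Prime] [CharP F p] (n : ℕ) :
    Nat.card {g : Matrix.GeneralLinearGroup (Fin n) F // ∃ k : ℕ, orderOf g = p ^ k} = Fintype.card F ^ (n * (n - 1)) := by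
  have hp : p.Prime := Fact.out
  obtain ⟨e, -, he⟩ := FiniteField.card F p
  have h := (H54.lieGL F n p).card_unipotent_of (q := Fintype.card F) (k := ∑ i : Fin n, (i : ℕ))
    (c := ∏ i : Fin n, (Fintype.card F ^ (n - i) - 1)) ⟨e, he⟩ (by
      rw [Matrix.card_GL_field, ← Finset.prod_pow_eq_pow_sum, ← Finset.prod_mul_distrib]
      refine Finset.prod_congr rfl fun i _ => ?_
      rw [Nat.mul_sub, ← pow_add, Nat.add_sub_cancel' i.2.le, mul_one]) (by
      rw [Prime.dvd_finsetProd_iff hp.prime]
      rintro ⟨i, -, hi⟩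
      have h1 : p ∣ Fintype.card F ^ (n - i) :=
        dvd_pow (he ▸ dvd_pow_self p e.ne_zero) (Nat.sub_ne_zero_of_lt i.2)
      exact hp.one_lt.ne' (Nat.dvd_one.1 ((Nat.dvd_sub_iff_right
        (Nat.one_le_pow _ _ Fintype.card_pos) h1).1 hi)))
  rw [h, Fin.sum_univ_eq_sum_range (fun i => i), mul_comm 2, Finset.sum_range_id_mul_two]

end Cfsg.Agent.S2315
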