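import Cfsg.Statements.S2316
import Cfsg.Agent.Base
import Cfsg.Agent.H54.CDInst
import Cfsg.Agent.H54.LieSt
import Cfsg.Agent.H54.SpCard

set_option autoImplicit false
open Cfsg

namespace Cfsg.Agent.S2316

/-- Steinberg's count of unipotent elements for the symplectic group: over a finite field with q elements of characteristic p, the number of elements of Sp_{2m} of p-power order is q^(2m²). -/
theorem result {F : Type*} [Field F] [Fintype F] (p : ℕ) [Fact p.Prime] [CharP F p] (m : ℕ) :
    Nat.card {g : ↥(Matrix.symplecticGroup (Fin m) F) // ∃ k : ℕ, orderOf g = p ^ k} = Fintype.card F ^ (2 * m ^ 2) := by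
  have hp : p.Prime := Fact.out
  obtain ⟨e, -, he⟩ := FiniteField.card F p
  refine (H54.lieSp F m p).card_unipotent_of (q := Fintype.card F) (k := m ^ 2)
    (c := ∏ i ∈ Finset.range m, (Fintype.card F ^ (2 * (i + 1)) - 1)) ⟨e, he⟩ (by
      rw [H54.card_sp, H54.spOrder_def, Nat.card_eq_fintype_card, Fintype.card_fin]) ?_
  rw [Prime.dvd_finsetProd_iff hp.prime]
  rintro ⟨i, -, hi⟩
  have h1 : p ∣ Fintype.card F ^ (2 * (i + 1)) :=
    dvd_pow (he ▸ dvd_pow_self p e.ne_zero) (by omega)
  exact hp.one_lt.ne' (Nat.dvd_one.1 ((Nat.dvd_sub_iff_right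
    (Nat.one_le_pow _ _ Fintype.card_pos) h1).1 hi))

end Cfsg.Agent.S2316
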