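import Cfsg.Statements.S2317
import Cfsg.Agent.H53.Unip

set_option autoImplicit false
open Cfsg

namespace Cfsg.Agent.S2317

/-- Over a finite field of characteristic p, the conjugacy classes of GL_n consisting of elements of p-power order (the unipotent classes) are as many as the partitions of n. -/
theorem result {F : Type*} [Field F] [Fintype F] (p : ℕ) [Fact p.Prime] [CharP F p] (n : ℕ) :
    Nat.card {C : ConjClasses (Matrix.GeneralLinearGroup (Fin n) F) //
      ∃ g : Matrix.GeneralLinearGroup (Fin n) F, (∃ k : ℕ, orderOf g = p ^ k) ∧ ConjClasses.mk g = C} =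
      Fintype.card (Nat.Partition n) := by
  have hu : ∀ g : Matrix.GeneralLinearGroup (Fin n) F, (∃ k : ℕ, orderOf g = p ^ k) ↔
      IsNilpotent ((g : Matrix (Fin n) (Fin n) F) - 1) := by
    intro g
    rw [H53.exists_orderOf_eq_prime_pow_iff, H53.isNilpotent_iff_exists_pow_char_pow (F := F) p]
    exact exists_congr fun j => by rw [← Units.val_pow_eq_pow_val, Units.val_eq_one]
  simp only [hu, and_comm (b := ConjClasses.mk _ = _)]
  rw [H53.card_conjClasses_eq_of_invariant
    (fun g : Matrix.GeneralLinearGroup (Fin n) F => IsNilpotent ((g : Matrix (Fin n) (Fin n) F) - 1))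
    (fun g => H53.mjt (g : Matrix (Fin n) (Fin n) F))
    (fun g g' hg hg' => by rw [H53.isConj_units_iff, H53.isConj_iff_mjt_eq hg hg']),
    ← Nat.card_eq_fintype_card]
  refine Nat.card_congr
    { toFun := fun b => ⟨b.1, fun {k} hk => ?_, ?_⟩
      invFun := fun μ => ⟨μ.parts, ?_⟩
      left_inv := fun _ => rfl
      right_inv := fun _ => rfl }
  · obtain ⟨_, g, hg, rfl⟩ := b
    exact H53.mjt_pos _ k hk
  · obtain ⟨_, g, hg, rfl⟩ := b
    simpa using H53.sum_mjt (g : Matrix (Fin n) (Fin n) F)
  · obtain ⟨A, hA, h⟩ := H53.exists_mjt_eq (F := F) (n := Fin n) (μ := μ.parts)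
      (fun k hk => μ.parts_pos hk) (by simpa using μ.parts_sum)
    exact ⟨(H53.isUnit_of_isNilpotent_sub_one hA).unit, hA, h⟩

end Cfsg.Agent.S2317
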