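import Cfsg.Statements.S2322
import Cfsg.Agent.Base
import Cfsg.Agent.H33.SL2Count

set_option autoImplicit false
open Cfsg

namespace Cfsg.Agent.S2322

/-- Over a finite field F with q elements, q odd: every irreducible complex character of SL₂ of degree q − 1 or (q − 1)/2 vanishes at every diagonal matrix whose diagonal entry a has a² ≠ 1, and every irreducible complex character of degree q + 1 or (q + 1)/2 vanishes at every element with no eigenvector in F². -/
theorem result {F : Type*} [Field F] [Fintype F] (hodd : Odd (Fintype.card F)) (χ : Matrix.SpecialLinearGroup (Fin 2) F → ℂ) (hχ : Cfsg.IsIrrCharacter (Matrix.SpecialLinearGroup (Fin 2) F) χ) (g : Matrix.SpecialLinearGroup (Fin 2) F) :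
    ((χ 1 = (Fintype.card F : ℂ) - 1 ∨ χ 1 = (((Fintype.card F - 1) / 2 : ℕ) : ℂ)) →
      (g : Matrix (Fin 2) (Fin 2) F) 0 1 = 0 → (g : Matrix (Fin 2) (Fin 2) F) 1 0 = 0 → (g : Matrix (Fin 2) (Fin 2) F) 0 0 ^ 2 ≠ 1 → χ g = 0) ∧
    ((χ 1 = (Fintype.card F : ℂ) + 1 ∨ χ 1 = (((Fintype.card F + 1) / 2 : ℕ) : ℂ)) →
      (∀ (c : F) (v : Fin 2 → F), v ≠ 0 → (g : Matrix (Fin 2) (Fin 2) F).mulVec v ≠ c • v) → χ g = 0) := by
  classical
  refine ⟨fun hd h01 h10 h => ?_, fun hd hg => ?_⟩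
  · obtain ⟨e, he⟩ := H33.exists_isEll (F := F)
    have hne := H33.sl2_diag_ne h10 h
    have hu : (g : H33.M2 F) 0 0 ≠ 0 ∧ (g : H33.M2 F) 1 1 ≠ 0 :=
      H33.upper_ne_zero (g := Matrix.SpecialLinearGroup.toGL g) h10
    have hq : 4 ≤ Fintype.card F := by
      have h1 := Finset.card_le_univ
        ({0, 1, (g : H33.M2 F) 0 0, (g : H33.M2 F) 1 1} : Finset F)
      have hm := H33.sl2_diag_mul h10
      have a1 : (1 : F) ≠ (g : H33.M2 F) 0 0 := fun e => h (by rw [← e, one_pow])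
      have a2 : (1 : F) ≠ (g : H33.M2 F) 1 1 := fun e => a1 (by rw [← e, mul_one] at hm; exact hm.symm)
      rwa [Finset.card_eq_four.2 ⟨_, _, _, _, zero_ne_one, hu.1.symm, hu.2.symm, a1, a2, hne, rfl⟩]
        at h1
    rcases hd with hd | hd
    · obtain ⟨θ, -, rfl⟩ := H33.sl2_deg_q_sub hχ he hq hd
      exact H33.cuspS_split he θ h10 hne
    · exact (H33.sl2_deg_half_sub hχ he hq (by rw [hd, H33.cast_half_sub hodd])).split h01 h10 hne
  · rcases hd with hd | hd
    · obtain ⟨α, -, rfl⟩ := H33.sl2_deg_q_add hχ hd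
      exact H33.rs_ell α hg
    · have he : H33.IsEll ((Matrix.SpecialLinearGroup.toGL g : H33.GL2 F) : H33.M2 F) := hg
      rcases H33.sl2_deg_half_add' hχ he (by rw [hd, H33.cast_half_add hodd]) with
        h | ⟨hq, θ, hθ, rfl⟩
      · exact h.ell hg
      · exact H33.cuspS_tor_of_three he hq hθ ⟨g, H33.self_mem_torS g⟩ he.not_isSc

end Cfsg.Agent.S2322
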