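import Cfsg.Statements.S2324
import Cfsg.Agent.Base
import Cfsg.Agent.H33.SL2Count

set_option autoImplicit false
open Cfsg

namespace Cfsg.Agent.S2324

/-- Over a finite field F with q elements, q odd and q ≥ 5, let u be the upper unitriangular matrix of SL₂ with off-diagonal entry 1 and let δ = (−1)^((q−1)/2). Every irreducible complex character χ of SL₂ of degree (q + 1)/2 satisfies (2χ(u) − 1)² = δq, and every irreducible complex character χ of degree (q − 1)/2 satisfies (2χ(u) + 1)² = δq; that is, χ(u) = (1 ± √(δq))/2 in the first case and χ(u) = (−1 ± √(δq))/2 in the second. Moreover two different irreducible characters of degree (q + 1)/2 take the two different values (their values at u add up to 1), and likewise for degree (q − 1)/2 (values adding up to −1). -/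
theorem result {F : Type*} [Field F] [Fintype F] (hodd : Odd (Fintype.card F)) (hq : 5 ≤ Fintype.card F)
    (u : Matrix.SpecialLinearGroup (Fin 2) F) (hu : (u : Matrix (Fin 2) (Fin 2) F) = !![1, 1; 0, 1]) :
    (∀ χ : Matrix.SpecialLinearGroup (Fin 2) F → ℂ, Cfsg.IsIrrCharacter (Matrix.SpecialLinearGroup (Fin 2) F) χ → χ 1 = (((Fintype.card F + 1) / 2 : ℕ) : ℂ) → (2 * χ u - 1) ^ 2 = (-1 : ℂ) ^ ((Fintype.card F - 1) / 2) * (Fintype.card F : ℂ)) ∧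
    (∀ χ : Matrix.SpecialLinearGroup (Fin 2) F → ℂ, Cfsg.IsIrrCharacter (Matrix.SpecialLinearGroup (Fin 2) F) χ → χ 1 = (((Fintype.card F - 1) / 2 : ℕ) : ℂ) → (2 * χ u + 1) ^ 2 = (-1 : ℂ) ^ ((Fintype.card F - 1) / 2) * (Fintype.card F : ℂ)) ∧
    (∀ χ₁ χ₂ : Matrix.SpecialLinearGroup (Fin 2) F → ℂ, Cfsg.IsIrrCharacter (Matrix.SpecialLinearGroup (Fin 2) F) χ₁ → Cfsg.IsIrrCharacter (Matrix.SpecialLinearGroup (Fin 2) F) χ₂ → χ₁ ≠ χ₂ →
      χ₁ 1 = (((Fintype.card F + 1) / 2 : ℕ) : ℂ) → χ₂ 1 = (((Fintype.card F + 1) / 2 : ℕ) : ℂ) → χ₁ u + χ₂ u = 1) ∧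
    (∀ χ₁ χ₂ : Matrix.SpecialLinearGroup (Fin 2) F → ℂ, Cfsg.IsIrrCharacter (Matrix.SpecialLinearGroup (Fin 2) F) χ₁ → Cfsg.IsIrrCharacter (Matrix.SpecialLinearGroup (Fin 2) F) χ₂ → χ₁ ≠ χ₂ →
      χ₁ 1 = (((Fintype.card F - 1) / 2 : ℕ) : ℂ) → χ₂ 1 = (((Fintype.card F - 1) / 2 : ℕ) : ℂ) → χ₁ u + χ₂ u = -1) := by
  classical
  obtain ⟨e, he⟩ := H33.exists_isEll (F := F)
  obtain rfl : u = H33.uS 1 := Subtype.ext hu
  have hF := H33.ringChar_ne_two_iff.2 hodd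
  have hR : ∀ χ, IsIrrCharacter (H33.SL2 F) χ → χ 1 = (((Fintype.card F + 1) / 2 : ℕ) : ℂ) →
      H33.IsHalfR χ := fun χ hχ hd =>
    H33.sl2_deg_half_add hχ (by omega) (by rw [hd, H33.cast_half_add hodd])
  have hC : ∀ χ, IsIrrCharacter (H33.SL2 F) χ → χ 1 = (((Fintype.card F - 1) / 2 : ℕ) : ℂ) →
      H33.IsHalfC he χ := fun χ hχ hd =>
    H33.sl2_deg_half_sub hχ he (by omega) (by rw [hd, H33.cast_half_sub hodd])
  refine ⟨fun χ hχ hd => ?_, fun χ hχ hd => ?_, fun χ₁ χ₂ h₁ h₂ hne d₁ d₂ => ?_,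
    fun χ₁ χ₂ h₁ h₂ hne d₁ d₂ => ?_⟩
  · obtain ⟨-, χ', H⟩ := hR χ hχ hd
    have e1 := H.diff_sq hF (ε := 1) (H33.rs_one _) fun b hb => H33.rs_uS _ hb
    have e2 := congrFun H.add (H33.uS 1)
    rw [H33.rs_uS _ one_ne_zero, Pi.add_apply] at e2
    rw [← H33.eta_neg_one hF, ← e1]
    congr 1; linear_combination -e2
  · obtain ⟨-, θ, -, -, χ', H⟩ := hC χ hχ hd
    have e1 := H.diff_sq hF (ε := -1) (H33.cuspS_one he θ) fun b hb => H33.cuspS_uS he θ hb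
    have e2 := congrFun H.add (H33.uS 1)
    rw [H33.cuspS_uS he θ one_ne_zero, Pi.add_apply] at e2
    rw [← H33.eta_neg_one hF, ← e1]
    congr 1; linear_combination -e2
  · obtain ⟨-, χ', H⟩ := hR χ₁ h₁ d₁
    obtain rfl := ((H33.isHalfR_iff hF H).1 (hR χ₂ h₂ d₂)).resolve_left hne.symm
    exact (congrFun H.add _).symm.trans (H33.rs_uS _ one_ne_zero)
  · obtain ⟨-, θ, h2, h1, χ', H⟩ := hC χ₁ h₁ d₁
    obtain rfl := ((H33.isHalfC_iff he h2 h1 H).1 (hC χ₂ h₂ d₂)).resolve_left hne.symm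
    exact (congrFun H.add _).symm.trans (H33.cuspS_uS he θ one_ne_zero)

end Cfsg.Agent.S2324
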