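import Cfsg.Statements.S2329
import Cfsg.Agent.H53.Unip

set_option autoImplicit false
open Cfsg

namespace Cfsg.Agent.S2329

theorem aux {F : Type*} [Field F] (p : ℕ) [Fact p.Prime] [CharP F p]
    (g : Matrix.GeneralLinearGroup (Fin 2) F) (hg : orderOf g = p) :
    IsNilpotent ((g : Matrix (Fin 2) (Fin 2) F) - 1) ∧ H53.mjt (g : Matrix (Fin 2) (Fin 2) F) = {2} := by
  have hn : IsNilpotent ((g : Matrix (Fin 2) (Fin 2) F) - 1) := by
    refine (H53.isNilpotent_iff_exists_pow_char_pow (F := F) p _).2 ⟨1, ?_⟩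
    rw [pow_one, ← hg, ← Units.val_pow_eq_pow_val, pow_orderOf_eq_one, Units.val_one]
  refine ⟨hn, ?_⟩
  have h1 : (g : Matrix (Fin 2) (Fin 2) F) ≠ 1 := by
    intro h
    have : g = 1 := Units.val_eq_one.1 h
    rw [this, orderOf_one] at hg
    exact (Fact.out : p.Prime).one_lt.ne hg
  rw [Ne, H53.eq_one_iff_mjt hn] at h1
  push Not at h1
  obtain ⟨k, hk, hk1⟩ := h1
  obtain ⟨s, hs⟩ := Multiset.exists_cons_of_mem hk
  have h2 := H53.sum_mjt (g : Matrix (Fin 2) (Fin 2) F)
  have h3 := H53.mjt_pos (g : Matrix (Fin 2) (Fin 2) F)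
  rw [hs] at h2 h3 ⊢
  have h4 := h3 k (Multiset.mem_cons_self _ _)
  rw [Multiset.sum_cons, Fintype.card_fin] at h2
  have h5 : s = 0 := by
    by_contra h6
    obtain ⟨l, hl⟩ := Multiset.exists_mem_of_ne_zero h6
    have h7 := h3 l (Multiset.mem_cons_of_mem hl)
    have h8 : l ≤ s.sum := Multiset.single_le_sum (by simp) l hl
    omega
  subst h5
  have : k = 2 := by simpa using h2
  simp [this]

/-- Over a finite field of characteristic p, any two elements of order p of GL₂ are conjugate: there is a single conjugacy class of non-identity unipotent elements. -/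
theorem result {F : Type*} [Field F] [Fintype F] (p : ℕ) [Fact p.Prime] [CharP F p] (g h : Matrix.GeneralLinearGroup (Fin 2) F)
    (hg : orderOf g = p) (hh : orderOf h = p) : IsConj g h := by
  obtain ⟨h1, h2⟩ := aux p g hg
  obtain ⟨h3, h4⟩ := aux p h hh
  rw [H53.isConj_units_iff, H53.isConj_iff_mjt_eq h1 h3, h2, h4]

end Cfsg.Agent.S2329
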