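import Cfsg.Statements.S2362
import Cfsg.Agent.H53.OSpec

set_option autoImplicit false
open Cfsg

namespace Cfsg.Agent.S2362

/-- Let F be a finite field of odd order and n ≥ 3. The simple orthogonal group PΩ(2n+1, F) (type B_n) and the projective symplectic group PSp(2n, F) (type C_n), which have the same order, do not have the same set of element orders. -/
theorem result {F : Type*} [Field F] [Fintype F] (hodd : Odd (Fintype.card F)) (n : ℕ) (hn : 3 ≤ n) :
    Set.range (orderOf : Cfsg.POmega F (Cfsg.quadFormOdd n F) → ℕ) ≠ Set.range (orderOf : Cfsg.PSp n F → ℕ) := by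
  obtain ⟨p, hp⟩ := CharP.exists F
  have := Fact.mk (CharP.char_is_prime F p)
  have h2 := H58.two_ne_zero_of_odd_card hodd
  have hS := H53.jfam_psp (F := F) (AlgebraicClosure F) p n
  have hO := H53.jfam_pomega_odd (F := F) (AlgebraicClosure F) p h2 (n := n) (by omega)
  have hT := H53.tor_units F (AlgebraicClosure F) p
  have hQ := H53.qp_card F p
  have hq := H53.two_mul_card_div_two h2
  have hq1 := Finite.one_lt_card (α := F)
  set q := Nat.card F
  obtain ⟨n, rfl⟩ := Nat.exists_eq_add_of_le' (show 1 ≤ n by omega)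
  intro h
  have h3 : p * (q ^ n + 1) ∈ Set.range (orderOf : Cfsg.PSp (n + 1) F → ℕ) := by
    have h3 : H53.TD q (q ^ n + 1) n := ⟨by omega, -1, .inr rfl, by simp⟩
    obtain ⟨u, hu⟩ := hT.ex _ (h3.not_dvd hQ hT.prime)
    obtain ⟨ε, h4⟩ := h3.exists_tb hu
    refine hS.mem_range_of_dvd (m := H53.tb q u n 1 + {(1, 2)})
      ⟨(h4.fd one_pos).add (H53.fd_unip two_pos (by decide)), by simp; ring⟩ fun N hN => ?_
    rw [H53.jsc_iff_jone (k := 2) (by simp), H53.jone_add, H53.jone_tb h4.pos, H53.jone_singleton,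
      H53.clog_two hT.prime, pow_one, hu] at hN
    exact (hT.prime.coprime_iff_not_dvd.2 (h3.not_dvd hQ hT.prime)).mul_dvd_of_dvd_of_dvd hN.2.2
      hN.1.1
  rw [← h] at h3
  obtain ⟨m, hm, h4⟩ := hO.exists_of_mem' h3
  obtain ⟨r, hr, h5⟩ := H53.exists_zsig_int (q := q) (n := 2 * n) (by omega) (by omega)
  have h6 := H53.dvd_pow_add_one_of_eta h5.symm (.inr ⟨even_two_mul n, rfl⟩) hr (by omega) rfl
  have hr2 : r ≠ 2 := by
    rintro rfl
    have := orderOf_le_card_univ (x := (q : ZMod 2))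
    simp [h5] at this; omega
  have hrp : r ≠ p := by rintro rfl; exact hQ.not_dvd_pow_sub hr (by omega) (.inr rfl) h6
  obtain ⟨u, d, ε, k, t, h7, hu, hk, ht, rfl⟩ := (H53.OD.fd h2 hm).exists_tb hT hQ h4 hr hr2 hrp
    ((Int.natCast_dvd_natCast.1 (by exact_mod_cast h6)).mul_left p)
  obtain ⟨w, l, hy, hl⟩ := hT.exists_two_le h4 (Dvd.intro _ rfl)
  obtain ⟨⟨δ, h8⟩, h9, h10⟩ := hm
  simp only [H53.jdeg_add, H53.jdeg_tb, H53.jdet_add, H53.jdet_tb, one_mul] at h9 h10
  obtain ⟨c, rfl⟩ := Nat.dvd_of_mul_dvd_mul_left two_pos ((h7.td hu).dvd_two_mul h5.symm)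
  have h11 : 0 < c := Nat.pos_of_mul_pos_left h7.pos
  have h12 : c * k = 1 := by
    have := Nat.mul_pos h11 hk
    rw [mul_assoc, mul_assoc] at h10
    nlinarith
  obtain rfl := Nat.eq_one_of_mul_eq_one_right h12
  obtain rfl := Nat.eq_one_of_mul_eq_one_left h12
  rw [mul_one] at *
  have h13 := (Multiset.mem_add.1 hy).resolve_left fun h => by
    have := (H53.orderOf_dvd_of_mem_tb h).2; simp at this; omega
  rcases ht.step (hT.inj hQ) h13 with ⟨d', _, t', h14, -, -, rfl⟩ | ⟨h14, h15, t', ht', rfl⟩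
  · have := h14.pos
    simp at h10; nlinarith
  simp only [H53.jdeg_add, H53.jdeg_singleton] at h10
  obtain rfl : l = 3 := by rw [Nat.even_iff] at h15; omega
  obtain rfl := ht'.pos.eq_zero (by omega)
  obtain rfl : w = 1 := by simpa [pow_succ, h14] using h9
  obtain rfl : ε = -1 := h7.eps.resolve_left (by
    rintro rfl
    have := Nat.le_of_dvd h7.pos (h5 ▸ H53.dvd_pow_sub_one_iff.1 (h7.dvd' hu))
    omega)
  obtain ⟨c, hc⟩ := H53.exists_two_mul_eq (H53.odd_card h2) n h7.eps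
  have h16 := h8.zpow_eq_one h2 h7 (H53.mul_self_ne_one_of_prime hr hr2 hu) (by simp) hc
  have h17 := h4 (p * c.natAbs) (by
    rw [H53.jone_add, H53.jone_tb h7.pos, add_zero, H53.jone_singleton,
      H53.clog_succ_eq (H53.odd_char h2 p) hT.prime.one_lt even_two, H53.clog_two hT.prime]
    exact ⟨⟨(Int.natCast_dvd.1 (orderOf_dvd_iff_zpow_eq_one.2 h16)).mul_left _, by simp⟩, by simp⟩)
  have h20 : 2 * c = (q ^ n : ℕ) + 1 := by push_cast; exact hc
  have h19 := Nat.le_of_dvd (by omega) (Nat.dvd_of_mul_dvd_mul_left hT.prime.pos h17)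
  omega

end Cfsg.Agent.S2362
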