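import Cfsg.Statements.S2367
import Cfsg.Agent.Base

set_option autoImplicit false
open Cfsg

namespace Cfsg.Agent.S2367

def chk (N : ℕ) : Prop := N ≠ 0 ∧ N ∣ (Nat.factorial 71) ^ 3 ∧
  ∀ p < 72, p ^ 3 ∣ N → ¬ p ^ 4 ∣ N → p.Prime → p ≠ 2 → ∃ a < 50, 2 ^ a ∣ N ∧ p ^ 3 < 2 ^ a

set_option synthInstance.maxSize 2000 in
instance instDecChk (N : ℕ) : Decidable (chk N) := by unfold chk; infer_instance

theorem of_chk {N M : ℕ} (e : M = N) (h : chk N) (p : ℕ) (hp : p.Prime) (hodd : p ≠ 2)
    (h3 : M.factorization p = 3) : p ^ 3 < 2 ^ M.factorization 2 := by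
  subst e
  obtain ⟨h0, h1, h2⟩ := h
  have h4 : p ^ 3 ∣ M := (hp.pow_dvd_iff_le_factorization h0).2 h3.ge
  have h5 : ¬ p ^ 4 ∣ M := fun e => by
    have := (hp.pow_dvd_iff_le_factorization h0).1 e
    omega
  have h6 : p ≤ 71 :=
    hp.dvd_factorial.1 (hp.dvd_of_dvd_pow (((dvd_pow_self p three_ne_zero).trans h4).trans h1))
  obtain ⟨a, -, h7, h8⟩ := h2 p (by omega) h4 h5 hp hodd
  exact h8.trans_le (Nat.pow_le_pow_right two_pos
    ((Nat.prime_two.pow_dvd_iff_le_factorization h0).1 h7))

theorem cube_lt (p : ℕ) (h : 5 ≤ p) : 2 * p ^ 3 < 2 ^ (2 * p) := by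
  induction p, h using Nat.le_induction with
  | base => norm_num
  | succ p h ih =>
    rw [Nat.mul_succ, pow_add 2]
    have : (p + 1) ^ 3 ≤ 4 * p ^ 3 := by nlinarith [Nat.mul_le_mul h h, Nat.mul_le_mul_left (p * p) h]
    omega


/-- Let G be an alternating group of degree at least 5 or a simple group with the order of one of the 26 sporadic groups, and let p be an odd prime such that p³ is the exact power of p dividing the order of G. Then p³ is less than the 2-part of the order of G. -/
theorem result {G : Type*} [Group G] [Finite G] (hG : Cfsg.IsAlternating G ∨ Cfsg.IsSporadic G)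
    (p : ℕ) (hp : p.Prime) (hodd : p ≠ 2) (h3 : (Nat.card G).factorization p = 3) :
    p ^ 3 < 2 ^ (Nat.card G).factorization 2 := by
  rcases hG with ⟨n, hn, ⟨e⟩⟩ | h
  · have : Nontrivial (Fin n) := Fin.nontrivial_iff_two_le.2 (by omega)
    have h1 := two_mul_nat_card_alternatingGroup (α := Fin n)
    rw [Nat.card_perm, Nat.card_eq_fintype_card (α := Fin n), Fintype.card_fin,
      ← Nat.card_congr e.toEquiv] at h1
    have h0 : Nat.card G ≠ 0 := Nat.card_pos.ne'
    have h2 : ∀ r, n.factorial.factorization r = (2 : ℕ).factorization r + (Nat.card G).factorization r :=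
      fun r => by rw [← h1, Nat.factorization_mul two_ne_zero h0]; rfl
    have h4 := h2 p
    have h5 := h2 2
    rw [Nat.prime_two.factorization] at h4 h5
    simp only [Finsupp.single_eq_same, Finsupp.single_eq_of_ne hodd, zero_add, h3] at h4 h5
    have hp3 : 3 ≤ p := lt_of_le_of_ne hp.two_le hodd.symm
    have h6 : 3 * p ≤ n := by
      by_contra hc
      rw [Nat.factorization_factorial hp (b := 2) (Nat.log_lt_of_lt_pow (by omega) (by nlinarith))] at h4
      simp only [Nat.Ico_succ_singleton, Finset.sum_singleton, pow_one] at h4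
      have := Nat.div_mul_le_self n p
      rw [h4] at this
      omega
    have hp5 : 5 ≤ p := by
      by_contra hc
      have : p = 3 := by
        interval_cases p
        · rfl
        · norm_num at hp
      subst this
      have h7 : 3 ^ 4 ∣ n.factorial := (by decide : 3 ^ 4 ∣ Nat.factorial 9).trans
        (Nat.factorial_dvd_factorial h6)
      have := (hp.pow_dvd_iff_le_factorization n.factorial_ne_zero).1 h7
      omega
    have h7 : n / 2 + n / 4 ≤ n.factorial.factorization 2 := by
      rw [Nat.factorization_factorial Nat.prime_two (b := Nat.log 2 n + 3) (by omega)]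
      calc _ = ∑ i ∈ ({1, 2} : Finset ℕ), n / 2 ^ i := by simp
        _ ≤ _ := Finset.sum_le_sum_of_subset (by
          intro i hi
          simp only [Finset.mem_insert, Finset.mem_singleton] at hi
          simp only [Finset.mem_Ico]
          omega)
    have h8 : 2 ^ (2 * p) ≤ 2 ^ ((Nat.card G).factorization 2 + 1) :=
      Nat.pow_le_pow_right two_pos (by omega)
    have h9 := cube_lt p hp5
    rw [pow_succ] at h8
    omega
  · rcases h with h | h | h | h | h | h | h | h | h | h | h | h | h | h | h | h | h | h | h | h | h |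
      h | h | h | h | h <;> exact of_chk h.2 (by decide +kernel) p hp hodd h3

end Cfsg.Agent.S2367
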