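import Cfsg.Statements.S2368
import Cfsg.Agent.H53.Unip

set_option autoImplicit false
open Cfsg

namespace Cfsg.Agent.S2368

/-- Let F be a finite field of characteristic p and m ≥ 1. Every element of GL(m, F) of p-power order has order less than p·m, and GL(m, F) has an element of p-power order at least m; so the largest order of a p-element of GL(m, F) is the least power of p that is at least m. -/
theorem result {F : Type*} [Field F] [Fintype F] (p : ℕ) [Fact p.Prime] [CharP F p] (m : ℕ) (hm : 1 ≤ m) :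
    (∀ g : Matrix.GeneralLinearGroup (Fin m) F, (∃ j : ℕ, orderOf g = p ^ j) → orderOf g < p * m) ∧
      ∃ g : Matrix.GeneralLinearGroup (Fin m) F, (∃ j : ℕ, orderOf g = p ^ j) ∧ m ≤ orderOf g := by
  have hp : 1 < p := (Fact.out : p.Prime).one_lt
  have key : ∀ (u : GL (Fin m) F) j, u ^ p ^ j = 1 ↔ ((u : Matrix (Fin m) (Fin m) F) - 1) ^ p ^ j = 0 := by
    intro u j
    rw [← H53.pow_char_pow_eq_one_iff (F := F) p j, ← Units.val_pow_eq_pow_val, Units.val_eq_one]
  constructor
  · rintro g ⟨j, hj⟩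
    have hn : IsNilpotent ((g : Matrix (Fin m) (Fin m) F) - 1) :=
      ⟨p ^ j, by rw [← key, ← hj, pow_orderOf_eq_one]⟩
    rcases j with _ | j
    · rw [hj, pow_zero]; nlinarith
    · have h1 : ¬ g ^ p ^ j = 1 := by
        intro h
        have := Nat.le_of_dvd (by positivity) (orderOf_dvd_of_pow_eq_one h)
        rw [hj, pow_le_pow_iff_right₀ hp] at this
        omega
      rw [key, H53.sub_one_pow_eq_zero_iff_mjt hn] at h1
      push Not at h1
      obtain ⟨k, hk, h2⟩ := h1
      have h3 : k ≤ (H53.mjt (g : Matrix (Fin m) (Fin m) F)).sum :=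
        Multiset.single_le_sum (by simp) k hk
      rw [H53.sum_mjt, Fintype.card_fin] at h3
      rw [hj, pow_succ']
      exact Nat.mul_lt_mul_of_pos_left (by omega) (by omega)
  · obtain ⟨A, hA, h1⟩ := H53.exists_mjt_eq (F := F) (n := Fin m) (μ := {m}) (by simp; omega) (by simp)
    let g : GL (Fin m) F := (H53.isUnit_of_isNilpotent_sub_one hA).unit
    obtain ⟨j, hj⟩ := (H53.isNilpotent_iff_exists_pow_char_pow (F := F) p A).1 hA
    obtain ⟨k, hk⟩ := (H53.exists_orderOf_eq_prime_pow_iff p g).2 ⟨j, Units.ext (by simpa [g] using hj)⟩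
    refine ⟨g, ⟨k, hk⟩, ?_⟩
    have h2 : (A - 1) ^ p ^ k = 0 := (key g k).1 (by rw [← hk, pow_orderOf_eq_one])
    rw [H53.sub_one_pow_eq_zero_iff_mjt hA, h1] at h2
    rw [hk]
    exact h2 m (by simp)

end Cfsg.Agent.S2368
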