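import Cfsg.Statements.S2369
import Cfsg.Agent.H68.Sing

set_option autoImplicit false
open Cfsg

namespace Cfsg.Agent.S2369

/-- Let q = 2^(2m+1) with m ≥ 1 and let a, b be commuting elements of the large Ree group ²F₄(q) with a an involution. Then every prime divisor of the order of b divides q(q⁴ − 1). -/
theorem result {K : Type*} [Field K] [Fintype K] (m : ℕ) (hm : 1 ≤ m) (hK : Fintype.card K = 2 ^ (2 * m + 1))
    (a b : ↥(Cfsg.Lie.twistedF4 K (2 ^ m))) (ha : orderOf a = 2) (hab : Commute a b) :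
    (orderOf b).primeFactors ⊆ (2 ^ (2 * m + 1) * ((2 ^ (2 * m + 1)) ^ 4 - 1)).primeFactors := by
  intro r hr
  have := H68.charP_two hK
  have hq := Nat.one_lt_two_pow (n := 2 * m + 1) (by omega)
  have h4 := Nat.one_lt_pow four_ne_zero hq
  have hp := Nat.prime_of_mem_primeFactors hr
  refine Nat.mem_primeFactors.2 ⟨hp, ?_, (Nat.mul_pos (zero_lt_one.trans hq) (Nat.sub_pos_of_lt h4)).ne'⟩
  by_cases h2 : r = 2
  · subst h2; exact (dvd_pow_self 2 (Nat.succ_ne_zero _)).mul_right _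
  obtain ⟨J, hJ, h⟩ := H68.exists_dvd_card_PJ ((H68.isTw_F4 hK).lieS 2) ha hab hp (Nat.dvd_of_mem_primeFactors hr) h2
  obtain ⟨o, ho⟩ : ∃ o : Fin 2, J ⊆ {o} := by
    obtain ⟨j : Fin 2, hj⟩ := (Set.ne_univ_iff_exists_notMem J).1 hJ
    exact ⟨j + 1, fun i hi => (by decide : ∀ i j : Fin 2, i ≠ j → i = j + 1) i j (by rintro rfl; exact hj hi)⟩
  have h1 : r ∣ Nat.card ((H68.isTw_F4 hK).grdK.PJ {o}) := h.trans (Subgroup.card_dvd_of_le
    (sup_le_sup_left (Subgroup.closure_mono (Set.image_mono ho)) _))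
  have h3 := H68.card_UJ_F4 hK o
  rw [H68.card_PJ_single, H54.GRD.card_B, H68.TwG.IsTw.card_grdK_U, H68.TwG.IsTw.card_grdK_H,
    H68.TwG.IsTw.card_grdK_X_p, H68.card_U_F4 hK, H68.card_H_F4 hK, hp.dvd_mul, hp.dvd_mul] at h1
  have h5 : 2 ^ (2 * m + 1) - 1 ∣ (2 ^ (2 * m + 1)) ^ 4 - 1 := Nat.sub_one_dvd_pow_sub_one _ _
  rcases h1 with (h1 | h1) | h1
  · exact (hp.dvd_of_dvd_pow h1).mul_right _
  · exact ((hp.dvd_of_dvd_pow h1).trans h5).mul_left _
  refine (h1.trans ?_).mul_left _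
  obtain rfl | rfl : o = 0 ∨ o = 1 := by omega
  · rw [H68.len_F4.1, Real.sq_sqrt (by positivity)] at h3
    rw [show Nat.card _ = 2 ^ (2 * m + 1) by exact_mod_cast h3, add_comm]
    exact (Dvd.intro _ (Nat.sq_sub_sq _ 1).symm).trans
      (by have := Nat.sub_one_dvd_pow_sub_one ((2 ^ (2 * m + 1)) ^ 2) 2; rwa [← pow_mul _ 2 2, ← one_pow 2] at this)
  · rw [H68.len_F4.2.1, show 4 = 2 * 2 from rfl, pow_mul, Real.sq_sqrt (by positivity)] at h3
    rw [show Nat.card _ = (2 ^ (2 * m + 1)) ^ 2 by exact_mod_cast h3, add_comm, show 4 = 2 * 2 from rfl, pow_mul]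
    exact Dvd.intro _ (Nat.sq_sub_sq _ 1).symm

end Cfsg.Agent.S2369
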