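import Cfsg.Statements.S2370
import Cfsg.Agent.H68.ReeF
import Cfsg.Agent.S2326
import Cfsg.Agent.H64.MatBr

set_option autoImplicit false
open Cfsg

namespace Cfsg.Agent.S2370

/-- Let q = 2^(2m+1) with m ≥ 1. Every element of 2-power order of the large Ree group ²F₄(q) has order at most 32. -/
theorem result {K : Type*} [Field K] [Fintype K] (m : ℕ) (hm : 1 ≤ m) (hK : Fintype.card K = 2 ^ (2 * m + 1))
    (x : ↥(Cfsg.Lie.twistedF4 K (2 ^ m))) (hx : ∃ j : ℕ, orderOf x = 2 ^ j) : orderOf x ≤ 32 := by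
  obtain ⟨j, hj⟩ := hx
  have hc : CharP K 2 := by
    obtain ⟨p, hp⟩ := CharP.exists K
    obtain ⟨n, hpp, hn⟩ := FiniteField.card K p
    have : p ∣ 2 ^ (2 * m + 1) := by
      rw [← hK, hn]; exact dvd_pow_self p n.ne_zero
    rwa [(Nat.prime_dvd_prime_iff_eq hpp Nat.prime_two).1 (hpp.dvd_of_dvd_pow this)] at hp
  have hmem : Lie.chevF4 ∈ [Lie.chevG2, Lie.chevB2, Lie.chevD4, Lie.chevF4, Lie.chevE6, Lie.chevE7,
      Lie.chevE8] := by simp
  obtain ⟨P, hP⟩ := S2326.result (F := K) 2 Lie.chevF4 hmem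
  have hxG : (x : GL Lie.chevF4.Idx K) ∈ Lie.chevF4.group K := by
    rw [← H68.mat_Gp]
    exact ((H68.isTw_F4 hK).le_fix x.2).1
  set y : Lie.chevF4.group K := ⟨x, hxG⟩
  have hy : orderOf y = 2 ^ j := by
    rw [← hj, ← Subgroup.orderOf_coe y, ← Subgroup.orderOf_coe x]
  obtain ⟨Q, hQ⟩ := (IsPGroup.of_card (p := 2) (G := Subgroup.zpowers y) (n := j)
    (by rw [Nat.card_zpowers, hy])).exists_le_sylow
  obtain ⟨g, rfl⟩ := MulAction.exists_smul_eq (Lie.chevF4.group K) P Q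
  have h1 := hQ (Subgroup.mem_zpowers y)
  rw [Sylow.coe_subgroup_smul, Subgroup.mem_pointwise_smul_iff_inv_smul_mem, hP,
    Subgroup.mem_subgroupOf, H64.posUnipotent_eq] at h1
  set z := (MulAut.conj g)⁻¹ • y with hz
  have h2 := (H64.raises_of_mem_pos h1).pow 32
  have hb : ∀ i : Lie.chevF4.Idx, -11 ≤ H64.deg i ∧ H64.deg i ≤ 11 := by
    rintro (i | r)
    · simp [H64.deg]
    · revert r
      simp only [H64.deg, Sum.elim_inr]
      decide +kernel
  have h3 : (((z : GL Lie.chevF4.Idx K) : Matrix Lie.chevF4.Idx Lie.chevF4.Idx K) - 1) ^ 32 = 0 := by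
    ext a b
    by_contra h
    have := h2 a b h
    have := hb a
    have := hb b
    omega
  have : CharP (Matrix Lie.chevF4.Idx Lie.chevF4.Idx K) 2 := by
    have : Nonempty Lie.chevF4.Idx := ⟨Sum.inl ⟨0, by decide⟩⟩
    infer_instance
  rw [show 32 = 2 ^ 5 by norm_num, sub_pow_char_pow_of_commute _ _ (Commute.one_right _), one_pow,
    sub_eq_zero] at h3
  have h4 : z ^ 32 = 1 := Subtype.ext (Units.ext (by simpa using h3))
  have h5 : y ^ 32 = 1 := by
    rw [hz, ← smul_pow'] at h4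
    exact (smul_eq_iff_eq_inv_smul _).1 h4 |>.trans (smul_one _)
  have h6 : orderOf y ∣ 32 := orderOf_dvd_of_pow_eq_one h5
  rw [hj, ← hy]
  exact Nat.le_of_dvd (by norm_num) h6

end Cfsg.Agent.S2370
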