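import Cfsg.Statements.S2372
import Cfsg.Agent.H46.LangCert
import Cfsg.Agent.H65.All

set_option autoImplicit false
open Cfsg

namespace Cfsg.Agent.S2372

/-- The group F₄(q) contains a cyclic subgroup of order q⁴ + 1 which is its own centralizer. -/
theorem result {F : Type*} [Field F] [Fintype F] (q : ℕ) (hF : Fintype.card F = q) :
    ∃ H : Subgroup ↥(Cfsg.Lie.chevF4.group F), IsCyclic ↥H ∧ Nat.card ↥H = q ^ 4 + 1 ∧
      Subgroup.centralizer (H : Set ↥(Cfsg.Lie.chevF4.group F)) = H := by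
  haveI := H65.tabF4
  haveI := H65.commF4
  have h2 : 2 ≤ q := hF ▸ Fintype.one_lt_card
  obtain ⟨H, h1, h3, h4⟩ := H46.selfCent_untw (D := Cfsg.Lie.chevF4) (F := F) (H46.tor_injective_of_cker (H64.kerF4.cker_eq_bot _))
    (L := [2, 1, 2, 0, 1, 3])
    (M := [[0, -1, 1, 0], [1, -2, 2, -1], [0, -2, 3, -2], [0, 0, 1, -1]])
    (Lm := [[0, 1, 0, -1], [-1, 0, 0, 1], [2, -1, 0, 0], [-1, 2, -1, 0], [0, -1, 0, 1]])
    (A := [[1, 1, 1, 0], [2, 2, 1, 0], [3, 3, 1, -1], [1, 2, 1, 0]])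
    (G := [[0, 0, 1, 0], [0, 0, 0, 1], [1, 0, -1, -2], [-1, 1, 1, 1]])
    (C := [[0, -1, 0, 1], [-1, 0, 0, 0], [1, 1, 0, 0], [-1, -1, -1, 0]])
    (P := [1, 0, 0, 0]) (S := [20, 30, 21, 41]) (n := 1) (q₀ := 2) (B := 6)
    H63.rt_F4 H63.len_F4 (by decide +kernel) (by decide +kernel) (by decide +kernel)
    (by decide +kernel) hF h2 (N := q ^ 4 + 1) (by
      change _ = (q : ℤ) ^ 4 + H46.pv 4 _ q
      rw [H46.pv_eq]
      simp only [Finset.sum_range_succ, Finset.sum_range_zero, List.getD_cons_succ,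
        List.getD_cons_zero]
      push_cast
      ring)
  refine ⟨H, h1, ?_, h4⟩
  rwa [H64.kerF4.cker_eq_bot, Subgroup.card_bot, one_mul] at h3

end Cfsg.Agent.S2372
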