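import Cfsg.Statements.S2374
import Cfsg.Agent.H46.LangCert
import Cfsg.Agent.H65.All

set_option autoImplicit false
open Cfsg

namespace Cfsg.Agent.S2374

/-- The group E₇(q) (the simple Chevalley group of type E₇) contains a cyclic subgroup of order (q⁴ − q² + 1)(q³ + 1)/gcd(2, q − 1) which is its own centralizer. -/
theorem result {F : Type*} [Field F] [Fintype F] (q : ℕ) (hF : Fintype.card F = q) :
    ∃ H : Subgroup ↥(Cfsg.Lie.chevE7.group F), IsCyclic ↥H ∧ Nat.card ↥H = (q ^ 4 - q ^ 2 + 1) * (q ^ 3 + 1) / Nat.gcd 2 (q - 1) ∧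
      Subgroup.centralizer (H : Set ↥(Cfsg.Lie.chevE7.group F)) = H := by
  haveI := H65.tabE7
  haveI := H65.commE7
  have h2 : 2 ≤ q := hF ▸ Fintype.one_lt_card
  obtain ⟨H, h1, h3, h4⟩ := H46.selfCent_untw (D := Cfsg.Lie.chevE7) (F := F) (H64.tor_injective_E7 _)
    (L := [5, 3, 1, 4, 6, 3, 2, 0, 5, 6, 4])
    (M := [[-1, 0, 1, 0, 0, 0, 0], [-1, 0, 0, 1, -1, 1, 0], [-1, 0, 0, 1, 0, 0, 0], [-2, 0, 0, 2, -1, 1, -1], [-1, 1, 0, 1, -1, 1, -1], [-1, 1, 0, 1, -1, 0, 0], [0, 0, 0, 1, -1, 0, 0]])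
    (Lm := [[0, 0, 0, 0, 0, 0, 1], [0, 1, 1, -1, 0, 0, 0], [1, 0, 0, -1, 1, 0, 0], [0, 0, 1, -1, 1, -1, 0], [1, -1, 0, 0, 0, 0, 0], [0, 0, 0, 0, 0, -1, 1], [0, 0, 0, 0, -1, 1, 0], [0, 1, -1, 0, 0, 0, 0]])
    (A := [[0, 1, 0, -1, 1, 0, -1], [0, 1, 0, -1, 0, 0, -1], [1, 1, -1, 0, 1, -1, -1], [1, 1, -1, -1, 1, -1, -2], [1, 0, 0, 0, 0, -1, -1], [1, 0, 0, 0, 0, -1, 0], [1, 0, 0, 0, 0, 0, 0]])
    (G := [[-1, 1, 1, -2, 1, 1, -1], [-1, 1, 1, -1, -1, 1, 0], [1, 0, -1, 2, 0, -1, 1], [0, 0, -1, -1, 1, 0, -1], [0, -1, 1, 1, -1, 0, 0], [0, 0, 0, 0, 0, -1, 1], [1, 0, 0, 0, 0, 1, 0]])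
    (C := [[0, -1, 0, -1, 0, -1, 1], [1, 0, 1, 0, 1, 0, 0], [1, 1, 0, 0, 0, 0, 0], [-1, -1, 0, 0, -1, 0, -1], [0, 1, -1, 0, 1, 0, 1], [0, 0, 0, 1, 0, 0, 0], [0, 0, 1, -1, 0, 0, 0]])
    (P := [1, 0, -1, 1, 1, -1, 0]) (S := [53, 77, 65, 64, 80, 8, 38]) (n := 1) (q₀ := 2) (B := 6)
    H63.rt_E7 H63.len_E7 (by decide +kernel) (by decide +kernel) (by decide +kernel)
    (by decide +kernel) hF h2 (N := (q ^ 4 - q ^ 2 + 1) * (q ^ 3 + 1)) (by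
      change _ = (q : ℤ) ^ 7 + H46.pv 7 _ q
      rw [H46.pv_eq]
      simp only [Finset.sum_range_succ, Finset.sum_range_zero, List.getD_cons_succ,
        List.getD_cons_zero]
      have := Nat.pow_le_pow_right (show 0 < q by omega) (show 2 ≤ 4 by norm_num)
      push_cast [this]
      ring)
  refine ⟨H, h1, ?_, h4⟩
  rw [H64.kerE7.card_cker_units, pow_one, Nat.card_eq_fintype_card, hF] at h3
  rw [← h3, Nat.mul_div_cancel_left _ (Nat.gcd_pos_of_pos_left _ (by norm_num))]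

end Cfsg.Agent.S2374
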