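import Cfsg.Statements.S2375
import Cfsg.Agent.H46.LangCert
import Cfsg.Agent.H65.All

set_option autoImplicit false
open Cfsg

namespace Cfsg.Agent.S2375

/-- The group E₈(q) contains a cyclic subgroup of order q⁸ + q⁷ − q⁵ − q⁴ − q³ + q + 1 which is its own centralizer. -/
theorem result {F : Type*} [Field F] [Fintype F] (q : ℕ) (hF : Fintype.card F = q) :
    ∃ H : Subgroup ↥(Cfsg.Lie.chevE8.group F), IsCyclic ↥H ∧ Nat.card ↥H = q ^ 8 + q ^ 7 - q ^ 5 - q ^ 4 - q ^ 3 + q + 1 ∧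
      Subgroup.centralizer (H : Set ↥(Cfsg.Lie.chevE8.group F)) = H := by
  haveI := H65.tabE8
  haveI := H65.commE8
  have h2 : 2 ≤ q := hF ▸ Fintype.one_lt_card
  obtain ⟨H, h1, h3, h4⟩ := H46.selfCent_untw (D := Cfsg.Lie.chevE8) (F := F) (H46.tor_injective_of_cker (H64.kerE8.cker_eq_bot _))
    (L := [0, 1, 2, 3, 4, 5, 6, 7])
    (M := [[0, 1, 0, 0, 0, 0, 0, -1], [0, 0, 1, 0, 0, 0, 0, -1], [1, 1, 0, 0, 0, 0, 0, -1], [0, 1, 1, 0, 0, 0, 0, -1], [0, 0, 0, 1, 0, 0, 0, -1], [0, 0, 0, 0, 1, 0, 0, -1], [0, 0, 0, 0, 0, 1, 0, -1], [0, 0, 0, 0, 0, 0, 1, -1]])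
    (Lm := [[0, 0, 0, 0, 0, 0, 0, 1], [-1, -1, 0, 1, 0, 0, 0, 0], [0, 0, -1, 0, 1, 0, 0, 0], [0, -1, 0, 0, 0, 1, 0, 0], [-1, 0, 0, 0, 0, 0, 1, 0], [0, -1, -1, 1, 0, 0, 0, 1], [-1, -1, 0, 0, 1, 0, 0, 0], [0, 0, -1, 0, 0, 1, 0, 0], [0, -1, 0, 0, 0, 0, 1, 0]])
    (A := [[0, 0, 1, 1, 0, 0, -1, -1], [1, 1, 1, 0, 0, -1, -1, 0], [1, 1, 1, 1, 0, -1, -1, -1], [1, 2, 2, 1, 0, -1, -2, -1], [1, 1, 2, 1, 0, -1, -1, -1], [1, 1, 1, 1, 0, -1, -1, 0], [0, 0, 1, 1, 1, 0, -1, -1], [1, 0, 0, 0, 0, 0, 0, 0]])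
    (G := [[-1, -1, 1, 1, 0, 1, -1, -1], [1, 0, 0, -1, 0, -1, 0, 1], [1, 0, -1, 0, 0, -1, 1, 0], [-1, 1, 0, 0, 0, 1, -1, 0], [0, -1, 1, 0, 0, 0, 1, -1], [1, 1, -1, 0, -1, -1, 0, 2], [-2, -1, 1, 1, 2, 1, -1, -2], [2, 0, -1, -1, -1, 0, 1, 1]])
    (C := [[1, 1, 0, 1, 0, -1, 0, -1], [0, -1, 0, 1, 0, -1, -1, -1], [-1, -1, 0, -1, 1, 1, 0, 1], [0, 1, 0, 0, -1, 0, 1, 0], [2, 0, -1, 1, 0, 0, -1, -1], [-1, 0, 1, 0, 0, 0, 0, 1], [-2, -1, 1, -3, 1, 1, 1, 1], [1, 1, -1, 2, -1, -1, -1, -1]])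
    (P := [1, 1, 0, -1, -1, -1, 0, 1]) (S := [52, 168, 181, 185, 163, 232, 110, 11]) (n := 1) (q₀ := 2) (B := 6)
    H63.rt_E8 H63.len_E8 (by decide +kernel) (by decide +kernel) (by decide +kernel)
    (by decide +kernel) hF h2 (N := q ^ 8 + q ^ 7 - q ^ 5 - q ^ 4 - q ^ 3 + q + 1) (by
      change _ = (q : ℤ) ^ 8 + H46.pv 8 _ q
      rw [H46.pv_eq]
      simp only [Finset.sum_range_succ, Finset.sum_range_zero, List.getD_cons_succ,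
        List.getD_cons_zero]
      have e3 : q ^ 5 + q ^ 4 + q ^ 3 ≤ q ^ 8 + q ^ 7 := by
        have a1 := Nat.pow_le_pow_right (show 0 < q by omega) (show 5 ≤ 7 by norm_num)
        have a2 := Nat.pow_le_pow_right (show 0 < q by omega) (show 3 ≤ 4 by norm_num)
        have a3 := Nat.pow_le_pow_right (show 0 < q by omega) (show 4 ≤ 7 by norm_num)
        have a4 : 2 * q ^ 7 ≤ q ^ 8 := by rw [pow_succ' q 7]; exact Nat.mul_le_mul_right _ h2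
        omega
      rw [Nat.sub_sub, Nat.sub_sub, ← add_assoc (q ^ 5)]
      push_cast [e3]
      ring)
  refine ⟨H, h1, ?_, h4⟩
  rwa [H64.kerE8.cker_eq_bot, Subgroup.card_bot, one_mul] at h3

end Cfsg.Agent.S2375
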