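import Cfsg.Statements.S2376
import Cfsg.Agent.Base
import Cfsg.Agent.H55.TriLang

set_option autoImplicit false
open Cfsg

namespace Cfsg.Agent.S2376

/-- The group ³D₄(q) contains a cyclic subgroup of order (q³ − 1)(q + 1) which is its own centralizer. -/
theorem result {K : Type*} [Field K] [Fintype K] (q : ℕ) (hq : IsPrimePow q) (hK : Fintype.card K = q ^ 3) :
    ∃ H : Subgroup ↥(Cfsg.Lie.twistedD4 K q), IsCyclic ↥H ∧ Nat.card ↥H = (q ^ 3 - 1) * (q + 1) ∧
      Subgroup.centralizer (H : Set ↥(Cfsg.Lie.twistedD4 K q)) = H := by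
  have h2 : 2 ≤ q := hq.two_le
  exact H55.Tri.selfCent hq hK
    (L := [1])
    (M := [[0, 0, 0, 1], [1, -1, 1, 1], [1, 0, 0, 0], [0, 0, 1, 0]])
    (Lm := [[0, 1, 0, -1], [0, -1, 1, 1], [0, 1, -1, 0], [1, -1, 1, 0], [-1, 1, 0, 0]])
    (A := [[0, 0, 1, 1], [1, 1, 1, 0], [1, 1, 0, 0], [0, 1, 1, 0]])
    (G := [[-1, -1, 1, 2], [1, 0, 0, -1], [1, 1, -1, 0], [-1, 1, 1, 0]])
    (C := [[0, 0, -1, 0], [1, 0, 0, 1], [0, 0, 0, -1], [-1, -1, 0, -1]])
    (P := [-1, -1, 0, 1]) (S := [16, 8, 5, 10]) (n := 1) (q₀ := 2) (B := 6)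
    (by decide +kernel) (by decide +kernel) (by decide +kernel) (by decide +kernel) h2 (by
      change _ = (q : ℤ) ^ 4 + H46.pv 4 _ q
      rw [H46.pv_eq]
      simp only [Finset.sum_range_succ, Finset.sum_range_zero, List.getD_cons_succ,
        List.getD_cons_zero]
      have := Nat.one_le_pow 3 q (by omega)
      push_cast [this]
      ring)

end Cfsg.Agent.S2376
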