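import Cfsg.Statements.S2384
import Cfsg.Agent.H53.SS

set_option autoImplicit false
open Cfsg

namespace Cfsg.Agent.S2384

/-- In `SL_n(q)`, `q` a power of the prime `p`, the number of conjugacy classes of elements of order prime to `p` (the semisimple classes) is `q^(n-1)`. -/
theorem result {F : Type*} [Field F] [Fintype F] {q : ℕ} (hq : Fintype.card F = q) (p : ℕ) [Fact p.Prime] [CharP F p] (n : ℕ) (hn : 1 ≤ n) :
    Nat.card {c : ConjClasses (Matrix.SpecialLinearGroup (Fin n) F) //
      ∃ g : Matrix.SpecialLinearGroup (Fin n) F, ConjClasses.mk g = c ∧ (orderOf g).Coprime p} = q ^ (n - 1) := by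
  rw [H53.card_conjClasses_eq_of_invariant
    (fun g : Matrix.SpecialLinearGroup (Fin n) F => (orderOf g).Coprime p)
    (fun g => (g : Matrix (Fin n) (Fin n) F).charpoly) (fun g h hg hh => by
      have h1 := (H53.coprime_orderOf_sl_iff p g).1 hg
      have h2 := (H53.coprime_orderOf_sl_iff p h).1 hh
      exact ⟨fun hc => H53.charpoly_eq_of_isConj (H53.isConj_coe_of_isConj_sl hc),
        fun hc => h1.isConj_sl ((h1.isConj_iff h2).2 hc)⟩), ← hq, ← Nat.card_eq_fintype_card,
    ← H53.card_monic_coeff_zero_eq hn ((-1 : F) ^ n)]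
  have hsq : ((-1 : F) ^ n) * (-1) ^ n = 1 := by rw [← mul_pow]; simp
  refine Nat.card_congr (Equiv.subtypeEquivRight fun P => ⟨?_, ?_⟩)
  · rintro ⟨g, -, rfl⟩
    refine ⟨Matrix.charpoly_monic _, by simp, ?_⟩
    have := g.2
    rw [Matrix.det_eq_sign_charpoly_coeff, Fintype.card_fin] at this
    linear_combination (-1 : F) ^ n * this - (g : Matrix (Fin n) (Fin n) F).charpoly.coeff 0 * hsq
  · rintro ⟨h1, h2, h3⟩
    obtain ⟨A, hA, rfl⟩ := H53.exists_isSS_charpoly_eq (n := Fin n) h1 (by simpa using h2)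
    have hu : A.det = 1 := by
      rw [Matrix.det_eq_sign_charpoly_coeff, h3, Fintype.card_fin, hsq]
    exact ⟨⟨A, hu⟩, (H53.coprime_orderOf_sl_iff p _).2 hA, rfl⟩

end Cfsg.Agent.S2384
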