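import Cfsg.Statements.S2386
import Cfsg.Agent.H53.GUClass

set_option autoImplicit false
open Cfsg

namespace Cfsg.Agent.S2386

/-- In the special unitary group `SU_n(q)` (matrices of determinant one over the field with `q²` elements preserving the standard Hermitian form), `q` a power of the prime `p`, the number of conjugacy classes of elements of order prime to `p` is `q^(n-1)`. -/
theorem result {F : Type*} [Field F] [Fintype F] {q : ℕ} (hF : Fintype.card F = q ^ 2) (p : ℕ) [Fact p.Prime] [CharP F p] (n : ℕ) (hn : 1 ≤ n) :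
    Nat.card {c : ConjClasses ↥(Cfsg.SU n F q) // ∃ g : ↥(Cfsg.SU n F q), ConjClasses.mk g = c ∧ (orderOf g).Coprime p} = q ^ (n - 1) := by
  have h0 : ∀ g : Cfsg.SU n F q, (orderOf g).Coprime p ↔ H53.IsSS (g.1 : Matrix (Fin n) (Fin n) F) :=
    fun g => by rw [← H53.coprime_orderOf_sl_iff p, Subgroup.orderOf_coe]
  have hsq : ((-1 : F) ^ n) * (-1) ^ n = 1 := by rw [← mul_pow]; simp
  rw [H53.card_conjClasses_eq_of_invariant
    (fun g : Cfsg.SU n F q => (orderOf g).Coprime p)
    (fun g => (g.1 : Matrix (Fin n) (Fin n) F).charpoly) (fun g h hg hh => by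
      have h1 := (h0 g).1 hg
      have h2 := (h0 h).1 hh
      exact ⟨fun hc => H53.charpoly_eq_of_isConj (H53.isConj_matrix_of_isConj_SU hc),
        fun hc => H53.isConj_SU_of_isSS hF h1 ((h1.isConj_iff h2).2 hc)⟩),
    ← H53.card_monic_pstar hF hn (c := (-1) ^ n) (by simpa using hsq)]
  refine Nat.card_congr (Equiv.subtypeEquivRight fun P => ⟨?_, ?_⟩)
  · rintro ⟨g, -, rfl⟩
    refine ⟨Matrix.charpoly_monic _, by simp, ?_, ?_⟩
    · have := g.1.2
      rw [Matrix.det_eq_sign_charpoly_coeff, Fintype.card_fin] at this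
      linear_combination (-1 : F) ^ n * this -
        (g.1 : Matrix (Fin n) (Fin n) F).charpoly.coeff 0 * hsq
    · rw [H53.charpoly_eq_prod_med, H53.pstar_multiset_prod]
      exact congrArg _ (H53.map_pstar_med_GU hF (H53.suToGU n F q g))
  · rintro ⟨h1, h2, h3, h4⟩
    obtain ⟨A, hA, rfl⟩ := H53.exists_isSS_charpoly_eq (n := Fin n) h1 (by simpa using h2)
    have hu : A.det = 1 := by
      rw [Matrix.det_eq_sign_charpoly_coeff, h3, Fintype.card_fin, hsq]
    obtain ⟨g, hg⟩ := H53.exists_GU_isConj hF (A := A)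
      ((Matrix.isUnit_iff_isUnit_det _).2 (hu ▸ isUnit_one)) (H53.multiset_eq_of_prod_eq (by
        intro P hP
        obtain ⟨Q, hQ, rfl⟩ := Multiset.mem_map.1 hP
        exact ⟨H53.monic_pstar (hA Q hQ).ne_zero,
          H53.irreducible_pstar (H59.frob_frob hF) (H53.med_isPP _ Q hQ).monic (hA Q hQ)⟩)
        (fun P hP => ⟨(H53.med_isPP _ P hP).monic, hA P hP⟩)
        (by rw [← H53.pstar_multiset_prod, ← H53.charpoly_eq_prod_med, h4]))
    have h5 := H53.charpoly_eq_of_isConj hg
    obtain ⟨x, rfl⟩ := (H53.mem_range_suToGU hF g).2 (Subtype.ext (Units.ext (by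
      rw [H53.coe_guDet, Matrix.det_eq_sign_charpoly_coeff, ← h5, h3, Fintype.card_fin, hsq]; rfl)))
    exact ⟨x, (h0 x).2 (hA.of_isConj hg), h5.symm⟩

end Cfsg.Agent.S2386
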