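import Cfsg.Statements.S2387
import Cfsg.Agent.H53.SS

set_option autoImplicit false
open scoped MatrixGroups
open Cfsg

namespace Cfsg.Agent.S2387

/-- In `GL_n(q)` with `n ≥ 1`, `q` a power of the prime `p`, the number of conjugacy classes of elements of order prime to `p` (diagonalisable over the algebraic closure; determined by the characteristic polynomial) is `(q - 1) q^(n-1)`. -/
theorem result {F : Type*} [Field F] [Fintype F] {q : ℕ} (hq : Fintype.card F = q) (p : ℕ) [Fact p.Prime] [CharP F p] (n : ℕ) (hn : 1 ≤ n) :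
    Nat.card {c : ConjClasses (GL (Fin n) F) // ∃ g : GL (Fin n) F, ConjClasses.mk g = c ∧ (orderOf g).Coprime p} = (q - 1) * q ^ (n - 1) := by
  rw [H53.card_conjClasses_eq_of_invariant (fun g : GL (Fin n) F => (orderOf g).Coprime p)
    (fun g => (g : Matrix (Fin n) (Fin n) F).charpoly) (fun g h hg hh => by
      rw [H53.isConj_units_iff, ((H53.coprime_orderOf_gl_iff p g).1 hg).isConj_iff
        ((H53.coprime_orderOf_gl_iff p h).1 hh)]), ← hq, ← Nat.card_eq_fintype_card,
    ← H53.card_monic_coeff_zero_ne hn]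
  refine Nat.card_congr (Equiv.subtypeEquivRight fun P => ⟨?_, ?_⟩)
  · rintro ⟨g, -, rfl⟩
    refine ⟨Matrix.charpoly_monic _, by simp, fun h => ?_⟩
    have := (Matrix.isUnit_iff_isUnit_det _).1 g.isUnit
    rw [Matrix.det_eq_sign_charpoly_coeff, h, mul_zero] at this
    exact not_isUnit_zero this
  · rintro ⟨h1, h2, h3⟩
    obtain ⟨A, hA, rfl⟩ := H53.exists_isSS_charpoly_eq (n := Fin n) h1 (by simpa using h2)
    have hu : IsUnit A := by
      rw [Matrix.isUnit_iff_isUnit_det, Matrix.det_eq_sign_charpoly_coeff]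
      exact (mul_ne_zero (pow_ne_zero _ (neg_ne_zero.2 one_ne_zero)) h3).isUnit
    exact ⟨hu.unit, (H53.coprime_orderOf_gl_iff p _).2 hA, rfl⟩

end Cfsg.Agent.S2387
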