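import Cfsg.Statements.S2391
import Cfsg.Agent.Base
import Cfsg.Agent.H57.Transv
import Cfsg.Agent.H59.UniP

set_option autoImplicit false
open Cfsg

namespace Cfsg.Agent.S2391

open Matrix in
/-- The ascending series of fixed spaces. -/
def fixSeries {F : Type*} [Field F] {n : ℕ} (U : Subgroup (Matrix.SpecialLinearGroup (Fin n) F)) :
    ℕ → Submodule F (Fin n → F)
  | 0 => ⊥
  | i + 1 => ⨅ u : U, (fixSeries U i).comap
      (Matrix.mulVecLin ((u : Matrix.SpecialLinearGroup (Fin n) F) : Matrix (Fin n) (Fin n) F) -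
        LinearMap.id)

lemma mem_fixSeries_succ {F : Type*} [Field F] {n : ℕ}
    {U : Subgroup (Matrix.SpecialLinearGroup (Fin n) F)} {i : ℕ} {v : Fin n → F} :
    v ∈ fixSeries U (i + 1) ↔
      ∀ u ∈ U, (u : Matrix (Fin n) (Fin n) F).mulVec v - v ∈ fixSeries U i := by
  simp [fixSeries, Submodule.mem_iInf]

lemma fixSeries_mono {F : Type*} [Field F] {n : ℕ}
    (U : Subgroup (Matrix.SpecialLinearGroup (Fin n) F)) (i : ℕ) :
    fixSeries U i ≤ fixSeries U (i + 1) := by
  induction i with
  | zero => exact bot_le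
  | succ i ih => exact fun v hv => mem_fixSeries_succ.2 fun u hu => ih (mem_fixSeries_succ.1 hv u hu)

lemma fixSeries_norm {F : Type*} [Field F] {n : ℕ}
    {U : Subgroup (Matrix.SpecialLinearGroup (Fin n) F)} {g : Matrix.SpecialLinearGroup (Fin n) F}
    (hg : g ∈ Subgroup.normalizer (U : Set (Matrix.SpecialLinearGroup (Fin n) F))) (i : ℕ) :
    ∀ v ∈ fixSeries U i, (g : Matrix (Fin n) (Fin n) F).mulVec v ∈ fixSeries U i := by
  induction i with
  | zero => intro v hv; rw [(Submodule.mem_bot F).1 hv, Matrix.mulVec_zero]; exact Submodule.zero_mem _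
  | succ i ih =>
    intro v hv
    refine mem_fixSeries_succ.2 fun u hu => ?_
    have h1 : g⁻¹ * u * g ∈ U := by
      exact (hg _).2 (by simpa [mul_assoc] using hu)
    have := ih _ (mem_fixSeries_succ.1 hv _ h1)
    rwa [Matrix.mulVec_sub, Matrix.mulVec_mulVec, ← Matrix.SpecialLinearGroup.coe_mul, ← mul_assoc,
      ← mul_assoc, mul_inv_cancel, one_mul, Matrix.SpecialLinearGroup.coe_mul,
      ← Matrix.mulVec_mulVec] at this

/-- The Borel–Tits property of `SL_n(q)` in flag form: for a field `F` of characteristic `p` with finitely many elements and a non-trivial `p`-subgroup `U` of `SL_n(F)`, there is a flag `0 = V₀ < V₁ < ⋯ < V_{k+1} = F^n` with at least one proper non-zero member such that every element of the normaliser of `U` maps each `V_i` onto itself and every element of `U` acts trivially on each quotient `V_{i+1}/V_i` (so the normaliser lies in the parabolic subgroup of the flag and `U` in its unipotent radical). -/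
theorem result {F : Type*} [Field F] [Fintype F] (p : ℕ) [Fact p.Prime] [CharP F p] (n : ℕ)
    (U : Subgroup (Matrix.SpecialLinearGroup (Fin n) F)) (hU : IsPGroup p ↥U) (hne : U ≠ ⊥) :
    ∃ (k : ℕ) (V : Fin (k + 2) → Submodule F (Fin n → F)), 1 ≤ k ∧ StrictMono V ∧ V 0 = ⊥ ∧ V (Fin.last (k + 1)) = ⊤ ∧
      (∀ g ∈ Subgroup.normalizer (U : Set (Matrix.SpecialLinearGroup (Fin n) F)), ∀ i, (V i).map (Matrix.mulVecLin (g : Matrix (Fin n) (Fin n) F)) = V i) ∧
      (∀ u ∈ U, ∀ i : Fin (k + 1), ∀ v ∈ V i.succ, (u : Matrix (Fin n) (Fin n) F).mulVec v - v ∈ V (Fin.castSucc i)) := by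
  classical
  have hlt : ∀ i, fixSeries U i ≠ ⊤ → fixSeries U i < fixSeries U (i + 1) := by
    intro i hi
    have : Finite (U.map (Matrix.SpecialLinearGroup.toLin' (n := Fin n) (R := F))) :=
      Finite.of_surjective _ (MonoidHom.subgroupMap_surjective _ U)
    obtain ⟨v, -, h1, h2⟩ := H59.exists_fixed_mod (hU.map Matrix.SpecialLinearGroup.toLin')
      (U₁ := fixSeries U i) (U₂ := ⊤)
      (by rintro _ ⟨u, hu, rfl⟩ x hx; exact fixSeries_norm (Subgroup.le_normalizer hu) i x hx)
      (fun _ _ _ _ => trivial) (by rwa [top_le_iff])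
    exact lt_of_le_of_ne (fixSeries_mono U i) fun h =>
      h1 (h ▸ mem_fixSeries_succ.2 fun u hu => h2 _ ⟨u, hu, rfl⟩)
  have hex : ∃ i, fixSeries U i = ⊤ := by
    by_contra h
    push Not at h
    have : StrictMono (fixSeries U) := strictMono_nat_of_lt_succ fun i => hlt i (h i)
    exact (RelEmbedding.natGT (r := (· > ·)) (fixSeries U)
      fun i => this (Nat.lt_succ_self i)).not_wellFounded wellFounded_gt
  have h1 : fixSeries U 1 ≠ ⊤ := by
    intro h
    apply hne
    rw [eq_bot_iff]
    intro u hu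
    rw [Subgroup.mem_bot, H57.sl_ext_iff]
    refine Matrix.ext_of_mulVec_single fun j => ?_
    have := mem_fixSeries_succ.1 (h ▸ Submodule.mem_top : Pi.single j 1 ∈ fixSeries U 1) u hu
    rw [Matrix.SpecialLinearGroup.coe_one, Matrix.one_mulVec]
    exact sub_eq_zero.1 this
  have h2 : 2 ≤ Nat.find hex := by
    by_contra hc
    apply h1
    rw [eq_top_iff, ← Nat.find_spec hex]
    exact monotone_nat_of_le_succ (fixSeries_mono U) (by omega)
  obtain ⟨k, hk⟩ : ∃ k, Nat.find hex = k + 1 := ⟨Nat.find hex - 1, by omega⟩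
  refine ⟨k, fun i => fixSeries U i, by omega, ?_, rfl, by have := Nat.find_spec hex; rwa [hk] at this,
    fun g hg i => ?_,
    fun u hu i v hv => mem_fixSeries_succ.1 hv u hu⟩
  · refine Fin.strictMono_iff_lt_succ.2 fun i => hlt _ (Nat.find_min hex ?_)
    rw [hk]; exact i.2
  · apply le_antisymm
    · rintro _ ⟨v, hv, rfl⟩
      exact fixSeries_norm hg _ v hv
    · intro v hv
      refine ⟨_, fixSeries_norm (Subgroup.inv_mem _ hg) _ v hv, ?_⟩
      rw [Matrix.mulVecLin_apply, Matrix.mulVec_mulVec, H57.sl_mul_inv_coe, Matrix.one_mulVec]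

end Cfsg.Agent.S2391
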