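import Cfsg.Statements.S2393
import Cfsg.Agent.Base
import Cfsg.Agent.H59.CrossLS

set_option autoImplicit false
open scoped MatrixGroups
open Cfsg

namespace Cfsg.Agent.S2393

/-- A lower bound for representations in cross characteristic: for `n ≥ 2` and a field `F` with `q` elements, `q` odd, every homomorphism from the symplectic group `Sp_{2n}(F)` to `GL_d(K)`, `K` a field of characteristic different from that of `F`, whose kernel is central has `d ≥ q^(n-1)(q-1)/2`. -/
theorem result {F : Type*} [Field F] [Fintype F] {q : ℕ} (hq : Fintype.card F = q) (hodd : Odd q) (n : ℕ) (hn : 2 ≤ n)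
    {K : Type*} [Field K] (hK : ringChar K ≠ ringChar F) {d : ℕ}
    (ρ : ↥(Matrix.symplecticGroup (Fin n) F) →* GL (Fin d) K) (hker : ρ.ker ≤ Subgroup.center ↥(Matrix.symplecticGroup (Fin n) F)) :
    q ^ (n - 1) * (q - 1) / 2 ≤ d := by
  classical
  subst hq
  let ψ := AddChar.FiniteField.primitiveChar F K hK
  obtain ⟨ρ', hρ'⟩ := H59.exists_rep_ext ρ (CyclotomicField ψ.n K)
  have h1 := H59.sp_ls_bound_odd hodd (ψ := ψ.char) (by simpa using ψ.prim one_ne_zero) ρ'
    (u := fun _ => 1) fun h => H54.tv_notMem_center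
      (fun h0 => by simpa using congrFun h0 (Sum.inl ⟨0, by omega⟩)) one_ne_zero (hker (hρ' _ h))
  simp only [Fintype.card_fin, Module.finrank_fintype_fun_eq_card] at h1
  obtain ⟨m, rfl⟩ : ∃ m, n = m + 1 := ⟨n - 1, by omega⟩
  have h2 : 0 < Fintype.card F ^ m := pow_pos Fintype.card_pos _
  rw [Nat.add_sub_cancel, Nat.mul_sub_one, ← pow_succ]
  omega

end Cfsg.Agent.S2393
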