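import Cfsg.Statements.S2394
import Cfsg.Agent.Base
import Cfsg.Agent.H54.SpCard
import Cfsg.Agent.H27.Zsigmondy

set_option autoImplicit false
open scoped MatrixGroups
open Cfsg

namespace Cfsg.Agent.S2394

/-- The smallest degree of a faithful representation of the symplectic group `Sp_{2n}(q)` over its own field `F_q` is `2n`: every injective homomorphism from `Sp_{2n}(F)` to `GL_d(F)`, `F` the field with `q` elements, has `d ≥ 2n`. -/
theorem result {F : Type*} [Field F] [Fintype F] (n : ℕ) {d : ℕ}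
    (ρ : ↥(Matrix.symplecticGroup (Fin n) F) →* GL (Fin d) F) (hρ : Function.Injective ρ) : 2 * n ≤ d := by
  classical
  have h1 := Subgroup.card_dvd_of_injective ρ hρ
  rw [H54.card_sp, Matrix.card_GL_field, H54.spOrder_def, Fintype.card_fin,
    Nat.card_eq_fintype_card] at h1
  have hq : 1 < Fintype.card F := Fintype.one_lt_card
  generalize Fintype.card F = q at h1 hq
  by_contra! hd
  obtain ⟨m, rfl⟩ : ∃ m, n = m + 1 := ⟨n - 1, by omega⟩
  by_cases hm : m = 0
  · subst hm
    have h2 : q ∣ ∏ i : Fin d, (q ^ d - q ^ (i : ℕ)) := ((dvd_pow_self q (by norm_num)).mul_right _).trans h1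
    interval_cases d
    · simp at h2; omega
    · simp only [Finset.univ_unique, pow_one, Fin.val_eq_zero, pow_zero, Finset.prod_singleton] at h2
      have := Nat.le_of_dvd (by omega) h2
      omega
  by_cases h26 : q = 2 ∧ m = 2
  · obtain ⟨rfl, rfl⟩ := h26
    interval_cases d <;> simp [Finset.prod_range_succ, Fin.prod_univ_succ] at h1
  obtain ⟨r, hr, hr1, hr2⟩ := H27.zsigmondy q (2 * (m + 1)) hq (by omega) (by omega) (by omega)
  have h3 : r ∣ ∏ i : Fin d, (q ^ d - q ^ (i : ℕ)) := by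
    refine hr1.trans (Dvd.dvd.trans ?_ h1)
    rw [Finset.prod_range_succ]
    exact (Dvd.intro_left _ rfl).mul_left _
  obtain ⟨i, -, hi⟩ := (Prime.dvd_finsetProd_iff hr.prime _).1 h3
  rw [show q ^ d - q ^ (i : ℕ) = q ^ (i : ℕ) * (q ^ (d - i) - 1) by
    rw [Nat.mul_sub_one, ← pow_add, Nat.add_sub_cancel' i.2.le]] at hi
  rcases (Nat.Prime.dvd_mul hr).1 hi with h | h
  · have h4 : r ∣ q ^ (2 * (m + 1)) := (hr.dvd_of_dvd_pow h).trans (dvd_pow_self _ (by omega))
    have h5 := (Nat.dvd_sub_iff_right (Nat.one_le_pow _ _ (by omega)) h4).1 hr1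
    exact hr.one_lt.ne' (Nat.dvd_one.1 h5)
  · exact hr2 _ (by omega) (by omega) h

end Cfsg.Agent.S2394
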