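import Cfsg.Agent.Base
import Cfsg.Agent.H21.StMult
import Cfsg.Agent.S2398
import Cfsg.Statements.S2399
-- import your own Cfsg.Agent.* helpers here

set_option autoImplicit false
open scoped MatrixGroups
open Cfsg

namespace Cfsg.Agent.S2399

/-- Projective representations in the natural characteristic lift: for each of the types G₂, B₂, D₄, F₄, E₆, E₇, E₈ over any field `K` (for types B₂ and G₂ the field must have more than two elements — the cases where the Chevalley group is not simple are set aside), every homomorphism from the Chevalley group to `PGL_n(L) = GL_n(L)/Z`, `L` a field of the same characteristic as `K`, lifts uniquely to a homomorphism from the group Δ presented by (R1), (R2) to `GL_n(L)`, compatibly with the projection Δ → Chevalley group sending x̄_r(t) to x_r(t). -/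
theorem result {K : Type*} [Field K] (D : Cfsg.Lie.ChevalleyDatum) (hD : D ∈ [Cfsg.Lie.chevG2, Cfsg.Lie.chevB2, Cfsg.Lie.chevD4, Cfsg.Lie.chevF4, Cfsg.Lie.chevE6, Cfsg.Lie.chevE7, Cfsg.Lie.chevE8]) (hK : D ∈ [Cfsg.Lie.chevB2, Cfsg.Lie.chevG2] → ∃ x : K, x ≠ 0 ∧ x ≠ 1)
    (θ : D.SteinbergCover K →* ↥(D.group K))
    (hθ : ∀ (r : ℕ) (t : K), r < D.nroots → ((θ (D.scGen K r t) : GL D.Idx K) : Matrix D.Idx D.Idx K) = D.x K r t)
    {L : Type*} [Field L] (hL : ringChar L = ringChar K) {n : ℕ}
    (φ : ↥(D.group K) →* GL (Fin n) L ⧸ Subgroup.center (GL (Fin n) L)) :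
    ∃! ψ : D.SteinbergCover K →* GL (Fin n) L, (QuotientGroup.mk' (Subgroup.center (GL (Fin n) L))).comp ψ = φ.comp θ := by
  rcases finite_or_infinite K with hf | hf
  swap
  · exact S2398.result ((Infinite.exists_subset_card_eq K 5).imp fun s hs => by omega) D hD _
      (QuotientGroup.mk'_surjective _) (QuotientGroup.ker_mk' _).le _
  obtain ⟨_, _, _⟩ := H65.of_mem hD
  have hP := H21.cover_perfect hD hK
  have := H21.finite_of_stem θ (H21.isStem_theta (fun r t => H64.val_eq_x.1 (hθ r t r.2)) hP)
  have := Fintype.ofFinite K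
  have hp := CharP.char_is_prime K (ringChar K)
  have := Fact.mk hp
  have : CharP L (ringChar K) := hL ▸ ringChar.charP L
  have hc := H21.isCentralExt_pullbackFst (φ.comp θ) (QuotientGroup.mk' _)
    ⟨QuotientGroup.mk'_surjective _, (QuotientGroup.ker_mk' _).le⟩
  have := H21.finite_commutator_of_central _ hc.2
  obtain ⟨y, h1, h2⟩ := H21.st_lift_pprime (ringChar K) hp (H64.stB_scGen D K)
    (π := (H21.pullbackFst (φ.comp θ) (QuotientGroup.mk' _)).comp (commutator _).subtype)
    (fun g => by
      obtain ⟨z, hz, e⟩ := (H21.map_commutator_of_surjective _ hc.1).ge (hP ▸ Subgroup.mem_top g)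
      exact ⟨⟨z, hz⟩, e⟩)
    (fun z hz => Subgroup.mem_center_iff.2 fun g =>
      Subtype.ext (Subgroup.mem_center_iff.1 (hc.2 hz) g)) (fun hd => by
      obtain ⟨z, hz⟩ := exists_prime_orderOf_dvd_card' _ hd
      have e1 : z.1.1.1.1 = 1 := z.2
      have e2 := H21.mem_pullback.1 z.1.1.2
      rw [e1, map_one, eq_comm, ← MonoidHom.mem_ker, QuotientGroup.ker_mk'] at e2
      obtain ⟨a, ha⟩ := Matrix.GeneralLinearGroup.mem_center_iff_val_mem_range_scalar.1 e2
      have e3 : (z.1.1.1.2 : Matrix (Fin n) (Fin n) L) ^ ringChar K = 1 :=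
        congrArg (fun w => (w.1.1.1.2 : Matrix (Fin n) (Fin n) L)) (hz ▸ pow_orderOf_eq_one z)
      have e4 : z.1.1.1.2 = 1 := by
        ext i j
        rw [← ha, ← map_pow] at e3
        have e5 : a ^ ringChar K = 1 := by simpa using congrFun (congrFun e3 i) i
        rw [← sub_eq_zero, ← one_pow (ringChar K), ← sub_pow_char, pow_eq_zero_iff hp.ne_zero,
          sub_eq_zero] at e5
        rw [← ha, e5, map_one]; rfl
      rw [show z = 1 from Subtype.ext (Subtype.ext (Subtype.ext (Prod.ext e1 e4))), orderOf_one] at hz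
      exact hp.ne_one hz.symm)
  refine H21.existsUnique_lift hP (QuotientGroup.ker_mk' _).le
    ((H21.pullbackSnd _ _).comp (commutator _).subtype) h1.coverHom fun g => ?_
  rw [MonoidHom.comp_apply, ← H21.pullback_comm]
  exact congrArg _ (H21.exists_section h1 h2 (MonoidHom.id _) (fun _ _ => rfl) g)

end Cfsg.Agent.S2399
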