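import Cfsg.Statements.S2401
import Cfsg.Agent.Base
import Cfsg.Agent.H57.StA

set_option autoImplicit false
open Cfsg

namespace Cfsg.Agent.S2401

/-- The Steinberg presentation of `SL_n` over a finite field for `n ≥ 3`: the group generated by symbols `x_ij(t)` (`i ≠ j`, `t` in the field) subject to `x_ij(t) x_ij(u) = x_ij(t + u)` and, for `i ≠ l`, `x_ij(t) x_kl(u) x_ij(t)⁻¹ x_kl(u)⁻¹ = x_il(tu)` if `j = k` and `= 1` if `j ≠ k`, is isomorphic to `SL_n` by an isomorphism sending `x_ij(t)` to the elementary matrix `1 + t E_ij`. -/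
theorem result {K : Type*} [Field K] [Finite K] (n : ℕ) (hn : 3 ≤ n) :
    ∃ e : PresentedGroup
        ({g : FreeGroup ({ij : Fin n × Fin n // ij.1 ≠ ij.2} × K) | ∃ (a : {ij : Fin n × Fin n // ij.1 ≠ ij.2}) (t u : K),
            g = FreeGroup.of (a, t) * FreeGroup.of (a, u) * (FreeGroup.of (a, t + u))⁻¹} ∪
          {g | ∃ (a b : {ij : Fin n × Fin n // ij.1 ≠ ij.2}) (t u : K), a.1.1 ≠ b.1.2 ∧ a.1.2 ≠ b.1.1 ∧
            g = FreeGroup.of (a, t) * FreeGroup.of (b, u) * (FreeGroup.of (a, t))⁻¹ * (FreeGroup.of (b, u))⁻¹} ∪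
          {g | ∃ (a b : {ij : Fin n × Fin n // ij.1 ≠ ij.2}) (h : a.1.1 ≠ b.1.2) (t u : K), a.1.2 = b.1.1 ∧
            g = FreeGroup.of (a, t) * FreeGroup.of (b, u) * (FreeGroup.of (a, t))⁻¹ * (FreeGroup.of (b, u))⁻¹ *
              (FreeGroup.of (⟨(a.1.1, b.1.2), h⟩, t * u))⁻¹}) ≃* Matrix.SpecialLinearGroup (Fin n) K,
      ∀ (a : {ij : Fin n × Fin n // ij.1 ≠ ij.2}) (t : K), ((e (PresentedGroup.of (a, t)) : Matrix (Fin n) (Fin n) K)) = Matrix.transvection a.1.1 a.1.2 t := by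
  set rels := ({g : FreeGroup ({ij : Fin n × Fin n // ij.1 ≠ ij.2} × K) | ∃ (a : {ij : Fin n × Fin n // ij.1 ≠ ij.2}) (t u : K),
              g = FreeGroup.of (a, t) * FreeGroup.of (a, u) * (FreeGroup.of (a, t + u))⁻¹} ∪
            {g | ∃ (a b : {ij : Fin n × Fin n // ij.1 ≠ ij.2}) (t u : K), a.1.1 ≠ b.1.2 ∧ a.1.2 ≠ b.1.1 ∧
              g = FreeGroup.of (a, t) * FreeGroup.of (b, u) * (FreeGroup.of (a, t))⁻¹ * (FreeGroup.of (b, u))⁻¹} ∪
            {g | ∃ (a b : {ij : Fin n × Fin n // ij.1 ≠ ij.2}) (h : a.1.1 ≠ b.1.2) (t u : K), a.1.2 = b.1.1 ∧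
              g = FreeGroup.of (a, t) * FreeGroup.of (b, u) * (FreeGroup.of (a, t))⁻¹ * (FreeGroup.of (b, u))⁻¹ *
                (FreeGroup.of (⟨(a.1.1, b.1.2), h⟩, t * u))⁻¹}) with hrels
  have M := H57.stA_xA (ι := Fin n) (F := K)
  let π : PresentedGroup rels →* Matrix.SpecialLinearGroup (Fin n) K :=
    PresentedGroup.toGroup (f := fun k => H57.xA k.1.1.1 k.1.1.2 k.2) (by
      rintro _ ((⟨a, t, u, rfl⟩ | ⟨a, b, t, u, h1, h2, rfl⟩) | ⟨a, b, h, t, u, h1, rfl⟩) <;>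
        simp only [map_mul, map_inv, FreeGroup.lift_apply_of, mul_inv_eq_one]
      · exact M.add _ _ a.2 t u
      · exact M.conj_comm a.2 b.2 h1 h2 t u
      · rw [← h1]; exact M.tri _ _ _ a.2 (h1 ▸ b.2) h t u)
  let x : Fin n → Fin n → K → PresentedGroup rels := fun i j t =>
    if h : i = j then 1 else PresentedGroup.of (⟨(i, j), h⟩, t)
  have hx : ∀ i j (h : i ≠ j) t, x i j t = PresentedGroup.mk rels (FreeGroup.of (⟨(i, j), h⟩, t)) :=
    fun i j h t => dif_neg h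
  have H : H57.StA x := by
    refine ⟨fun i j h s t => ?_, fun i j k l a b c d s t => ?_, fun i j k a b c s t => ?_⟩
    · have := PresentedGroup.one_of_mem (rels := rels) (Or.inl (Or.inl ⟨⟨(i, j), h⟩, s, t, rfl⟩))
      simpa only [map_mul, map_inv, mul_inv_eq_one, ← hx] using this
    · have := PresentedGroup.one_of_mem (rels := rels)
        (Or.inl (Or.inr ⟨⟨(i, j), a⟩, ⟨(k, l), b⟩, s, t, c, d, rfl⟩))
      simp only [map_mul, map_inv, mul_inv_eq_one, ← hx] at this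
      exact mul_inv_eq_iff_eq_mul.1 this
    · have := PresentedGroup.one_of_mem (rels := rels)
        (Or.inr ⟨⟨(i, j), a⟩, ⟨(j, k), b⟩, c, s, t, rfl, rfl⟩)
      simpa only [map_mul, map_inv, mul_inv_eq_one, ← hx] using this
  obtain ⟨φ, hφ⟩ := H.exists_hom hn
  have hπ : ∀ k, π (PresentedGroup.of k) = H57.xA k.1.1.1 k.1.1.2 k.2 := fun k =>
    PresentedGroup.toGroup.of _
  refine ⟨MonoidHom.toMulEquiv π φ (PresentedGroup.ext fun k => ?_)
    (MonoidHom.eq_of_eqOn_dense H57.closure_xA ?_), fun a t => ?_⟩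
  · rw [MonoidHom.comp_apply, hπ, hφ _ _ k.1.2, hx _ _ k.1.2]; rfl
  · rintro _ ⟨i, j, t, h, rfl⟩
    rw [MonoidHom.comp_apply, hφ _ _ h, hx _ _ h]
    exact hπ _
  · rw [MonoidHom.toMulEquiv_apply, hπ, H57.xA_coe a.2]; rfl

end Cfsg.Agent.S2401
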