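import Cfsg.Statements.S2410
import Cfsg.Agent.H66.SzSubfield

set_option autoImplicit false
open Cfsg

namespace Cfsg.Agent.S2410

/-- The Suzuki group over the field with `2^(2m+1)` elements, `m ≥ 1` (realised as the stabiliser in `SL₄` of the Suzuki–Tits ovoid), is generated by two of its elements. -/
theorem result {F : Type*} [Field F] [Fintype F] {m : ℕ} (hm : 1 ≤ m) (hF : Fintype.card F = 2 ^ (2 * m + 1)) :
    ∃ a b : ↥(Cfsg.Sz F m), Subgroup.closure ({a, b} : Set ↥(Cfsg.Sz F m)) = ⊤ := by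
  have hT := H66.titsOf_isFin F hm hF
  generalize Cfsg.Sz F m = G0, H66.modelA hT = M
  have := M.finite
  obtain ⟨A, hA, hc, hCC⟩ := M.exists_torus hT (Or.inl rfl)
  obtain ⟨a, rfl⟩ := (Subgroup.isCyclic_iff_exists_zpowers_eq_top _).mp hA
  have ht : H66.IsTorus m (Subgroup.zpowers a) := ⟨hA, Or.inr (Or.inl hc)⟩
  rw [Nat.card_zpowers] at hc
  have h5 := hT.five_le (Or.inl rfl)
  have a1 : a ≠ 1 := fun e => by rw [e, orderOf_one] at hc; omega
  have hN : Subgroup.normalizer (Subgroup.zpowers a : Set G0) ≠ ⊤ := fun e => by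
    have h := M.isSolvable_normalizer hT ht
    rw [e] at h
    exact M.not_isSolvable hT (Group.isSolvable_of_surjective (f := (⊤ : Subgroup G0).subtype)
      fun g => ⟨⟨g, trivial⟩, rfl⟩)
  obtain ⟨b, hb⟩ : ∃ b, b ∉ Subgroup.normalizer (Subgroup.zpowers a : Set G0) := by
    by_contra h
    push Not at h
    exact hN ((Subgroup.eq_top_iff' _).mpr h)
  refine ⟨a, b, ?_⟩
  have haK : a ∈ Subgroup.closure ({a, b} : Set G0) := Subgroup.subset_closure (by simp)
  have hbK : b ∈ Subgroup.closure ({a, b} : Set G0) := Subgroup.subset_closure (by simp)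
  rcases M.subgroup_cases hT (Subgroup.closure {a, b}) with ⟨x, hx⟩ | ⟨A, hA, hx⟩ |
    ⟨x, E, k, hk, hc', hd, h⟩
  · have h1 := Subgroup.orderOf_dvd_natCard _ (hx haK)
    rw [H66.Model.card_B, hc] at h1
    have h2 : (Nat.card F ^ 2 * (Nat.card F - 1)).Coprime (Nat.card F ^ 2 + 1) :=
      Nat.Coprime.mul_left (by simp) hT.coprime_sub_one
    have := Nat.eq_one_of_dvd_coprimes h2 h1 (hT.dvd_of_torus (Or.inl rfl))
    omega
  · have h1 := M.mem_torus_of_odd hT hA (hx haK) (hc ▸ H66.odd_aP m)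
    rw [← hCC.eq_of_mem (M.isCC_of_isTorus hT hA) (Subgroup.mem_zpowers a) h1 a1] at hx
    exact absurd (hx hbK) hb
  · obtain ⟨L, _, T', hT', ⟨M'⟩⟩ := h.exists_model hT hk hc'
    refine h.eq_top_of_le hT hc' ?_
    by_contra hlt
    have h1 : ∀ n, n ≠ 0 → (⟨a, haK⟩ : Subgroup.closure ({a, b} : Set G0)) ^ n = 1 →
        H66.aP m ≤ n := fun n hn e =>
      hc ▸ Nat.le_of_dvd (Nat.pos_of_ne_zero hn) (orderOf_dvd_of_pow_eq_one (congrArg Subtype.val e))
    have h2 : H66.aP k < H66.aP m := by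
      have h3 : 2 ^ (2 * k + 1) < 2 ^ (2 * m + 1) := Nat.pow_lt_pow_right one_lt_two (by omega)
      have h4 : 2 ^ (k + 1) < 2 ^ (m + 1) := Nat.pow_lt_pow_right one_lt_two (by omega)
      unfold H66.aP
      omega
    have h3 := H66.aM_lt_aP k
    have h4 := H66.five_le_aM hk
    have h6 := hT'.eight_le
    have h7 : Nat.card L < H66.aP k := by
      rw [hT'.card]
      exact Nat.lt_succ_of_le (Nat.le_add_right _ _)
    rcases M'.pow_cases hT' ⟨a, haK⟩ with e | e | e | e <;> have := h1 _ (by omega) e <;> omega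

end Cfsg.Agent.S2410
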