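import Cfsg.Statements.S2416
import Cfsg.Agent.H64.GenN

set_option autoImplicit false
open scoped MatrixGroups
open Cfsg

namespace Cfsg.Agent.S2416

/-- A Chevalley group of type G₂, B₂, D₄, F₄, E₆, E₇ or E₈ over a finite field lies in (indeed equals) the subgroup generated by its monomial subgroup `N` and a single fundamental root subgroup `X_p`, where `p` is a short fundamental root if there are two root lengths (any fundamental root otherwise), provided the characteristic is not 2 for types B₂, F₄ and not 3 for type G₂ (and the field has more than two elements for B₂, G₂). -/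
theorem result {K : Type*} [Field K] [Finite K] (D : Cfsg.Lie.ChevalleyDatum) (hD : D ∈ [Cfsg.Lie.chevG2, Cfsg.Lie.chevB2, Cfsg.Lie.chevD4, Cfsg.Lie.chevF4, Cfsg.Lie.chevE6, Cfsg.Lie.chevE7, Cfsg.Lie.chevE8])
    (hK : D ∈ [Cfsg.Lie.chevB2, Cfsg.Lie.chevG2] → ∃ x : K, x ≠ 0 ∧ x ≠ 1)
    (h2 : D ∈ [Cfsg.Lie.chevB2, Cfsg.Lie.chevF4] → ringChar K ≠ 2) (h3 : D = Cfsg.Lie.chevG2 → ringChar K ≠ 3)
    (i : ℕ) (hi : i < D.rank) (hshort : D.isLong (D.simple i) = false) :
    D.group K ≤ D.monomialSubgroup K ⊔ D.rootSubgroup K (D.simple i) := by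
  obtain ⟨_, _, h⟩ := H64.matOK_of_mem hD K
  have hn : ∀ k : Fin D.rank, H64.nn D (H65.xU D K) (D.simple k) 1 ∈
      D.monomialSubgroup K ⊔ D.rootSubgroup K (D.simple i) := fun k =>
    Subgroup.mem_sup_left (by rw [h.N_eq]; exact h.stB.nn_mem_N (H63.simpleR k) one_ne_zero)
  have hx : ∀ t, H65.xU D K (H63.simpleR ⟨i, hi⟩ : H63.Rt D) t ∈
      D.monomialSubgroup K ⊔ D.rootSubgroup K (D.simple i) := fun t =>
    Subgroup.mem_sup_right (by
      have := H64.x_mem_XR D (H65.xU D K) (H63.simpleR ⟨i, hi⟩) t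
      rwa [← H64.rootSubgroup_eq] at this)
  have hc : ∀ p : ℕ, p.Prime → ringChar K ≠ p → ((p : ℤ) : K) ≠ 0 := fun p hp h1 h2 => by
    rw [Int.cast_natCast, ringChar.spec] at h2
    rcases (Nat.dvd_prime hp).1 h2 with h3 | h3
    · exact CharP.ringChar_ne_one h3
    · exact h1 h3
  rw [H64.group_eq]
  simp only [List.mem_cons, List.not_mem_nil, or_false] at hD
  rcases hD with rfl | rfl | rfl | rfl | hD
  · exact h.stN.GG_le_of_terms (by simp) hn hshort hx 2 3 0 3 (hc 3 Nat.prime_three (h3 rfl))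
      (by decide +kernel)
  · exact h.stN.GG_le_of_terms (by simp) hn hshort hx 1 2 0 2 (hc 2 Nat.prime_two (h2 (by simp)))
      (by decide +kernel)
  · exact h.stN.GG_le_of_not_long (by simp) hn hx
  · exact h.stN.GG_le_of_terms (by simp) hn hshort hx 3 18 0 2 (hc 2 Nat.prime_two (h2 (by simp)))
      (by decide +kernel)
  · exact h.stN.GG_le_of_not_long (by simp [hD]) hn hx

end Cfsg.Agent.S2416
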