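import Cfsg.Statements.S2418
import Cfsg.Agent.Base
import Cfsg.Agent.H63.Cox

set_option autoImplicit false
open Cfsg

namespace Cfsg.Agent.S2418

open H63 Cfsg.Lie in
theorem center_map {G H : Type*} [Group G] [Group H] (e : G ≃* H) :
    Subgroup.center H = (Subgroup.center G).map e.toMonoidHom := by
  ext z
  constructor
  · intro hz
    refine ⟨e.symm z, Subgroup.mem_center_iff.2 fun g => e.injective ?_, by simp⟩
    simp [Subgroup.mem_center_iff.1 hz]
  · rintro ⟨z, hz, rfl⟩
    refine Subgroup.mem_center_iff.2 fun g => e.symm.injective ?_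
    simp [Subgroup.mem_center_iff.1 hz]

open H63 Cfsg.Lie in
theorem two {D : ChevalleyDatum} [RS D] {M : CoxeterMatrix (Fin D.rank)}
    (h : coxOK D M = true) (n : ℕ)
    (hn : scalW D (-1) (List.replicate n (List.range D.rank)).flatten = true) :
    Nat.card (Subgroup.center M.Group) = 2 ∧
      Subgroup.center M.Group ≤ Subgroup.zpowers ((List.finRange D.rank).map M.simple).prod := by
  obtain ⟨e, he⟩ := exists_coxEquiv h
  rw [scalW_iff (fun i hi => by
    obtain ⟨l', h1, h2⟩ := List.mem_flatten.1 hi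
    simpa [List.eq_of_mem_replicate h1] using h2), wW_replicate] at hn
  obtain ⟨h1, h2⟩ := center_of_neg (z := wW D (List.range D.rank) ^ n)
    fun i => rt_inj (by rw [hn, rt_negR, neg_one_smul])
  rw [center_map e, ← map_coxeterElement e he]
  constructor
  · rw [Subgroup.card_map_of_injective e.injective, ← SetLike.coe_sort_coe, h1, Nat.card_coe_set_eq,
      Set.ncard_pair h2.symm]
  · rintro _ ⟨z, hz, rfl⟩
    rw [h1] at hz
    rcases hz with rfl | rfl
    · simp
    · exact ⟨n, by simp⟩

open H63 Cfsg.Lie in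
theorem one {D : ChevalleyDatum} [RS D] {M : CoxeterMatrix (Fin D.rank)}
    (h : coxOK D M = true) (l : List ℕ) (hl : ∀ i ∈ l, i < D.rank)
    (h1 : testW D (fun _ μ => decide (∀ a ∈ μ, a ≤ 0)) l = true) (h2 : scalW D (-1) l = false) :
    Nat.card (Subgroup.center M.Group) = 1 ∧
      Subgroup.center M.Group ≤ Subgroup.zpowers ((List.finRange D.rank).map M.simple).prod := by
  obtain ⟨e, he⟩ := exists_coxEquiv h
  rw [testW_iff _ hl] at h1
  have h3 := center_eq_bot_of (w := wW D l) (fun i => not_pos_iff.2 fun k =>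
    of_decide_eq_true (h1 k) _ (List.mem_ofFn.2 ⟨i, rfl⟩)) fun h4 => by
      rw [(scalW_iff hl).2 fun i => by rw [h4, rt_negR, neg_one_smul]] at h2
      exact absurd h2 (by simp)
  rw [center_map e, h3]
  simp

/-- For the Coxeter groups of types B₂, G₂, D₄, F₄, E₇, E₈ the centre has order 2 (the element acting as −1 on the root system) and is generated by a power of the Coxeter element `s₁ s₂ ⋯ s_l`; the Coxeter group of type E₆ has trivial centre. -/
theorem result (c : (Σ n : ℕ, CoxeterMatrix (Fin n)) × ℕ)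
    (hc : c ∈ [(⟨2, CoxeterMatrix.B 2⟩, 2), (⟨2, CoxeterMatrix.G₂⟩, 2), (⟨4, Cfsg.Lie.coxeterD4⟩, 2), (⟨4, CoxeterMatrix.F₄⟩, 2),
      (⟨6, CoxeterMatrix.E₆⟩, 1), (⟨7, CoxeterMatrix.E₇⟩, 2), (⟨8, CoxeterMatrix.E₈⟩, 2)]) :
    Nat.card (Subgroup.center c.1.2.Group) = c.2 ∧
      Subgroup.center c.1.2.Group ≤ Subgroup.zpowers ((List.finRange c.1.1).map c.1.2.simple).prod := by
  simp only [List.mem_cons, List.not_mem_nil, or_false] at hc
  rcases hc with rfl | rfl | rfl | rfl | rfl | rfl | rfl
  · exact two H63.coxB2 2 (by decide +kernel)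
  · exact two H63.coxG2 3 (by decide +kernel)
  · exact two H63.coxD4 3 (by decide +kernel)
  · exact two H63.coxF4 6 (by decide +kernel)
  · exact one H63.coxE6 (List.replicate 6 [0, 3, 5, 1, 2, 4]).flatten (by decide) (by decide +kernel)
      (by decide +kernel)
  · exact two H63.coxE7 9 (by decide +kernel)
  · exact two H63.coxE8 15 (by decide +kernel)

end Cfsg.Agent.S2418
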