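import Cfsg.Statements.S2419
import Cfsg.Agent.Base
import Cfsg.Agent.H63.Cox

set_option autoImplicit false
open Cfsg

namespace Cfsg.Agent.S2419

open H63 Cfsg.Lie in
theorem key {D : ChevalleyDatum} [RS D] {M : CoxeterMatrix (Fin D.rank)}
    (e : (wdata D).W ≃* M.Group) (he : ∀ i, e ((wdata D).sW i) = M.simple i)
    (T : Finset M.Group) (K : List (List ℕ)) (hK : ∀ l ∈ K, (∀ i ∈ l, i < D.rank) ∧ e (wW D l) ∈ T)
    (steps : List (List ℕ × ℕ × ℕ × ℕ))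
    (h : genK D steps (List.range D.rank :: (List.range D.rank).reverse :: K) = true) :
    Subgroup.closure (({((List.finRange D.rank).map M.simple).prod} : Set M.Group) ∪ ↑T) = ⊤ := by
  have h1 := eq_top_of_genK ((Subgroup.closure (({((List.finRange D.rank).map M.simple).prod} :
    Set M.Group) ∪ ↑T)).comap e.toMonoidHom) steps _ (fun l hl => by
      rcases List.mem_cons.1 hl with rfl | hl
      · exact ⟨by simp, Subgroup.subset_closure (Or.inl (map_coxeterElement e he))⟩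
      rcases List.mem_cons.1 hl with rfl | hl
      · refine ⟨by simp, ?_⟩
        rw [wW_reverse]
        exact inv_mem (Subgroup.subset_closure (Or.inl (map_coxeterElement e he)))
      · exact ⟨(hK l hl).1, Subgroup.subset_closure (Or.inr (hK l hl).2)⟩) h
  rw [eq_top_iff]
  intro g _
  have : e.symm g ∈ (⊤ : Subgroup (wdata D).W) := trivial
  rw [← h1] at this
  simpa using this

open H63 Cfsg.Lie in
theorem one {D : ChevalleyDatum} [RS D] {M : CoxeterMatrix (Fin D.rank)}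
    (h : coxOK D M = true) (u : List ℕ) (hu : ∀ i ∈ u, i < D.rank) (i : Fin D.rank)
    (steps : List (List ℕ × ℕ × ℕ × ℕ))
    (h2 : genK D steps [List.range D.rank, (List.range D.rank).reverse, u ++ [i.1] ++ u.reverse] = true) :
    ∃ T : Finset M.Group, T.card = 1 ∧
      (∀ t ∈ T, ∃ (g : M.Group) (i : Fin D.rank), t = g * M.simple i * g⁻¹) ∧
      Subgroup.closure (({((List.finRange D.rank).map M.simple).prod} : Set M.Group) ∪ ↑T) = ⊤ := by
  obtain ⟨e, he⟩ := exists_coxEquiv h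
  refine ⟨{e (wW D u) * M.simple i * (e (wW D u))⁻¹}, by simp, fun t ht => ⟨_, i, by simpa using ht⟩,
    key e he _ _ (fun l hl => ?_) steps h2⟩
  rw [List.mem_singleton.1 hl]
  refine ⟨fun j hj => ?_, by simp [wW_append, wW_reverse, wW_cons, sN_val, he, mul_assoc]⟩
  simp only [List.mem_append, List.mem_singleton, List.mem_reverse] at hj
  rcases hj with (hj | rfl) | hj
  exacts [hu j hj, i.2, hu j hj]

open H63 Cfsg.Lie in
theorem two {D : ChevalleyDatum} [RS D] {M : CoxeterMatrix (Fin D.rank)}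
    (h : coxOK D M = true) (i j : Fin D.rank) (hij : i ≠ j)
    (steps : List (List ℕ × ℕ × ℕ × ℕ))
    (h2 : genK D steps [List.range D.rank, (List.range D.rank).reverse, [i.1], [j.1]] = true) :
    ∃ T : Finset M.Group, T.card = 2 ∧
      (∀ t ∈ T, ∃ (g : M.Group) (i : Fin D.rank), t = g * M.simple i * g⁻¹) ∧
      Subgroup.closure (({((List.finRange D.rank).map M.simple).prod} : Set M.Group) ∪ ↑T) = ⊤ := by
  classical
  obtain ⟨e, he⟩ := exists_coxEquiv h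
  refine ⟨{M.simple i, M.simple j}, Finset.card_pair fun h3 => hij ((wdata D).sW_injective
    (e.injective (by rw [he, he, h3]))), fun t ht => ?_, key e he _ _ (fun l hl => ?_) steps h2⟩
  · rcases Finset.mem_insert.1 ht with rfl | ht
    · exact ⟨1, i, by simp⟩
    · exact ⟨1, j, by simpa using ht⟩
  · simp only [List.mem_cons, List.not_mem_nil, or_false] at hl
    rcases hl with rfl | rfl <;> simp [wW_single, sN_val, he]

/-- The Coxeter groups of types B₂, G₂, E₆, E₇, E₈ are generated by the Coxeter element `s₁ s₂ ⋯ s_l` together with one suitable reflection (a conjugate of a simple reflection); for types D₄ and F₄ the Coxeter element together with two suitable reflections suffices. -/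
theorem result (c : (Σ n : ℕ, CoxeterMatrix (Fin n)) × ℕ)
    (hc : c ∈ [(⟨2, CoxeterMatrix.B 2⟩, 1), (⟨2, CoxeterMatrix.G₂⟩, 1), (⟨4, Cfsg.Lie.coxeterD4⟩, 2), (⟨4, CoxeterMatrix.F₄⟩, 2),
      (⟨6, CoxeterMatrix.E₆⟩, 1), (⟨7, CoxeterMatrix.E₇⟩, 1), (⟨8, CoxeterMatrix.E₈⟩, 1)]) :
    ∃ T : Finset c.1.2.Group, T.card = c.2 ∧ (∀ t ∈ T, ∃ (g : c.1.2.Group) (i : Fin c.1.1), t = g * c.1.2.simple i * g⁻¹) ∧
      Subgroup.closure (({((List.finRange c.1.1).map c.1.2.simple).prod} : Set c.1.2.Group) ∪ ↑T) = ⊤ := by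
  simp only [List.mem_cons, List.not_mem_nil, or_false] at hc
  rcases hc with rfl | rfl | rfl | rfl | rfl | rfl | rfl
  · exact one H63.coxB2 [] (by simp) (0 : Fin 2) [([1], 2, 0, 9)] (by decide +kernel)
  · exact one H63.coxG2 [] (by simp) (0 : Fin 2) [([1], 2, 0, 9)] (by decide +kernel)
  · exact two H63.coxD4 (1 : Fin 4) (3 : Fin 4) (fun h => absurd (congrArg Fin.val h) (by decide))
      [([1, 3, 1], 2, 3, 2), ([0], 1, 2, 0), ([2], 0, 4, 1)] (by decide +kernel)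
  · exact two H63.coxF4 (3 : Fin 4) (1 : Fin 4) (fun h => absurd (congrArg Fin.val h) (by decide)) [([2], 1, 2, 0), ([0], 1, 3, 0)]
      (by decide +kernel)
  · exact one H63.coxE6 [0, 2, 3] (by decide) (4 : Fin 6)
      [([1, 2, 3, 4, 5, 4, 3, 2, 1], 0, 2, 1), ([1, 3, 1], 1, 2, 0), ([3], 0, 3, 1), ([3, 1, 2, 3, 4, 5, 4, 3, 2, 1, 3], 3, 5, 3), ([2], 1, 4, 0), ([1], 4, 5, 4), ([2, 3, 4, 5, 4, 3, 2], 4, 6, 4), ([4], 0, 5, 1), ([3, 4, 3], 5, 10, 5), ([0], 1, 7, 0), ([2, 3, 4, 3, 2], 7, 11, 7), ([5], 9, 13, 9)] (by decide +kernel)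
  · exact one H63.coxE7 [] (by simp) (5 : Fin 7)
      [([6], 0, 2, 1), ([4], 1, 2, 0), ([5, 6, 5], 2, 3, 2), ([4, 5, 4], 2, 4, 2), ([0, 1, 2, 3, 4, 5, 6, 5, 4, 3, 2, 1, 0], 0, 3, 1), ([0, 1, 2, 3, 4, 5, 4, 3, 2, 1, 0], 3, 7, 3), ([3], 1, 4, 0), ([3, 4, 3], 4, 9, 4), ([3, 4, 5, 6, 5, 4, 3], 5, 10, 5), ([0, 1, 2, 3, 2, 1, 0], 6, 8, 6), ([2, 3, 2], 0, 7, 1), ([1, 2, 3, 4, 5, 6, 5, 4, 3, 2, 1], 1, 9, 0), ([2], 9, 13, 9), ([3, 1, 2, 3, 4, 5, 6, 5, 4, 3, 2, 1, 3], 9, 14, 9), ([1, 2, 3, 2, 1], 11, 16, 11), ([0], 12, 17, 12), ([1], 13, 17, 13)] (by decide +kernel)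
  · exact one H63.coxE8 [] (by simp) (4 : Fin 8)
      [([5], 0, 2, 1), ([3], 1, 2, 0), ([6], 0, 3, 1), ([1, 2, 3, 4, 5, 6, 7, 6, 5, 4, 3, 2, 1], 1, 4, 0), ([7], 0, 5, 1), ([6, 7, 6], 5, 7, 5), ([0, 2, 3, 4, 5, 6, 5, 4, 3, 2, 0], 1, 6, 0), ([1, 2, 3, 4, 5, 6, 5, 4, 3, 2, 1], 6, 7, 6), ([1, 2, 3, 4, 5, 4, 3, 2, 1], 6, 8, 6), ([0, 1, 2, 3, 4, 5, 6, 7, 6, 5, 4, 3, 2, 1, 0], 0, 7, 1), ([0, 1, 2, 3, 4, 5, 6, 5, 4, 3, 2, 1, 0], 7, 12, 7), ([1, 3, 4, 5, 4, 3, 1], 1, 9, 0), ([1], 9, 13, 9), ([0], 10, 13, 10), ([2], 11, 14, 11)] (by decide +kernel)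

end Cfsg.Agent.S2419
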