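import Cfsg.Statements.S2425
import Cfsg.Agent.H56.StC

set_option autoImplicit false
open scoped MatrixGroups
open Cfsg

namespace Cfsg.Agent.S2425

/-- Values of the Steinberg character of `GL_n(q)` (the partition-indexed character for `ν = (1,…,1)`, of degree `q^(n(n−1)/2)`) at elements of order prime to the characteristic: if the characteristic polynomial of such an element is `∏ f^(m_f)` over distinct monic irreducible `f`, the value is `∏_f (−1)^((deg f − 1) m_f) q^(deg f · m_f (m_f − 1)/2)`. (At elements of order divisible by the characteristic the value is 0; that is not part of this statement.) -/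
theorem result {F : Type*} [Field F] [Fintype F] [DecidableEq F] {q : ℕ} (hq : Fintype.card F = q) (p : ℕ) [Fact p.Prime] [CharP F p]
    {n : ℕ} (x : GL (Fin n) F) (hx : (orderOf x).Coprime p) :
    Cfsg.unipotentCharacterGL n F (fun _ => 1) x =
      ∏ f ∈ (UniqueFactorizationMonoid.normalizedFactors (x : Matrix (Fin n) (Fin n) F).charpoly).toFinset,
        (-1 : ℂ) ^ ((f.natDegree - 1) * (UniqueFactorizationMonoid.normalizedFactors (x : Matrix (Fin n) (Fin n) F).charpoly).count f) *
          (q : ℂ) ^ (f.natDegree * (UniqueFactorizationMonoid.normalizedFactors (x : Matrix (Fin n) (Fin n) F).charpoly).count f *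
            ((UniqueFactorizationMonoid.normalizedFactors (x : Matrix (Fin n) (Fin n) F).charpoly).count f - 1) / 2) := by
  classical
  have hT : Module.End.IsSemisimple (Matrix.vecMulLinear (x : Matrix (Fin n) (Fin n) F)) := by
    have h1 : (orderOf x : F) ≠ 0 := fun h => (Nat.Prime.coprime_iff_not_dvd Fact.out).1 hx.symm
      ((CharP.cast_eq_zero_iff F p _).1 h)
    refine Module.End.isSemisimple_of_squarefree_aeval_eq_zero
      (Polynomial.X_pow_sub_one_separable_iff.2 h1).squarefree ?_
    rw [map_sub, map_pow, Polynomial.aeval_X, map_one, ← Matrix.mulVecLin_transpose,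
      ← Matrix.toLin'_apply', ← Matrix.toLin'_pow, ← Matrix.transpose_pow, ← Units.val_pow_eq_pow_val,
      pow_orderOf_eq_one, Units.val_one, Matrix.transpose_one, Matrix.toLin'_one]
    exact sub_self _
  let M := Module.AEval' (Matrix.vecMulLinear (x : Matrix (Fin n) (Fin n) F))
  have : IsSemisimpleModule (Polynomial F) M := hT
  have : Finite M := (inferInstance : Finite (Fin n → F))
  have := Fintype.ofFinite (Submodule (Polynomial F) M)
  have h2 : H56.St.cp F (⊤ : Submodule (Polynomial F) M) = (x : Matrix (Fin n) (Fin n) F).charpoly := by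
    rw [H56.St.cp_congr Submodule.topEquiv, ← Matrix.charpoly_transpose, ← Matrix.charpoly_mulVecLin,
      Matrix.mulVecLin_transpose, ← (Module.AEval'.of _).charpoly_conj, H56.St.cp]
    congr 1
    exact LinearMap.ext fun m => Module.AEval'.X_smul_of _ m
  have h3 : Module.finrank F (⊤ : Submodule (Polynomial F) M) = n := by
    refine (H56.St.cp_deg F (⊤ : Submodule (Polynomial F) M)).symm.trans ?_
    rw [h2]; simp
  have h4 := H56.St.GS_top (L := Submodule (Polynomial F) M) (r := fun U => Module.finrank F U)
    (fun U W h => Submodule.finrank_lt_finrank_of_lt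
      ((Submodule.restrictScalarsEmbedding F (Polynomial F) M).strictMono h))
    Module.finrank_zero_of_subsingleton H56.St.nu_bot (fun W hW => by convert H56.St.sum_nu hW) ⊤
  simp only [H56.St.nu, h2, h3] at h4
  rw [← mul_assoc, ← mul_pow, neg_mul_neg, one_mul, one_pow, one_mul, Nat.card_eq_fintype_card, hq] at h4
  refine Eq.trans (Finset.sum_congr rfl fun κ _ => ?_) h4
  split_ifs with h
  · rw [Cfsg.fixedPointCharacter, H56.St.card_fix x (H57.sum_sub_perm (ν := fun _ => 1) (by simp) h)]
    congr 3
    exact funext fun i => by simp [H56.St.dl]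
  · rfl

end Cfsg.Agent.S2425
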