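import Cfsg.Statements.S2426
import Cfsg.Agent.Base
import Cfsg.Agent.H57.St2

set_option autoImplicit false
open Cfsg

namespace Cfsg.Agent.S2426

/-- The rank-one Steinberg presentation of `SL₂` over a finite field `K`: generators `x(t)`, `y(t)` (`t ∈ K`; the two opposite root subgroups) subject to additivity `x(t)x(u) = x(t+u)`, `y(t)y(u) = y(t+u)` and, with `w(t) = x(t) y(−t⁻¹) x(t)` and `w'(t) = y(t) x(−t⁻¹) y(t)` for `t ≠ 0`, the relations `w(t) x(u) w(t)⁻¹ = y(−t⁻² u)` and `w'(t) y(u) w'(t)⁻¹ = x(−t⁻² u)`, present `SL₂(K)`, with `x(t) ↦ (1 t; 0 1)` and `y(t) ↦ (1 0; t 1)`. -/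
theorem result {K : Type*} [Field K] [Finite K] :
    ∃ e : PresentedGroup
        ({g : FreeGroup (Bool × K) | ∃ (b : Bool) (t u : K), g = FreeGroup.of (b, t) * FreeGroup.of (b, u) * (FreeGroup.of (b, t + u))⁻¹} ∪
          {g | ∃ (b : Bool) (t u : K), t ≠ 0 ∧
            g = (FreeGroup.of (b, t) * FreeGroup.of (!b, -t⁻¹) * FreeGroup.of (b, t)) * FreeGroup.of (b, u) *
                  (FreeGroup.of (b, t) * FreeGroup.of (!b, -t⁻¹) * FreeGroup.of (b, t))⁻¹ * (FreeGroup.of (!b, -(t⁻¹ ^ 2 * u)))⁻¹})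
        ≃* Matrix.SpecialLinearGroup (Fin 2) K,
      (∀ t : K, ((e (PresentedGroup.of (true, t)) : Matrix (Fin 2) (Fin 2) K)) = !![1, t; 0, 1]) ∧
      (∀ t : K, ((e (PresentedGroup.of (false, t)) : Matrix (Fin 2) (Fin 2) K)) = !![1, 0; t, 1]) := by
    set R := ({g : FreeGroup (Bool × K) | ∃ (b : Bool) (t u : K), g = FreeGroup.of (b, t) * FreeGroup.of (b, u) * (FreeGroup.of (b, t + u))⁻¹} ∪
            {g | ∃ (b : Bool) (t u : K), t ≠ 0 ∧
              g = (FreeGroup.of (b, t) * FreeGroup.of (!b, -t⁻¹) * FreeGroup.of (b, t)) * FreeGroup.of (b, u) *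
                    (FreeGroup.of (b, t) * FreeGroup.of (!b, -t⁻¹) * FreeGroup.of (b, t))⁻¹ * (FreeGroup.of (!b, -(t⁻¹ ^ 2 * u)))⁻¹}) with hR
    let g : Bool × K → Matrix.SpecialLinearGroup (Fin 2) K := fun p =>
      if p.1 then H65.sl2U p.2 else H65.sl2L p.2
    have hg : ∀ r ∈ R, FreeGroup.lift g r = 1 := by
      rintro _ (⟨b, t, u, rfl⟩ | ⟨b, t, u, ht, rfl⟩)
      · simp only [map_mul, map_inv, FreeGroup.lift_apply_of, mul_inv_eq_one]
        cases b <;> ext i j <;> fin_cases i <;> fin_cases j <;>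
          simp [g, Matrix.mul_apply, Fin.sum_univ_two, add_comm]
      · simp only [map_mul, map_inv, FreeGroup.lift_apply_of, mul_inv_eq_one,
          mul_inv_eq_iff_eq_mul]
        cases b <;> ext i j <;> fin_cases i <;> fin_cases j <;>
          simp [g, Matrix.mul_apply, Fin.sum_univ_two, ht] <;> field_simp <;> ring
    have rel : ∀ r ∈ R, PresentedGroup.mk R r = 1 := fun r hr => PresentedGroup.one_of_mem hr
    have H : H57.St2 (fun t : K => (PresentedGroup.of (true, t) : PresentedGroup R))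
        (fun t => PresentedGroup.of (false, t)) := by
      refine ⟨fun a b => ?_, fun a b => ?_, fun t u ht => ?_⟩
      · have := rel _ (Or.inl ⟨true, a, b, rfl⟩)
        simp only [map_mul, map_inv, mul_inv_eq_one] at this
        exact this
      · have := rel _ (Or.inl ⟨false, a, b, rfl⟩)
        simp only [map_mul, map_inv, mul_inv_eq_one] at this
        exact this
      · have := rel _ (Or.inr ⟨true, t, u, ht, rfl⟩)
        simp only [map_mul, map_inv, mul_inv_eq_one, mul_inv_eq_iff_eq_mul] at this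
        exact this
    refine ⟨MonoidHom.toMulEquiv (PresentedGroup.toGroup hg) H.sl2Rel.hom ?_ ?_, fun t => ?_,
      fun t => ?_⟩
    · refine PresentedGroup.ext fun p => ?_
      obtain ⟨b, t⟩ := p
      cases b <;> simp [g]
    · ext1 s
      induction s using H65.sl2_induction with
      | hU t => simp [g]
      | hW =>
        simp only [MonoidHom.comp_apply, H65.SL2Rel.hom_W, H65.sl2n, map_mul,
          PresentedGroup.toGroup.of, MonoidHom.id_apply]
        ext i j; fin_cases i <;> fin_cases j <;> simp [g, Matrix.mul_apply, Fin.sum_univ_two]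
      | hmul a b ha hb => rw [map_mul, ha, hb]; rfl
    · simp [g]
    · simp [g]

end Cfsg.Agent.S2426
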