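import Cfsg.Statements.S2427
import Cfsg.Agent.S0257

set_option autoImplicit false
open Cfsg

namespace Cfsg.Agent.S2427

open Cfsg.Agent.S0257 in
theorem mem_iff : ∀ g : Matrix.SpecialLinearGroup (Fin 2) (ZMod 3), g ∈ φ.range ↔ g ^ 4 = 1 := by
  change ∀ g : Matrix.SpecialLinearGroup (Fin 2) (ZMod 3), (∃ q, f q = g) ↔ g ^ 4 = 1
  decide +kernel

theorem k0 : ∀ g h : Matrix.SpecialLinearGroup (Fin 2) (ZMod 3), (g * h * g⁻¹ * h⁻¹) ^ 4 = 1 := by
  decide +kernel

theorem k1 : ∀ g : Matrix.SpecialLinearGroup (Fin 2) (ZMod 3), g ^ 4 ≠ 1 →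
    ∃ h, (g * (h * g⁻¹ * h⁻¹)) ^ 2 ≠ 1 ∧ (g * (h * g⁻¹ * h⁻¹)) ^ 4 = 1 := by
  decide +kernel

theorem k2 : ∀ g x : Matrix.SpecialLinearGroup (Fin 2) (ZMod 3), g ^ 2 ≠ 1 → g ^ 4 = 1 → x ^ 4 = 1 →
    x = 1 ∨ x = g ^ 2 ∨ ∃ h, x = h * g * h⁻¹ := by
  decide +kernel

theorem k3 : ∀ g x : Matrix.SpecialLinearGroup (Fin 2) (ZMod 3), g ^ 4 ≠ 1 →
    x ^ 4 = 1 ∨ (x * g⁻¹) ^ 4 = 1 ∨ (x * g) ^ 4 = 1 := by
  decide +kernel

theorem k4 : ∀ g : Matrix.SpecialLinearGroup (Fin 2) (ZMod 3), g ^ 2 = 1 ↔ ∀ h, h * g = g * h := by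
  decide +kernel

theorem k5 : ∀ g x : Matrix.SpecialLinearGroup (Fin 2) (ZMod 3), g ^ 2 = 1 → x ^ 2 = 1 → g ≠ 1 →
    x = 1 ∨ x = g := by
  decide +kernel

theorem k6 : ∃ g h : Matrix.SpecialLinearGroup (Fin 2) (ZMod 3), (g * h * g⁻¹ * h⁻¹) ^ 2 ≠ 1 := by
  decide +kernel

theorem le_of (N : Subgroup (Matrix.SpecialLinearGroup (Fin 2) (ZMod 3))) (hN : N.Normal)
    {g : Matrix.SpecialLinearGroup (Fin 2) (ZMod 3)} (hg : g ∈ N) (h2 : g ^ 2 ≠ 1) (h4 : g ^ 4 = 1)
    {x : Matrix.SpecialLinearGroup (Fin 2) (ZMod 3)} (hx : x ^ 4 = 1) : x ∈ N := by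
  rcases k2 g x h2 h4 hx with e | e | ⟨h, e⟩
  · rw [e]; exact N.one_mem
  · rw [e]; exact N.pow_mem hg 2
  · rw [e]; exact hN.conj_mem _ hg h

theorem comm_eq : commutator (Matrix.SpecialLinearGroup (Fin 2) (ZMod 3)) = Cfsg.Agent.S0257.φ.range := by
  apply le_antisymm
  · rw [commutator_def, Subgroup.commutator_le]
    intro g _ h _
    rw [mem_iff, commutatorElement_def]
    exact k0 g h
  · intro x hx
    obtain ⟨g, h, e⟩ := k6
    refine le_of _ inferInstance (g := g * h * g⁻¹ * h⁻¹) ?_ e (k0 g h) ((mem_iff x).1 hx)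
    rw [← commutatorElement_def]
    exact Subgroup.commutator_mem_commutator (Subgroup.mem_top g) (Subgroup.mem_top h)

/-- The group SL₂ over the field with 3 elements has order 24 and centre of order 2; its commutator subgroup has order 8, is isomorphic to the quaternion group of order 8 and is complemented by every Sylow 3-subgroup (so the group is a semidirect product of a quaternion group of order 8 by a cyclic group of order 3); and its only normal subgroups besides the trivial subgroup and the whole group are the centre and the commutator subgroup. -/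
theorem result :
    Nat.card (Matrix.SpecialLinearGroup (Fin 2) (ZMod 3)) = 24 ∧
    Nat.card (Subgroup.center (Matrix.SpecialLinearGroup (Fin 2) (ZMod 3))) = 2 ∧
    Nat.card (commutator (Matrix.SpecialLinearGroup (Fin 2) (ZMod 3))) = 8 ∧
    Nonempty (commutator (Matrix.SpecialLinearGroup (Fin 2) (ZMod 3)) ≃* QuaternionGroup 2) ∧
    (∀ P : Sylow 3 (Matrix.SpecialLinearGroup (Fin 2) (ZMod 3)),
      Subgroup.IsComplement' (commutator (Matrix.SpecialLinearGroup (Fin 2) (ZMod 3)))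
        (P : Subgroup (Matrix.SpecialLinearGroup (Fin 2) (ZMod 3)))) ∧
    ∀ N : Subgroup (Matrix.SpecialLinearGroup (Fin 2) (ZMod 3)), N.Normal →
      N = ⊥ ∨ N = ⊤ ∨ N = Subgroup.center (Matrix.SpecialLinearGroup (Fin 2) (ZMod 3)) ∨
        N = commutator (Matrix.SpecialLinearGroup (Fin 2) (ZMod 3)) := by
  have h24 : Nat.card (Matrix.SpecialLinearGroup (Fin 2) (ZMod 3)) = 24 := by
    rw [H57.card_sl_two]; simp
  have e : commutator (Matrix.SpecialLinearGroup (Fin 2) (ZMod 3)) ≃* QuaternionGroup 2 :=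
    (MulEquiv.subgroupCongr comm_eq).trans (MonoidHom.ofInjective Cfsg.Agent.S0257.φ_injective).symm
  have h8 : Nat.card (commutator (Matrix.SpecialLinearGroup (Fin 2) (ZMod 3))) = 8 := by
    rw [Nat.card_congr e.toEquiv, Nat.card_eq_fintype_card, QuaternionGroup.card]
  refine ⟨h24, (Cfsg.Agent.S0257.result (F := ZMod 3) (by simp)).2, h8, ⟨e⟩, fun P => ?_, fun N hN => ?_⟩
  · have h3 : Nat.card (P : Subgroup (Matrix.SpecialLinearGroup (Fin 2) (ZMod 3))) = 3 := by
      rw [P.card_eq_multiplicity, h24]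
      have : Nat.factorization 24 3 = 1 := by
        rw [show (24 : ℕ) = 3 ^ 1 * 8 from rfl, Nat.factorization_mul (by norm_num) (by norm_num),
          Nat.Prime.factorization_pow Nat.prime_three, Finsupp.add_apply,
          Nat.factorization_eq_zero_of_not_dvd (by norm_num)]
        simp
      rw [this, pow_one]
    apply Subgroup.isComplement'_of_coprime
    · rw [h8, h3, h24]
    · rw [h8, h3]; norm_num
  · by_cases ha : ∃ g ∈ N, g ^ 4 ≠ 1
    · obtain ⟨g, hg, h4⟩ := ha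
      obtain ⟨h, h2', h4'⟩ := k1 g h4
      have hm : g * (h * g⁻¹ * h⁻¹) ∈ N := N.mul_mem hg (hN.conj_mem _ (N.inv_mem hg) h)
      right; left
      rw [eq_top_iff]
      intro x _
      rcases k3 g x h4 with e | e | e
      · exact le_of N hN hm h2' h4' e
      · simpa using N.mul_mem (le_of N hN hm h2' h4' e) hg
      · simpa using N.mul_mem (le_of N hN hm h2' h4' e) (N.inv_mem hg)
    push Not at ha
    by_cases hb : ∃ g ∈ N, g ^ 2 ≠ 1
    · obtain ⟨g, hg, h2⟩ := hb
      right; right; right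
      rw [comm_eq]
      ext x
      rw [mem_iff]
      exact ⟨ha x, fun hx => le_of N hN hg h2 (ha g hg) hx⟩
    push Not at hb
    by_cases hc : ∃ g ∈ N, g ≠ 1
    · obtain ⟨g, hg, h1⟩ := hc
      right; right; left
      ext x
      rw [Subgroup.mem_center_iff, ← k4]
      refine ⟨hb x, fun hx => ?_⟩
      rcases k5 g x (hb g hg) hx h1 with e | e
      · rw [e]; exact N.one_mem
      · rw [e]; exact hg
    · push Not at hc
      left
      exact (Subgroup.eq_bot_iff_forall _).2 hc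

end Cfsg.Agent.S2427
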