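import Cfsg.Statements.S2428
import Cfsg.Agent.Base
import Cfsg.Agent.H33.SL2Norm

set_option autoImplicit false
open Cfsg

namespace Cfsg.Agent.S2428

/-- Let F be a finite field with q elements, q odd, and let d be a diagonal element of SL₂ over F whose diagonal entry a has a² ≠ 1 (such d exist exactly when q > 3). Then the centraliser of d is precisely the diagonal subgroup T; the normaliser of T has order 2(q − 1) and exactly (q + 5)/2 conjugacy classes; and every element of that normaliser outside T has square equal to −1. -/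
theorem result {F : Type*} [Field F] [Fintype F] (hodd : Odd (Fintype.card F))
    (d : Matrix.SpecialLinearGroup (Fin 2) F) (hd01 : (d : Matrix (Fin 2) (Fin 2) F) 0 1 = 0) (hd10 : (d : Matrix (Fin 2) (Fin 2) F) 1 0 = 0) (hda : (d : Matrix (Fin 2) (Fin 2) F) 0 0 ^ 2 ≠ 1) :
    (∀ g : Matrix.SpecialLinearGroup (Fin 2) F, g ∈ Subgroup.centralizer ({d} : Set (Matrix.SpecialLinearGroup (Fin 2) F)) ↔ ((g : Matrix (Fin 2) (Fin 2) F) 0 1 = 0 ∧ (g : Matrix (Fin 2) (Fin 2) F) 1 0 = 0)) ∧
    Nat.card (Subgroup.normalizer ((Subgroup.centralizer ({d} : Set (Matrix.SpecialLinearGroup (Fin 2) F))) : Set (Matrix.SpecialLinearGroup (Fin 2) F))) = 2 * (Fintype.card F - 1) ∧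
    Nat.card (ConjClasses (Subgroup.normalizer ((Subgroup.centralizer ({d} : Set (Matrix.SpecialLinearGroup (Fin 2) F))) : Set (Matrix.SpecialLinearGroup (Fin 2) F)))) = (Fintype.card F + 5) / 2 ∧
    ∀ g : Matrix.SpecialLinearGroup (Fin 2) F, g ∈ Subgroup.normalizer ((Subgroup.centralizer ({d} : Set (Matrix.SpecialLinearGroup (Fin 2) F))) : Set (Matrix.SpecialLinearGroup (Fin 2) F)) →
      g ∉ Subgroup.centralizer ({d} : Set (Matrix.SpecialLinearGroup (Fin 2) F)) → ((g * g) : Matrix (Fin 2) (Fin 2) F) = -1 := by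
  have hF := H33.ringChar_ne_two_iff.2 hodd
  have hne := H33.sl2_diag_ne hd10 hda
  have e := H33.centralizer_diag_eq hd01 hd10 hne
  have h0 : (d : H33.M2 F) 0 0 ≠ 0 := left_ne_zero_of_mul_eq_one (H33.sl2_diag_mul hd10)
  have hT := H33.isTorus_diag h0 hda
  have hc := hT.card_conjClasses_normalizer hF
  have h1 := Fintype.one_lt_card (α := F)
  rw [e]
  refine ⟨fun g => H33.mem_range_dHom, ?_, ?_, fun g hg hn => ?_⟩
  · rw [hT.card_normalizer hF, H33.card_range_dHom]
  · rw [H33.card_range_dHom] at hc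
    exact (Nat.div_eq_of_eq_mul_right two_pos (Eq.trans (by omega) hc.symm)).symm
  · exact congrArg Subtype.val (hT.mul_self_of_not_mem hF hg hn)

end Cfsg.Agent.S2428
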