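import Cfsg.Statements.S2429
import Cfsg.Agent.Base
import Cfsg.Agent.H33.SL2Norm

set_option autoImplicit false
open Cfsg

namespace Cfsg.Agent.S2429

/-- Let F be a finite field with q elements, q odd. Then SL₂ over F contains a cyclic subgroup T′ of order q + 1 (a non-split torus) with the following properties: T′ is its own centraliser, and indeed the centraliser of each element of T′ other than 1 and −1 is exactly T′; every element of SL₂ having no eigenvector in F² is conjugate to an element of T′; the normaliser of T′ has order 2(q + 1) and exactly (q + 7)/2 conjugacy classes; and every element of that normaliser outside T′ has square −1. -/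
theorem result {F : Type*} [Field F] [Fintype F] (hodd : Odd (Fintype.card F)) :
    ∃ T' : Subgroup (Matrix.SpecialLinearGroup (Fin 2) F), IsCyclic T' ∧ Nat.card T' = Fintype.card F + 1 ∧
      Subgroup.centralizer ((T' : Set (Matrix.SpecialLinearGroup (Fin 2) F))) = T' ∧
      (∀ g : Matrix.SpecialLinearGroup (Fin 2) F, g ∈ T' → (g : Matrix (Fin 2) (Fin 2) F) ≠ 1 → (g : Matrix (Fin 2) (Fin 2) F) ≠ -1 → Subgroup.centralizer ({g} : Set (Matrix.SpecialLinearGroup (Fin 2) F)) = T') ∧
      (∀ g : Matrix.SpecialLinearGroup (Fin 2) F, (∀ (c : F) (v : Fin 2 → F), v ≠ 0 → (g : Matrix (Fin 2) (Fin 2) F).mulVec v ≠ c • v) → ∃ h : Matrix.SpecialLinearGroup (Fin 2) F, h * g * h⁻¹ ∈ T') ∧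
      Nat.card (Subgroup.normalizer (T' : Set (Matrix.SpecialLinearGroup (Fin 2) F))) = 2 * (Fintype.card F + 1) ∧
      Nat.card (ConjClasses (Subgroup.normalizer (T' : Set (Matrix.SpecialLinearGroup (Fin 2) F)))) = (Fintype.card F + 7) / 2 ∧
      ∀ g : Matrix.SpecialLinearGroup (Fin 2) F, g ∈ Subgroup.normalizer (T' : Set (Matrix.SpecialLinearGroup (Fin 2) F)) → g ∉ T' → ((g * g) : Matrix (Fin 2) (Fin 2) F) = -1 := by
  have hF := H33.ringChar_ne_two_iff.2 hodd
  obtain ⟨e, he⟩ := H33.exists_isEll (F := F)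
  have hT := H33.isTorus_ell he
  have hc := hT.card_conjClasses_normalizer hF
  refine ⟨H33.TorS e, he.isCyclic_torS, he.card_torS, hT.centralizer_eq, fun g hg h1 h2 => ?_,
    fun g hg => ?_, ?_, ?_, fun g hg hn => ?_⟩
  · refine hT.cent g hg fun h => ?_
    rcases H33.isSc_iff_sl.1 h with rfl | rfl
    · exact h1 rfl
    · exact h2 rfl
  · obtain ⟨t, ht, h⟩ := he.exists_isConj_torS hF (g := g) hg
    obtain ⟨c, hc⟩ := isConj_iff.1 h
    exact ⟨c, hc ▸ ht⟩
  · rw [hT.card_normalizer hF, he.card_torS]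
  · rw [he.card_torS] at hc
    exact (Nat.div_eq_of_eq_mul_right two_pos (Eq.trans (by omega) hc.symm)).symm
  · exact congrArg Subtype.val (hT.mul_self_of_not_mem hF hg hn)

end Cfsg.Agent.S2429
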