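import Cfsg.Statements.S2431
import Cfsg.Agent.Base
import Cfsg.Agent.H33.SL2Syl

set_option autoImplicit false
open Cfsg

namespace Cfsg.Agent.S2431

/-- Let F be a finite field with q elements, q odd, and S a Sylow 2-subgroup of SL₂ over F. The centraliser of S is the centre of SL₂ (of order 2); S is its own normaliser when q ≡ ±1 mod 8, and has index 3 in its normaliser when q ≡ ±3 mod 8. -/
theorem result {F : Type*} [Field F] [Fintype F] (hodd : Odd (Fintype.card F)) (S : Sylow 2 (Matrix.SpecialLinearGroup (Fin 2) F)) :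
    Subgroup.centralizer ((S : Subgroup (Matrix.SpecialLinearGroup (Fin 2) F)) : Set (Matrix.SpecialLinearGroup (Fin 2) F)) = Subgroup.center (Matrix.SpecialLinearGroup (Fin 2) F) ∧
    ((Fintype.card F % 8 = 1 ∨ Fintype.card F % 8 = 7) →
      Subgroup.normalizer ((S : Subgroup (Matrix.SpecialLinearGroup (Fin 2) F)) : Set (Matrix.SpecialLinearGroup (Fin 2) F)) = (S : Subgroup (Matrix.SpecialLinearGroup (Fin 2) F))) ∧
    ((Fintype.card F % 8 = 3 ∨ Fintype.card F % 8 = 5) →
      Nat.card (Subgroup.normalizer ((S : Subgroup (Matrix.SpecialLinearGroup (Fin 2) F)) : Set (Matrix.SpecialLinearGroup (Fin 2) F))) = 3 * Nat.card S) := by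
  have hF := H33.ringChar_ne_two_iff.2 hodd
  obtain ⟨T, h⟩ := H33.exists_syl2 hodd S
  obtain ⟨h8, h16⟩ := H33.eight_dvd_card_sl2 hodd
  have d8 := Nat.le_of_dvd Nat.card_pos (S.pow_dvd_card_of_pow_dvd_card (n := 3) h8)
  refine ⟨h.centralizer_eq hF (lt_of_lt_of_le (by norm_num) d8), fun hq => ?_, fun hq => ?_⟩
  · have := Nat.le_of_dvd Nat.card_pos (S.pow_dvd_card_of_pow_dvd_card (n := 4) (h16.2 hq))
    exact h.normalizer_eq hF (lt_of_lt_of_le (by norm_num) this)
  · have e : Nat.card S = 8 := by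
      obtain ⟨k, hk⟩ := S.isPGroup'.exists_card_eq
      have h1 : ¬ 4 ≤ k := fun h4 => by
        have := h16.1 ((pow_dvd_pow 2 h4).trans (hk ▸ Subgroup.card_subgroup_dvd_card _))
        omega
      rw [hk] at d8 ⊢
      have : 3 ≤ k := (Nat.pow_le_pow_iff_right one_lt_two).1 d8
      rw [show k = 3 by omega]; rfl
    exact (h.card_normalizer hF e).1.trans (by rw [e])

end Cfsg.Agent.S2431
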