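import Cfsg.Statements.S2434
import Cfsg.Agent.Base
import Cfsg.Agent.H33.SL2Bor
import Cfsg.Agent.H28.CharCenter

set_option autoImplicit false
open Cfsg

namespace Cfsg.Agent.S2434

/-- Let F be a finite field with q elements, q odd, and C a cyclic subgroup of order q + 1 of SL₂ over F (a non-split torus; it contains the centre). For every homomorphism θ from C to the non-zero complex numbers with θ² ≠ 1 there is an irreducible complex character χ of degree q − 1 such that χ(c) = −θ(c) − θ(c)⁻¹ for every non-central c in C, χ(zg) = θ(z)χ(g) for central z in C, χ vanishes at diagonal elements with entry a, a² ≠ 1, and χ takes the value −1 at every upper unitriangular element other than 1. Conversely every irreducible character of degree q − 1 has, for some such θ, the values −θ(c) − θ(c)⁻¹ at the non-central elements c of C (for q ≥ 5 these are exactly the cuspidal characters of degree q − 1). -/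
theorem result {F : Type*} [Field F] [Fintype F] (hodd : Odd (Fintype.card F))
    (C : Subgroup (Matrix.SpecialLinearGroup (Fin 2) F)) (hC : IsCyclic C) (hcard : Nat.card C = Fintype.card F + 1) :
    (∀ θ : C →* ℂˣ, (∃ c : C, θ c ^ 2 ≠ 1) →
      ∃ χ : Matrix.SpecialLinearGroup (Fin 2) F → ℂ, Cfsg.IsIrrCharacter (Matrix.SpecialLinearGroup (Fin 2) F) χ ∧ χ 1 = (Fintype.card F : ℂ) - 1 ∧
        (∀ c : C, (c : Matrix.SpecialLinearGroup (Fin 2) F) ∉ Subgroup.center (Matrix.SpecialLinearGroup (Fin 2) F) → χ c = -((θ c).val + (θ c)⁻¹.val)) ∧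
        (∀ c : C, (c : Matrix.SpecialLinearGroup (Fin 2) F) ∈ Subgroup.center (Matrix.SpecialLinearGroup (Fin 2) F) → ∀ g : Matrix.SpecialLinearGroup (Fin 2) F, χ ((c : Matrix.SpecialLinearGroup (Fin 2) F) * g) = (θ c).val * χ g) ∧
        (∀ g : Matrix.SpecialLinearGroup (Fin 2) F, (g : Matrix (Fin 2) (Fin 2) F) 0 1 = 0 → (g : Matrix (Fin 2) (Fin 2) F) 1 0 = 0 → (g : Matrix (Fin 2) (Fin 2) F) 0 0 ^ 2 ≠ 1 → χ g = 0) ∧
        (∀ g : Matrix.SpecialLinearGroup (Fin 2) F, (g : Matrix (Fin 2) (Fin 2) F) 1 0 = 0 → (g : Matrix (Fin 2) (Fin 2) F) 0 0 = 1 → (g : Matrix (Fin 2) (Fin 2) F) 1 1 = 1 → (g : Matrix (Fin 2) (Fin 2) F) 0 1 ≠ 0 → χ g = -1)) ∧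
    (∀ χ : Matrix.SpecialLinearGroup (Fin 2) F → ℂ, Cfsg.IsIrrCharacter (Matrix.SpecialLinearGroup (Fin 2) F) χ → χ 1 = (Fintype.card F : ℂ) - 1 →
      ∃ θ : C →* ℂˣ, (∃ c : C, θ c ^ 2 ≠ 1) ∧
        ∀ c : C, (c : Matrix.SpecialLinearGroup (Fin 2) F) ∉ Subgroup.center (Matrix.SpecialLinearGroup (Fin 2) F) → χ c = -((θ c).val + (θ c)⁻¹.val)) := by
  classical
  obtain ⟨e, he, rfl⟩ := H33.exists_eq_torS hC hcard
  have hsq : ∀ θ : H33.TorS e →* ℂˣ, (∃ c, θ c ^ 2 ≠ 1) ↔ θ ^ 2 ≠ 1 := fun θ => by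
    rw [Ne, MonoidHom.ext_iff, not_forall]; rfl
  refine ⟨fun θ hθ => ?_, fun χ hχ hd => ?_⟩
  · have hirr := H33.isIrr_cuspS he ((hsq θ).1 hθ)
    refine ⟨_, hirr, H33.cuspS_one he θ,
      fun c hc => H33.cuspS_tor he θ c (mt H33.isSc_iff_mem_center_sl.1 hc), fun c hc g => ?_,
      fun g _ h10 h => H33.cuspS_split he θ h10 (H33.sl2_diag_ne h10 h),
      fun g h10 h00 h11 h01 => H33.cuspS_unip he θ h10 h00 h11 h01⟩
    rw [H28.apply_mul_of_mem_charCenter (H28.Cfsg.IsIrrCharacter.apply_one_ne_zero hirr)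
      (H28.Cfsg.IsIrrCharacter.center_le_charCenter hirr hc),
      H33.cuspS_scalar he θ c (H33.isSc_iff_mem_center_sl.2 hc), H33.cuspS_one,
      mul_div_cancel_left₀ _ H33.card_sub_one_ne_zero]
  · have h1 := Fintype.one_lt_card (α := F)
    have h3 := Nat.odd_iff.1 hodd
    rcases H33.sl2_deg_q_sub' hχ he (by omega) hd with ⟨θ, hθ, rfl⟩ | ⟨hq, hR⟩
    · exact ⟨θ, (hsq θ).2 hθ,
        fun c hc => H33.cuspS_tor he θ c (mt H33.isSc_iff_mem_center_sl.1 hc)⟩
    · have h4 := H33.card_cuspSSet he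
      rw [hq] at h4
      obtain ⟨ψ, hψ⟩ : (H33.cuspSSet he).Nonempty := Finset.card_pos.1 (by norm_num at h4; omega)
      obtain ⟨θ, hθ, -⟩ := (H33.mem_cuspSSet he).1 hψ
      refine ⟨θ, (hsq θ).2 hθ, fun c hc => ?_⟩
      have hs := mt H33.isSc_iff_mem_center_sl.1 hc
      rw [← H33.cuspS_tor he θ c hs, H33.cuspS_tor_of_three he hq hθ c hs]
      exact hR.ell (he.of_mem_centralizer (t := Matrix.SpecialLinearGroup.toGL (c : H33.SL2 F))
        c.2 hs)

end Cfsg.Agent.S2434
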