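import Cfsg.Statements.S2435
import Cfsg.Agent.Base
import Cfsg.Agent.H33.SL2Count

set_option autoImplicit false
open Cfsg

namespace Cfsg.Agent.S2435

/-- Let F be a finite field with q elements, q odd and q ≥ 5, and χ an irreducible complex character of SL₂ over F. If χ has degree (q + 1)/2, then at a diagonal element with entry a, a² ≠ 1, χ takes the value 1 when a is a square in F and −1 otherwise. If χ has degree (q − 1)/2, then at an element g with no eigenvector in F² (so g has order dividing q + 1), χ takes the value −1 when g raised to the power (q + 1)/2 is the identity and the value 1 otherwise. -/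
theorem result {F : Type*} [Field F] [Fintype F] (hodd : Odd (Fintype.card F)) (hq : 5 ≤ Fintype.card F)
    (χ : Matrix.SpecialLinearGroup (Fin 2) F → ℂ) (hχ : Cfsg.IsIrrCharacter (Matrix.SpecialLinearGroup (Fin 2) F) χ) (g : Matrix.SpecialLinearGroup (Fin 2) F) :
    (χ 1 = (((Fintype.card F + 1) / 2 : ℕ) : ℂ) → (g : Matrix (Fin 2) (Fin 2) F) 0 1 = 0 → (g : Matrix (Fin 2) (Fin 2) F) 1 0 = 0 → (g : Matrix (Fin 2) (Fin 2) F) 0 0 ^ 2 ≠ 1 →
      (IsSquare ((g : Matrix (Fin 2) (Fin 2) F) 0 0) → χ g = 1) ∧ (¬ IsSquare ((g : Matrix (Fin 2) (Fin 2) F) 0 0) → χ g = -1)) ∧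
    (χ 1 = (((Fintype.card F - 1) / 2 : ℕ) : ℂ) → (∀ (c : F) (v : Fin 2 → F), v ≠ 0 → (g : Matrix (Fin 2) (Fin 2) F).mulVec v ≠ c • v) →
      (((g ^ ((Fintype.card F + 1) / 2)) : Matrix (Fin 2) (Fin 2) F) = 1 → χ g = -1) ∧ (((g ^ ((Fintype.card F + 1) / 2)) : Matrix (Fin 2) (Fin 2) F) ≠ 1 → χ g = 1)) := by
  classical
  refine ⟨fun hd h01 h10 h => ?_, fun hd hg => ?_⟩
  · have hR := H33.sl2_deg_half_add hχ (by omega) (by rw [hd, H33.cast_half_add hodd])
    rw [hR.split h01 h10 (H33.sl2_diag_ne h10 h)]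
    exact ⟨H33.eta_of_isSquare (H33.upper_ne_zero (g := Matrix.SpecialLinearGroup.toGL g) h10).1,
      H33.eta_of_not_isSquare⟩
  · have he : H33.IsEll ((Matrix.SpecialLinearGroup.toGL g : H33.GL2 F) : H33.M2 F) := hg
    obtain ⟨hF, θ, h2, h1, χ', H⟩ :=
      H33.sl2_deg_half_sub hχ he (by omega) (by rw [hd, H33.cast_half_sub hodd])
    have := he.isCyclic_torS
    have h3 := Nat.odd_iff.1 hodd
    have key := H33.hom_order_two_apply h2 h1 (m := (Fintype.card F + 1) / 2)
      (by rw [he.card_torS]; omega) ⟨g, H33.self_mem_torS g⟩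
    have hv := H33.cuspS_tor he θ ⟨g, H33.self_mem_torS g⟩ he.not_isSc
    have hiff : (⟨g, H33.self_mem_torS g⟩ : H33.TorS _) ^ ((Fintype.card F + 1) / 2) = 1 ↔
        (g : H33.M2 F) ^ ((Fintype.card F + 1) / 2) = 1 := by
      rw [Subtype.ext_iff, ← Matrix.SpecialLinearGroup.coe_pow]
      exact Subtype.ext_iff
    rw [H.ell hF hg]
    refine ⟨fun h => ?_, fun h => ?_⟩
    · rw [key.1 (hiff.2 h)] at hv
      rw [hv]; norm_num
    · rw [key.2 (mt hiff.1 h)] at hv
      rw [hv]; norm_num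

end Cfsg.Agent.S2435
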