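import Cfsg.Statements.S2439
import Cfsg.Agent.Base
import Cfsg.Agent.H33.SL2Block

set_option autoImplicit false
open Cfsg

namespace Cfsg.Agent.S2439

/-- Let F be a finite field with q elements of odd characteristic p, and M a maximal ideal of the algebraic integers containing p. Then SL₂ over F has exactly three p-blocks relative to M: the irreducible character of degree q (the Steinberg character) alone; the other irreducible characters taking the same value at −1 as at 1 (the principal block); and the irreducible characters χ with χ(−1) = −χ(1). Every Sylow p-subgroup is a defect group of each of the last two blocks. -/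
theorem result {F : Type*} [Field F] [Fintype F] (p : ℕ) [Fact p.Prime] [CharP F p] (hp : p ≠ 2)
    (M : Ideal Cfsg.AlgInt) (hM : Cfsg.IsPModular p M) :
    (∀ B : Set (Cfsg.IrrCharacter (Matrix.SpecialLinearGroup (Fin 2) F)), Cfsg.IsPBlock M B ↔
      (B = {χ : Cfsg.IrrCharacter (Matrix.SpecialLinearGroup (Fin 2) F) | (χ : Matrix.SpecialLinearGroup (Fin 2) F → ℂ) 1 = (Fintype.card F : ℂ)} ∨
       B = {χ : Cfsg.IrrCharacter (Matrix.SpecialLinearGroup (Fin 2) F) | (χ : Matrix.SpecialLinearGroup (Fin 2) F → ℂ) (-1) = (χ : Matrix.SpecialLinearGroup (Fin 2) F → ℂ) 1 ∧ (χ : Matrix.SpecialLinearGroup (Fin 2) F → ℂ) 1 ≠ (Fintype.card F : ℂ)} ∨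
       B = {χ : Cfsg.IrrCharacter (Matrix.SpecialLinearGroup (Fin 2) F) | (χ : Matrix.SpecialLinearGroup (Fin 2) F → ℂ) (-1) = -(χ : Matrix.SpecialLinearGroup (Fin 2) F → ℂ) 1})) ∧
    Nat.card {B : Set (Cfsg.IrrCharacter (Matrix.SpecialLinearGroup (Fin 2) F)) // Cfsg.IsPBlock M B} = 3 ∧
    ∀ P : Sylow p (Matrix.SpecialLinearGroup (Fin 2) F),
      Cfsg.IsDefectGroup p M {χ : Cfsg.IrrCharacter (Matrix.SpecialLinearGroup (Fin 2) F) | (χ : Matrix.SpecialLinearGroup (Fin 2) F → ℂ) (-1) = (χ : Matrix.SpecialLinearGroup (Fin 2) F → ℂ) 1 ∧ (χ : Matrix.SpecialLinearGroup (Fin 2) F → ℂ) 1 ≠ (Fintype.card F : ℂ)} (P : Subgroup (Matrix.SpecialLinearGroup (Fin 2) F)) ∧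
      Cfsg.IsDefectGroup p M {χ : Cfsg.IrrCharacter (Matrix.SpecialLinearGroup (Fin 2) F) | (χ : Matrix.SpecialLinearGroup (Fin 2) F → ℂ) (-1) = -(χ : Matrix.SpecialLinearGroup (Fin 2) F → ℂ) 1} (P : Subgroup (Matrix.SpecialLinearGroup (Fin 2) F)) := by
  classical
  have := hM.2.1
  have hF : ringChar F ≠ 2 := by rwa [ringChar.eq F p]
  have hq1 := H33.card_sub_one_ne_zero (F := F)
  obtain ⟨ψ, hψ⟩ := H33.exists_faithful_irr_sl2 hF
  set st : IrrCharacter (H33.SL2 F) := ⟨_, H33.isIrr_stS⟩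
  set tr : IrrCharacter (H33.SL2 F) := ⟨_, H28.isIrrCharacter_one⟩
  have h1 : (st : H33.SL2 F → ℂ) 1 = Fintype.card F := H33.stS_one
  have h2 : (tr : H33.SL2 F → ℂ) (-1) = (tr : H33.SL2 F → ℂ) 1 ∧
      (tr : H33.SL2 F → ℂ) 1 ≠ Fintype.card F := ⟨rfl, fun h => hq1 (sub_eq_zero.2 h.symm)⟩
  have e1 := (H33.blockOf_sl2_cases hM hp st).1 h1
  have e2 := (H33.blockOf_sl2_cases hM hp tr).2.1 h2
  have e3 := (H33.blockOf_sl2_cases hM hp ψ).2.2 hψ
  have key : ∀ χ : IrrCharacter (H33.SL2 F), (χ : H33.SL2 F → ℂ) (-1) = -(χ : H33.SL2 F → ℂ) 1 →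
      (χ : H33.SL2 F → ℂ) (-1) ≠ (χ : H33.SL2 F → ℂ) 1 := fun χ h h' =>
    H28.Cfsg.IsIrrCharacter.apply_one_ne_zero χ.2 (by linear_combination (h - h') / 2)
  have main : ∀ B : Set (IrrCharacter (H33.SL2 F)), IsPBlock M B ↔
      (B = {χ : IrrCharacter (H33.SL2 F) | (χ : H33.SL2 F → ℂ) 1 = (Fintype.card F : ℂ)} ∨
       B = {χ : IrrCharacter (H33.SL2 F) | (χ : H33.SL2 F → ℂ) (-1) = (χ : H33.SL2 F → ℂ) 1 ∧
        (χ : H33.SL2 F → ℂ) 1 ≠ (Fintype.card F : ℂ)} ∨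
       B = {χ : IrrCharacter (H33.SL2 F) |
        (χ : H33.SL2 F → ℂ) (-1) = -(χ : H33.SL2 F → ℂ) 1}) := by
    intro B
    constructor
    · rintro ⟨χ, rfl⟩
      by_cases h : (χ : H33.SL2 F → ℂ) 1 = Fintype.card F
      · exact .inl ((H33.blockOf_sl2_cases hM hp χ).1 h)
      rcases H33.irr_apply_central_invol χ.2 (H61.sl_mem_center_iff.2 (.inr rfl)) (by simp)
        with h' | h'
      · exact .inr (.inl ((H33.blockOf_sl2_cases hM hp χ).2.1 ⟨h', h⟩))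
      · exact .inr (.inr ((H33.blockOf_sl2_cases hM hp χ).2.2 h'))
    · rintro (rfl | rfl | rfl)
      exacts [⟨st, e1.symm⟩, ⟨tr, e2.symm⟩, ⟨ψ, e3.symm⟩]
  refine ⟨main, ?_, fun P => ⟨?_, ?_⟩⟩
  · refine (Nat.card_congr (Equiv.subtypeEquivRight main)).trans ?_
    refine (Set.ncard_eq_three.2 ⟨_, _, _, ?_, ?_, ?_, rfl⟩)
    · exact fun h => (h.le h1).2 h1
    · exact fun h => key st (h.le h1) (H33.neg_one_of_deg_q st.2 h1)
    · exact fun h => key tr (h.le h2) h2.1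
  · exact (H36.isDefectGroup_iff_sylow hM ⟨tr, e2.symm⟩ (H36.blockDefect_eq_of_not_dvd (χ := tr) h2
      (H33.not_dvd_degree_sl2 tr.2 h2.2))).2 ⟨P, rfl⟩
  · exact (H36.isDefectGroup_iff_sylow hM ⟨ψ, e3.symm⟩ (H36.blockDefect_eq_of_not_dvd (χ := ψ) hψ
      (H33.not_dvd_degree_sl2 ψ.2 fun h => key ψ hψ (H33.neg_one_of_deg_q ψ.2 h)))).2 ⟨P, rfl⟩

end Cfsg.Agent.S2439
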