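import Cfsg.Statements.S2442
import Cfsg.Agent.H63.Cusp4

set_option autoImplicit false
open scoped MatrixGroups
open Cfsg

namespace Cfsg.Agent.S2442

open Classical in
/-- Let F be a finite field with q elements and n ≥ 2. Call a complex character χ of GL_n over F cuspidal when, for every 0 < m < n, the sum of χ over the subgroup of matrices that agree with the identity outside the upper right m × (n − m) block vanishes (the restriction of χ to the unipotent radical of each maximal standard parabolic subgroup contains no principal constituent). Then GL_n has at least φ(qⁿ − 1)/n distinct cuspidal irreducible characters of degree (q − 1)(q² − 1)⋯(q^(n−1) − 1), φ being Euler's function (in particular at least one). -/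
theorem result {F : Type*} [Field F] [Fintype F] [DecidableEq F] (n : ℕ) (hn : 2 ≤ n) :
    Nat.totient (Fintype.card F ^ n - 1) / n ≤
      Nat.card {χ : Cfsg.IrrCharacter (GL (Fin n) F) //
        (χ : GL (Fin n) F → ℂ) 1 = ∏ i ∈ Finset.Ico 1 n, ((Fintype.card F : ℂ) ^ i - 1) ∧
        ∀ m : ℕ, 0 < m → m < n →
          (∑ g : GL (Fin n) F,
            if (∀ i j : Fin n, ¬ (i.val < m ∧ m ≤ j.val) → (g : Matrix (Fin n) (Fin n) F) i j = (1 : Matrix (Fin n) (Fin n) F) i j)
            then (χ : GL (Fin n) F → ℂ) g else 0) = 0} := by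
  obtain ⟨p, _⟩ := CharP.exists F
  have := Fact.mk (CharP.char_is_prime F p)
  have hq : 1 < Nat.card F := Finite.one_lt_card
  obtain ⟨l, j, hl, h1, h2⟩ := H63.Cusp.exists_exp (Nat.card F) n (N := Nat.card (GL (Fin n) F))
    Nat.card_pos.ne' (by omega) (by omega)
  have := NeZero.mk hl
  let K := FiniteField.Extension F p l
  have := Fintype.ofFinite K
  rw [← FiniteField.natCard_extension F p l, ← Nat.card_units] at h1 h2
  obtain ⟨θ, hθ⟩ := H63.Cusp.exists_inj (K := K)
  have h3 := H63.Cusp.inner_chi (F := F) (n := n) hθ (by omega) h1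
  have h4 := fun a => H63.Cusp.chi_one (F := F) (θ ^ a) (n := n) (by omega)
  simp only [← Nat.card_eq_fintype_card]
  have h5 : ∀ a, (Nat.card F ^ n - 1).Coprime a →
      IsIrrCharacter (GL (Fin n) F) (H63.Cusp.chi (θ ^ a) n) := fun a ha => by
    refine H28.Cfsg.IsGeneralizedCharacter.irr_of_norm_one ?_ ?_ ?_
    · have := H28.Cfsg.IsGeneralizedCharacter.intCast_smul (H63.Cusp.isGen_D (H63.Cusp.isGen_bl (θ ^ a)) _
        (H63.Cusp.rho F n) rfl h2) ((-1) ^ (n - 1))
      push_cast at this
      exact this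
    · rw [h3, Nat.cast_eq_one, Finset.card_eq_one]
      refine ⟨0, Finset.eq_singleton_iff_unique_mem.2 ⟨Finset.mem_filter.2 ⟨Finset.mem_range.2 (by omega), by
        rw [pow_zero, mul_one]⟩, fun i hi => ?_⟩⟩
      obtain ⟨hi, e⟩ := Finset.mem_filter.1 hi
      have e' := (Nat.modEq_iff_dvd' (Nat.one_le_pow i _ (Nat.zero_lt_of_lt hq))).1
        (Nat.ModEq.cancel_left_of_coprime ha (by rwa [mul_one]))
      by_contra h
      have := Nat.le_of_dvd (Nat.sub_pos_of_lt (Nat.one_lt_pow h hq)) e'
      have := Nat.pow_lt_pow_right hq (Finset.mem_range.1 hi)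
      have := Nat.one_lt_pow h hq
      omega
    · rw [h4]
      have : 0 ≤ ∏ i ∈ Finset.Ico 1 n, ((Nat.card F : ℝ) ^ i - 1) := Finset.prod_nonneg fun i _ =>
        sub_nonneg.2 (one_le_pow₀ (by exact_mod_cast hq.le))
      exact_mod_cast this
  refine Nat.div_le_of_le_mul ?_
  rw [Nat.totient_eq_card_coprime]
  refine (Finset.card_le_mul_card_image (f := fun a => H63.Cusp.chi (F := F) (θ ^ a) n) _ n ?_).trans
    (Nat.mul_le_mul_left _ ?_)
  · simp only [Finset.forall_mem_image, Finset.mem_filter, Finset.mem_range]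
    intro b hb
    refine (Finset.card_le_card (t := (Finset.range n).image fun i => b * Nat.card F ^ i %
      (Nat.card F ^ n - 1)) fun a ha => ?_).trans (Finset.card_image_le.trans (Finset.card_range n).le)
    simp only [Finset.mem_filter, Finset.mem_range] at ha
    have := h3 a b
    rw [ha.2, H28.Cfsg.IsIrrCharacter.classInner_self (h5 b hb.2), eq_comm, Nat.cast_eq_one] at this
    obtain ⟨i, hi⟩ := Finset.card_pos.1 (this ▸ one_pos)
    obtain ⟨hi, e⟩ := Finset.mem_filter.1 hi
    exact Finset.mem_image.2 ⟨i, hi, Eq.trans e.symm (Nat.mod_eq_of_lt ha.1.1)⟩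
  · rw [← Nat.card_eq_finsetCard]
    refine Nat.card_le_card_of_injective (fun x => ⟨⟨x.1, ?_⟩, ?_⟩) fun x y h =>
      Subtype.ext (congrArg (·.1.1) h)
    all_goals obtain ⟨_, hx⟩ := x; obtain ⟨a, ha, rfl⟩ := Finset.mem_image.1 hx
    · exact h5 a (Finset.mem_filter.1 ha).2
    · exact ⟨h4 a, fun m h0 h1 => H63.Cusp.chi_cusp _ h0 h1 _ fun _ => Iff.rfl⟩

end Cfsg.Agent.S2442
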