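import Cfsg.Statements.S2532
import Cfsg.Agent.Base

set_option autoImplicit false
open Cfsg

namespace Cfsg.Agent.S2532

/-- There is a function `f` of two natural-number arguments such that, whenever `m ≥ f(n, r)`, every subgroup of order `n` of the alternating group of degree `m` centralizes some subgroup of that alternating group isomorphic to the alternating group of degree `r`. -/
theorem result :
    ∃ f : ℕ → ℕ → ℕ, ∀ (m r : ℕ) (H : Subgroup ↥(alternatingGroup (Fin m))), f (Nat.card H) r ≤ m →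
      ∃ K : Subgroup ↥(alternatingGroup (Fin m)), Nonempty (↥K ≃* ↥(alternatingGroup (Fin r))) ∧
        K ≤ Subgroup.centralizer (H : Set ↥(alternatingGroup (Fin m))) := by
  classical
  refine ⟨fun n r => (2 ^ n * r + 1) * n, fun m r H hm => ?_⟩
  let Q := MulAction.orbitRel.Quotient H (Fin m)
  letI : Fintype Q := Fintype.ofFinite Q
  letI : Fintype (Subgroup H) := Fintype.ofFinite _
  have h1 : m ≤ Nat.card Q * Nat.card H := by
    have := Nat.card_le_card_of_surjective (fun x : Q × H => x.2 • x.1.out) fun y => by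
      obtain ⟨h, hh⟩ : y ∈ MulAction.orbit H (Quotient.out (Quotient.mk'' y : Q)) :=
        MulAction.orbitRel_apply.1 ((MulAction.orbitRel H (Fin m)).symm
          (Quotient.exact (Quotient.out_eq (Quotient.mk'' y : Q))))
      exact ⟨(Quotient.mk'' y, h), hh⟩
    simpa using this
  have h2 : Nat.card (Subgroup H) ≤ 2 ^ Nat.card H := by
    have := Nat.card_le_card_of_injective (fun S : Subgroup H => (S : Set H)) SetLike.coe_injective
    rwa [Nat.card_eq_fintype_card (α := Set H), Fintype.card_set, ← Nat.card_eq_fintype_card] at this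
  have h3 : Fintype.card (Subgroup H) * r < Fintype.card Q := by
    rw [← Nat.card_eq_fintype_card, ← Nat.card_eq_fintype_card]
    have := Nat.le_of_mul_le_mul_right (hm.trans h1) Nat.card_pos
    exact lt_of_le_of_lt (Nat.mul_le_mul_right r h2) this
  obtain ⟨S, hS⟩ := Fintype.exists_lt_card_fiber_of_mul_lt_card
    (fun ω : Q => MulAction.stabilizer H ω.out) h3
  obtain ⟨e⟩ : Nonempty (Fin r ↪ {ω : Q // MulAction.stabilizer H ω.out = S}) :=
    Function.Embedding.nonempty_of_card_le (by rw [Fintype.card_fin, Fintype.card_subtype]; exact hS.le)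
  let x : Fin r → Fin m := fun i => (e i).1.out
  have hx : ∀ i (h : H), h • x i = x i ↔ h ∈ S := fun i h => by rw [← (e i).2]; rfl
  let j : Fin r × (H ⧸ S) → Fin m := fun z => z.2.out • x z.1
  have hj : ∀ i (h : H), j (i, (h : H ⧸ S)) = h • x i := fun i h => by
    obtain ⟨s, hs⟩ := QuotientGroup.mk_out_eq_mul S h
    show (h : H ⧸ S).out • x i = _
    rw [hs, mul_smul, (hx i s).2 s.2]
  have hinj : Function.Injective j := by
    rintro ⟨i, a⟩ ⟨k, b⟩ hab
    induction a using QuotientGroup.induction_on with | H a => ?_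
    induction b using QuotientGroup.induction_on with | H b => ?_
    rw [hj, hj] at hab
    have hik : i = k := by
      apply e.injective
      apply Subtype.ext
      rw [← Quotient.out_eq (e i).1, ← Quotient.out_eq (e k).1]
      exact Quotient.sound ⟨a⁻¹ * b, by show (a⁻¹ * b) • x k = x i; rw [mul_smul, ← hab, inv_smul_smul]⟩
    subst hik
    rw [Prod.mk.injEq, QuotientGroup.eq, ← hx i, mul_smul, ← hab, inv_smul_smul]
    exact ⟨rfl, rfl⟩
  let ι : Fin r × (H ⧸ S) ↪ Fin m := ⟨j, hinj⟩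
  let ψ : Equiv.Perm (Fin r) →* Equiv.Perm (Fin r × (H ⧸ S)) :=
    MonoidHom.mk' (fun σ => Equiv.prodCongrLeft fun _ => σ) (fun a b => by ext z <;> rfl)
  let φ0 : Equiv.Perm (Fin r) →* Equiv.Perm (Fin m) := (Equiv.Perm.viaEmbeddingHom ι).comp ψ
  have hφ : ∀ σ i (h : H), φ0 σ (h • x i) = h • x (σ i) := fun σ i h => by
    rw [← hj, ← hj]
    exact Equiv.Perm.viaEmbedding_apply (ψ σ) ι (i, (h : H ⧸ S))
  have hφ' : ∀ σ y, (¬ ∃ i, ∃ h : H, h • x i = y) → φ0 σ y = y := fun σ y hy => by
    refine Equiv.Perm.viaEmbedding_apply_of_notMem (ψ σ) ι y ?_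
    rintro ⟨⟨i, a⟩, rfl⟩
    exact hy ⟨i, a.out, rfl⟩
  letI : Fintype (H ⧸ S) := Fintype.ofFinite _
  let φ : alternatingGroup (Fin r) →* alternatingGroup (Fin m) :=
    (φ0.comp (alternatingGroup (Fin r)).subtype).codRestrict _ fun σ => by
      have hσ := Equiv.Perm.mem_alternatingGroup.1 σ.2
      rw [Equiv.Perm.mem_alternatingGroup]
      have h6 : Equiv.Perm.sign (ψ σ) = 1 := by
        show Equiv.Perm.sign (Equiv.prodCongrLeft fun _ : H ⧸ S => (σ : Equiv.Perm (Fin r))) = 1
        rw [Equiv.Perm.sign_prodCongrLeft]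
        simp [hσ]
      rw [← h6]
      exact @Equiv.Perm.sign_extendDomain _ _ _ _ _ _ _ _ (Classical.decPred _) _
  have hφi : Function.Injective φ := by
    rw [injective_iff_map_eq_one]
    intro σ hσ
    ext i
    have h4 : φ0 σ = 1 := congrArg Subtype.val hσ
    have h5 := hφ σ i 1
    rw [h4, ← hj, ← hj] at h5
    exact congrArg Fin.val (Prod.mk.inj (hinj h5)).1.symm
  refine ⟨φ.range, ⟨(MonoidHom.ofInjective hφi).symm⟩, ?_⟩
  rintro _ ⟨σ, rfl⟩ g hg
  ext y
  congr 1
  show (⟨g, hg⟩ : H) • φ0 σ y = φ0 σ ((⟨g, hg⟩ : H) • y)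
  by_cases hy : ∃ i, ∃ h : H, h • x i = y
  · obtain ⟨i, h, rfl⟩ := hy
    rw [← mul_smul, hφ, hφ, mul_smul]
  · rw [hφ' _ _ hy, hφ']
    rintro ⟨i, h, hh⟩
    exact hy ⟨i, (⟨g, hg⟩ : H)⁻¹ * h, by rw [mul_smul, hh, inv_smul_smul]⟩

end Cfsg.Agent.S2532
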