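import Cfsg.Agent.Base
import Cfsg.Agent.Base
import Cfsg.Statements.S2533

set_option autoImplicit false
open Cfsg

namespace Cfsg.Agent.S2533
open Matrix

theorem psl_of {H F ι : Type*} [Group H] [Field F] [Fintype ι] [DecidableEq ι] {N : ℕ}
    (e : ι ≃ Fin N) (ψ : H →* Matrix ι ι F) (hdet : ∀ h, (ψ h).det = 1)
    (hinj : ∀ h (c : F), ψ h = c • 1 → h = 1)
    (hc : ∀ g : Matrix ι ι F, g.det = 1 → (∀ h, ∃ c : F, g * ψ h = c • (ψ h * g)) →
      ∃ c : F, g = c • 1) :
    ∃ φ : H →* ProjectiveSpecialLinearGroup (Fin N) F, Function.Injective φ ∧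
      Subgroup.centralizer (φ.range : Set (ProjectiveSpecialLinearGroup (Fin N) F)) = ⊥ := by
  let r := reindexAlgEquiv F F e
  let s : H →* Matrix.SpecialLinearGroup (Fin N) F := MonoidHom.mk'
    (fun h => ⟨r (ψ h), by rw [det_reindexAlgEquiv, hdet]⟩)
    fun a b => Subtype.ext (by simp only [map_mul]; rfl)
  have cen : ∀ g : Matrix.SpecialLinearGroup (Fin N) F, g ∈ Subgroup.center _ ↔
      ∃ c : F, r.symm g.1 = c • 1 := fun g => by
    constructor
    · intro h
      obtain ⟨c, -, h⟩ := Matrix.SpecialLinearGroup.mem_center_iff.1 h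
      exact ⟨c, by rw [← h, scalar_apply, ← smul_one_eq_diagonal, map_smul, map_one]⟩
    · rintro ⟨c, h⟩
      rw [AlgEquiv.symm_apply_eq, map_smul, map_one] at h
      exact Subgroup.mem_center_iff.2 fun k => Subtype.ext (by
        show k.1 * g.1 = g.1 * k.1
        rw [h]; simp)
  refine ⟨(QuotientGroup.mk' _).comp s, (injective_iff_map_eq_one _).2 fun h k => ?_,
    eq_bot_iff.2 fun g hg => ?_⟩
  · obtain ⟨c, k⟩ := (cen _).1 ((QuotientGroup.eq_one_iff _).1 k)
    exact hinj h c ((r.symm_apply_apply _).symm.trans k)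
  · obtain ⟨g, rfl⟩ := QuotientGroup.mk_surjective g
    refine (QuotientGroup.eq_one_iff _).2 ((cen g).2 (hc _ ?_ fun h => ?_))
    · rw [← det_reindexAlgEquiv F F e]
      exact (congrArg det (r.apply_symm_apply _)).trans g.2
    · have k : QuotientGroup.mk (s := Subgroup.center _) (s h * g) = QuotientGroup.mk (g * s h) :=
        hg _ ⟨h, rfl⟩
      obtain ⟨c, k⟩ := (cen _).1 (QuotientGroup.eq.1 k)
      refine ⟨c, ?_⟩
      have k2 : (g * s h).1 = (s h * g).1 * ((s h * g)⁻¹ * (g * s h)).1 :=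
        congrArg Subtype.val (mul_inv_cancel_left (s h * g) (g * s h)).symm
      have k3 := congrArg r.symm k2
      rw [map_mul, k, Matrix.mul_smul, mul_one] at k3
      have k4 : ∀ a b : Matrix.SpecialLinearGroup (Fin N) F, r.symm (a * b).1 = r.symm a.1 * r.symm b.1 :=
        fun a b => map_mul _ _ _
      have k5 : r.symm (s h).1 = ψ h := r.symm_apply_apply _
      rwa [k4, k4, k5] at k3

/-- the group `p³ : 2` -/
@[ext] structure HH (p : ℕ) where
  v : Fin 3 → ZMod p
  e : ℤˣ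

instance (p : ℕ) : Mul (HH p) := ⟨fun a b => ⟨a.v + a.e • b.v, a.e * b.e⟩⟩
instance (p : ℕ) : One (HH p) := ⟨⟨0, 1⟩⟩
instance (p : ℕ) : Inv (HH p) := ⟨fun a => ⟨-(a.e⁻¹ • a.v), a.e⁻¹⟩⟩

instance (p : ℕ) : Group (HH p) := Group.ofLeftAxioms
  (fun a b c => HH.ext (by
    show (a.v + a.e • b.v) + (a.e * b.e) • c.v = a.v + a.e • (b.v + b.e • c.v)
    rw [smul_add, mul_smul, add_assoc]) (mul_assoc _ _ _))
  (fun a => HH.ext (by show 0 + (1 : ℤˣ) • a.v = a.v; simp) (one_mul _))
  (fun a => HH.ext (neg_add_cancel _) (inv_mul_cancel _))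

def eqv (p : ℕ) : HH p ≃ ℤˣ × (Fin 3 → ZMod p) :=
  ⟨fun a => (a.e, a.v), fun a => ⟨a.2, a.1⟩, fun _ => rfl, fun _ => rfl⟩

variable {p : ℕ} {n : ℕ}

def I1 (p n : ℕ) : Matrix (Fin (n + 1)) (Fin n) (ZMod p) :=
  of fun r c => if r = c.castSucc then 1 else 0
def I2 (p n : ℕ) : Matrix (Fin (n + 1)) (Fin n) (ZMod p) :=
  of fun r c => if r = c.succ then 1 else 0

def XX (n : ℕ) (v : Fin 3 → ZMod p) : Matrix (Fin (n + 2 + 1)) (Fin (n + 2)) (ZMod p) :=
  v 0 • I1 p _ + v 1 • I2 p _ + v 2 • single ⟨2, by omega⟩ 0 1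

def ps (p n : ℕ) : HH p →* Matrix (Fin (n + 2) ⊕ Fin (n + 2 + 1)) (Fin (n + 2) ⊕ Fin (n + 2 + 1))
    (ZMod p) where
  toFun a := fromBlocks 1 0 (XX n a.v) (a.e • 1)
  map_one' := by
    show fromBlocks 1 0 (XX n 0) ((1 : ℤˣ) • 1) = 1
    simp [XX]
  map_mul' a b := by
    show fromBlocks 1 0 (XX n (a.v + a.e • b.v)) ((a.e * b.e) • 1) = _
    have : XX n (a.v + a.e • b.v) = XX n a.v + a.e • XX n b.v := by
      simp only [XX, Pi.add_apply, Pi.smul_apply, add_smul, smul_add, smul_assoc]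
      abel
    rw [this, fromBlocks_multiply]
    simp [smul_smul, mul_comm]

theorem XX_inj {v : Fin 3 → ZMod p} (h : ∀ r, XX n v r 0 = 0) : v = 0 := by
  have e : ∀ r : Fin (n + 2 + 1), XX n v r 0 = v 0 * (if r.1 = 0 then 1 else 0) +
      v 1 * (if r.1 = 1 then 1 else 0) + v 2 * (if 2 = r.1 then 1 else 0) := fun r => by
    simp only [XX, I1, I2, single, Matrix.add_apply, Matrix.smul_apply, of_apply, Fin.ext_iff,
      smul_eq_mul, and_true, Fin.val_castSucc, Fin.val_succ, Fin.val_zero, zero_add]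
    congr
  funext i
  fin_cases i
  · simpa [e] using h ⟨0, by omega⟩
  · simpa [e] using h ⟨1, by omega⟩
  · simpa [e] using h ⟨2, by omega⟩

theorem toep {D : Matrix (Fin (n + 1)) (Fin (n + 1)) (ZMod p)} {A : Matrix (Fin n) (Fin n) (ZMod p)}
    (h1 : D * I1 p n = I1 p n * A) (h2 : D * I2 p n = I2 p n * A) :
    D = D 0 0 • 1 ∧ A = D 0 0 • 1 := by
  have a1 : ∀ r c, D r.castSucc c.castSucc = A r c := fun r c => by
    simpa [I1, mul_apply] using congrFun (congrFun h1 r.castSucc) c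
  have a2 : ∀ c : Fin n, D (Fin.last n) c.castSucc = 0 := fun c => by
    simpa [I1, mul_apply, (Fin.castSucc_ne_last _).symm] using congrFun (congrFun h1 (Fin.last n)) c
  have a3 : ∀ r c, D r.succ c.succ = A r c := fun r c => by
    simpa [I2, mul_apply] using congrFun (congrFun h2 r.succ) c
  have a4 : ∀ c : Fin n, D 0 c.succ = 0 := fun c => by
    simpa [I2, mul_apply, (Fin.succ_ne_zero _).symm] using congrFun (congrFun h2 0) c
  have a5 : ∀ k r c (hr : r + k < n + 1) (hc : c + k < n + 1),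
      D ⟨r + k, hr⟩ ⟨c + k, hc⟩ = D ⟨r, by omega⟩ ⟨c, by omega⟩ := fun k => by
    induction k with
    | zero => exact fun _ _ _ _ => rfl
    | succ k ih =>
      intro r c hr hc
      rw [← ih r c (by omega) (by omega)]
      exact (a3 ⟨r + k, by omega⟩ ⟨c + k, by omega⟩).trans (a1 _ _).symm
  have a6 : D = D 0 0 • 1 := by
    ext ⟨r, hr⟩ ⟨c, hc⟩
    rcases lt_trichotomy r c with h | rfl | h
    · have := a5 r 0 (c - r) (by omega) (by omega)
      simp only [zero_add, Nat.sub_add_cancel h.le] at this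
      rw [this, Matrix.smul_apply, one_apply_ne (by simpa using h.ne), smul_zero]
      have e : (⟨c - r, by omega⟩ : Fin (n + 1)) = Fin.succ ⟨c - r - 1, by omega⟩ :=
        Fin.ext (by simp; omega)
      rw [e]
      exact a4 _
    · have := a5 r 0 0 (by omega) (by omega)
      simp only [zero_add] at this
      rw [this]
      simp
    · have := a5 (n - r) r c (by omega) (by omega)
      rw [← this, Matrix.smul_apply, one_apply_ne (by simpa using h.ne'), smul_zero]
      have e : (⟨r + (n - r), by omega⟩ : Fin (n + 1)) = Fin.last n := Fin.ext (by simp; omega)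
      rw [e]
      exact a2 ⟨c + (n - r), by omega⟩
  refine ⟨a6, ?_⟩
  ext r c
  rw [← a1]
  conv_lhs => rw [a6]
  simp [one_apply]

theorem fin_step {D : Matrix (Fin (n + 2 + 1)) (Fin (n + 2 + 1)) (ZMod p)}
    {A : Matrix (Fin (n + 2)) (Fin (n + 2)) (ZMod p)} (a0 : ∀ c : ZMod p, A = c • A → c = 1)
    (k : ∀ h, ∃ c : ZMod p, fromBlocks A 0 0 D * ps p n h = c • (ps p n h * fromBlocks A 0 0 D)) :
    ∃ c : ZMod p, fromBlocks A 0 0 D = c • 1 := by
  have k1 : ∀ (v : Fin 3 → ZMod p), D * XX n v = XX n v * A := fun v => by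
    obtain ⟨c, hc⟩ := k ⟨v, 1⟩
    simp only [ps, MonoidHom.coe_mk, OneHom.coe_mk, fromBlocks_multiply, fromBlocks_smul,
      fromBlocks_inj, one_smul, Matrix.mul_one, Matrix.mul_zero, add_zero, zero_add,
      Matrix.one_mul, Matrix.zero_mul] at hc
    have c1 : c = 1 := a0 c hc.1
    simpa [c1] using hc.2.2.1
  obtain ⟨k2, k3⟩ := toep (D := D) (A := A) (by simpa [XX] using k1 ![1, 0, 0])
    (by simpa [XX] using k1 ![0, 1, 0])
  refine ⟨D 0 0, ?_⟩
  rw [← fromBlocks_one, fromBlocks_smul, ← k2, ← k3]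
  simp

/-- For every odd prime `p` there is a finite group `H` of order `2p³` which, for infinitely many `n`, embeds in the projective special linear group `PSL(n, p)` as a subgroup with trivial centralizer. -/
theorem result
    (p : ℕ) [Fact p.Prime] (hp : p ≠ 2) :
    ∃ (H : Type) (_ : Group H) (_ : Finite H), Nat.card H = 2 * p ^ 3 ∧
      ∀ N : ℕ, ∃ n, N ≤ n ∧ ∃ φ : H →* Matrix.ProjectiveSpecialLinearGroup (Fin n) (ZMod p),
        Function.Injective φ ∧ Subgroup.centralizer (φ.range : Set (Matrix.ProjectiveSpecialLinearGroup (Fin n) (ZMod p))) = ⊥ := by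
  have pp : p.Prime := Fact.out
  have h2 : (2 : ZMod p) ≠ 0 := fun h =>
    hp ((Nat.prime_dvd_prime_iff_eq pp Nat.prime_two).1 ((ZMod.natCast_eq_zero_iff 2 p).1 h))
  refine ⟨HH p, inferInstance, Finite.of_equiv _ (eqv p).symm, ?_, fun N => ?_⟩
  · rw [Nat.card_congr (eqv p)]
    simp
  refine ⟨_, ?_, psl_of finSumFinEquiv (ps p (2 * N + 1)) (fun h => ?_) (fun h c k => ?_)
    fun g hg k => ?_⟩
  · omega
  · show (fromBlocks 1 0 (XX _ h.v) (h.e • 1)).det = 1
    rw [det_fromBlocks_zero₁₂]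
    rcases Int.units_eq_one_or h.e with e | e <;> rw [e]
    · simp
    · simp [det_neg, show 2 * N + 1 + 2 + 1 = 2 * (N + 2) by ring]
  · have k1 : ∀ i j, fromBlocks 1 0 (XX _ h.v) (h.e • 1) i j = (c • (1 : Matrix _ _ (ZMod p))) i j :=
      fun i j => congrFun (congrFun k i) j
    have c1 : c = 1 := by simpa using (k1 (.inl 0) (.inl 0)).symm
    have e1 : h.e = 1 := by
      refine (Int.units_eq_one_or h.e).resolve_right fun e => h2 ?_
      have := k1 (.inr 0) (.inr 0)
      simp [e, c1] at this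
      linear_combination -this
    exact HH.ext (XX_inj fun r => by simpa using k1 (.inr r) (.inl 0)) e1
  · have hu : IsUnit g := (isUnit_iff_isUnit_det g).2 (hg ▸ isUnit_one)
    obtain ⟨c, hc⟩ := k ⟨0, -1⟩
    have t1 : (ps p (2 * N + 1) ⟨0, -1⟩) = fromBlocks 1 0 0 (-1) := by simp [ps, XX]
    rw [t1] at hc
    have c1 : c = 1 := by
      obtain ⟨u, rfl⟩ := hu
      have := congrArg (fun x => trace (x * u⁻¹.1)) hc
      simp only [Matrix.smul_mul, Matrix.mul_assoc, Units.mul_inv, Matrix.mul_one, trace_smul] at this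
      rw [trace_mul_comm, Matrix.mul_assoc, Units.inv_mul, Matrix.mul_one] at this
      simp [trace, Fintype.sum_sum_type] at this
      linear_combination this
    rw [← fromBlocks_toBlocks g, c1, one_smul, fromBlocks_multiply, fromBlocks_multiply,
      fromBlocks_inj] at hc
    simp only [Matrix.mul_one, Matrix.mul_zero, add_zero, zero_add, Matrix.mul_neg, Matrix.one_mul,
      Matrix.zero_mul, Matrix.neg_mul] at hc
    have z : ∀ {a b : Type} {B : Matrix a b (ZMod p)}, -B = B → B = 0 := fun {a b B} h => by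
      ext i j
      have : -B i j = B i j := congrFun (congrFun h i) j
      exact (mul_eq_zero.1 (by linear_combination -this : 2 * B i j = 0)).resolve_left h2
    rw [← fromBlocks_toBlocks g, z hc.2.1, z hc.2.2.1.symm] at hg k ⊢
    generalize g.toBlocks₁₁ = A at hg k ⊢
    generalize g.toBlocks₂₂ = D at hg k ⊢
    have a0 : A ≠ 0 := by
      rintro rfl
      rw [det_fromBlocks_zero₁₂] at hg
      simp at hg
    exact fin_step (fun c hc => smul_left_injective _ a0 (hc.symm.trans (one_smul _ A).symm)) k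

end Cfsg.Agent.S2533
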