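import Cfsg.Statements.S2534
import Cfsg.Agent.H30.HallSnE

set_option autoImplicit false
open Cfsg

namespace Cfsg.Agent.S2534

open Equiv H30.HS

theorem dvd_alt {n r : ℕ} (hn : 5 ≤ n) (hr : r.Prime) (h : r ≤ n) :
    r ∣ Nat.card (alternatingGroup (Fin n)) := by
  haveI : Nontrivial (Fin n) := Fin.nontrivial_iff_two_le.2 (by omega)
  have h1 := (alternatingGroup (Fin n)).card_mul_index
  rw [alternatingGroup.index_eq_two, Nat.card_perm, Nat.card_eq_fintype_card (α := Fin n),
    Fintype.card_fin] at h1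
  rcases hr.eq_two_or_odd' with rfl | ho
  · have h2 : (4 : ℕ).factorial ∣ n.factorial := Nat.factorial_dvd_factorial (by omega)
    rw [← h1, show (4 : ℕ).factorial = 24 from rfl] at h2
    omega
  · have h2 := (hr.dvd_factorial).2 h
    rw [← h1] at h2
    exact (Nat.Coprime.dvd_mul_right (Nat.coprime_two_right.2 ho)).1 h2

theorem six {n : ℕ} {π : Set ℕ} (h2 : 2 ∈ π) (h3 : 3 ∈ π) (τ : Perm (Fin n))
    (hτ : τ.cycleType = {2, 2, 2}) (hn : n ≤ 8) :
    IsPiSubgroup π ((Subgroup.centralizer {τ}).subgroupOf (alternatingGroup (Fin n))) := by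
  refine H4.isPiSubgroup_subgroupOf (fun r hr hd => ?_) _
  rw [Perm.nat_card_centralizer, hτ, Fintype.card_fin] at hd
  have h4 : r ∣ 2 ^ 5 * 3 := by
    refine hd.trans ?_
    have : n - 6 ≤ 2 := by omega
    change (n - 6).factorial * 8 * 6 ∣ _
    interval_cases n - 6 <;> decide
  rcases (hr.dvd_mul).1 h4 with h | h
  · rwa [(Nat.prime_dvd_prime_iff_eq hr Nat.prime_two).1 (hr.dvd_of_dvd_pow h)]
  · rwa [(Nat.prime_dvd_prime_iff_eq hr Nat.prime_three).1 h]

instance {n : ℕ} (B : Finset (Fin n)) (g : Perm (Fin n)) : Decidable (g ∈ St2 B) :=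
  inferInstanceAs (Decidable ((∀ i, g i ∈ B ↔ i ∈ B) ∨ ∀ i, g i ∈ B ↔ i ∉ B))

theorem no7 : ∀ B : Finset (Fin 7), B.card = 3 → (swap 0 3 * swap 1 4 : Perm (Fin 7)) ∈ St2 B →
    (swap 0 1 * swap 1 2 * (swap 3 4 * swap 4 5) : Perm (Fin 7)) ∉ St2 B := by decide +kernel

theorem no8 : ∀ B : Finset (Fin 8), B.card = 4 → (swap 0 3 * swap 1 4 : Perm (Fin 8)) ∈ St2 B →
    (swap 0 1 * swap 1 2 * (swap 3 4 * swap 4 5) : Perm (Fin 8)) ∉ St2 B := by decide +kernel


/-- For `n ≥ 5` and a set of primes `π`, the alternating group of degree `n` satisfies the full Sylow analogue for `π` (its maximal `π`-subgroups are pairwise conjugate; for a finite group this says Hall `π`-subgroups exist, are all conjugate, and contain every `π`-subgroup up to conjugacy) if and only if either at most one prime of `π` divides its order or every prime dividing its order lies in `π`. -/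
theorem result (n : ℕ) (hn : 5 ≤ n) (π : Set ℕ) :
    Cfsg.IsDPiGroup π ↥(alternatingGroup (Fin n)) ↔
      ((∀ r s : ℕ, r.Prime → s.Prime → r ∈ π → s ∈ π → r ∣ Nat.card ↥(alternatingGroup (Fin n)) → s ∣ Nat.card ↥(alternatingGroup (Fin n)) → r = s) ∨
        ∀ r : ℕ, r.Prime → r ∣ Nat.card ↥(alternatingGroup (Fin n)) → r ∈ π) := by
  have hle : ∀ r : ℕ, r.Prime → r ∣ Nat.card (alternatingGroup (Fin n)) →
      r ≤ Fintype.card (Fin n) := fun r hr h =>
    le_of_dvd_perm hr (h.trans (Subgroup.card_subgroup_dvd_card _))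
  refine ⟨fun hD => ?_, fun h => h.elim (fun h => (cd_of_single h).2) fun h => (cd_of_all h).2⟩
  rcases tri π (Fintype.card (Fin n)) with hm | h | h
  swap
  · exact Or.inl fun r s hr hs h1 h2 h3 h4 => h r s hr hs h1 h2 (hle r hr h3) (hle s hs h4)
  swap
  · exact Or.inr fun r hr h3 => h r hr (hle r hr h3)
  exfalso
  have key : ∀ K : Subgroup (alternatingGroup (Fin n)), IsPiSubgroup π K →
      ∃ B : Finset (Fin n), K ≤ (St2 B).subgroupOf _ ∧ Typ π n B.card := by
    intro K hK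
    obtain ⟨H, h1, h2⟩ := le_hall_of_d hD hK
    obtain ⟨B, rfl, h3⟩ := hall_alt hm h1
    exact ⟨B, h2, by simpa using h3⟩
  obtain ⟨B₀, -, h0⟩ := key ⊥ H4.isPiSubgroup_bot
  rcases h0 with h0 | ⟨h0, h1⟩
  · obtain ⟨c, d, hcd⟩ : ∃ c d : Fin n, c ≠ d := ⟨⟨0, by omega⟩, ⟨1, by omega⟩, by simp⟩
    obtain ⟨B, h1, h2⟩ := key ((St2 {c, d}).subgroupOf _) (H4.isPiSubgroup_subgroupOf
      (fun r hr hd => by
        have h3 := prime_le_of_dvd hr hd
        rw [Finset.card_pair hcd, Fintype.card_fin] at h3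
        exact (h0.2.2.2 r hr (by omega)).2 (by omega)) _)
    obtain ⟨x, rfl⟩ := Finset.card_eq_one.1 (h2.unique (Or.inl ⟨h0.1, hn, rfl, h0.2.2.2⟩))
    obtain ⟨u, hu⟩ := exists_not_mem [x, c, d] (by simp; omega)
    obtain ⟨v, hv⟩ := exists_not_mem [x, c, d, u] (by simp; omega)
    simp only [List.mem_cons, List.not_mem_nil, or_false, not_or] at hu hv
    have h3 : ∀ y z : Fin n, y ≠ c → y ≠ d → z ≠ c → z ≠ d → y ≠ z →
        (swap c d * swap y z) x = x := by
      intro y z e1 e2 e3 e4 e5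
      have h4 : swap c d * swap y z ∈ St2 {c, d} := by
        refine mul_mem (Or.inl fun i => ?_) (Or.inl fun i => ?_) <;> rw [swap_apply_def] <;>
          split_ifs <;> simp [*]
      have h5 : swap c d * swap y z ∈ St2 {x} :=
        h1 (x := ⟨swap c d * swap y z, by simp [Perm.mem_alternatingGroup, hcd, e5]⟩) h4
      rcases h5 with h5 | h5
      · simpa using h5 x
      · have h6 := (h5 u).2 (by simpa using hu.1)
        have h7 := (h5 v).2 (by simpa using hv.1)
        rw [Finset.mem_singleton] at h6 h7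
        exact absurd ((swap c d * swap y z).injective (h7.trans h6.symm)) hv.2.2.2
    by_cases e1 : x = c
    · have := h3 u v hu.2.1 hu.2.2 hv.2.1 hv.2.2.1 (Ne.symm hv.2.2.2)
      rw [Perm.mul_apply, swap_apply_of_ne_of_ne (Ne.symm hu.1) (Ne.symm hv.1), e1,
        swap_apply_left] at this
      exact hcd this.symm
    by_cases e2 : x = d
    · have := h3 u v hu.2.1 hu.2.2 hv.2.1 hv.2.2.1 (Ne.symm hv.2.2.2)
      rw [Perm.mul_apply, swap_apply_of_ne_of_ne (Ne.symm hu.1) (Ne.symm hv.1), e2,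
        swap_apply_right] at this
      exact hcd this
    · have := h3 x u e1 e2 hu.2.1 hu.2.2 (Ne.symm hu.1)
      rw [Perm.mul_apply, swap_apply_left, swap_apply_of_ne_of_ne hu.2.1 hu.2.2] at this
      exact hu.1 this
  · have t2 := (h1 2 Nat.prime_two (by omega)).2 (Or.inl rfl)
    have t3 := (h1 3 Nat.prime_three (by omega)).2 (Or.inr rfl)
    rcases h0 with ⟨rfl, -⟩ | ⟨rfl, -⟩
    · obtain ⟨B, h2, h3⟩ := key _ (six t2 t3 (swap 0 3 * swap 1 4 * swap 2 5) (by decide +kernel)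
        (by omega))
      refine no7 B (h3.unique (Or.inr ⟨Or.inl ⟨rfl, rfl⟩, h1⟩))
        (Subgroup.mem_subgroupOf.1
          (h2 (x := ⟨swap 0 3 * swap 1 4, Perm.mem_alternatingGroup.2 (by decide +kernel)⟩) ?_))
        (Subgroup.mem_subgroupOf.1 (h2 (x := ⟨swap 0 1 * swap 1 2 * (swap 3 4 * swap 4 5),
          Perm.mem_alternatingGroup.2 (by decide +kernel)⟩) ?_)) <;>
        exact Subgroup.mem_centralizer_singleton_iff.2 (by decide +kernel)
    · obtain ⟨B, h2, h3⟩ := key _ (six t2 t3 (swap 0 3 * swap 1 4 * swap 2 5) (by decide +kernel)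
        (by omega))
      refine no8 B (h3.unique (Or.inr ⟨Or.inr ⟨rfl, rfl⟩, h1⟩))
        (Subgroup.mem_subgroupOf.1
          (h2 (x := ⟨swap 0 3 * swap 1 4, Perm.mem_alternatingGroup.2 (by decide +kernel)⟩) ?_))
        (Subgroup.mem_subgroupOf.1 (h2 (x := ⟨swap 0 1 * swap 1 2 * (swap 3 4 * swap 4 5),
          Perm.mem_alternatingGroup.2 (by decide +kernel)⟩) ?_)) <;>
        exact Subgroup.mem_centralizer_singleton_iff.2 (by decide +kernel)

end Cfsg.Agent.S2534
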