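import Cfsg.Statements.S2535
import Cfsg.Agent.H30.HallSnE

set_option autoImplicit false
open Cfsg

namespace Cfsg.Agent.S2535

/-- For every `n` and every set of primes `π`, the following are equivalent for the symmetric group `S` of degree `n` and its alternating subgroup `A`: `S` has a Hall `π`-subgroup; `S` has a Hall `π`-subgroup and all of them are conjugate; `A` has a Hall `π`-subgroup; `A` has a Hall `π`-subgroup and all of them are conjugate. -/
theorem result (n : ℕ) (π : Set ℕ) :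
    (Cfsg.IsEPiGroup π (Equiv.Perm (Fin n)) ↔ Cfsg.IsCPiGroup π (Equiv.Perm (Fin n))) ∧
    (Cfsg.IsEPiGroup π (Equiv.Perm (Fin n)) ↔ Cfsg.IsEPiGroup π ↥(alternatingGroup (Fin n))) ∧
    (Cfsg.IsEPiGroup π ↥(alternatingGroup (Fin n)) ↔ Cfsg.IsCPiGroup π ↥(alternatingGroup (Fin n))) := by
  have hle : ∀ r : ℕ, r.Prime → r ∣ Nat.card (alternatingGroup (Fin n)) →
      r ≤ Fintype.card (Fin n) := fun r hr h =>
    H30.HS.le_of_dvd_perm hr (h.trans (Subgroup.card_subgroup_dvd_card _))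
  rcases H30.HS.tri π (Fintype.card (Fin n)) with hm | h | h
  · refine ⟨⟨fun e => ⟨e, H30.HS.conj_perm hm⟩, fun e => e.1⟩, ⟨?_, ?_⟩,
      ⟨fun e => ⟨e, H30.HS.conj_alt hm⟩, fun e => e.1⟩⟩
    · rintro ⟨H, hH⟩
      exact ⟨_, H4.isPiHall_subgroupOf_of_normal hH _⟩
    · rintro ⟨H, hH⟩
      obtain ⟨B, -, h⟩ := H30.HS.hall_alt hm hH
      exact h.exists_hall
  · have h1 := (H30.HS.cd_of_single (G := Equiv.Perm (Fin n)) fun r s hr hs h1 h2 h3 h4 =>
      h r s hr hs h1 h2 (H30.HS.le_of_dvd_perm hr h3) (H30.HS.le_of_dvd_perm hs h4)).1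
    have h2 := (H30.HS.cd_of_single (G := alternatingGroup (Fin n)) fun r s hr hs h1 h2 h3 h4 =>
      h r s hr hs h1 h2 (hle r hr h3) (hle s hs h4)).1
    exact ⟨iff_of_true h1.1 h1, iff_of_true h1.1 h2.1, iff_of_true h2.1 h2⟩
  · have h1 := (H30.HS.cd_of_all (G := Equiv.Perm (Fin n)) fun r hr h3 =>
      h r hr (H30.HS.le_of_dvd_perm hr h3)).1
    have h2 := (H30.HS.cd_of_all (G := alternatingGroup (Fin n)) fun r hr h3 =>
      h r hr (hle r hr h3)).1
    exact ⟨iff_of_true h1.1 h1, iff_of_true h1.1 h2.1, iff_of_true h2.1 h2⟩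

end Cfsg.Agent.S2535
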