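import Cfsg.Statements.S2536
import Cfsg.Agent.H30.HallSnE

set_option autoImplicit false
open Cfsg

namespace Cfsg.Agent.S2536

/-- Let `π` be a set of primes and `n` a natural number such that at least two primes of `π` divide `n!` but not every prime dividing `n!` lies in `π`. Then the symmetric group of degree `n` has a Hall `π`-subgroup if and only if either `n` is prime and the primes of `π` dividing `n!` are exactly the primes smaller than `n` (a point stabilizer is then such a subgroup), or `n ∈ {7, 8}` and the primes of `π` dividing `n!` are exactly 2 and 3. -/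
theorem result (n : ℕ) (π : Set ℕ)
    (h2 : ∃ r s : ℕ, r.Prime ∧ s.Prime ∧ r ≠ s ∧ r ∈ π ∧ s ∈ π ∧ r ≤ n ∧ s ≤ n)
    (hns : ∃ r : ℕ, r.Prime ∧ r ≤ n ∧ r ∉ π) :
    Cfsg.IsEPiGroup π (Equiv.Perm (Fin n)) ↔
      ((n.Prime ∧ ∀ r : ℕ, r.Prime → r ≤ n → (r ∈ π ↔ r < n)) ∨
       ((n = 7 ∨ n = 8) ∧ ∀ r : ℕ, r.Prime → r ≤ n → (r ∈ π ↔ (r = 2 ∨ r = 3)))) := by
  have hm : H30.HS.Mid π (Fintype.card (Fin n)) := by
    rw [Fintype.card_fin]
    exact ⟨h2, hns⟩
  constructor
  · rintro ⟨H, hH⟩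
    obtain ⟨B, -, h⟩ := H30.HS.hall_perm hm hH
    rw [Fintype.card_fin] at h
    rcases h with h | h
    · exact Or.inl ⟨h.1, h.2.2.2⟩
    · exact Or.inr ⟨h.1.imp And.left And.left, h.2⟩
  · rintro (h | ⟨h | h, h'⟩)
    · refine H30.HS.Typ.exists_hall (b := 1) (Or.inl ?_)
      rw [Fintype.card_fin]
      refine ⟨h.1, ?_, rfl, h.2⟩
      obtain ⟨r, s, hr, hs, hne, h3, h4, h5, h6⟩ := h2
      have h7 := (h.2 r hr h5).1 h3
      have h8 := (h.2 s hs h6).1 h4
      have := hr.two_le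
      have := hs.two_le
      have h9 : n ≠ 4 := fun e => absurd (e ▸ h.1) (by decide)
      omega
    · refine H30.HS.Typ.exists_hall (b := 3) (Or.inr ?_)
      rw [Fintype.card_fin]
      exact ⟨Or.inl ⟨h, rfl⟩, h'⟩
    · refine H30.HS.Typ.exists_hall (b := 4) (Or.inr ?_)
      rw [Fintype.card_fin]
      exact ⟨Or.inr ⟨h, rfl⟩, h'⟩

end Cfsg.Agent.S2536
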