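import Cfsg.Agent.Base
import Cfsg.Statements.S2537
import Cfsg.Agent.H61.PSLOdd
import Cfsg.Agent.H61.PSLMax3
import Cfsg.Agent.H4.Hall

set_option autoImplicit false
open Cfsg

namespace Cfsg.Agent.S2537

open H61 MulAction Matrix MatrixGroups

theorem fact_iff {N q c i r k : ℕ} (hr : r.Prime) (hq : ¬ r ∣ q) (hN : N ≠ 0) (hc : ¬ r ∣ c)
    (h : r ^ k * c * i = q * N) : N.factorization r = k ↔ ¬ r ∣ i := by
  have h1 : ∀ j, r ^ j ∣ q * N ↔ j ≤ N.factorization r := fun j => by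
    rw [← hr.pow_dvd_iff_le_factorization hN]
    exact ⟨(Nat.Coprime.pow_left j (hr.coprime_iff_not_dvd.2 hq)).dvd_of_dvd_mul_left,
      fun h2 => h2.mul_left q⟩
  have h2 := (h1 k).1 (h ▸ (Dvd.intro _ rfl).mul_right i)
  have h3 : k + 1 ≤ N.factorization r ↔ r ∣ i := by
    rw [← h1, ← h, pow_succ, mul_assoc, Nat.mul_dvd_mul_iff_left (pow_pos hr.pos k), hr.dvd_mul]
    tauto
  rw [← h3]
  omega

theorem eq_of_pow_mul {a b c e : ℕ} (h : 2 ^ a * 3 ^ b = 2 ^ c * 3 ^ e) : a = c ∧ b = e := by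
  have h1 := congrArg (fun n => n.factorization 2) h
  have h2 := congrArg (fun n => n.factorization 3) h
  simp [Nat.factorization_mul, Nat.Prime.factorization Nat.prime_two,
    Nat.Prime.factorization Nat.prime_three] at h1 h2
  exact ⟨h1, h2⟩

/-- Let `F` be a finite field with `q` elements of characteristic `p ≥ 5`, and `ε = 1` if `q ≡ 1 (mod 4)`, `ε = -1` otherwise. Then `PSL(2, F)` has a Hall `{2, 3}`-subgroup if and only if `3` divides `q − ε`, or the `{2,3}`-part of `q² − 1` is 24, or the `{2,3}`-part of `q² − 1` is 48 (the `{2,3}`-part of `m` being the largest divisor of `m` with no prime factor other than 2 and 3). -/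
theorem result {F : Type*} [Field F] [Fintype F] {p : ℕ} [Fact p.Prime] [CharP F p]
    (hp : 5 ≤ p) (q : ℕ) (hq : Fintype.card F = q) :
    (∃ H : Subgroup (Matrix.ProjectiveSpecialLinearGroup (Fin 2) F), Cfsg.IsPiHall ({2, 3} : Set ℕ) H) ↔
      (3 ∣ q - 1 ∧ q % 4 = 1) ∨ (3 ∣ q + 1 ∧ q % 4 = 3) ∨
        2 ^ (q ^ 2 - 1).factorization 2 * 3 ^ (q ^ 2 - 1).factorization 3 = 24 ∨
        2 ^ (q ^ 2 - 1).factorization 2 * 3 ^ (q ^ 2 - 1).factorization 3 = 48 := by
  rw [← Nat.card_eq_fintype_card] at hq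
  subst hq
  have hodd := odd_card_of_ne_two (F := F) (p := p) (by omega)
  obtain ⟨y, m⟩ := main_psl (F := F) p
  generalize (Nat.card F - 1) / Nat.gcd 2 (Nat.card F - 1) = d at m
  generalize (Nat.card F + 1) / Nat.gcd 2 (Nat.card F - 1) = n at m
  obtain ⟨-, hd, hn⟩ := (psl_params m).resolve_left fun h => Nat.not_odd_iff_even.2 h.1 hodd
  obtain rfl : n = d + 1 := by omega
  have h := hur_psl F p
  have h2 : ¬ 2 ∣ Nat.card F := fun h2 => by
    have := eq_char_of_prime_dvd (F := F) p Nat.prime_two h2; omega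
  have h3 : ¬ 3 ∣ Nat.card F := fun h2 => by
    have := eq_char_of_prime_dvd (F := F) p Nat.prime_three h2; omega
  have hN : Nat.card F ^ 2 - 1 ≠ 0 := by
    have := Nat.pow_le_pow_left (two_le_card_field (F := F)) 2; omega
  have hG := m.card_eq
  have key : ∀ (H : Subgroup PSL(2, F)) (k : ℕ), Nat.card H = 2 ^ k * 3 →
      ((¬ 2 ∣ H.index ∧ ¬ 3 ∣ H.index) ↔ 2 ^ (Nat.card F ^ 2 - 1).factorization 2 *
        3 ^ (Nat.card F ^ 2 - 1).factorization 3 = 2 ^ (k + 1) * 3 ^ 1) := fun H k hk => by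
    have h4 := two_mul_card_psl hodd
    rw [← H.card_mul_index, hk] at h4
    rw [← fact_iff (k := k + 1) (c := 3) Nat.prime_two h2 hN (by norm_num) (by rw [← h4]; ring),
      ← fact_iff (k := 1) (c := 2 ^ (k + 1)) Nat.prime_three h3 hN
        (fun h5 => absurd (Nat.prime_three.dvd_of_dvd_pow h5) (by norm_num)) (by rw [← h4]; ring)]
    exact ⟨fun h5 => by rw [h5.1, h5.2], eq_of_pow_mul⟩
  have hall : ∀ (H : Subgroup PSL(2, F)) (k : ℕ), Nat.card H = 2 ^ k * 3 →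
      (¬ 2 ∣ H.index ∧ ¬ 3 ∣ H.index) → Cfsg.IsPiHall {2, 3} H := fun H k hk h4 =>
    ⟨fun r hr h5 => by
      rw [hk, hr.dvd_mul] at h5
      exact h5.elim (fun h6 => Or.inl ((Nat.prime_dvd_prime_iff_eq hr Nat.prime_two).1
        (hr.dvd_of_dvd_pow h6))) fun h6 =>
        Or.inr ((Nat.prime_dvd_prime_iff_eq hr Nat.prime_three).1 h6),
      by rintro r - (rfl | rfl); exacts [h4.1, h4.2]⟩
  constructor
  · rintro ⟨H, h4, h5⟩
    have h6 := h5 2 Nat.prime_two (Or.inl rfl)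
    have h7 := h5 3 Nat.prime_three (Or.inr rfl)
    have hpH : ¬ p ∣ Nat.card H := fun h8 => by
      rcases h4 p Fact.out h8 with rfl | rfl <;> omega
    have hpair : ∀ a b : PL F, a ≠ b → tor PSL(2, F) a b ≠ ⊥ → H ≤ pairStab PSL(2, F) a b →
        (3 ∣ Nat.card F - 1 ∧ Nat.card F % 4 = 1) ∨ (3 ∣ Nat.card F + 1 ∧ Nat.card F % 4 = 3) := by
      intro a b hab ht hle
      obtain ⟨w, hw1, hw2⟩ := m.exists_swap hab ht
      have h8 := (pairStab PSL(2, F) a b).card_mul_index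
      have h9 := Subgroup.index_dvd_of_le hle
      rw [card_pairStab hab hw1 hw2, hG] at h8
      have h10 : ¬ 2 ∣ (pairStab PSL(2, F) a b).index := fun h => h6 (h.trans h9)
      have h11 : ¬ 3 ∣ (pairStab PSL(2, F) a b).index := fun h => h7 (h.trans h9)
      rcases m.tor_cases hab ht with ⟨-, -, h12⟩ | ⟨-, -, -, h12⟩ <;> rw [h12] at h8
      · rw [Nat.eq_of_mul_eq_mul_left (show 0 < 2 * d by have := m.d_pos; omega)
          (h8.trans (show _ = 2 * d * (Nat.card F * (d + 1)) by rw [← hn]; ring))] at h10 h11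
        rw [Nat.Prime.dvd_mul (by norm_num)] at h10 h11
        rcases (show d % 3 = 0 ∨ d % 3 = 1 ∨ d % 3 = 2 by omega) with h13 | h13 | h13 <;> omega
      · rw [Nat.eq_of_mul_eq_mul_left (show 0 < 2 * (d + 1) by omega)
          (h8.trans (show _ = 2 * (d + 1) * (Nat.card F * d) by rw [← hn]))] at h10 h11
        rw [Nat.Prime.dvd_mul (by norm_num)] at h10 h11
        rcases (show d % 3 = 0 ∨ d % 3 = 1 ∨ d % 3 = 2 by omega) with h13 | h13 | h13 <;> omega
    have hstab : ∀ a : PL F, ¬ H ≤ stabilizer PSL(2, F) a := fun a hle => by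
      obtain ⟨t, rfl⟩ := (Subgroup.isCyclic_iff_exists_zpowers_eq_top H).1
        (h.isCyclic_of_le_stabilizer hle hpH)
      have h8 := (Subgroup.zpowers t).card_mul_index
      rw [Nat.card_zpowers, hG] at h8
      rw [Nat.card_zpowers] at hpH
      refine h6 ?_
      rcases m.orderOf_cases t with h9 | ⟨c, h9⟩ | ⟨c, h9⟩
      · obtain rfl : t = 1 := by
          by_contra h10
          exact hpH (orderOf_eq_prime h9 h10).symm.dvd
        rw [orderOf_one, one_mul] at h8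
        rw [h8, ← hn, mul_assoc]
        exact Dvd.intro _ rfl
      · refine ⟨(d + 1) * Nat.card F * c, Nat.eq_of_mul_eq_mul_left (orderOf_pos t) ?_⟩
        rw [h8, ← hn]; nth_rewrite 2 [h9]; ring
      · refine ⟨Nat.card F * d * c, Nat.eq_of_mul_eq_mul_left (orderOf_pos t) ?_⟩
        rw [h8, ← hn, h9]; ring
    rcases dickson_psl' p m H with ⟨a, -, h8⟩ | ⟨a, -, h8⟩ | ⟨a, b, hab, h8, h9, -⟩ |
      ⟨-, ⟨φ⟩⟩ | ⟨-, ⟨φ⟩⟩ | ⟨-, ⟨φ⟩⟩ | ⟨k, γ, -, -, -, ⟨φ⟩⟩ | ⟨k, γ, -, -, ⟨φ⟩⟩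
    · exact absurd h8 (hstab a)
    · exact absurd h8 (hstab a)
    · exact (hpair a b hab (fun hb => h8 (by simp [hb])) h9).elim Or.inl fun h => Or.inr (Or.inl h)
    · exact Or.inr (Or.inr (Or.inl ((key H 2 (card_of_alt4 φ)).1 ⟨h6, h7⟩)))
    · exact Or.inr (Or.inr (Or.inr ((key H 3 (card_of_sym4 φ)).1 ⟨h6, h7⟩)))
    · have := h4 5 Nat.prime_five (by rw [card_of_alt5 φ]; norm_num)
      norm_num at this
    · exact absurd ((char_dvd_card_psl (F := k) p).trans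
        (card_psl_dvd_card_pgl.trans (Nat.card_congr φ.toEquiv).symm.dvd)) hpH
    · exact absurd ((char_dvd_card_psl (F := k) p).trans (Nat.card_congr φ.toEquiv).symm.dvd) hpH
  have hpair : ∀ a b : PL F, a ≠ b → ∀ c, c * Nat.card (pairStab PSL(2, F) a b) =
      Nat.card PSL(2, F) → ¬ 2 ∣ c → ¬ 3 ∣ c →
      ∃ H : Subgroup PSL(2, F), Cfsg.IsPiHall {2, 3} H := fun a b hab c hc h4 h5 => by
    have := h.isSolvable_of_le_pairStab hab le_rfl
    obtain ⟨H, h6, h7, h8⟩ := H4.exists_isPiHallOf {2, 3} (pairStab PSL(2, F) a b)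
    have h9 : (pairStab PSL(2, F) a b).index = c := Nat.eq_of_mul_eq_mul_left Nat.card_pos
      ((pairStab PSL(2, F) a b).card_mul_index.trans (by rw [← hc, mul_comm]))
    refine ⟨H, h7, fun r hr h10 h11 => ?_⟩
    rw [← Subgroup.relIndex_mul_index h6, hr.dvd_mul, h9] at h11
    rcases h11 with h11 | h11
    · exact h8 r hr h10 h11
    · rcases h10 with rfl | rfl
      exacts [h4 h11, h5 h11]
  rintro (⟨h4, h5⟩ | ⟨h4, h5⟩ | h4 | h4)
  · obtain ⟨b, hb', hb, h6⟩ := m.exists_split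
    obtain ⟨w, hw1, hw2⟩ := m.exists_swap_split (mem_orbit_self _) hb' hb
    refine hpair _ b hb (Nat.card F * (d + 1)) ?_ ?_ ?_
    · rw [card_pairStab hb hw1 hw2, h6, hG, ← hn]; ring
    all_goals rw [Nat.Prime.dvd_mul (by norm_num)]; omega
  · obtain ⟨b, -, hb, h6, h7⟩ := m.exists_nonsplit (mem_orbit_self y)
    obtain ⟨w, hw1, hw2⟩ := m.exists_swap hb (h6 ▸ m.stabilizer_y_ne_bot (mem_orbit_self y))
    refine hpair _ b hb (Nat.card F * d) ?_ ?_ ?_
    · rw [card_pairStab hb hw1 hw2, h7, hG, ← hn]; ring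
    all_goals rw [Nat.Prime.dvd_mul (by norm_num)]; omega
  · obtain ⟨H, ⟨φ⟩⟩ := (exists_alt4_psl_iff (F := F)).2 (Or.inl hodd)
    exact ⟨H, hall H 2 (card_of_alt4 φ) ((key H 2 (card_of_alt4 φ)).2 h4)⟩
  · obtain ⟨H, ⟨φ⟩⟩ := (exists_sym4_psl_iff (F := F)).2 (by
      have h5 := (eq_of_pow_mul (c := 4) (e := 1) h4).1
      have h6 := (Nat.prime_two.pow_dvd_iff_le_factorization hN).2 h5.ge
      rw [← hd, show (2 * d + 1) ^ 2 - 1 = 4 * (d * (d + 1)) from Nat.sub_eq_of_eq_add (by ring)]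
        at h6
      have h7 : 4 ∣ d * (d + 1) := Nat.dvd_of_mul_dvd_mul_left (by norm_num : 0 < 4) h6
      rcases Nat.even_or_odd d with h8 | h8
      · have := (Nat.Coprime.pow_left 2 (Nat.coprime_two_left.2 h8.add_one)).dvd_of_dvd_mul_right h7
        omega
      · have := (Nat.Coprime.pow_left 2 (Nat.coprime_two_left.2 h8)).dvd_of_dvd_mul_left h7
        omega)
    exact ⟨H, hall H 3 (card_of_sym4 φ) ((key H 3 (card_of_sym4 φ)).2 h4)⟩

end Cfsg.Agent.S2537
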