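import Cfsg.Statements.S2538
import Cfsg.Agent.H30.HallSnE

set_option autoImplicit false
open Cfsg

namespace Cfsg.Agent.S2538

/-- For every `n` and every set of primes `π`, a subgroup of the alternating group of degree `n` is a Hall `π`-subgroup of it if and only if it is the intersection with the alternating group of some Hall `π`-subgroup of the symmetric group of degree `n`. -/
theorem result (n : ℕ) (π : Set ℕ)
    (M : Subgroup ↥(alternatingGroup (Fin n))) :
    Cfsg.IsPiHall π M ↔ ∃ M₀ : Subgroup (Equiv.Perm (Fin n)), Cfsg.IsPiHall π M₀ ∧ M = M₀.subgroupOf (alternatingGroup (Fin n)) := by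
  refine ⟨fun hM => ?_, ?_⟩
  · rcases H30.HS.tri π (Fintype.card (Fin n)) with hm | h | h
    · obtain ⟨B, h1, h2⟩ := H30.HS.hall_alt hm hM
      exact ⟨_, h2.hall, h1⟩
    · obtain ⟨p, hp, h1, h2⟩ := H30.HS.exists_prime_of_single (G := Equiv.Perm (Fin n))
        fun r s hr hs h1 h2 h3 h4 =>
          h r s hr hs h1 h2 (H30.HS.le_of_dvd_perm hr h3) (H30.HS.le_of_dvd_perm hs h4)
      obtain ⟨P, hP⟩ := ((h1 _).1 (H4.isPiSubgroup_map hM.1
        (alternatingGroup (Fin n)).subtype)).exists_le_sylow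
      have h3 := (h2 _).2 ⟨P, rfl⟩
      exact ⟨P, h3, H4.eq_of_isPiHall_of_le hM (H4.isPiSubgroup_subgroupOf h3.1 _)
        (Subgroup.map_le_iff_le_comap.1 hP)⟩
    · refine ⟨⊤, (H30.HS.hall_iff_of_all (fun r hr h3 =>
        h r hr (H30.HS.le_of_dvd_perm hr h3)) ⊤).2 rfl, ?_⟩
      rw [Subgroup.top_subgroupOf]
      exact (H30.HS.hall_iff_of_all (fun r hr h3 => h r hr (H30.HS.le_of_dvd_perm hr
        (h3.trans (Subgroup.card_subgroup_dvd_card _)))) M).1 hM
  · rintro ⟨M₀, h, rfl⟩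
    exact H4.isPiHall_subgroupOf_of_normal h _

end Cfsg.Agent.S2538
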