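import Cfsg.Statements.S2540
import Cfsg.Agent.Base
import Cfsg.Agent.H57.PslTwist
import Cfsg.Agent.H54.SpSimple

set_option autoImplicit false
open Cfsg

namespace Cfsg.Agent.S2540

/-- Let F be a finite field and n ≥ 1, excluding the case n = 2 with #F ≤ 3. A subgroup of GL_n(F) that is normalized by every element of SL_n(F) either consists of scalar matrices or contains SL_n(F). -/
theorem result {F : Type*} [Field F] [Fintype F] (n : ℕ) (hn : 1 ≤ n) (hex : ¬ (n = 2 ∧ Fintype.card F ≤ 3)) (G : Subgroup (Matrix.GeneralLinearGroup (Fin n) F)) (hG : ∀ s : Matrix.SpecialLinearGroup (Fin n) F, ∀ g ∈ G, (Matrix.SpecialLinearGroup.toGL s) * g * (Matrix.SpecialLinearGroup.toGL s)⁻¹ ∈ G) : (∀ g ∈ G, ∃ c : F, (g : Matrix (Fin n) (Fin n) F) = c • (1 : Matrix (Fin n) (Fin n) F)) ∨ (Matrix.SpecialLinearGroup.toGL : Matrix.SpecialLinearGroup (Fin n) F →* _).range ≤ G := by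
  rcases hn.eq_or_lt with rfl | hn
  · right
    rintro _ ⟨s, rfl⟩
    rw [Subsingleton.elim s 1, map_one]
    exact G.one_mem
  have : Nontrivial (Fin n) := Fin.nontrivial_iff_two_le.2 hn
  have hperf : commutator (Matrix.SpecialLinearGroup (Fin n) F) = ⊤ := by
    rcases (show 2 ≤ n from hn).eq_or_lt with rfl | h3
    · obtain ⟨x, hx, hx2⟩ := H54.exists_sq_ne_one_of_four_le (F := F)
        (by rw [Nat.card_eq_fintype_card]; omega)
      exact H57.sl_commutator_eq_top_of_sq_ne_one hx hx2
    · exact H57.sl_commutator_eq_top_of_three_le (by rw [Fintype.card_fin]; omega)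
  have hs := H57.psl_isSimpleGroup_of_perfect hperf
  let N := G.comap (Matrix.SpecialLinearGroup.toGL : Matrix.SpecialLinearGroup (Fin n) F →* _)
  have hN : N.Normal := ⟨fun x hx s => by
    simpa [N, Subgroup.mem_comap, map_mul, map_inv] using hG s _ hx⟩
  rcases (hN.map (QuotientGroup.mk' (Subgroup.center _)) (QuotientGroup.mk'_surjective _)).eq_bot_or_eq_top
    with h | h
  · left
    intro g hg
    rw [Subgroup.map_eq_bot_iff, QuotientGroup.ker_mk'] at h
    have : H57.pslDiag (Fin n) F g = 1 := by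
      ext x
      obtain ⟨s, rfl⟩ := QuotientGroup.mk_surjective x
      change (QuotientGroup.mk (H57.slDiag (Fin n) F g s) : Matrix.ProjectiveSpecialLinearGroup _ _) =
        QuotientGroup.mk s
      rw [eq_comm, QuotientGroup.eq]
      apply h
      change Matrix.SpecialLinearGroup.toGL _ ∈ G
      rw [map_mul, H57.toGL_slDiag]
      have := G.mul_mem (hG s⁻¹ g hg) (G.inv_mem hg)
      simpa [mul_assoc] using this
    obtain ⟨c, rfl⟩ := H57.pslDiag_eq_one_iff.1 this
    exact ⟨c, by simp [Matrix.smul_one_eq_diagonal]⟩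
  · right
    have h1 : N ⊔ Subgroup.center _ = ⊤ := by
      rw [← QuotientGroup.ker_mk' (Subgroup.center _), ← Subgroup.comap_map_eq, h, Subgroup.comap_top]
    have h2 := Subgroup.Normal.commutator_le_of_self_sup_commutative_eq_top h1 inferInstance
    rw [hperf] at h2
    rintro _ ⟨s, rfl⟩
    exact h2 (Subgroup.mem_top s)

end Cfsg.Agent.S2540
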