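import Cfsg.Agent.Base
import Cfsg.Statements.S2541
import Cfsg.Agent.H61.PSLMax

set_option autoImplicit false
open Cfsg

namespace Cfsg.Agent.S2541

open H61 MulAction Matrix MatrixGroups

theorem perm6_pow : ∀ g : Equiv.Perm (Fin 6), g ^ 4 = 1 ∨ g ^ 5 = 1 ∨ g ^ 6 = 1 := by
  decide +kernel

/-- Let F be a field with 9 elements. The symmetric group S_6 is not isomorphic to PGL_2(F) (although both have index-2 subgroups isomorphic to A_6). -/
theorem result {F : Type*} [Field F] [Fintype F] (hF : Fintype.card F = 9) : ¬ Nonempty (Equiv.Perm (Fin 6) ≃* Matrix.ProjGenLinGroup (Fin 2) F) := by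
  rintro ⟨e⟩
  obtain ⟨p, hp, hc⟩ := exists_char F
  obtain ⟨y, m⟩ := main_pgl (F := F) p
  obtain ⟨g, hg⟩ := m.exists_orderOf_eq_n
  rw [Nat.card_eq_fintype_card, hF, ← e.symm.orderOf_eq] at hg
  have h := perm6_pow (e.symm g)
  simp only [← orderOf_dvd_iff_pow_eq_one, hg] at h
  norm_num at h

end Cfsg.Agent.S2541
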