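import Cfsg.Agent.Base
import Cfsg.Statements.S2542
import Cfsg.Agent.H61.PSLMin
import Cfsg.Agent.S0675

set_option autoImplicit false
open Cfsg

namespace Cfsg.Agent.S2542

open H61 MulAction Matrix MatrixGroups

/-- Let F be a field with 11 elements. PSL_2(F) has a subgroup H of index 11 isomorphic to the alternating group A_5, and the action of PSL_2(F) on the cosets of H is 2-transitive (of degree 11). -/
theorem result {F : Type*} [Field F] [Fintype F] (hF : Fintype.card F = 11) : ∃ H : Subgroup (Matrix.ProjectiveSpecialLinearGroup (Fin 2) F), H.index = 11 ∧ Nonempty (H ≃* alternatingGroup (Fin 5)) ∧ MulAction.IsMultiplyPretransitive (Matrix.ProjectiveSpecialLinearGroup (Fin 2) F) ((Matrix.ProjectiveSpecialLinearGroup (Fin 2) F) ⧸ H) 2 := by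
  classical
  rw [← Nat.card_eq_fintype_card] at hF
  obtain ⟨H, ⟨e⟩⟩ := (exists_alt5_psl_iff (F := F)).2 (by rw [hF]; norm_num)
  have h1 := two_mul_card_psl (F := F) (by rw [hF]; decide)
  have h2 := H.card_mul_index
  rw [hF] at h1
  rw [card_of_alt5 e] at h2
  have h3 : H.index = 11 := by omega
  refine ⟨H, h3, ⟨e⟩, ?_⟩
  have := isSimpleGroup_psl (F := F) (by omega)
  have hinj := toPermHom_injective_of_normalCore H
    ((this.eq_bot_or_eq_top_of_normal H.normalCore inferInstance).resolve_right fun h => by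
      have h4 := H.normalCore_le
      rw [h, top_le_iff] at h4
      rw [h4, Subgroup.index_top] at h3
      omega)
  have := Fintype.ofFinite (PSL(2, F) ⧸ H)
  have : IsPretransitive (toPermHom PSL(2, F) (PSL(2, F) ⧸ H)).range (PSL(2, F) ⧸ H) :=
    ⟨fun a b => by
      obtain ⟨g, hg⟩ := exists_smul_eq PSL(2, F) a b
      exact ⟨⟨_, g, rfl⟩, hg⟩⟩
  rcases Cfsg.Agent.S0675.result (α := PSL(2, F) ⧸ H) (by
    rw [← Nat.card_eq_fintype_card, ← Subgroup.index, h3]; norm_num)
    (toPermHom PSL(2, F) (PSL(2, F) ⧸ H)).range with h | h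
  · exact absurd (Group.isSolvable_of_surjective (f := (MonoidHom.ofInjective hinj).symm.toMonoidHom)
      (MulEquiv.surjective _)) (not_isSolvable_psl (by omega))
  · rw [is_two_pretransitive_iff] at h ⊢
    intro a b c d hab hcd
    obtain ⟨⟨_, g, rfl⟩, hg⟩ := h hab hcd
    exact ⟨g, hg⟩

end Cfsg.Agent.S2542
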