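import Cfsg.Agent.Base
import Cfsg.Statements.S2543
import Cfsg.Agent.H61.PGLMax
import Cfsg.Agent.H61.Klein

set_option autoImplicit false
open scoped Pointwise
open Cfsg

namespace Cfsg.Agent.S2543

open H61 MulAction Matrix MatrixGroups Pointwise

theorem normalizer_eq {F : Type*} [Field F] [Finite F] (hq : (Nat.card F).Prime)
    (h6 : 6 ≤ Nat.card F) {A : Subgroup PGL(2, F)} (e : A ≃* alternatingGroup (Fin 5)) :
    Subgroup.normalizer (A : Set PGL(2, F)) = A := by
  obtain ⟨p, hp, hc⟩ := exists_char F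
  obtain ⟨y, m⟩ := main_pgl (F := F) p
  have h60 := sixty_lt_card_psl h6
  have hA := le_range_toP_of_alt5 e
  have hA1 : A ≠ ⊥ := fun h => by have := card_of_alt5 e; rw [h, Subgroup.card_bot] at this; omega
  have hA2 : A ≠ (toP F).range := fun h => by
    have := card_of_alt5 e; rw [h, card_range_toP] at this; omega
  have h1 := normalizer_ne_top_of_le_range (by omega) hA hA1 hA2
  obtain ⟨h4, h5⟩ := not_le_of_not_isSolvable (hur_pglF F p) (not_isSolvable_of_alt5 e)
  have hle : A ≤ Subgroup.normalizer (A : Set PGL(2, F)) := Subgroup.le_normalizer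
  have hc := Subgroup.card_le_of_le hle
  rw [card_of_alt5 e] at hc
  rcases dickson_pgl p m (Subgroup.normalizer (A : Set PGL(2, F))) with ⟨a, -, h⟩ | ⟨a, -, h⟩ |
    ⟨a, b, hab, -, h, -⟩ | ⟨-, ⟨φ⟩⟩ | ⟨-, ⟨φ⟩⟩ | ⟨-, ⟨φ⟩⟩ | ⟨k, γ, H₀, h2, h3⟩
  · exact absurd (hle.trans h) (h4 a)
  · exact absurd (hle.trans h) (h4 a)
  · exact absurd (hle.trans h) (h5 a b hab)
  · rw [card_of_alt4 φ] at hc; omega
  · rw [card_of_sym4 φ] at hc; omega
  · exact (Subgroup.eq_of_le_of_card_ge hle (by rw [card_of_alt5 φ, card_of_alt5 e])).symm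
  exfalso
  obtain ⟨n, -, hn⟩ := exists_card_pow_subfield k
  rw [(hq.pow_eq_iff.1 hn).2, pow_one] at hn
  have h7 : Nat.card H₀ = Nat.card (Subgroup.normalizer (A : Set PGL(2, F))) := by
    rw [← Subgroup.card_map_of_injective (pgl_map_injective k.subtype), h3,
      Subgroup.card_map_of_injective (MulAut.conj γ⁻¹).injective]
  rcases h2 with ⟨rfl, -⟩ | ⟨rfl, -⟩
  · refine h1 (Subgroup.eq_top_of_card_eq _ ?_)
    rw [← h7, Subgroup.card_top, card_pgl_two, card_pgl_two, hn]
  · have h8 : Subgroup.normalizer (A : Set PGL(2, F)) ≤ (toP F).range := by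
      rw [map_conj_inv h3]
      refine map_conj_le_range_toP ?_ γ
      rintro _ ⟨_, ⟨g, rfl⟩, rfl⟩
      exact ⟨_, toP_pslMap _ g⟩
    have h9 := Subgroup.eq_of_le_of_card_ge h8 (by
      rw [← h7, card_range_toP, card_range_toP, card_psl_congr hn])
    have := isSimpleGroup_psl (F := F) (by omega)
    have hN : (A.comap (toP F)).Normal := ⟨fun a ha g => by
      have h10 : toP F g ∈ Subgroup.normalizer (A : Set PGL(2, F)) := h9 ▸ ⟨g, rfl⟩
      rw [Subgroup.mem_comap, map_mul, map_mul, map_inv]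
      exact (Subgroup.mem_normalizer_iff.1 h10 _).1 ha⟩
    rcases this.eq_bot_or_eq_top_of_normal _ hN with h5 | h5
    · exact hA1 (by rw [← Subgroup.map_comap_eq_self hA, h5, Subgroup.map_bot])
    · exact hA2 (by rw [← Subgroup.map_comap_eq_self hA, h5, MonoidHom.range_eq_map])

theorem map_pslConj_toP {F : Type*} [Field F] (g : PSL(2, F)) (L : Subgroup PSL(2, F)) :
    L.map (pslConj (toP F g)).toMonoidHom = MulAut.conj g • L := by
  change _ = L.map (MulAut.conj g).toMonoidHom
  congr 1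
  exact MonoidHom.ext fun a => pslConj_toP g a

theorem map_pslConj_mul {F : Type*} [Field F] (γ δ : PGL(2, F)) (L : Subgroup PSL(2, F)) :
    L.map (pslConj (γ * δ)).toMonoidHom =
      (L.map (pslConj δ).toMonoidHom).map (pslConj γ).toMonoidHom := by
  rw [Subgroup.map_map]
  congr 1
  exact MonoidHom.ext fun a => pslConj_mul γ δ a

/-- Let F be a field with 11 elements. PSL_2(F) has exactly 22 subgroups isomorphic to the alternating group A_5, and they form two conjugacy classes: there are two such subgroups that are not conjugate, and every such subgroup is conjugate to one of these two. -/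
theorem result {F : Type*} [Field F] [Fintype F] (hF : Fintype.card F = 11) : Nat.card {H : Subgroup (Matrix.ProjectiveSpecialLinearGroup (Fin 2) F) // Nonempty (H ≃* alternatingGroup (Fin 5))} = 22 ∧ ∃ H K : Subgroup (Matrix.ProjectiveSpecialLinearGroup (Fin 2) F), Nonempty (H ≃* alternatingGroup (Fin 5)) ∧ Nonempty (K ≃* alternatingGroup (Fin 5)) ∧ (∀ g : Matrix.ProjectiveSpecialLinearGroup (Fin 2) F, MulAut.conj g • H ≠ K) ∧ ∀ L : Subgroup (Matrix.ProjectiveSpecialLinearGroup (Fin 2) F), Nonempty (L ≃* alternatingGroup (Fin 5)) → ∃ g : Matrix.ProjectiveSpecialLinearGroup (Fin 2) F, MulAut.conj g • L = H ∨ MulAut.conj g • L = K := by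
  rw [← Nat.card_eq_fintype_card] at hF
  have hodd : Odd (Nat.card F) := by rw [hF]; decide
  have h2 : (2 : F) ≠ 0 := two_ne_zero_iff_odd.2 hodd
  obtain ⟨H, ⟨e⟩⟩ := (exists_alt5_psl_iff (F := F)).2 (by rw [hF]; norm_num)
  have e' := (H.equivMapOfInjective _ toP_injective).symm.trans e
  have hN := normalizer_eq (by rw [hF]; norm_num) (by omega) e'
  have hi := index_range_toP hodd
  constructor
  · have h1 := ncard_conj_subgroup_mul (H.map (toP F))
    rw [hN, card_of_alt5 e', card_pgl_two, hF] at h1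
    have h3 : {W : Subgroup PGL(2, F) | ∃ g, W = (H.map (toP F)).map (MulAut.conj g).toMonoidHom} =
        Subgroup.map (toP F) '' {L | Nonempty (L ≃* alternatingGroup (Fin 5))} := by
      ext W
      constructor
      · rintro ⟨g, rfl⟩
        exact ⟨_, ⟨(H.equivMapOfInjective _ (pslConj g).injective).symm.trans e⟩,
          map_pslConj_map_toP g H⟩
      · rintro ⟨L, ⟨φ⟩, rfl⟩
        obtain ⟨γ, rfl⟩ := exists_conj_of_alt5 h2 e φ
        exact ⟨γ, map_pslConj_map_toP γ H⟩
    rw [h3, Set.ncard_image_of_injective _ (Subgroup.map_injective toP_injective),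
      ← Nat.card_coe_set_eq] at h1
    exact Nat.eq_of_mul_eq_mul_right (by norm_num : 0 < 60) h1
  obtain ⟨γ, hγ⟩ : ∃ γ, γ ∉ (toP F).range := by
    by_contra h
    push Not at h
    rw [(Subgroup.eq_top_iff' _).2 h, Subgroup.index_top] at hi
    omega
  refine ⟨H, H.map (pslConj γ).toMonoidHom, ⟨e⟩,
    ⟨(H.equivMapOfInjective _ (pslConj γ).injective).symm.trans e⟩, fun g hg => hγ ?_,
    fun L ⟨φ⟩ => ?_⟩
  · rw [← map_pslConj_toP] at hg
    have h3 := congrArg (Subgroup.map (toP F)) hg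
    rw [map_pslConj_map_toP, map_pslConj_map_toP] at h3
    have h4 : (toP F g)⁻¹ * γ ∈ Subgroup.normalizer ((H.map (toP F) : Subgroup _) : Set PGL(2, F)) := by
      rw [← Subgroup.conjAct_pointwise_smul_iff]
      change (H.map (toP F)).map (MulAut.conj ((toP F g)⁻¹ * γ)).toMonoidHom = _
      rw [← map_conj_map_conj, ← h3, map_conj_map_conj, inv_mul_cancel, map_one]
      exact Subgroup.map_id _
    rw [hN] at h4
    simpa using mul_mem (⟨g, rfl⟩ : toP F g ∈ (toP F).range) (Subgroup.map_le_range _ _ h4)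
  · obtain ⟨δ, rfl⟩ := exists_conj_of_alt5 h2 φ e
    by_cases h3 : δ ∈ (toP F).range
    · obtain ⟨g, rfl⟩ := h3
      exact ⟨g, Or.inl (map_pslConj_toP g L).symm⟩
    · obtain ⟨g, hg⟩ := (Subgroup.mul_mem_iff_of_index_two hi).2 (iff_of_false hγ h3)
      exact ⟨g, Or.inr (by rw [← map_pslConj_mul, ← hg, map_pslConj_toP])⟩

end Cfsg.Agent.S2543
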