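import Cfsg.Statements.S2548
import Cfsg.Agent.Base
import Cfsg.Agent.H54.CDOrth
import Cfsg.Agent.H54.OPlus42

set_option autoImplicit false
open Cfsg
open scoped commutatorElement

namespace Cfsg.Agent.S2548

/-- Let F be a finite field of characteristic p and consider the group PΩ⁺_{2m}(F) of the hyperbolic quadratic form Σ x_i y_i with m ≥ 1, where Ω denotes the commutator subgroup of the full isometry group. This group has an irreducible complex character χ whose degree equals the order of a Sylow p-subgroup (equal to q^(m(m−1)) when #F = q, except in the degenerate case m = 2, q = 2, where this commutator subgroup has order 18 and its Sylow 2-subgroups have order 2) and whose restriction to any Sylow p-subgroup P is the regular character of P: χ vanishes on the non-identity elements of P. (This is the Steinberg character.) -/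
theorem result {F : Type*} [Field F] [Fintype F] (p : ℕ) [Fact p.Prime] [CharP F p] (m : ℕ) (hm : 1 ≤ m) : ∃ χ : Cfsg.POmega F (Cfsg.quadFormPlus m F) → ℂ, Cfsg.IsIrrCharacter (Cfsg.POmega F (Cfsg.quadFormPlus m F)) χ ∧ ∀ P : Sylow p (Cfsg.POmega F (Cfsg.quadFormPlus m F)), χ 1 = Nat.card P ∧ ∀ x : Cfsg.POmega F (Cfsg.quadFormPlus m F), x ∈ P → x ≠ 1 → χ x = 0 := by
  by_cases hE : H56.IsExc (H58.qPlus m F)
  swap
  · exact (H54.liePOmegaPlus F m hE p).exists_steinberg
  have hF := H56.card_eq_two_of_forall hE.1
  obtain rfl : m = 2 := by have := hE.2.1; simp at this; omega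
  obtain rfl : p = 2 := (Nat.prime_dvd_prime_iff_eq Fact.out Nat.prime_two).1
    ((CharP.cast_eq_zero_iff F p 2).1 (H56.two_eq_zero_of_forall hE.1))
  obtain ⟨h1, φ, g, h2, h3⟩ := H54.exists_oPlus42 hF
  obtain ⟨h4, x, hx, c, hc, h5⟩ := H54.commutator_wreath h1 φ g h2 h3
  refine H54.exists_steinberg_of_dvd_eighteen ((Subgroup.card_quotient_dvd_card _).trans h4) fun h => h5 ?_
  have h6 : (QuotientGroup.mk' (Subgroup.center (Cfsg.Omega F (Cfsg.quadFormPlus 2 F))))
      ⁅(⟨x, hx⟩ : Cfsg.Omega F (Cfsg.quadFormPlus 2 F)), ⟨c, hc⟩⁆ = 1 := by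
    rw [map_commutatorElement, ← Subgroup.mem_bot, ← h]
    exact Subgroup.commutator_mem_commutator trivial trivial
  have h7 := Subgroup.mem_center_iff.1 ((QuotientGroup.eq_one_iff _).1 h6) ⟨x, hx⟩
  exact commutatorElement_eq_one_iff_mul_comm.2 (congrArg Subtype.val h7).symm

end Cfsg.Agent.S2548
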