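import Cfsg.Statements.S2550
import Cfsg.Agent.S0256
import Cfsg.Agent.S0819
import Cfsg.Agent.H88.Plane4

set_option autoImplicit false
open Cfsg

namespace Cfsg.Agent.S2550

/-- Let F be a field with 2 elements and K a field with 4 elements. PSL_4(F) and PSL_3(K) have the same order (20160) but are not isomorphic. -/
theorem result {F K : Type*} [Field F] [Fintype F] [Field K] [Fintype K] (hF : Fintype.card F = 2) (hK : Fintype.card K = 4) : Nat.card (Matrix.ProjectiveSpecialLinearGroup (Fin 4) F) = Nat.card (Matrix.ProjectiveSpecialLinearGroup (Fin 3) K) ∧ ¬ Nonempty (Matrix.ProjectiveSpecialLinearGroup (Fin 4) F ≃* Matrix.ProjectiveSpecialLinearGroup (Fin 3) K) := by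
  obtain ⟨e⟩ := S0256.result hF
  refine ⟨?_, fun ⟨f⟩ => ?_⟩
  · rw [Nat.card_congr e.toEquiv, H88.card_psl_three_four hK, nat_card_alternatingGroup]
    simp [Nat.factorial]
  · let g : alternatingGroup (Fin 8) := ⟨c[0, 1, 2] * c[3, 4, 5, 6, 7], by
      rw [Equiv.Perm.mem_alternatingGroup]; decide⟩
    refine S0819.result hK (f (e.symm g)) ?_
    rw [MulEquiv.orderOf_eq, MulEquiv.orderOf_eq, orderOf_eq_iff (by norm_num)]
    refine ⟨Subtype.ext (by decide +kernel), fun m h1 h2 h3 => ?_⟩
    have h4 := congrArg Subtype.val h3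
    revert h4
    interval_cases m <;> decide

end Cfsg.Agent.S2550
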