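import Cfsg.Statements.S2552
import Cfsg.Agent.Base
import Cfsg.Agent.H57.Transv

set_option autoImplicit false
open Cfsg

namespace Cfsg.Agent.S2552

open Matrix in
lemma exists_stab_det {ι F : Type*} [Fintype ι] [DecidableEq ι] [Nonempty ι] [Field F]
    (U : Submodule F (ι → F)) (c : F) (hc : c ≠ 0) :
    ∃ h : Matrix ι ι F, h.det = c ∧ ∀ x ∈ U, h *ᵥ x ∈ U := by
  obtain ⟨u, hu0, hu⟩ : ∃ u : ι → F, u ≠ 0 ∧ (U = ⊥ ∨ u ∈ U) := by
    by_cases h : U = ⊥
    · obtain ⟨u, hu⟩ := exists_ne (0 : ι → F)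
      exact ⟨u, hu, Or.inl h⟩
    · obtain ⟨u, hu, h0⟩ := Submodule.exists_mem_ne_zero_of_ne_bot h
      exact ⟨u, h0, Or.inr hu⟩
  obtain ⟨φ, hφ⟩ := H57.exists_dot_eq_one hu0
  refine ⟨1 + vecMulVec ((c - 1) • u) φ, ?_, fun x hx => ?_⟩
  · rw [H57.det_one_add_vecMulVec, dotProduct_smul, dotProduct_comm, hφ]; simp
  · rcases hu with rfl | hu
    · rw [(Submodule.mem_bot F).1 hx, mulVec_zero]; exact Submodule.zero_mem _
    · rw [add_mulVec, one_mulVec, H57.vecMulVec_mulVec']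
      exact U.add_mem hx (U.smul_mem _ (U.smul_mem _ hu))

/-- Let F be a finite field and n ≥ 1. For every k, the special linear group SL_n(F) acts transitively on the set of k-dimensional subspaces of F^n: any two subspaces of the same dimension are carried onto each other by some matrix of determinant 1. -/
theorem result {F : Type*} [Field F] [Fintype F] (n : ℕ) (hn : 1 ≤ n) (U₁ U₂ : Submodule F (Fin n → F)) (h : Module.finrank F U₁ = Module.finrank F U₂) : ∃ g : Matrix.SpecialLinearGroup (Fin n) F, U₁.map ((Matrix.SpecialLinearGroup.toLin' g : (Fin n → F) ≃ₗ[F] (Fin n → F)) : (Fin n → F) →ₗ[F] (Fin n → F)) = U₂ := by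
  have : Nonempty (Fin n) := ⟨⟨0, hn⟩⟩
  obtain ⟨e, he⟩ := Submodule.exists_linearEquiv_restrict_eq (LinearEquiv.ofFinrankEq U₁ U₂ h)
  obtain ⟨g, hg⟩ := H57.exists_gl_of_linearEquiv e
  obtain ⟨k, hk1, hk2⟩ := exists_stab_det U₁ (g : Matrix (Fin n) (Fin n) F).det⁻¹
    (inv_ne_zero g.det_ne_zero)
  let s : Matrix.SpecialLinearGroup (Fin n) F :=
    ⟨g * k, by rw [Matrix.det_mul, hk1, mul_inv_cancel₀ g.det_ne_zero]⟩
  refine ⟨s, Submodule.eq_of_le_of_finrank_eq ?_ ?_⟩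
  · rintro _ ⟨x, hx, rfl⟩
    change ((g : Matrix (Fin n) (Fin n) F) * k).mulVec x ∈ U₂
    rw [← Matrix.mulVec_mulVec, hg, ← he ⟨_, hk2 x hx⟩]
    exact Subtype.prop _
  · rw [LinearEquiv.finrank_map_eq, h]

end Cfsg.Agent.S2552
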