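import Cfsg.Statements.S2563
import Cfsg.Agent.Base
import Cfsg.Agent.H55.PermO
import Cfsg.Agent.H58.QCount

set_option autoImplicit false
open Cfsg

namespace Cfsg.Agent.S2563

open QuadraticMap H56 H58

/-- Half the weight, in coordinates. -/
noncomputable def QS (N : ℕ) : QuadraticForm (ZMod 2) (Fin N → ZMod 2) :=
  ∑ i, ∑ j, if i ≤ j then QuadraticMap.proj i j else 0

theorem QS_apply {N : ℕ} (x : Fin N → ZMod 2) :
    QS N x = ∑ i, ∑ j, if i ≤ j then x i * x j else 0 := by
  simp only [QS, QuadraticMap.sum_apply]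
  refine Finset.sum_congr rfl fun i _ => Finset.sum_congr rfl fun j _ => ?_
  split_ifs <;> simp

theorem QS_succ {N : ℕ} (x : Fin (N + 1) → ZMod 2) :
    QS (N + 1) x = x 0 * x 0 + x 0 * ∑ i, x (Fin.succ i) + QS N fun i => x i.succ := by
  simp [QS_apply, Fin.sum_univ_succ, Finset.mul_sum]

theorem polar_QS {N : ℕ} (x y : Fin N → ZMod 2) :
    polar (QS N) x y = (∑ i, x i) * ∑ i, y i + ∑ i, x i * y i := by
  induction N with
  | zero => simp [polar, QS_apply]
  | succ N ih =>
    have := ih (fun i => x i.succ) fun i => y i.succ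
    simp only [polar, QS_succ, Fin.sum_univ_succ, Pi.add_apply, Finset.sum_add_distrib,
      Pi.add_def] at this ⊢
    linear_combination this

theorem QS_one (N : ℕ) : QS N 1 = (N + 1).choose 2 := by
  induction N with
  | zero => simp [QS_apply]
  | succ N ih =>
    rw [QS_succ, Nat.choose_succ_succ' (N + 1) 1]
    change 1 * 1 + 1 * ∑ _ : Fin N, 1 + QS N 1 = _
    simp [ih, add_comm]

theorem gauss (N : ℕ) : 2 * (Nat.card {x // QS N x = 0} : ℤ) =
    2 ^ N + ((⟨1, 1⟩ : GaussianInt) ^ (N + 1)).re := by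
  let g : ZMod 2 → GaussianInt := fun a => if a = 0 then 1 else ⟨0, 1⟩
  let τ : ZMod 2 → ZMod 2 → GaussianInt := fun s t =>
    if s = 0 then if t = 0 then 1 else ⟨0, -1⟩ else if t = 0 then -1 else ⟨0, 1⟩
  have h1 : ∀ (N : ℕ) (x : Fin N → ZMod 2), ∏ i, g (x i) = τ (QS N x) (∑ i, x i) := fun N => by
    induction N with
    | zero => intro x; simp [QS_apply, τ]
    | succ N ih =>
      intro x
      rw [Fin.prod_univ_succ, ih, QS_succ, Fin.sum_univ_succ]
      generalize x 0 = a, (QS N fun i => x i.succ) = s, ∑ i, x (Fin.succ i) = t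
      revert a s t
      decide
  have h2 : ∀ s t, 2 * (if s = 0 then 1 else 0 : ℤ) = 1 + (⟨1, 1⟩ * τ s t).re := by decide
  have h3 := Finset.prod_univ_sum (fun _ : Fin N => (Finset.univ : Finset (ZMod 2))) fun _ => g
  rw [show ∑ a, g a = ⟨1, 1⟩ by decide, Finset.prod_const, Finset.card_univ, Fintype.card_fin,
    Fintype.piFinset_univ] at h3
  rw [pow_succ', h3, Finset.mul_sum, Nat.card_eq_fintype_card, Fintype.card_subtype,
    Finset.card_filter, Nat.cast_sum, Finset.mul_sum]
  have h4 : ∀ s : Finset (Fin N → ZMod 2), ∀ f : _ → GaussianInt,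
      (∑ x ∈ s, f x).re = ∑ x ∈ s, (f x).re := fun s f =>
    map_sum (⟨⟨Zsqrtd.re, rfl⟩, fun _ _ => rfl⟩ : GaussianInt →+ ℤ) f s
  simp only [h4, h1, Nat.cast_ite, Nat.cast_one, Nat.cast_zero]
  rw [Finset.sum_congr rfl fun x _ => h2 (QS N x) (∑ i, x i), Finset.sum_add_distrib]
  simp

theorem nd (k : ℕ) : (polarBilin (QS (2 * k + 2))).Nondegenerate := (nondeg_iff _).2 fun v hv => by
  have h : ∀ j, v j = ∑ i, v i := fun j => by
    have := hv (Pi.single j 1)
    simp only [polar_QS, Pi.single_apply, mul_ite, Finset.sum_ite_eq', Finset.mem_univ, if_true,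
      mul_one, mul_zero] at this
    linear_combination this - CharTwo.add_self_eq_zero (∑ i, v i)
  have h2 : ∑ i, v i = 0 := by
    rw [Finset.sum_congr rfl fun j _ => h j]
    simp only [Finset.sum_const, Finset.card_univ, Fintype.card_fin, nsmul_eq_mul]
    push_cast
    rw [show (2 : ZMod 2) = 0 from rfl]
    simp
  exact funext fun j => (h j).trans h2

theorem exists_hom (k : ℕ) (hk : 1 ≤ k) :
    ∃ φ : Equiv.Perm (Fin (4 * k + 4)) →* O (QS (2 * (2 * k) + 2)), Function.Injective φ := by
  rw [show 4 * k + 4 = 2 * (2 * k) + 2 + 2 by ring]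
  let u : Fin (2 * (2 * k) + 2 + 2) → Fin (2 * (2 * k) + 2) → ZMod 2 :=
    Fin.cons 0 (Fin.cons 1 fun i => Pi.single i 1)
  have two : (2 : ZMod 2) = 0 := rfl
  have hQ : ∀ i, QS _ (u i) = if i = 0 then 0 else 1 := Fin.cases (by simp [u]) <| Fin.cases (by
    simp only [u, Fin.cons_succ, Fin.cons_zero, QS_one, Fin.succ_ne_zero, if_false]
    rw [Nat.choose_two_right, show (2 * (2 * k) + 2 + 1) * (2 * (2 * k) + 2 + 1 - 1) =
      2 * (2 * (4 * k ^ 2 + 5 * k + 1) + 1) by rw [Nat.add_sub_cancel]; ring,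
      Nat.mul_div_cancel_left _ two_pos]
    push_cast
    rw [two]
    simp) fun i => by
      simp only [u, QS_apply, Fin.cons_succ, Fin.succ_ne_zero, if_false]
      rw [Finset.sum_eq_single i (fun j _ hj => by simp [hj]) (by simp),
        Finset.sum_eq_single i (fun j _ hj => by simp [hj]) (by simp)]
      simp
  have hP : ∀ i j, polar (QS _) (u i) (u j) =
      QS _ (u i) + QS _ (u j) + 1 + if i = j then 1 else 0 := fun i j => by
    rw [hQ, hQ, polar_QS]
    induction i using Fin.cases with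
    | zero => induction j using Fin.cases <;> simp [u, two, one_add_one_eq_two, Fin.succ_ne_zero, (Fin.succ_ne_zero _).symm]
    | succ i =>
      induction j using Fin.cases with
      | zero => simp [u, two, one_add_one_eq_two, Fin.succ_ne_zero]
      | succ j =>
        induction i using Fin.cases <;> induction j using Fin.cases <;>
          simp [u, two, one_add_one_eq_two, Pi.single_apply, eq_comm, Fin.succ_succ_ne_one]
  have hP2 : ∀ a b i j, polar (QS _) (u a + u b) (u i + u j) = ((if a = i then 1 else 0) +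
      if b = i then 1 else 0) + ((if a = j then 1 else 0) + if b = j then 1 else 0) :=
    fun a b i j => by
    simp only [polar_add_left, polar_add_right, hP]
    linear_combination (QS _ (u a) + QS _ (u b) + QS _ (u i) + QS _ (u j) + 2) * two
  have hQ2 : ∀ a b, a ≠ b → QS _ (u a + u b) = 1 := fun a b hab => by
    rw [H58.Q_add, hP, if_neg hab]
    linear_combination (QS _ (u a) + QS _ (u b)) * two
  have hs : ∀ a b i, a ≠ b → u (Equiv.swap a b i) =
      u i - ((if a = i then 1 else 0) + if b = i then 1 else 0 : ZMod 2) • (u a + u b) :=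
    fun a b i hab => by
    have e : ∀ w : Fin (2 * (2 * k) + 2) → ZMod 2, -w = w := fun w => funext fun _ => ZMod.neg_eq_self_mod_two _
    by_cases h1 : a = i
    · subst h1; simp [hab.symm, e]
    by_cases h2 : b = i
    · subst h2; simp [hab, e]
    simp [h1, h2, Equiv.swap_apply_of_ne_of_ne (Ne.symm h1) (Ne.symm h2)]
  obtain ⟨φ, hφ, -⟩ := H55.exists_permHom_O (Q := QS _) (by omega) (fun i j => u i + u j)
    (fun a b hab i j => by
      rw [refl_apply, hQ2 a b hab, hP2, hs a b i hab, hs a b j hab]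
      module)
    (eq_top_iff.2 ((Pi.basisFun _ _).span_eq.ge.trans (Submodule.span_mono (by
      rintro _ ⟨i, rfl⟩
      exact ⟨(0, i.succ.succ), by simp [u]⟩)))) fun i j a b hij h => by
      by_contra! H
      by_cases hab : a = b
      · have := hQ2 i j hij
        rw [h, hab, H58.Q_add, hP, if_pos rfl] at this
        exact zero_ne_one (α := ZMod 2) (by linear_combination this - (2 * QS _ (u b) + 1) * two)
      obtain ⟨m, hm⟩ : ∃ m, m ∉ ({i, j, a, b} : Finset _) := by
        by_contra! H'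
        have := (Finset.card_le_card fun x _ => H' x :
          Finset.univ.card ≤ _).trans Finset.card_le_four
        simp at this
        omega
      simp only [Finset.mem_insert, Finset.mem_singleton, not_or] at hm
      have := hP2 a m i j
      rw [h, hP2] at this
      simp [hm, H, hab] at this
  exact ⟨φ, hφ⟩


/-- For k ≥ 1 the symmetric group of degree 4k + 4 embeds in a full orthogonal group in dimension 4k + 2 over the field of two elements: in the isometry group of the plus-type form Σ xᵢyᵢ when k is odd, and in that of the minus-type form Σ xᵢyᵢ + (z₁² + z₁z₂ + z₂²) when k is even (through its action on even partitions of a (4k+4)-set, with the form 'half the size of a part, modulo 2'). -/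
theorem result (k : ℕ) (hk : 1 ≤ k) :
    (Odd k → ∃ φ : Equiv.Perm (Fin (4 * k + 4)) →* ↥(Cfsg.isometryGroup (ZMod 2) (Cfsg.quadFormPlus (2 * k + 1) (ZMod 2))), Function.Injective φ) ∧
    (Even k → ∃ φ : Equiv.Perm (Fin (4 * k + 4)) →* ↥(Cfsg.isometryGroup (ZMod 2) (Cfsg.quadFormMinus (2 * k) (ZMod 2) 1 1)), Function.Injective φ) := by
  obtain ⟨φ, hφ⟩ := exists_hom k hk
  have h := gauss (2 * (2 * k) + 2)
  have e : (⟨1, 1⟩ : GaussianInt) ^ (2 * (2 * k) + 2 + 1) = ((-4) ^ k : ℤ) * ⟨-2, 2⟩ := by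
    rw [show 2 * (2 * k) + 2 + 1 = 4 * k + 3 by ring, pow_add, pow_mul]
    push_cast
    congr 1
  rw [e, Zsqrtd.re_mul] at h
  simp only [Zsqrtd.re_intCast, Zsqrtd.im_intCast, mul_zero, zero_mul, add_zero] at h
  have ha : ∀ z₁ z₂ : ZMod 2, z₁ ^ 2 + 1 * z₁ * z₂ + 1 * z₂ ^ 2 = 0 → z₁ = 0 ∧ z₂ = 0 := by decide
  have p : (0 : ℤ) < 4 ^ k := by positivity
  have p2 : (2 : ℤ) ^ (2 * k) = 4 ^ k := by rw [pow_mul]; norm_num
  rcases equiv_plus_or_minus_succ (nd (2 * k)) (m := 2 * k) (by simp) ha with ⟨g, hg⟩ | ⟨g, hg⟩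
  · refine ⟨fun _ => ⟨((O.congr g hg).symm.trans (toO _ (coe_qPlus _ _)).symm).toMonoidHom.comp φ,
      fun a b H => hφ (by simpa using H)⟩, fun hk => ?_⟩
    rw [card_eq_congr g hg, card_zero_qPlus, ZMod.card, hk.neg_pow] at h
    push_cast [Nat.cast_sub Nat.one_le_two_pow] at h
    simp only [pow_succ, two_mul (2 * k), pow_add, p2] at h
    nlinarith
  · refine ⟨fun hk => ?_, fun _ => ⟨((O.congr g hg).symm.trans
      (toO _ (coe_qMinus _ _ _ _)).symm).toMonoidHom.comp φ, fun a b H => hφ (by simpa using H)⟩⟩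
    obtain ⟨j, hj⟩ : ∃ j, 2 * k = j + 1 := ⟨2 * k - 1, by omega⟩
    rw [card_eq_congr g hg, card_zero_qMinus _ ha, ZMod.card, hk.neg_pow] at h
    push_cast [Nat.cast_sub Nat.one_le_two_pow] at h
    rw [← p2, hj] at h
    simp only [pow_succ, two_mul (j + 1), pow_add, Nat.add_sub_cancel] at h
    have : (0 : ℤ) < 2 ^ j := by positivity
    nlinarith

end Cfsg.Agent.S2563
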