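import Cfsg.Statements.S2565
import Cfsg.Agent.Base
import Cfsg.Agent.S0825
import Cfsg.Agent.H56.OmegaFin

set_option autoImplicit false
open Cfsg

namespace Cfsg.Agent.S2565

open H55 H56 H58

/-- The commutator subgroup of the full orthogonal group of the plus-type form Σ xᵢyᵢ in dimension 6 over the field of two elements (the group Ω⁺₆(2), of index 2) is isomorphic to the alternating group of degree 8. -/
theorem result :
    (Cfsg.Omega (ZMod 2) (Cfsg.quadFormPlus 3 (ZMod 2))).index = 2 ∧
    Nonempty (↥(Cfsg.Omega (ZMod 2) (Cfsg.quadFormPlus 3 (ZMod 2))) ≃* alternatingGroup (Fin 8)) := by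
  obtain ⟨e⟩ := Cfsg.Agent.S0825.result (F := ZMod 2) (ZMod.card 2)
  have h : commutator (Equiv.Perm (Fin 8)) = alternatingGroup (Fin 8) :=
    alternatingGroup.commutator_perm_eq (by simp)
  refine ⟨?_, ⟨(H55.commutatorCongr e).trans (MulEquiv.subgroupCongr h)⟩⟩
  rw [index_Omega _ (coe_qPlus 3 _)]
  exact index_commutator_of_char_two (qPlus_nondeg 3 _) (by decide)
    (not_isExc_of_finrank (by simp)) (by simp)

end Cfsg.Agent.S2565
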