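import Cfsg.Statements.S2566
import Cfsg.Agent.Base
import Cfsg.Agent.H54.OPlus42

set_option autoImplicit false
open Cfsg

namespace Cfsg.Agent.S2566

/-- The full orthogonal group of the plus-type form x₁y₁ + x₂y₂ in dimension 4 over the field of two elements has order 72 and is isomorphic to the wreath product of the symmetric group of degree 3 by a group of order 2: it has a normal subgroup isomorphic to the direct product of two symmetric groups of degree 3, of index 2, whose two direct factors are interchanged by conjugation by some element. -/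
theorem result :
    Nat.card ↥(Cfsg.isometryGroup (ZMod 2) (Cfsg.quadFormPlus 2 (ZMod 2))) = 72 ∧
    ∃ (A B : Subgroup ↥(Cfsg.isometryGroup (ZMod 2) (Cfsg.quadFormPlus 2 (ZMod 2)))),
      Nonempty (↥A ≃* Equiv.Perm (Fin 3)) ∧ Nonempty (↥B ≃* Equiv.Perm (Fin 3)) ∧ A ⊓ B = ⊥ ∧ (∀ a ∈ A, ∀ b ∈ B, a * b = b * a) ∧
      (A ⊔ B).index = 2 ∧ ∃ g : ↥(Cfsg.isometryGroup (ZMod 2) (Cfsg.quadFormPlus 2 (ZMod 2))), A.map (MulAut.conj g).toMonoidHom = B := by
  obtain ⟨h1, φ, g, h2, h3⟩ := H54.exists_oPlus42 (F := ZMod 2) (by simp)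
  refine ⟨h1, (φ.comp (MonoidHom.inl _ _)).range, (φ.comp (MonoidHom.inr _ _)).range,
    ⟨(MonoidHom.ofInjective (f := φ.comp (MonoidHom.inl _ _))
      fun _ _ h => congrArg Prod.fst (h2 h)).symm⟩,
    ⟨(MonoidHom.ofInjective (f := φ.comp (MonoidHom.inr _ _))
      fun _ _ h => congrArg Prod.snd (h2 h)).symm⟩, ?_, ?_, ?_, g, ?_⟩
  · rw [eq_bot_iff]
    rintro _ ⟨⟨a, rfl⟩, b, h⟩
    have : 1 = a := congrArg Prod.fst (h2 h)
    rw [← this, map_one]
    exact one_mem _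
  · rintro _ ⟨a, rfl⟩ _ ⟨b, rfl⟩
    simp [← map_mul]
  · have h4 : (φ.comp (MonoidHom.inl _ _)).range ⊔ (φ.comp (MonoidHom.inr _ _)).range = φ.range := by
      refine le_antisymm (sup_le ?_ ?_) ?_
      · rintro _ ⟨a, rfl⟩; exact ⟨_, rfl⟩
      · rintro _ ⟨a, rfl⟩; exact ⟨_, rfl⟩
      · rintro _ ⟨⟨a, b⟩, rfl⟩
        have := Subgroup.mul_mem_sup (S := (φ.comp (MonoidHom.inl _ _)).range)
          (T := (φ.comp (MonoidHom.inr _ _)).range) ⟨a, rfl⟩ ⟨b, rfl⟩
        simpa [← map_mul] using this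
    have := φ.range.index_mul_card
    rw [← Nat.card_congr (MonoidHom.ofInjective h2).toEquiv, h1,
      show Nat.card (Equiv.Perm (Fin 3) × Equiv.Perm (Fin 3)) = 36 by
        simp [Fintype.card_perm]; rfl] at this
    rw [h4]
    omega
  · refine le_antisymm ?_ ?_
    · rintro _ ⟨_, ⟨a, rfl⟩, rfl⟩
      exact ⟨a, (h3 a 1).symm⟩
    · rintro _ ⟨a, rfl⟩
      exact ⟨_, ⟨a, rfl⟩, h3 a 1⟩

end Cfsg.Agent.S2566
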