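import Cfsg.Statements.S2567
import Cfsg.Agent.Base

set_option autoImplicit false
open Cfsg

namespace Cfsg.Agent.S2567

theorem lift_unique {G : Type*} [Group G] {r m : ℕ} (hr : r.Prime) (hc : Nat.Coprime r m)
    (hm : ∀ z ∈ Subgroup.center G, z ^ m = 1) (x : G ⧸ Subgroup.center G) (hx : orderOf x = r) :
    ∃! g : G, (QuotientGroup.mk g : G ⧸ Subgroup.center G) = x ∧ orderOf g = r := by
  obtain ⟨g, rfl⟩ := QuotientGroup.mk_surjective x
  have h1 : g ^ r ∈ Subgroup.center G := by
    rw [← QuotientGroup.eq_one_iff, QuotientGroup.mk_pow, ← hx, pow_orderOf_eq_one]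
  have hr1 := hr.one_lt
  have hinj : ∀ z ∈ Subgroup.center G, z ^ r = 1 → z = 1 := by
    intro z hz h
    have h2 : orderOf z ∣ Nat.gcd r m :=
      Nat.dvd_gcd (orderOf_dvd_of_pow_eq_one h) (orderOf_dvd_of_pow_eq_one (hm z hz))
    rw [hc, Nat.dvd_one, orderOf_eq_one_iff] at h2
    exact h2
  -- choose k with m * k = 1 mod r
  obtain ⟨k, hk⟩ : ∃ k : ℕ, m * k % r = 1 := Nat.exists_mul_mod_eq_one_of_coprime hc.symm hr1 |>.imp fun k h => h.2
  have hk' : m * k = r * (m * k / r) + 1 := by
    have := Nat.div_add_mod (m * k) r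
    omega
  have hne : ∀ h : G, (QuotientGroup.mk h : G ⧸ Subgroup.center G) = QuotientGroup.mk g → h ≠ 1 := by
    intro h e h0
    rw [h0] at e
    rw [← e, QuotientGroup.mk_one, orderOf_one] at hx
    omega
  haveI := Fact.mk hr
  refine ⟨g ^ (m * k), ⟨?_, ?_⟩, ?_⟩
  · rw [hk', pow_succ, pow_mul, QuotientGroup.mk_mul,
      (QuotientGroup.eq_one_iff _).2 (Subgroup.pow_mem _ h1 _), one_mul]
  · apply orderOf_eq_prime
    · rw [← pow_mul, mul_comm (m * k) r, pow_mul, pow_mul, hm _ h1, one_pow]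
    · apply hne
      rw [hk', pow_succ, pow_mul, QuotientGroup.mk_mul,
        (QuotientGroup.eq_one_iff _).2 (Subgroup.pow_mem _ h1 _), one_mul]
  · rintro h ⟨e, ho⟩
    have hz : h⁻¹ * g ∈ Subgroup.center G := QuotientGroup.eq.1 e
    have hg : g = h * (h⁻¹ * g) := by group
    have hcomm : Commute h (h⁻¹ * g) := Subgroup.mem_center_iff.1 hz h
    have hhr : h ^ r = 1 := by rw [← ho, pow_orderOf_eq_one]
    rw [hg, hcomm.mul_pow, pow_mul (h⁻¹ * g), hm _ hz, one_pow, mul_one, hk', pow_succ, pow_mul, hhr,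
      one_pow, one_mul]

/-- Lifting elements of prime order from PGL to GL: let F be a finite field with q elements, r a prime not dividing q − 1, and x an element of order r in GL_n(F) modulo its centre (the scalar matrices). Then x has exactly one preimage in GL_n(F) of order r. -/
theorem result {F : Type*} [Field F] [Fintype F] {q n r : ℕ} (hF : Fintype.card F = q) (hr : r.Prime) (hdiv : ¬ r ∣ q - 1) (x : GL (Fin n) F ⧸ Subgroup.center (GL (Fin n) F)) (hx : orderOf x = r) : ∃! g : GL (Fin n) F, (QuotientGroup.mk g : GL (Fin n) F ⧸ Subgroup.center (GL (Fin n) F)) = x ∧ orderOf g = r := by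
  classical
  refine lift_unique (m := q - 1) hr ((Nat.Prime.coprime_iff_not_dvd hr).2 hdiv) ?_ x hx
  intro z hz
  rw [Matrix.GeneralLinearGroup.center_eq_range_scalar] at hz
  obtain ⟨u, rfl⟩ := hz
  rw [← map_pow, ← hF, ← Fintype.card_units, pow_card_eq_one, map_one]

end Cfsg.Agent.S2567
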