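import Cfsg.Statements.S2568
import Cfsg.Agent.H53.SS

set_option autoImplicit false
open Cfsg

namespace Cfsg.Agent.S2568

/-- Number of conjugacy classes of elements of a given prime order r, coprime to the characteristic, in GL_n(q): if i is the multiplicative order of q modulo r and t = (r − 1)/i, the classes correspond to the non-zero t-tuples of natural numbers (a_1, …, a_t) with i(a_1 + ⋯ + a_t) ≤ n (a_j is the multiplicity of the j-th Frobenius orbit of nontrivial r-th roots of unity among the eigenvalues), so there are exactly C(⌊n/i⌋ + t, t) − 1 of them. -/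
theorem result {F : Type*} [Field F] [Fintype F] {p q : ℕ} [Fact p.Prime] [CharP F p] (hF : Fintype.card F = q) (n r i t : ℕ) (hr : r.Prime) (hrp : r ≠ p) (hi : i = orderOf (q : ZMod r)) (ht : t * i = r - 1) : Nat.card {C : ConjClasses (GL (Fin n) F) // ∃ g : GL (Fin n) F, ConjClasses.mk g = C ∧ orderOf g = r} = Nat.choose (n / i + t) t - 1 := by
  classical
  have h0 := H53.natCast_ne_zero_of_prime_ne (F := F) p hr hrp
  have hX := H53.X_sub_one_notMem_cycF hr.one_lt.ne' h0
  have hdeg : ∀ φ ∈ H53.cycF F r, φ.natDegree = i := fun φ hφ => by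
    rw [H53.natDegree_of_mem_cycF h0 hφ, Nat.card_eq_fintype_card, hF, hi]
  have hi0 : 0 < i := by
    rcases Nat.eq_zero_or_pos i with rfl | h
    · have := hr.two_le; omega
    · exact h
  have hcard : (H53.cycF F r).card = t := by
    have := H53.card_cycF_mul h0
    rw [Nat.card_eq_fintype_card, hF, ← hi, Nat.totient_prime hr, ← ht] at this
    exact Nat.eq_of_mul_eq_mul_right hi0 this
  have hord : ∀ g : GL (Fin n) F, orderOf g = r ↔
      (∀ P ∈ H53.med (g : Matrix (Fin n) (Fin n) F), P = Polynomial.X - 1 ∨ P ∈ H53.cycF F r) ∧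
        (H53.med (g : Matrix (Fin n) (Fin n) F)).filter (· ≠ Polynomial.X - 1) ≠ 0 := by
    intro g
    have := Fact.mk hr
    rw [← H53.pow_prime_eq_one_iff_med hr h0, orderOf_eq_prime_iff, ← Units.val_pow_eq_pow_val,
      Units.val_eq_one]
    refine and_congr_right fun _ => ?_
    rw [Ne, ← Units.val_eq_one, H53.eq_one_iff_med]
    simp [Multiset.filter_eq_nil]
  have hdec : ∀ s : Multiset (Polynomial F), s = s.filter (· ≠ Polynomial.X - 1) +
      Multiset.replicate ((s.map Polynomial.natDegree).sum -
        ((s.filter (· ≠ Polynomial.X - 1)).map Polynomial.natDegree).sum) (Polynomial.X - 1) := by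
    intro s
    have h1 := (Multiset.filter_add_not (· ≠ Polynomial.X - 1) s).symm
    have h2 : s.filter (fun P => ¬ P ≠ Polynomial.X - 1) =
        Multiset.replicate (s.count (Polynomial.X - 1)) (Polynomial.X - 1) := by
      simp only [not_not]
      exact Multiset.filter_eq' s _
    rw [h2] at h1
    conv_rhs => enter [2, 1, 1]; rw [h1]
    simpa [H53.natDegree_X_sub_one] using h1
  rw [H53.card_conjClasses_eq_of_invariant (fun g : GL (Fin n) F => orderOf g = r)
    (fun g => (H53.med (g : Matrix (Fin n) (Fin n) F)).filter (· ≠ Polynomial.X - 1))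
    (fun g h _ _ => by
      rw [H53.isConj_gl_iff_med_eq]
      refine ⟨fun h => by rw [h], fun h1 => ?_⟩
      rw [hdec (H53.med (g : Matrix (Fin n) (Fin n) F)), h1, H53.sum_natDegree_med,
        ← H53.sum_natDegree_med (h : Matrix (Fin n) (Fin n) F), ← hdec]), ← hcard,
    ← H53.card_multiset_card_le_ne_zero]
  have hsum : ∀ s : Multiset (Polynomial F), (∀ x ∈ s, x ∈ H53.cycF F r) →
      (s.map Polynomial.natDegree).sum = s.card * i := fun s hs => by
    rw [Multiset.map_congr rfl (g := fun _ => i) fun x hx => hdeg x (hs x hx)]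
    simp
  refine Nat.card_congr (Equiv.subtypeEquivRight fun s => ⟨?_, ?_⟩)
  · rintro ⟨g, hg, rfl⟩
    obtain ⟨h1, h2⟩ := (hord g).1 hg
    have h3 : ∀ x ∈ (H53.med (g : Matrix (Fin n) (Fin n) F)).filter (· ≠ Polynomial.X - 1),
        x ∈ H53.cycF F r := fun x hx =>
      (h1 x (Multiset.mem_filter.1 hx).1).resolve_left (Multiset.mem_filter.1 hx).2
    refine ⟨⟨h3, (Nat.le_div_iff_mul_le hi0).2 ?_⟩, h2⟩
    rw [← hsum _ h3]
    refine le_of_le_of_eq (H53.multiset_sum_le_of_le (Multiset.map_le_map (Multiset.filter_le _ _))) ?_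
    rw [H53.sum_natDegree_med, Fintype.card_fin]
  · rintro ⟨⟨h1, h2⟩, h3⟩
    rw [Nat.le_div_iff_mul_le hi0] at h2
    have h4 : (s + Multiset.replicate (n - s.card * i) (Polynomial.X - 1)).filter
        (· ≠ Polynomial.X - 1) = s := by
      rw [Multiset.filter_add, Multiset.filter_eq_self.2 fun x hx => ne_of_mem_of_not_mem (h1 x hx) hX,
        Multiset.filter_eq_nil.2 fun x hx => not_not.2 (Multiset.eq_of_mem_replicate hx), add_zero]
    obtain ⟨g, hg⟩ := H53.exists_gl_med_eq (F := F) (n := Fin n)
      (s := s + Multiset.replicate (n - s.card * i) (Polynomial.X - 1)) (fun P hP => by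
        rcases Multiset.mem_add.1 hP with h | h
        · obtain ⟨h5, h6, -⟩ := (H53.mem_cycF h0).1 (h1 P h)
          exact H53.isPP_of_irreducible h5 h6
        · rw [Multiset.eq_of_mem_replicate h]
          exact H53.isPP_of_irreducible H53.monic_X_sub_one H53.irreducible_X_sub_one)
      (fun P hP => by
        rcases Multiset.mem_add.1 hP with h | h
        · exact H53.coeff_zero_ne_zero_of_mem_cycF h0 (h1 P h)
        · rw [Multiset.eq_of_mem_replicate h]
          simp)
      (by
        rw [Multiset.map_add, Multiset.sum_add, hsum s h1]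
        simp [H53.natDegree_X_sub_one]
        omega)
    refine ⟨g, (hord g).2 ⟨fun P hP => ?_, by rwa [hg, h4]⟩, by rw [hg, h4]⟩
    rcases Multiset.mem_add.1 (hg ▸ hP) with h | h
    · exact Or.inr (h1 P h)
    · exact Or.inl (Multiset.eq_of_mem_replicate h)

end Cfsg.Agent.S2568
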