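import Cfsg.Statements.S2569
import Cfsg.Agent.H53.SS

set_option autoImplicit false
open Cfsg

namespace Cfsg.Agent.S2569

/-- In GL_n over a finite field of characteristic p, the conjugacy class of a semisimple element (an element of order prime to p) under the special linear group is its whole GL-conjugacy class: for every such x and every invertible g there is h of determinant one with h x h⁻¹ = g x g⁻¹. -/
theorem result {F : Type*} [Field F] [Fintype F] {p : ℕ} [Fact p.Prime] [CharP F p] {n : ℕ} (x g : GL (Fin n) F) (hx : (orderOf x).Coprime p) : ∃ h : GL (Fin n) F, (h : Matrix (Fin n) (Fin n) F).det = 1 ∧ h * x * h⁻¹ = g * x * g⁻¹ := by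
  have hs := (H53.coprime_orderOf_gl_iff p x).1 hx
  rcases Nat.eq_zero_or_pos n with rfl | hn
  · exact ⟨1, by simp, Subsingleton.elim _ _⟩
  · have : Nonempty (Fin n) := ⟨⟨0, hn⟩⟩
    obtain ⟨h, h1, h2⟩ := (H53.det_mem_detC_iff (x : Matrix (Fin n) (Fin n) F) g).1
      (hs.detC_eq_top ▸ Subgroup.mem_top _)
    exact ⟨h, h1, Units.ext h2⟩

end Cfsg.Agent.S2569
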