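import Cfsg.Statements.S2570
import Cfsg.Agent.H53.Unip

set_option autoImplicit false
open Cfsg

namespace Cfsg.Agent.S2570

/-- Number of conjugacy classes of elements of order p in GL_n over a finite field of characteristic p: they correspond to the Jordan types, that is, to the partitions of n with all parts at most p other than the partition into ones, so there are (number of partitions of n with parts ≤ p) − 1 of them. -/
theorem result {F : Type*} [Field F] [Fintype F] {p : ℕ} [Fact p.Prime] [CharP F p] (n : ℕ) : Nat.card {C : ConjClasses (GL (Fin n) F) // ∃ g : GL (Fin n) F, ConjClasses.mk g = C ∧ orderOf g = p} = (Finset.univ.filter (fun μ : Nat.Partition n => ∀ a ∈ μ.parts, a ≤ p)).card - 1 := by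
  classical
  have hp : p.Prime := Fact.out
  have hu : ∀ g : GL (Fin n) F, orderOf g = p ↔
      IsNilpotent ((g : Matrix (Fin n) (Fin n) F) - 1) ∧
        (∀ k ∈ H53.mjt (g : Matrix (Fin n) (Fin n) F), k ≤ p) ∧
        ¬ ∀ k ∈ H53.mjt (g : Matrix (Fin n) (Fin n) F), k = 1 := by
    intro g
    have h1 : g ^ p = 1 ↔ ((g : Matrix (Fin n) (Fin n) F) - 1) ^ p = 0 := by
      have := H53.pow_char_pow_eq_one_iff (F := F) p 1 (g : Matrix (Fin n) (Fin n) F)
      rw [pow_one] at this
      rw [← this, ← Units.val_pow_eq_pow_val, Units.val_eq_one]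
    rw [orderOf_eq_prime_iff, h1]
    constructor
    · rintro ⟨h2, h3⟩
      have hn : IsNilpotent ((g : Matrix (Fin n) (Fin n) F) - 1) := ⟨_, h2⟩
      refine ⟨hn, (H53.sub_one_pow_eq_zero_iff_mjt hn p).1 h2, ?_⟩
      rw [← H53.eq_one_iff_mjt hn, Units.val_eq_one]
      exact h3
    · rintro ⟨hn, h2, h3⟩
      refine ⟨(H53.sub_one_pow_eq_zero_iff_mjt hn p).2 h2, ?_⟩
      rw [← H53.eq_one_iff_mjt hn, Units.val_eq_one] at h3
      exact h3
  rw [H53.card_conjClasses_eq_of_invariant (fun g : GL (Fin n) F => orderOf g = p)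
    (fun g => H53.mjt (g : Matrix (Fin n) (Fin n) F))
    (fun g g' hg hg' => by
      rw [H53.isConj_units_iff, H53.isConj_iff_mjt_eq ((hu g).1 hg).1 ((hu g').1 hg').1])]
  let one : Nat.Partition n := ⟨Multiset.replicate n 1, fun {i} hi => by
    rw [Multiset.eq_of_mem_replicate hi]; exact one_pos, by simp⟩
  have hone : one ∈ Finset.univ.filter (fun μ : Nat.Partition n => ∀ a ∈ μ.parts, a ≤ p) := by
    simp only [Finset.mem_filter, Finset.mem_univ, true_and]
    intro a ha
    rw [Multiset.eq_of_mem_replicate ha]; exact hp.one_le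
  have hone' : ∀ μ : Nat.Partition n, μ = one ↔ ∀ k ∈ μ.parts, k = 1 := by
    intro μ
    constructor
    · rintro rfl k hk
      exact Multiset.eq_of_mem_replicate hk
    · intro h
      have h1 := Multiset.eq_replicate_of_mem h
      have h2 := μ.parts_sum
      rw [h1] at h2
      simp only [Multiset.sum_replicate, smul_eq_mul, mul_one] at h2
      ext1
      rw [h1, h2]
  rw [← Finset.card_erase_of_mem hone, ← Nat.card_eq_finsetCard]
  refine Nat.card_congr
    { toFun := fun b => ⟨⟨b.1, fun {k} hk => ?_, ?_⟩, ?_⟩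
      invFun := fun μ => ⟨μ.1.parts, ?_⟩
      left_inv := fun _ => rfl
      right_inv := fun _ => rfl }
  · obtain ⟨_, g, hg, rfl⟩ := b
    exact H53.mjt_pos _ k hk
  · obtain ⟨_, g, hg, rfl⟩ := b
    simpa using H53.sum_mjt (g : Matrix (Fin n) (Fin n) F)
  · obtain ⟨_, g, hg, rfl⟩ := b
    simp only [Finset.mem_erase, Finset.mem_filter, Finset.mem_univ, true_and, Ne, hone']
    exact ⟨((hu g).1 hg).2.2, ((hu g).1 hg).2.1⟩
  · obtain ⟨μ, hμ⟩ := μ
    simp only [Finset.mem_erase, Finset.mem_filter, Finset.mem_univ, true_and, Ne, hone'] at hμ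
    obtain ⟨A, hA, h⟩ := H53.exists_mjt_eq (F := F) (n := Fin n) (μ := μ.parts)
      (fun k hk => μ.parts_pos hk) (by simpa using μ.parts_sum)
    refine ⟨(H53.isUnit_of_isNilpotent_sub_one hA).unit, (hu _).2 ⟨hA, ?_, ?_⟩, h⟩
    · rw [IsUnit.unit_spec, h]; exact hμ.2
    · rw [IsUnit.unit_spec, h]; exact hμ.1

end Cfsg.Agent.S2570
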