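import Cfsg.Statements.S2572
import Cfsg.Agent.Base
import Cfsg.Agent.H62.UniCent2

set_option autoImplicit false
open Cfsg

namespace Cfsg.Agent.S2572

open Matrix H62.UC H53

/-- Centraliser of a transvection in GL_n(q), n ≥ 2: if t − 1 has rank one and square zero, the centraliser of t in GL_n(q) has order q^(2n−3) (q − 1) |GL_(n−2)(q)| (a group of order q^(2n−3) extended by GL_1(q) × GL_(n−2)(q)). -/
theorem result {F : Type*} [Field F] [Fintype F] {q n : ℕ} (hF : Fintype.card F = q) (hn : 2 ≤ n) (t : GL (Fin n) F) (ht : Cfsg.IsTransvection (t : Matrix (Fin n) (Fin n) F)) : Nat.card ↥(Subgroup.centralizer ({t} : Set (GL (Fin n) F))) = q ^ (2 * n - 3) * (q - 1) * ∏ i : Fin (n - 2), (q ^ (n - 2) - q ^ (i : ℕ)) := by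
  obtain ⟨n, rfl⟩ := Nat.exists_eq_add_of_le' hn
  subst hF
  have h2 : ((t : Matrix (Fin (n + 2)) (Fin (n + 2)) F) - 1) ^ 2 = 0 := by rw [sq, ht.2]
  let d : Fin (n + 1) → ℕ := Fin.cons 2 fun _ => 1
  have hd : ∀ k, 1 ≤ d k := Fin.cases (by simp [d]) (by simp [d])
  have hs : Finset.univ.sup d = 2 := le_antisymm (Finset.sup_le fun k _ =>
    Fin.cases (by simp [d]) (by simp [d]) k) (Finset.le_sup (f := d) (Finset.mem_univ 0))
  have hmu : ∀ i, mu d i = if i = 2 then 1 else if i = 1 then n else 0 := fun i => by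
    rw [mu, Finset.card_filter, Fin.sum_univ_succ]
    simp only [d, Fin.cons_zero, Fin.cons_succ, Finset.sum_const, Finset.card_univ, Fintype.card_fin,
      smul_eq_mul]
    split_ifs <;> omega
  obtain ⟨e, b, h⟩ := exists_jb_of_jt hd ((isNilpotent_toLin'_sub_one _).2 ⟨2, h2⟩) (by
    have c2 := count_two_mjt_of_sq_eq_zero h2
    have c1 := count_one_mjt_of_sq_eq_zero h2
    have c3 := (sub_one_pow_eq_zero_iff_mjt ⟨2, h2⟩ 2).1 h2
    have c0 := mjt_pos (t : Matrix (Fin (n + 2)) (Fin (n + 2)) F)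
    rw [ht.1] at c1 c2
    ext i
    rw [Multiset.count_map]
    change Multiset.count i (mjt _) = (Finset.univ.filter fun k => i = d k).card
    simp only [eq_comm (a := i)]
    change _ = mu d i
    rw [hmu]
    split_ifs with h1 h3
    · rw [h1, c2]
    · rw [h3]; simpa using c1
    · exact Multiset.count_eq_zero.2 fun hi => by have := c3 i hi; have := c0 i hi; omega)
  have := h.card_units
  rw [← card_cen_mat _ IsUnit fun _ h => h] at this
  rw [Nat.card_congr (Equiv.subtypeEquivRight fun g => ?_), this, gam, hs]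
  · have m0 : mu d 0 = 0 := by simp [hmu]
    have m1 : mu d 1 = n := by simp [hmu]
    have m2 : mu d 2 = 1 := by simp [hmu]
    simp only [Finset.sum_range_succ, Finset.prod_range_succ]
    rw [m0, m1, m2, show 2 * (n + 2) - 3 = 2 * n + 1 by omega]
    simp [pow_succ, mul_assoc, mul_comm (Fintype.card F - 1)]
    exact Or.inl rfl
  · rw [Subgroup.mem_centralizer_singleton_iff, Units.ext_iff]
    exact (and_iff_right (g.isUnit.map (Matrix.toLinAlgEquiv' (R := F)))).symm

end Cfsg.Agent.S2572
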