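import Cfsg.Statements.S2573
import Cfsg.Agent.H53.Unip

set_option autoImplicit false
open Cfsg

namespace Cfsg.Agent.S2573

/-- The invariant subspaces of a regular unipotent matrix form a chain: over a finite field, if u is an n × n matrix with (u − 1)^n = 0 and rank(u − 1) = n − 1, then every subspace W of F^n with u W ⊆ W is the kernel of (u − 1)^(dim W); so u has at most one invariant subspace of each dimension. -/
theorem result {F : Type*} [Field F] [Finite F] {n : ℕ} (u : Matrix (Fin n) (Fin n) F) (hnil : (u - 1) ^ n = 0) (hreg : (u - 1).rank = n - 1) (W : Submodule F (Fin n → F)) (hW : ∀ v ∈ W, u.mulVec v ∈ W) : W = LinearMap.ker (Matrix.mulVecLin ((u - 1) ^ Module.finrank F W)) := by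
  rcases Nat.eq_zero_or_pos n with rfl | hn
  · exact Subsingleton.elim _ _
  have hA : IsNilpotent (u - 1) := ⟨_, hnil⟩
  have hj := H53.mjt_eq_singleton hA (by simpa using hn) (by simpa using hreg)
  have hd : Module.finrank F W ≤ n := by simpa using Submodule.finrank_le W
  have hW' : ∀ v ∈ W, (Matrix.toLin' u - 1 : Module.End F (Fin n → F)) v ∈ W := fun v hv =>
    W.sub_mem (hW v hv) hv
  have hN : IsNilpotent ((Matrix.toLin' u - 1 : Module.End F (Fin n → F)).restrict hW') :=
    Module.End.isNilpotent.restrict _ ((H53.isNilpotent_toLin'_sub_one u).2 hA)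
  have h0 := (LinearMap.aeval_self_charpoly
    ((Matrix.toLin' u - 1 : Module.End F (Fin n → F)).restrict hW'))
  rw [hN.charpoly_eq_X_pow_finrank, map_pow, Polynomial.aeval_X, Module.End.pow_restrict] at h0
  apply Submodule.eq_of_le_of_finrank_le
  · intro v hv
    have := congrArg Subtype.val (LinearMap.congr_fun h0 ⟨v, hv⟩)
    rw [LinearMap.coe_restrict_apply, H53.toLin'_sub_one_pow] at this
    exact this
  · have h1 := H53.finrank_ker_sub_one_pow ((H53.isNilpotent_toLin'_sub_one u).2 hA)
      (Module.finrank F W)
    rw [H53.toLin'_sub_one_pow] at h1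
    change _ = ((H53.mjt u).map _).sum at h1
    rw [hj] at h1
    simp only [Multiset.map_singleton, Multiset.sum_singleton] at h1
    exact (le_of_eq h1).trans (min_le_right _ _)

end Cfsg.Agent.S2573
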