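import Cfsg.Statements.S2574
import Cfsg.Agent.H53.SpClass

set_option autoImplicit false
open Cfsg

namespace Cfsg.Agent.S2574

open Module in
theorem eq_ker {F V : Type*} [Field F] [AddCommGroup V] [Module F V] [FiniteDimensional F V]
    {f : End F V} (h : IsNilpotent (f - 1)) {N : ℕ} (hj : H53.jt f = {N}) {W : Submodule F V}
    (hW : ∀ v ∈ W, f v ∈ W) : W = LinearMap.ker ((f - 1) ^ finrank F W) := by
  have h1 : ∀ (k : ℕ) (v : W), ((((f.restrict hW : End F W) - 1) ^ k : End F W) v : V) =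
      ((f - 1) ^ k : End F V) v :=
    fun k v => by
      rw [← H53.aeval_X_sub_one_pow (F := F), H53.coe_aeval_restrict, H53.aeval_X_sub_one_pow]
  have h2 : IsNilpotent ((f.restrict hW : End F W) - 1) := by
    obtain ⟨k, hk⟩ := h
    exact ⟨k, LinearMap.ext fun v => Subtype.ext (by rw [h1, hk]; rfl)⟩
  have h3 := (H53.sub_one_pow_eq_zero_iff_jt h2 (finrank F W)).2 fun k hk =>
    H53.sum_jt (f.restrict hW : End F W) ▸ Multiset.le_sum_of_mem hk
  refine Submodule.eq_of_le_of_finrank_le (fun v hv => ?_) ?_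
  · rw [LinearMap.mem_ker, ← h1 _ ⟨v, hv⟩, h3]; rfl
  · rw [H53.finrank_ker_sub_one_pow h, hj]; simp

/-- A regular unipotent element of the symplectic group has totally isotropic small invariant subspaces: over a finite field, if u ∈ Sp_2m(F) satisfies (u − 1)^(2m) = 0 and rank(u − 1) = 2m − 1, and W is a u-invariant subspace with 2 dim W ≤ 2m, then the alternating form vanishes identically on W. -/
theorem result {F : Type*} [Field F] [Finite F] {m : ℕ} (u : Matrix.symplecticGroup (Fin m) F) (hnil : ((u : Matrix (Fin m ⊕ Fin m) (Fin m ⊕ Fin m) F) - 1) ^ (2 * m) = 0) (hreg : ((u : Matrix (Fin m ⊕ Fin m) (Fin m ⊕ Fin m) F) - 1).rank = 2 * m - 1) (W : Submodule F (Fin m ⊕ Fin m → F)) (hW : ∀ v ∈ W, (u : Matrix (Fin m ⊕ Fin m) (Fin m ⊕ Fin m) F).mulVec v ∈ W) (hdim : 2 * Module.finrank F W ≤ 2 * m) : ∀ v ∈ W, ∀ w ∈ W, Cfsg.sympForm m F v w = 0 := by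
  intro v hv w hw
  rcases Nat.eq_zero_or_pos m with rfl | hm
  · simp [Cfsg.sympForm, dotProduct]
  have hc : Fintype.card (Fin m ⊕ Fin m) = 2 * m := by simp [two_mul]
  have hn : IsNilpotent ((u : Matrix (Fin m ⊕ Fin m) (Fin m ⊕ Fin m) F) - 1) := ⟨_, hnil⟩
  have hj := H53.mjt_eq_singleton hn (by omega) (by rw [hreg, hc])
  have hn' := (H53.isNilpotent_toLin'_sub_one _).2 hn
  have hB := H53.isSF_spB (Fin m) F
  have h1 := eq_ker hn' hj (W := W) hW
  have h2 := eq_ker hn' hj ((H53.inv_sp u).perp_mapsTo hB (A := W) hW)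
  have h3 := hB.finrank_add_finrank_perp W
  rw [Module.finrank_fintype_fun_eq_card, hc] at h3
  have h4 : w ∈ H59.perp (H54.spB (Fin m) F) W := by
    rw [h2, LinearMap.mem_ker]
    rw [h1, LinearMap.mem_ker] at hw
    obtain ⟨k, hk⟩ := Nat.exists_eq_add_of_le'
      (show Module.finrank F W ≤ Module.finrank F (H59.perp (H54.spB (Fin m) F) W) by omega)
    rw [hk, pow_add, Module.End.mul_apply, hw, map_zero]
  exact (H54.spB_apply v w).symm.trans (h4 v hv)

end Cfsg.Agent.S2574
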