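import Cfsg.Statements.S2575
import Cfsg.Agent.H65.TwoPart

set_option autoImplicit false
open Cfsg

namespace Cfsg.Agent.S2575

/-- Which diagonal involutions of PGL_n(q) lie in PSL_n(q), q odd: for the diagonal matrix t with i entries −1 and n − i entries 1, some non-zero scalar multiple of t has determinant one if and only if i is even or the 2-part of q − 1 exceeds the 2-part of n (that is, −1 is an n-th power in the field exactly in the latter case). -/
theorem result {F : Type*} [Field F] [Fintype F] {q : ℕ} (hF : Fintype.card F = q) (hq : Odd q) {n : ℕ} (hn : 1 ≤ n) (i : ℕ) (hi : i ≤ n) : (∃ c : F, c ≠ 0 ∧ (c • Matrix.diagonal (fun j : Fin n => if (j : ℕ) < i then (-1 : F) else 1)).det = 1) ↔ (Even i ∨ padicValNat 2 n < padicValNat 2 (q - 1)) := by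
  have hd : ∀ c : F, (c • Matrix.diagonal (fun j : Fin n => if (j : ℕ) < i then (-1 : F) else 1)).det
      = c ^ n * (-1) ^ i := by
    intro c
    rw [Matrix.det_smul, Matrix.det_diagonal, Fintype.card_fin, Finset.prod_ite, Finset.prod_const,
      Finset.prod_const_one, mul_one, Fin.card_filter_val_lt, min_eq_right hi]
  simp only [hd]
  rcases Nat.even_or_odd i with he | ho
  · simp only [he, true_or, iff_true]
    exact ⟨1, one_ne_zero, by simp [he.neg_one_pow]⟩
  · have hne : ¬ Even i := Nat.not_even_iff_odd.2 ho
    simp only [hne, false_or, ho.neg_one_pow]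
    rw [← H65.TwoPart.neg_one_pow_iff hF hq (by omega)]
    refine exists_congr fun c => and_congr_right fun _ => ⟨fun h => ?_, fun h => ?_⟩
    · linear_combination -h
    · linear_combination -h

end Cfsg.Agent.S2575
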