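import Cfsg.Statements.S2576
import Cfsg.Agent.H65.TwoPart

set_option autoImplicit false
open Cfsg

namespace Cfsg.Agent.S2576

/-- Which involutions of PGL_2m(q) coming from a scalar of the quadratic extension field lie in PSL_2m(q), q odd: let μ generate the Sylow 2-subgroup of the multiplicative group of the field with q elements (μ has order the 2-part of q − 1) and let t be the block-diagonal matrix with m diagonal blocks [[0, 1], [μ, 0]] (so t² is the scalar μ and t is an involution modulo scalars). Then some non-zero scalar multiple of t has determinant one if and only if q ≡ 3 (mod 4) or the 2-part of q − 1 is less than the 2-part of 2m. -/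
theorem result {F : Type*} [Field F] [Fintype F] {q : ℕ} (hF : Fintype.card F = q) (hq : Odd q) {m : ℕ} (hm : 1 ≤ m) (μ : F) (hμ : orderOf μ = 2 ^ padicValNat 2 (q - 1)) : (∃ c : F, c ≠ 0 ∧ (c • Matrix.blockDiagonal (fun _ : Fin m => !![(0 : F), 1; μ, 0])).det = 1) ↔ (q % 4 = 3 ∨ padicValNat 2 (q - 1) < padicValNat 2 (2 * m)) := by
  have hd : ∀ c : F, (c • Matrix.blockDiagonal (fun _ : Fin m => !![(0 : F), 1; μ, 0])).det
      = (c ^ 2 * -μ) ^ m := by
    intro c
    rw [Matrix.det_smul, Matrix.det_blockDiagonal, mul_pow, ← pow_mul]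
    simp [Matrix.det_fin_two]
  simp only [hd]
  have h2 := H65.TwoPart.two_le hF
  have hb := H65.TwoPart.val_pos hF hq
  obtain ⟨m', hm', em⟩ := H65.TwoPart.split_two (n := m) (by omega)
  obtain ⟨N', hN', eN⟩ := H65.TwoPart.split_two (n := q - 1) (by omega)
  have hv : padicValNat 2 (2 * m) = padicValNat 2 m + 1 := by
    rw [padicValNat.mul (by norm_num) (by omega), add_comm]; simp
  rw [hv]
  have hh := H65.TwoPart.half_pow hb hμ
  have hfull : μ ^ 2 ^ padicValNat 2 (q - 1) = 1 := by rw [← hμ, pow_orderOf_eq_one]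
  generalize padicValNat 2 m = a at *
  generalize padicValNat 2 (q - 1) = b at *
  constructor
  · rintro ⟨c, hc, h⟩
    by_contra hcon
    push Not at hcon
    obtain ⟨h3, h4⟩ := hcon
    have hb2 : 2 ≤ b := by
      by_contra hb1
      have : b = 1 := by omega
      subst this
      obtain ⟨j, hj⟩ := hN'
      omega
    have h5 : ((c ^ 2 * -μ) ^ m) ^ (2 ^ (b - 1 - a) * N') = 1 := by rw [h, one_pow]
    have e1 : m * (2 ^ (b - 1 - a) * N') = 2 ^ (b - 1) * (m' * N') := by
      rw [em]
      have : 2 ^ (b - 1) = 2 ^ a * 2 ^ (b - 1 - a) := by rw [← pow_add]; congr 1; omega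
      rw [this]; ring
    have e2 : 2 * (2 ^ (b - 1) * (m' * N')) = (q - 1) * m' := by
      rw [eN]
      have : 2 ^ b = 2 * 2 ^ (b - 1) := by rw [← pow_succ']; congr 1; omega
      rw [this]; ring
    have hev : Even (2 ^ (b - 1)) := (Nat.even_pow' (by omega)).2 even_two
    rw [← pow_mul, e1, mul_pow, ← pow_mul, e2, pow_mul c, H65.TwoPart.pow_q hF hc, one_pow, one_mul,
      pow_mul, hev.neg_pow, hh, (hm'.mul hN').neg_one_pow] at h5
    exact H65.TwoPart.neg_one_ne hF hq h5
  · intro h
    refine ⟨1, one_ne_zero, ?_⟩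
    rw [one_pow, one_mul]
    rcases h with h | h
    · have : b = 1 := by
        by_contra hb1
        have : 2 ^ b = 4 * 2 ^ (b - 2) := by
          rw [show 4 = 2 ^ 2 from rfl, ← pow_add]; congr 1; omega
        rw [this, mul_assoc] at eN
        omega
      subst this
      simp at hh
      simp [hh]
    · have : 2 ^ a = 2 ^ b * 2 ^ (a - b) := by rw [← pow_add]; congr 1; omega
      have hev : Even (2 ^ b) := (Nat.even_pow' (by omega)).2 even_two
      rw [em, this, mul_assoc, pow_mul, hev.neg_pow, hfull, one_pow]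

end Cfsg.Agent.S2576
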