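import Cfsg.Statements.S2578
import Cfsg.Agent.H53.SS

set_option autoImplicit false
open Cfsg

namespace Cfsg.Agent.S2578

/-- Regular unipotent classes of SL_n(q): for n ≥ 2 over the field with q elements, the matrices u of determinant one with (u − 1)^n = 0 and rank(u − 1) = n − 1 form a single GL_n(q)-class which splits into exactly gcd(n, q − 1) conjugacy classes of SL_n(q). -/
theorem result {F : Type*} [Field F] [Fintype F] {q : ℕ} (hF : Fintype.card F = q) {n : ℕ} (hn : 2 ≤ n) : Nat.card {C : ConjClasses (Matrix.SpecialLinearGroup (Fin n) F) // ∃ u : Matrix.SpecialLinearGroup (Fin n) F, ConjClasses.mk u = C ∧ ((u : Matrix (Fin n) (Fin n) F) - 1) ^ n = 0 ∧ ((u : Matrix (Fin n) (Fin n) F) - 1).rank = n - 1} = Nat.gcd n (q - 1) := by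
  obtain ⟨A, hA, h1⟩ := H53.exists_mjt_eq (F := F) (n := Fin n) (μ := {n}) (by simp; omega) (by simp)
  let x : Matrix.SpecialLinearGroup (Fin n) F := ⟨A, H53.det_eq_one_of_isNilpotent_sub_one hA⟩
  have : Nonempty (Fin n) := ⟨⟨0, by omega⟩⟩
  have h2 : H53.med A = {(Polynomial.X - 1) ^ n} := by
    rw [H53.med, H53.ed_eq_map_jt ((H53.isNilpotent_toLin'_sub_one _).2 hA), ← H53.mjt, h1]
    simp
  have h3 := H53.card_sl_classes x
  rw [H53.detC_eq_of_med_eq_singleton H53.monic_X_sub_one H53.irreducible_X_sub_one h2,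
    IsCyclic.index_powMonoidHom_range, Nat.card_units, Nat.card_eq_fintype_card (α := F), hF,
    Nat.gcd_comm] at h3
  rw [← h3]
  refine Nat.card_congr (Equiv.subtypeEquivRight fun C => exists_congr fun u =>
    and_congr_right fun _ => ⟨fun ⟨h4, h5⟩ => ?_, fun h4 => ?_⟩)
  · refine (H53.isConj_iff_mjt_eq hA ⟨n, h4⟩).2 ?_
    rw [h1, H53.mjt_eq_singleton ⟨n, h4⟩ (by simp; omega) (by simpa using h5), Fintype.card_fin]
  · have h5 : ((u : Matrix (Fin n) (Fin n) F) - 1) ^ n = 0 := by
      have h6 := (H53.isConj_iff_rank_aeval _ _).1 h4 ((Polynomial.X - 1) ^ n)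
      have h7 : (A - 1) ^ n = 0 := by
        rw [H53.sub_one_pow_eq_zero_iff_mjt hA, h1]; simp
      rw [H53.aeval_X_sub_one_pow, H53.aeval_X_sub_one_pow] at h6
      change ((A - 1) ^ n).rank = _ at h6
      rw [h7, Matrix.rank_zero, eq_comm] at h6
      exact H53.eq_zero_of_rank_eq_zero h6
    refine ⟨h5, ?_⟩
    have h6 := H53.rank_sub_one_add_card hA
    rw [← H53.rank_sub_one_eq_of_isConj h4]
    rw [h1, Multiset.card_singleton, Fintype.card_fin] at h6
    change (A - 1).rank = _
    omega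

end Cfsg.Agent.S2578
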