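import Cfsg.Statements.S2582
import Cfsg.Agent.H53.SpClass

set_option autoImplicit false
open Cfsg

namespace Cfsg.Agent.S2582

/-- Which unipotent Jordan types occur in the finite symplectic group: over a finite field, a unipotent matrix with Jordan block sizes d_1, …, d_t (sum 2m, all at least 1) is similar to an element of Sp_2m(F) if and only if every odd block size occurs an even number of times. -/
theorem result {F : Type*} [Field F] [Fintype F] {m t : ℕ} (d : Fin t → ℕ) (hd : ∀ k, 1 ≤ d k) (hsum : ∑ k, d k = 2 * m) : (∃ e : ((k : Fin t) × Fin (d k)) ≃ (Fin m ⊕ Fin m), ∃ A : Matrix.symplecticGroup (Fin m) F, IsConj (Matrix.reindex e e (Cfsg.jordanTypeMatrix d F)) (A : Matrix (Fin m ⊕ Fin m) (Fin m ⊕ Fin m) F)) ↔ ∀ j : ℕ, Odd j → Even (Finset.univ.filter (fun k : Fin t => d k = j)).card := by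
  have h1 : ∀ j, (Finset.univ.filter (fun k : Fin t => d k = j)).card =
      (Finset.univ.val.map d).count j := fun j => by
    rw [Multiset.count_map, Finset.card_def, Finset.filter_val]
    simp only [eq_comm]
  simp only [h1, H53.exists_sp_isConj_iff, H53.med_reindex, H53.med_jordanTypeMatrix hd]
  rw [← H53.real_alt_unip_iff (F := F) (fun k hk => by
    obtain ⟨i, -, rfl⟩ := Multiset.mem_map.1 hk
    exact hd i), exists_const_iff, and_iff_right]
  exact Fintype.card_eq.1 (by simp [hsum, two_mul])

end Cfsg.Agent.S2582
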