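import Cfsg.Statements.S2583
import Cfsg.Agent.H53.OClass

set_option autoImplicit false
open Cfsg

namespace Cfsg.Agent.S2583

/-- Which unipotent Jordan types occur in a finite orthogonal group in odd characteristic: over a finite field of odd order, a unipotent matrix with Jordan block sizes d_1, …, d_t (sum n, all at least 1) is similar to an isometry of some quadratic form on F^n with non-degenerate polar form if and only if every even block size occurs an even number of times. -/
theorem result {F : Type*} [Field F] [Fintype F] (h2 : (2 : F) ≠ 0) {n t : ℕ} (d : Fin t → ℕ) (hd : ∀ k, 1 ≤ d k) (hsum : ∑ k, d k = n) : (∃ Q : QuadraticForm F (Fin n → F), (QuadraticMap.polarBilin Q).Nondegenerate ∧ ∃ e : ((k : Fin t) × Fin (d k)) ≃ Fin n, ∃ A : ↥(Cfsg.isometryGroup F ⇑Q), IsConj (Matrix.reindex e e (Cfsg.jordanTypeMatrix d F)) ((A : Matrix.GeneralLinearGroup (Fin n) F) : Matrix (Fin n) (Fin n) F)) ↔ ∀ j : ℕ, Even j → 0 < j → Even (Finset.univ.filter (fun k : Fin t => d k = j)).card := by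
  have h1 : ∀ j, (Finset.univ.filter (fun k : Fin t => d k = j)).card =
      (Finset.univ.val.map d).count j := fun j => by
    rw [Multiset.count_map, Finset.card_def, Finset.filter_val]
    simp only [eq_comm]
  simp only [h1, H53.isConj_iff_med_eq, H53.med_reindex]
  rw [← H53.real_symm_unip_iff h2 (fun k hk => by
    obtain ⟨i, -, rfl⟩ := Multiset.mem_map.1 hk
    exact hd i), ← H53.med_jordanTypeMatrix hd]
  constructor
  · rintro ⟨Q, hQ, -, A, hA⟩
    rw [hA]
    exact (H53.realQ_med_O rfl hQ A).real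
  · intro h
    obtain ⟨e⟩ : Nonempty (((k : Fin t) × Fin (d k)) ≃ Fin n) := Fintype.card_eq.1 (by simp [hsum])
    rw [← H53.med_reindex e] at h
    obtain ⟨ε, h3⟩ := h.exists_realQ_of_two_ne h2
    obtain ⟨Q, h4, h5, -⟩ := h3.exists_form
    obtain ⟨g, hg⟩ := H53.exists_gl_toLin'_eq (h5.isUnit h4)
    exact ⟨Q, h4, e, ⟨g, (H53.mem_O_iff rfl g).2 (hg ▸ h5)⟩,
      (H53.med_reindex e _).symm.trans (congrArg H53.ed hg.symm)⟩

end Cfsg.Agent.S2583
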