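import Cfsg.Statements.S2586
import Cfsg.Agent.H53.MatED

set_option autoImplicit false
open Cfsg

namespace Cfsg.Agent.S2586

/-- Over a finite field, every element of the symplectic group Sp_2m(F) is conjugate by an invertible matrix to its inverse. -/
theorem result {F : Type*} [Field F] [Finite F] {m : ℕ} (A : Matrix.symplecticGroup (Fin m) F) : IsConj (A : Matrix (Fin m ⊕ Fin m) (Fin m ⊕ Fin m) F) ((A⁻¹ : Matrix.symplecticGroup (Fin m) F) : Matrix (Fin m ⊕ Fin m) (Fin m ⊕ Fin m) F) := by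
  have h1 := H53.isConj_transpose (A : Matrix (Fin m ⊕ Fin m) (Fin m ⊕ Fin m) F)
  refine h1.trans ?_
  have hJ : IsUnit (Matrix.J (Fin m) F) := by
    rw [Matrix.isUnit_iff_isUnit_det]; exact Matrix.isUnit_det_J _ _
  refine ⟨hJ.unit, ?_⟩
  show Matrix.J (Fin m) F * _ = _ * Matrix.J (Fin m) F
  have h2 : (A : Matrix (Fin m ⊕ Fin m) (Fin m ⊕ Fin m) F) * Matrix.J (Fin m) F *
    (A : Matrix (Fin m ⊕ Fin m) (Fin m ⊕ Fin m) F).transpose = Matrix.J (Fin m) F := A.2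
  have h3 : ((A⁻¹ : Matrix.symplecticGroup (Fin m) F) : Matrix (Fin m ⊕ Fin m) (Fin m ⊕ Fin m) F)
      * (A : Matrix (Fin m ⊕ Fin m) (Fin m ⊕ Fin m) F) = 1 := by
    rw [← Submonoid.coe_mul, inv_mul_cancel]; rfl
  conv_rhs => rw [← h2, ← Matrix.mul_assoc, ← Matrix.mul_assoc, h3, Matrix.one_mul]

end Cfsg.Agent.S2586
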