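import Cfsg.Statements.S2588
import Cfsg.Agent.H53.GUClass

set_option autoImplicit false
open Cfsg

namespace Cfsg.Agent.S2588

/-- An invertible matrix A over the field with q² elements is conjugate in GL_n(q²) to an element of the general unitary group GU_n(q) (isometries of the Hermitian form Σ u_i v_i^q) if and only if A is similar to the inverse transpose of its entrywise q-th power (A ~ A^(−qT), the image of A under the map sending a matrix to the inverse transpose of its entrywise q-th power — inverse transpose composed with the field automorphism — whose fixed points form GU_n(q)). -/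
theorem result {K : Type*} [Field K] [Fintype K] {q n : ℕ} (hK : Fintype.card K = q ^ 2) (A : GL (Fin n) K) : (∃ B : ↥(Cfsg.GU n K q), IsConj A (B : GL (Fin n) K)) ↔ IsConj (A : Matrix (Fin n) (Fin n) K) (((A : Matrix (Fin n) (Fin n) K).map (fun x : K => x ^ q)).transpose)⁻¹ := by
  have h1 := H53.med_dual (H59.frob_frob hK) A.isUnit
  rw [H53.isConj_iff_med_eq]
  change _ ↔ _ = H53.med (((A : Matrix (Fin n) (Fin n) K).map (H59.frob hK)).transpose)⁻¹
  rw [h1]
  constructor
  · rintro ⟨B, hB⟩
    rw [(H53.isConj_gl_iff_med_eq _ _).1 hB, H53.map_pstar_med_GU hK]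
  · intro h
    obtain ⟨B, hB⟩ := H53.exists_GU_isConj hK A.isUnit h.symm
    exact ⟨B, (H53.isConj_units_iff _ _).2 hB⟩

end Cfsg.Agent.S2588
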