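import Cfsg.Statements.S2591
import Cfsg.Agent.H64.SpUni

set_option autoImplicit false
open Cfsg

namespace Cfsg.Agent.S2591

/-- Over a finite field of odd order and for m ≥ 1, the regular unipotent elements of Sp_2m(F) (u − 1 nilpotent of rank 2m − 1, a single Jordan block) form exactly two conjugacy classes of Sp_2m(F) (one class under the similarity group, which splits in two). -/
theorem result {F : Type*} [Field F] [Fintype F] {q : ℕ} (hF : Fintype.card F = q) (hq : Odd q) {m : ℕ} (hm : 1 ≤ m) : Nat.card {C : ConjClasses ↥(Matrix.symplecticGroup (Fin m) F) // ∃ u : Matrix.symplecticGroup (Fin m) F, ConjClasses.mk u = C ∧ ((u : Matrix (Fin m ⊕ Fin m) (Fin m ⊕ Fin m) F) - 1) ^ (2 * m) = 0 ∧ ((u : Matrix (Fin m ⊕ Fin m) (Fin m ⊕ Fin m) F) - 1).rank = 2 * m - 1} = 2 := by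
  have h2 : (2 : F) ≠ 0 := H64.SpU.two_ne_zero_of_odd (hF ▸ hq)
  have h := H64.SpU.card_classes (F := F) h2 (l := Fin m) (μ := {2 * m}) (by simp; omega) (by simp)
    (fun k hk => by
      rw [Multiset.count_eq_zero.2]
      · exact Even.zero
      · rw [Multiset.mem_singleton]
        rintro rfl
        exact Nat.not_even_iff_odd.2 hk (even_two_mul m))
  have hc : Fintype.card (Fin m ⊕ Fin m) = 2 * m := by simp [two_mul]
  rw [show (({2 * m} : Multiset ℕ).toFinset.filter fun j => Even j) = {2 * m} by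
    ext; simp +contextual, Finset.card_singleton, pow_one] at h
  refine (Nat.card_congr (Equiv.subtypeEquivRight fun C => exists_congr fun u =>
    and_congr_right fun _ => ⟨fun ⟨h1, h3⟩ => ⟨⟨_, h1⟩, ?_⟩, fun ⟨h1, h3⟩ => ⟨?_, ?_⟩⟩)).trans h
  · rw [← hc]; exact H53.mjt_eq_singleton ⟨_, h1⟩ (by omega) (hc ▸ h3)
  · rw [H53.sub_one_pow_eq_zero_iff_mjt h1, h3]; simp
  · have := H53.rank_sub_one_add_card h1
    rw [h3, hc, Multiset.card_singleton] at this
    omega

end Cfsg.Agent.S2591
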