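import Cfsg.Statements.S2592
import Cfsg.Agent.Base
import Cfsg.Agent.H62.UniCent2

set_option autoImplicit false
open Cfsg

namespace Cfsg.Agent.S2592

open Matrix Module H62.UC H53

theorem card_reg {F V : Type*} [Field F] [Finite F] [AddCommGroup V] [Module F V]
    [FiniteDimensional F V] {B : V →ₗ[F] V →ₗ[F] F} (hB : IsSF (σ := RingHom.id F) (-1) B)
    (h2 : (2 : F) ≠ 0) {u : End F V} (hu : H53.Inv B u) {m : ℕ} {e : Fin 1 → V}
    {b : Basis (Σ _ : Fin 1, Fin (2 * m)) F V} (h : JB (u - 1) (fun _ => 2 * m) e b) :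
    Nat.card {x : Cen (u - 1) // H53.Inv B x.1} = 2 * Nat.card F ^ m := by
  haveI : Finite V := Module.finite_of_finite F
  haveI : Finite (End F V) := Module.finite_of_finite F
  have hV : finrank F V = 2 * m := by simp [finrank_eq_card_basis b]
  have hN : (u - 1) ^ (2 * m) = 0 := by simpa using h.pow_sup
  let ev : Cen (u - 1) ≃ₗ[F] V := LinearEquiv.ofBijective
    (LinearMap.applyₗ (e 0) ∘ₗ (Cen (u - 1)).val.toLinearMap)
    ⟨fun x y H => h.cen_ext fun k => by rw [Subsingleton.elim k 0]; exact H, fun v => by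
      obtain ⟨g, hg⟩ := h.exists_cen (w := fun _ => v) fun _ => by rw [hN]; rfl
      exact ⟨g, hg 0⟩⟩
  have hev : ∀ x, ev x = x.1 (e 0) := fun _ => rfl
  let n : Cen (u - 1) := ⟨u - 1, mem_cen.2 (Commute.refl _)⟩
  have comm : ∀ x y : Cen (u - 1), x * y = y * x := fun x y =>
    LinearMap.congr_fun ((b.map ev.symm).ext (f₁ := LinearMap.mulLeft F x)
      (f₂ := LinearMap.mulRight F x) fun p => by
        have : b.map ev.symm p = n ^ (p.2 : ℕ) := ev.injective (by
          rw [Basis.map_apply, ev.apply_symm_apply, h.eq, Subsingleton.elim p.1 0]; rfl)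
        rw [this]
        exact Subtype.ext ((mem_cen.1 x.2).pow_left _).eq.symm) y
  let χ : Cen (u - 1) →ₗ[F] F := LinearMap.proj 0 ∘ₗ h.tau ∘ₗ ev.toLinearMap
  have χ1 : χ 1 = 1 := by
    change h.tau (e 0) 0 = 1
    rw [h.tau_e, Pi.single_eq_same]
  have χn : ∀ y, χ (n * y) = 0 := fun y => congrFun (h.tau_N _) 0
  have dec : ∀ x, ∃ y, x = χ x • 1 + n * y := fun x => by
    obtain ⟨w, hw⟩ := h.exists_dec (ev x)
    obtain ⟨y, rfl⟩ := ev.surjective w
    exact ⟨y, ev.injective (by rw [hw, Fin.sum_univ_one, map_add, map_smul]; rfl)⟩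
  set s := cadj hB hu
  have sn : ∀ y, χ (s (n * y)) = 0 := fun y => by
    have : s n = -s ⟨u, mem_cen.2 ((Commute.refl u).sub_left (Commute.one_left _))⟩ * n :=
      Subtype.ext ((isAdj_cadj hB hu n).unique hB (by
        have := isAdj_pow hB hu 1
        rwa [pow_one, pow_one] at this))
    rw [cadj_mul, this, ← mul_assoc, comm, χn]
  have χs : ∀ x, χ (s x * x - 1) = χ x ^ 2 - 1 := fun x => by
    obtain ⟨y, hy⟩ := dec x
    have : χ (s x) = χ x := by
      conv_lhs => rw [hy, map_add, map_add, sn, map_smul, cadj_one, map_smul, χ1]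
      simp
    have h3 : s x * x = χ x • s x + n * (y * s x) := by
      conv_lhs => rw [comm]; congr; rw [hy]
      rw [add_mul, mul_assoc, smul_mul_assoc, one_mul]
    rw [h3, map_sub, map_add, χn, map_smul, this, χ1]
    simp [sq]
  have su : Function.Surjective χ := fun c => ⟨c • 1, by simp [χ1]⟩
  have c1 := card_norm s (cadj_one hB hu) (cadj_mul hB hu) (cadj_cadj hB hu) (θ := 2⁻¹)
    (by simp [← two_mul, h2]) (J := LinearMap.ker χ) (fun j hj a => by
      obtain ⟨y, hy⟩ := dec j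
      rw [hy, LinearMap.mem_ker.1 hj, zero_smul, zero_add, mul_assoc]
      exact χn _) fun j hj => by
      obtain ⟨y, hy⟩ := dec j
      rw [hy, LinearMap.mem_ker.1 hj, zero_smul, zero_add]
      exact ⟨2 * m, by rw [Commute.mul_pow (comm _ _), show n ^ (2 * m) = 0 from Subtype.ext hN,
        zero_mul]⟩
  have c2 := card_preimage χ.toAddMonoidHom su fun c => c ^ 2 - 1 = 0
  have c3 := card_preimage χ.toAddMonoidHom su fun _ => True
  have c4 : Nat.card {c : F // c ^ 2 - 1 = 0} = 2 := Nat.card_eq_two_iff.2 ⟨⟨1, by simp⟩,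
    ⟨-1, by simp⟩, fun H => h2 (by linear_combination congrArg Subtype.val H), by
      ext ⟨c, hc⟩
      simpa [Subtype.ext_iff, sub_eq_zero] using hc⟩
  let H : Submodule F (Cen (u - 1)) := LinearMap.ker (s - LinearMap.id)
  have hH : ∀ x, x ∈ H ↔ s x = x := fun x => sub_eq_zero
  have c5 := card_preimage (A := H) (χ ∘ₗ H.subtype).toAddMonoidHom (fun c => ⟨⟨c • 1, (hH _).2 (by
    rw [map_smul, cadj_one])⟩, by simp [χ1]⟩) fun _ => True
  have iso : ∀ W : Submodule F (Cen (u - 1)), (∀ x ∈ W, ∀ y ∈ W, s (s x * y) = s x * y) →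
      finrank F W ≤ m := fun W hW => by
    have h1 := hB.finrank_add_finrank_perp (W.map ev.toLinearMap)
    have h3 : W.map ev.toLinearMap ≤ H59.perp B (W.map ev.toLinearMap) := by
      rintro _ ⟨y, hy, rfl⟩ _ ⟨x, hx, rfl⟩
      have h4 := isAdj_cadj hB hu (s x * y) (e 0) (e 0)
      rw [hW x hx y hy, hB.symm] at h4
      refine (isAdj_cadj hB hu x _ _).trans (mul_left_cancel₀ h2 ?_)
      change 2 * B (e 0) ((s x * y).1 (e 0)) = _
      simp only [RingHom.id_apply] at h4
      linear_combination -h4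
    have := Submodule.finrank_mono h3
    rw [LinearEquiv.finrank_map_eq] at h1 this
    omega
  have d1 := iso H fun x hx y hy => by
    rw [cadj_mul, cadj_cadj, (hH _).1 hx, (hH _).1 hy, comm]
  have hK : ∀ x, x ∈ LinearMap.ker (s + LinearMap.id) ↔ s x = -x := fun x => add_eq_zero_iff_eq_neg
  have d2 := iso (LinearMap.ker (s + LinearMap.id)) fun x hx y hy => by
    rw [cadj_mul, cadj_cadj, (hK _).1 hx, (hK _).1 hy, comm]
    exact (mul_neg x y).trans (neg_mul x y).symm
  have d3 := Submodule.finrank_add_le_finrank_add_finrank H (LinearMap.ker (s + LinearMap.id))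
  rw [show H ⊔ LinearMap.ker (s + LinearMap.id) = ⊤ from eq_top_iff.2 fun x _ => Submodule.mem_sup.2 ⟨(2⁻¹ : F) • (x + s x), (hH _).2 (by
    rw [map_smul, map_add, cadj_cadj, add_comm]), (2⁻¹ : F) • (x - s x), (hK _).2 (by
    rw [map_smul, map_sub, cadj_cadj, ← smul_neg, neg_sub]), by
    rw [← smul_add, add_add_sub_cancel, ← two_smul F, inv_smul_smul₀ h2]⟩, finrank_top,
    ev.finrank_eq, hV] at d3
  simp only [Nat.card_congr (Equiv.subtypeUnivEquiv fun _ => trivial)] at c3 c5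
  rw [Module.natCard_eq_pow_finrank (K := F), show finrank F H = m by omega] at c5
  rw [Module.natCard_eq_pow_finrank (K := F), ev.finrank_eq, hV] at c3
  have c6 : Nat.card {j : LinearMap.ker χ // s j = j} =
      Nat.card (LinearMap.ker (χ ∘ₗ H.subtype)) := Nat.card_congr
    ⟨fun j => ⟨⟨j.1.1, (hH _).2 j.2⟩, j.1.2⟩, fun j => ⟨⟨j.1.1, j.2⟩, (hH _).1 j.1.2⟩,
      fun _ => rfl, fun _ => rfl⟩
  change _ = _ * Nat.card (LinearMap.ker (χ ∘ₗ H.subtype)) at c5
  rw [Nat.card_congr (Equiv.subtypeEquivRight (q := fun x => χ x ^ 2 - 1 = 0) fun x => by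
    rw [LinearMap.mem_ker, χs]), c6] at c1
  rw [Nat.card_congr (Equiv.subtypeEquivRight (q := fun x => s x * x = 1) fun x =>
    (inv_iff_of_isAdj hB (isAdj_cadj hB hu x)).trans (by rw [Subtype.ext_iff]; rfl))]
  refine Nat.eq_of_mul_eq_mul_right (pow_pos (Nat.card_pos (α := F)) m) ?_
  rw [mul_assoc, ← pow_add, ← two_mul, c3, c5, mul_left_comm, ← c1, mul_left_comm 2]
  rw [c4] at c2
  exact congrArg _ c2


/-- Over a finite field with q elements, q odd, the centraliser in Sp_2m(F) (m ≥ 1) of a regular unipotent element (u − 1 nilpotent of rank 2m − 1) has order 2 q^m. -/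
theorem result {F : Type*} [Field F] [Fintype F] {q : ℕ} (hF : Fintype.card F = q) (hq : Odd q) {m : ℕ} (hm : 1 ≤ m) (u : Matrix.symplecticGroup (Fin m) F) (hnil : ((u : Matrix (Fin m ⊕ Fin m) (Fin m ⊕ Fin m) F) - 1) ^ (2 * m) = 0) (hreg : ((u : Matrix (Fin m ⊕ Fin m) (Fin m ⊕ Fin m) F) - 1).rank = 2 * m - 1) : Nat.card ↥(Subgroup.centralizer ({u} : Set ↥(Matrix.symplecticGroup (Fin m) F))) = 2 * q ^ m := by
  subst hF
  have h1 := mjt_eq_singleton ⟨_, hnil⟩ (by simp; omega) (by simpa [two_mul] using hreg)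
  obtain ⟨e, b, h⟩ := exists_jb_of_jt (d := fun _ : Fin 1 => 2 * m) (fun _ => by omega)
    ((isNilpotent_toLin'_sub_one _).2 ⟨_, hnil⟩) (h1.trans (by simp [two_mul]))
  have h2 : (2 : F) ≠ 0 := Ring.two_ne_zero fun H => by
    have := FiniteField.even_card_of_char_two H
    have := Nat.odd_iff.1 hq
    omega
  rw [← Nat.card_eq_fintype_card, ← card_reg (isSF_spB _ _) h2 (inv_sp u) h]
  refine Nat.card_congr (Equiv.ofBijective (fun g => ⟨⟨toLin' g.1.1, mem_cen.2
    (Commute.sub_left ((toLin'_mul_comm_iff _ _).2 (congrArg Subtype.val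
      (Subgroup.mem_centralizer_singleton_iff.1 g.2)).symm) (Commute.one_left _))⟩, inv_sp _⟩)
    ⟨fun g g' H => Subtype.ext (Subtype.ext (toLin'.injective (congrArg (fun x => x.1.1) H))),
      fun x => ?_⟩)
  obtain ⟨g, hg⟩ := exists_sp_toLin'_eq x.2
  refine ⟨⟨g, Subgroup.mem_centralizer_singleton_iff.2 (Subtype.ext
    ((toLin'_mul_comm_iff _ _).1 ?_))⟩, Subtype.ext (Subtype.ext hg)⟩
  have := (mem_cen.1 x.1.2).eq
  rwa [sub_mul, mul_sub, one_mul, mul_one, sub_left_inj, ← hg, eq_comm] at this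

end Cfsg.Agent.S2592
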