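import Cfsg.Statements.S2593
import Cfsg.Agent.Base
import Cfsg.Agent.H54.SpInvTwo
import Cfsg.Agent.H53.MatED

set_option autoImplicit false
open Cfsg

namespace Cfsg.Agent.S2593

/-- Number of conjugacy classes of involutions in the symplectic group Sp_2m(F) over a finite field of characteristic two (m ≥ 1): for each s with 1 ≤ s ≤ m there is one class with rank(t − 1) = s if s is odd and two if s is even (according as v ↦ f(v, tv), f the symplectic form, vanishes identically or not), so m + ⌊m/2⌋ classes in all. -/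
theorem result {F : Type*} [Field F] [Fintype F] [CharP F 2] {m : ℕ} (hm : 1 ≤ m) : Nat.card {C : ConjClasses ↥(Matrix.symplecticGroup (Fin m) F) // ∃ g : Matrix.symplecticGroup (Fin m) F, ConjClasses.mk g = C ∧ orderOf g = 2} = m + m / 2 := by
  classical
  rw [H53.card_conjClasses_eq_of_invariant (fun g => orderOf g = 2)
    (fun g : Matrix.symplecticGroup (Fin m) F =>
      (Module.finrank F (H54.spMov g), decide (H54.IsAltType g)))
    (fun g g' hg hg' => by
      rw [H54.isConj_iff_of_sq_eq_one (hg ▸ pow_orderOf_eq_one g) (hg' ▸ pow_orderOf_eq_one g'),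
        Prod.mk.injEq, decide_eq_decide])]
  have key : ∀ {g : Matrix.symplecticGroup (Fin m) F}, g ^ 2 = 1 →
      (orderOf g = 2 ↔ Module.finrank F (H54.spMov g) ≠ 0) := fun {g} h => by
    rw [Ne, Submodule.finrank_eq_zero, H54.spMov_eq_bot_iff]
    exact ⟨fun e h1 => by simp [h1] at e, orderOf_eq_prime h⟩
  have : m + m / 2 = Nat.card (Fin m ⊕ Fin (m / 2)) := by simp
  rw [this]
  symm
  refine Nat.card_eq_of_bijective (Sum.elim (fun i => ⟨(i + 1, false), ?_⟩)
    (fun i => ⟨(2 * (i + 1), true), ?_⟩)) ⟨?_, ?_⟩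
  · obtain ⟨g, h1, h2, h3⟩ := H54.exists_inv_not_alt (l := Fin m) (F := F) (s := i + 1) (by omega)
      (by simp)
    exact ⟨g, (key h1).2 (by omega), by simp [h2, h3]⟩
  · obtain ⟨g, h1, h2, h3⟩ := H54.exists_inv_alt (l := Fin m) (F := F) (k := i + 1)
      (by simp; omega)
    exact ⟨g, (key h1).2 (by omega), by simp [h2, h3]⟩
  · rintro (i | i) (j | j) h <;> simp at h ⊢ <;> omega
  · rintro ⟨_, g, hg, rfl⟩
    have h1 : g ^ 2 = 1 := hg ▸ pow_orderOf_eq_one g
    have h2 := (key h1).1 hg
    have h3 := (H54.sqZero_iff_sq.2 h1).finrank_le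
    rw [Fintype.card_fin] at h3
    by_cases hA : H54.IsAltType g
    · obtain ⟨k, hk⟩ := hA.even_finrank
      exact ⟨Sum.inr ⟨k - 1, by omega⟩, by simp [hA]; omega⟩
    · exact ⟨Sum.inl ⟨Module.finrank F (H54.spMov g) - 1, by omega⟩, by simp [hA]; omega⟩

end Cfsg.Agent.S2593
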