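import Cfsg.Statements.S2594
import Cfsg.Agent.Base
import Cfsg.Agent.H54.SpInvTwo

set_option autoImplicit false
open Cfsg

namespace Cfsg.Agent.S2594

/-- Over a finite field with q elements, q even, an element t of Sp_2m(F) with rank(t − 1) = 1 (a symplectic transvection) has centraliser in Sp_2m(F) of order q^(2m−1) · |Sp_(2m−2)(q)| = q^(2m−1) · q^((m−1)²) · Π_(i=1)^(m−1) (q^(2i) − 1). -/
theorem result {F : Type*} [Field F] [Fintype F] [CharP F 2] {q : ℕ} (hF : Fintype.card F = q) {m : ℕ} (hm : 1 ≤ m) (t : Matrix.symplecticGroup (Fin m) F) (ht : ((t : Matrix (Fin m ⊕ Fin m) (Fin m ⊕ Fin m) F) - 1).rank = 1) : Nat.card ↥(Subgroup.centralizer ({t} : Set ↥(Matrix.symplecticGroup (Fin m) F))) = q ^ (2 * m - 1) * (q ^ ((m - 1) ^ 2) * ∏ i : Fin (m - 1), (q ^ (2 * ((i : ℕ) + 1)) - 1)) := by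
  rw [H54.rank_sub_one] at ht
  have h0 : H54.SqZero t := fun u hu w hw => by
    obtain ⟨v, -, hv⟩ := finrank_eq_one_iff'.1 ht
    obtain ⟨a, ha⟩ := hv ⟨u, hu⟩
    obtain ⟨b, hb⟩ := hv ⟨w, hw⟩
    rw [show u = a • (v : Fin m ⊕ Fin m → F) from (congrArg Subtype.val ha).symm,
      show w = b • (v : Fin m ⊕ Fin m → F) from (congrArg Subtype.val hb).symm]
    simp [H54.spB_self]
  rw [H54.card_centralizer_inv_odd (k := 0) (H54.sqZero_iff_sq.1 h0) ht, Nat.card_eq_fintype_card,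
    hF, Fintype.card_fin, ← H54.spOrder_eq_fin, H54.spOrder_zero, mul_one]
  congr 2
  omega

end Cfsg.Agent.S2594
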