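import Cfsg.Statements.S2599
import Cfsg.Agent.H58.ElCh2

set_option autoImplicit false
open Cfsg

namespace Cfsg.Agent.S2599

/-- An irreducible invariant subspace of a semisimple isometry is non-degenerate or totally singular: let Q be a quadratic form on F^n (F finite of characteristic p) with non-degenerate polar form f, x an isometry of Q of order prime to p, and U a non-zero x-invariant subspace containing no x-invariant subspace other than 0 and U. Then U meets its f-orthogonal trivially, or Q vanishes on U, or p = 2, U is a line spanned by a non-singular vector and x fixes U pointwise. -/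
theorem result {F : Type*} [Field F] [Fintype F] {p : ℕ} [Fact p.Prime] [CharP F p] {n : ℕ} (Q : QuadraticForm F (Fin n → F)) (hQ : (QuadraticMap.polarBilin Q).Nondegenerate) (x : ↥(Cfsg.isometryGroup F ⇑Q)) (hx : (orderOf x).Coprime p) (U : Submodule F (Fin n → F)) (hU0 : U ≠ ⊥) (hUx : ∀ u ∈ U, ((x : Matrix.GeneralLinearGroup (Fin n) F) : Matrix (Fin n) (Fin n) F).mulVec u ∈ U) (hirr : ∀ W : Submodule F (Fin n → F), W ≤ U → (∀ w ∈ W, ((x : Matrix.GeneralLinearGroup (Fin n) F) : Matrix (Fin n) (Fin n) F).mulVec w ∈ W) → W = ⊥ ∨ W = U) : U ⊓ LinearMap.BilinForm.orthogonal (QuadraticMap.polarBilin Q) U = ⊥ ∨ (∀ u ∈ U, Q u = 0) ∨ (p = 2 ∧ Module.finrank F U = 1 ∧ (∃ u ∈ U, Q u ≠ 0) ∧ ∀ u ∈ U, ((x : Matrix.GeneralLinearGroup (Fin n) F) : Matrix (Fin n) (Fin n) F).mulVec u = u) := by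
  have hQx : ∀ v, Q (Matrix.toLin' (x.1 : Matrix (Fin n) (Fin n) F) v) = Q v := fun v => x.2 v v
  have hB := H53.isSF_polar hQ
  have hf : H53.Inv Q.polarBilin (Matrix.toLin' (x.1 : Matrix (Fin n) (Fin n) F)) := fun v w => by
    simp only [QuadraticMap.polarBilin_apply_apply, QuadraticMap.polar, ← map_add, hQx]
  refine (hirr (U ⊓ H59.perp Q.polarBilin U) inf_le_left fun w hw =>
    ⟨hUx w hw.1, hf.perp_mapsTo hB hUx w hw.2⟩).imp_right fun e => or_iff_not_imp_left.2 fun h => ?_
  have h1 : ∀ u ∈ U, ∀ v ∈ U, Q (u + v) = Q u + Q v := fun u hu v hv => by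
    have := (e.ge hv).2 u hu
    rw [QuadraticMap.polarBilin_apply_apply, QuadraticMap.polar, sub_sub, sub_eq_zero] at this
    exact this
  push Not at h
  obtain ⟨u, hu, h0⟩ := h
  have h2 : (2 : F) = 0 := by
    have := h1 u hu u hu
    rw [← two_smul F, QuadraticMap.map_smul, smul_eq_mul] at this
    by_contra h2
    exact h0 (mul_left_cancel₀ h2 (by linear_combination this))
  have h3 : ∀ v ∈ U, ∀ w ∈ U, Q v = Q w → v = w := fun v hv w hw e => by
    let K : Submodule F (Fin n → F) :=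
      { carrier := {v | v ∈ U ∧ Q v = 0}
        zero_mem' := ⟨U.zero_mem, map_zero Q⟩
        add_mem' := fun ha hb => ⟨U.add_mem ha.1 hb.1, by rw [h1 _ ha.1 _ hb.1, ha.2, hb.2, add_zero]⟩
        smul_mem' := fun c _ ha => ⟨U.smul_mem c ha.1, by rw [QuadraticMap.map_smul, ha.2, smul_zero]⟩ }
    rcases hirr K (fun _ e => e.1) fun w hw => ⟨hUx w hw.1, (hQx w).trans hw.2⟩ with h | h
    · refine sub_eq_zero.1 (h.le ⟨U.sub_mem hv hw, ?_⟩)
      rw [sub_eq_add_neg, h1 v hv _ (U.neg_mem hw), QuadraticMap.map_neg, e, ← two_mul, h2, zero_mul]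
    · exact (h0 (h.ge hu).2).elim
  refine ⟨((Nat.prime_dvd_prime_iff_eq Fact.out Nat.prime_two).1 ((CharP.cast_eq_zero_iff F p 2).1
    (by simpa using h2))), ?_, ⟨u, hu, h0⟩, fun v hv => h3 _ (hUx v hv) v hv (hQx v)⟩
  suffices e : U = F ∙ u by rw [e, finrank_span_singleton (by rintro rfl; simp at h0)]
  refine le_antisymm (fun v hv => ?_) ((Submodule.span_singleton_le_iff_mem _ _).2 hu)
  obtain ⟨c, hc⟩ := H58.exists_mul_self_eq h2 (Q v / Q u)
  exact Submodule.mem_span_singleton.2 ⟨c, h3 _ (U.smul_mem c hu) v hv (by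
    rw [QuadraticMap.map_smul, hc, smul_eq_mul, div_mul_cancel₀ _ h0])⟩

end Cfsg.Agent.S2599
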