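import Cfsg.Statements.S2609
import Cfsg.Agent.H56.OmegaFin

set_option autoImplicit false
open Cfsg

namespace Cfsg.Agent.S2609

/-- Spinor norm criterion for Ω over a finite field of odd order: let Q be a quadratic form on F^n, n ≥ 2, with non-degenerate polar form, and let g be an isometry written as a product of reflections in non-singular vectors v_1, …, v_k. Then g lies in Ω (the commutator subgroup of the orthogonal group) if and only if k is even and Q(v_1)⋯Q(v_k) is a square; in particular, for g of determinant one, whether that product is a square does not depend on the chosen factorisation (it is the spinor norm of g). -/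
theorem result {F : Type*} [Field F] [Fintype F] (h2 : (2 : F) ≠ 0) {n : ℕ} (hn : 2 ≤ n) (Q : QuadraticForm F (Fin n → F)) (hQ : (QuadraticMap.polarBilin Q).Nondegenerate) (g : ↥(Cfsg.isometryGroup F ⇑Q)) (vs : List (Fin n → F)) (hvs : ∀ v ∈ vs, Q v ≠ 0) (hg : ((g : Matrix.GeneralLinearGroup (Fin n) F) : Matrix (Fin n) (Fin n) F) = (vs.map (fun v => Cfsg.reflectionMatrix ⇑Q v)).prod) : g ∈ Cfsg.Omega F ⇑Q ↔ (Even vs.length ∧ IsSquare (vs.map (fun v => Q v)).prod) := by
  have key : ∀ vs : List (Fin n → F), (∀ v ∈ vs, Q v ≠ 0) →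
      ∃ k : H56.O Q, (∀ x, ((vs.map (fun v => Cfsg.reflectionMatrix ⇑Q v)).prod).mulVec x = k x) ∧
        H56.dickson hQ k = (-1) ^ vs.length ∧ (vs.map (fun v => Q v)).prod ≠ 0 ∧
        H56.spinor hQ k = H56.sqcl (vs.map (fun v => Q v)).prod := by
    intro vs
    induction vs with
    | nil => exact fun _ => ⟨1, fun x => by simp, by simp, by simp, by simp⟩
    | cons v vs ih =>
      intro h
      obtain ⟨k, h1, h3, h4, h5⟩ := ih fun w hw => h w (List.mem_cons_of_mem _ hw)
      have hv := h v List.mem_cons_self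
      refine ⟨H56.refl Q v * k, fun x => ?_, ?_, ?_, ?_⟩
      · rw [List.map_cons, List.prod_cons, ← Matrix.mulVec_mulVec, h1,
          H56.reflectionMatrix_mulVec, H56.O.mul_apply]
      · rw [map_mul, H56.dickson_refl hQ hv, h3, List.length_cons, pow_succ']
      · rw [List.map_cons, List.prod_cons]; exact mul_ne_zero hv h4
      · rw [map_mul, H56.spinor_refl, h5, List.map_cons, List.prod_cons, H56.sqcl_mul hv h4]
  obtain ⟨k, h1, h3, -, h5⟩ := key vs hvs
  rw [H56.mem_Omega_iff Q rfl, (H56.coe_eq_iff_toO Q rfl h1).1 hg,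
    H56.mem_commutator_iff hQ (H56.not_isExc_of_two_ne h2), h3, h5, H56.sqcl_eq_one_iff',
    neg_one_pow_eq_one_iff_even (by decide)]

end Cfsg.Agent.S2609
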