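import Cfsg.Statements.S2611
import Cfsg.Agent.H58.Diag
import Cfsg.Agent.H56.OmegaGen

set_option autoImplicit false
open Cfsg

namespace Cfsg.Agent.S2611

open H56 H58 QuadraticMap Matrix in
theorem exists_levi {F : Type*} [Field F] {m : ℕ} (hE : ¬ IsExc (qPlus m F))
    (M : Matrix (Fin m) (Fin m) F) (hM : M.det ≠ 0) :
    ∃ k : O (qPlus m F), (∀ v, (Matrix.fromBlocks M 0 0 (M⁻¹)ᵀ) *ᵥ v = k v) ∧
      dickson (qPlus_nondeg m F) k = 1 ∧ spinor (qPlus_nondeg m F) k = sqcl M.det := by
  refine Matrix.diagonal_transvection_induction_of_det_ne_zero (fun M =>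
    ∃ k : O (qPlus m F), (∀ v, (Matrix.fromBlocks M 0 0 (M⁻¹)ᵀ) *ᵥ v = k v) ∧
      dickson (qPlus_nondeg m F) k = 1 ∧ spinor (qPlus_nondeg m F) k = sqcl M.det) M hM ?_ ?_ ?_
  · intro D hD
    rw [Matrix.det_diagonal, Finset.prod_ne_zero_iff] at hD
    have hD' : ∀ i, D i ≠ 0 := fun i => hD i (Finset.mem_univ i)
    refine ⟨dgO m F fun i => Units.mk0 (D i) (hD' i), fun v => ?_, dickson_dgO _, ?_⟩
    · have : (Matrix.diagonal D)⁻¹ = Matrix.diagonal fun i => (D i)⁻¹ :=
        Matrix.inv_eq_right_inv (by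
          rw [Matrix.diagonal_mul_diagonal, ← Matrix.diagonal_one]
          congr 1
          ext i
          exact mul_inv_cancel₀ (hD' i))
      rw [this, dgO_apply]
      ext (i | i)
      · simp [dg_apply_inl, Matrix.fromBlocks_mulVec, Matrix.mulVec_diagonal]
      · simp [dg_apply_inr, Matrix.fromBlocks_mulVec, Matrix.mulVec_diagonal]
    · rw [spinor_dgO, Matrix.det_diagonal]
      simp
  · rintro ⟨i, j, hij, c⟩
    refine ⟨eich _ (Pi.single (Sum.inl i) 1) (c • Pi.single (Sum.inr j) 1), fun v => ?_,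
      dickson_eich _ hE _ _, ?_⟩
    · have : (Matrix.transvection i j c)⁻¹ = Matrix.transvection i j (-c) :=
        Matrix.inv_eq_right_inv (by
          rw [Matrix.transvection_mul_transvection_same _ _ hij, add_neg_cancel,
            Matrix.transvection_zero])
      rw [Matrix.TransvectionStruct.toMatrix_mk, this, eich_apply (isHyp_single i).qe
        (by rw [polar_smul_right, polar_qPlus_single_inr]; simp [hij.symm]),
        polar_smul_left, polar_comm _ _ v, polar_comm _ _ v, polar_qPlus_single_inl,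
        polar_qPlus_single_inr, H56.Q_smul, (isHyp_single j).qf]
      ext (k | k)
      · by_cases hk : k = i
        · subst hk
          simp [Matrix.fromBlocks_mulVec, Matrix.transvection, Matrix.add_mulVec,
            Matrix.single_mulVec]
        · simp [Matrix.fromBlocks_mulVec, Matrix.transvection, Matrix.add_mulVec,
            Matrix.single_mulVec, hk]
      · by_cases hk : k = j
        · subst hk
          simp [Matrix.fromBlocks_mulVec, Matrix.transvection, Matrix.add_mulVec,
            Matrix.single_mulVec, Matrix.transpose_single]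
          ring
        · simp [Matrix.fromBlocks_mulVec, Matrix.transvection, Matrix.add_mulVec,
            Matrix.single_mulVec, Matrix.transpose_single, hk]
    · rw [spinor_eich _ hE, Matrix.TransvectionStruct.det, sqcl_one]
  · intro A B hA hB ihA ihB
    obtain ⟨k, h1, h2, h3⟩ := ihA
    obtain ⟨l, h4, h5, h6⟩ := ihB
    refine ⟨k * l, fun v => ?_, by rw [map_mul, h2, h5, one_mul], ?_⟩
    · rw [O.mul_apply, ← h4, ← h1, Matrix.mulVec_mulVec, Matrix.fromBlocks_multiply,
        Matrix.mul_inv_rev, Matrix.transpose_mul]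
      simp
    · rw [map_mul, h3, h6, Matrix.det_mul, sqcl_mul hA hB]


/-- For the hyperbolic quadratic form Σ x_i y_i on F^(2m) (F finite, m ≥ 1, excluding m = 2 over the field of two elements) and an invertible m × m matrix A, the block-diagonal isometry diag(A, (A⁻¹)ᵀ), which stabilises the two maximal totally singular subspaces x = 0 and y = 0, lies in Ω⁺_2m(F) (the commutator subgroup of the orthogonal group) if and only if det A is a square in F. -/
theorem result {F : Type*} [Field F] [Fintype F] {m : ℕ} (hm : 1 ≤ m) (h : Fintype.card F ≠ 2 ∨ m ≠ 2) (A : GL (Fin m) F) : (∃ g : ↥(Cfsg.isometryGroup F (Cfsg.quadFormPlus m F)), g ∈ Cfsg.Omega F (Cfsg.quadFormPlus m F) ∧ ((g : Matrix.GeneralLinearGroup (Fin m ⊕ Fin m) F) : Matrix (Fin m ⊕ Fin m) (Fin m ⊕ Fin m) F) = Matrix.fromBlocks (A : Matrix (Fin m) (Fin m) F) 0 0 ((A : Matrix (Fin m) (Fin m) F)⁻¹).transpose) ↔ IsSquare (A : Matrix (Fin m) (Fin m) F).det := by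
  have hE : ¬ H56.IsExc (H58.qPlus m F) := H56.not_isExc_of_card (h.imp id fun h => by
    simp only [Module.finrank_fintype_fun_eq_card, Fintype.card_sum, Fintype.card_fin]; omega)
  have hA : (A : Matrix (Fin m) (Fin m) F).det ≠ 0 := A.det_ne_zero
  obtain ⟨k, h1, h2, h3⟩ := exists_levi hE _ hA
  rw [← H56.sqcl_eq_one_iff', ← h3]
  constructor
  · rintro ⟨g, hg, e⟩
    rw [H56.mem_Omega_iff _ (H58.coe_qPlus m F),
      (H56.coe_eq_iff_toO _ (H58.coe_qPlus m F) h1).1 e,
      H56.mem_commutator_iff (H58.qPlus_nondeg m F) hE] at hg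
    exact hg.2
  · intro hs
    refine ⟨(H56.toO _ (H58.coe_qPlus m F)).symm k, ?_,
      (H56.coe_eq_iff_toO _ (H58.coe_qPlus m F) h1).2 (MulEquiv.apply_symm_apply _ _)⟩
    rw [H56.mem_Omega_iff _ (H58.coe_qPlus m F), MulEquiv.apply_symm_apply,
      H56.mem_commutator_iff (H58.qPlus_nondeg m F) hE]
    exact ⟨h2, hs⟩

end Cfsg.Agent.S2611
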