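import Cfsg.Statements.S2612
import Cfsg.Agent.H58.Diag

set_option autoImplicit false
open Cfsg

namespace Cfsg.Agent.S2612

open H56 H58 QuadraticMap Module in
theorem dickson_swap {F : Type*} [Field F] {m : ℕ} (hE : ¬ IsExc (qPlus m F))
    (k : O (qPlus m F))
    (hk : ∀ v : Fin m ⊕ Fin m → F, (∀ i, v (Sum.inr i) = 0) → ∀ i, k v (Sum.inl i) = 0) :
    dickson (qPlus_nondeg m F) k = 1 ↔ Even m := by
  have hf := frame_qPlus F m
  have hU : ∀ u ∈ Submodule.span F (Set.range fun i : Fin m =>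
      (Pi.single (Sum.inl i) 1 : Fin m ⊕ Fin m → F)), ∀ i, u (Sum.inr i) = 0 := fun u hu i => by
    induction hu using Submodule.span_induction with
    | mem x hx => obtain ⟨j, rfl⟩ := hx; simp
    | zero => rfl
    | add x y _ _ hx hy => simp [hx, hy]
    | smul a x _ hx => simp [hx]
  rw [dickson_eq_one_iff_parity _ hE (by rw [hf.finrank_span_e]; simp [two_mul]) hf.singular_span_e,
    hf.finrank_span_e]
  have : Submodule.span F (Set.range fun i : Fin m =>
      (Pi.single (Sum.inl i) 1 : Fin m ⊕ Fin m → F)) ⊓ (Submodule.span F (Set.range fun i : Fin m =>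
      (Pi.single (Sum.inl i) 1 : Fin m ⊕ Fin m → F))).map k.lin = ⊥ := by
    rw [eq_bot_iff]
    rintro _ ⟨h1, u, hu, rfl⟩
    ext (i | i)
    · exact hk u (hU u hu) i
    · exact hU _ h1 i
  rw [this, finrank_bot, add_zero]


/-- For the hyperbolic quadratic form Σ x_i y_i on F^(2m) (F finite, m ≥ 1, excluding m = 2 over the field of two elements), Ω⁺_2m(F) (the commutator subgroup of the orthogonal group) contains an element interchanging the two complementary maximal totally singular subspaces {y = 0} and {x = 0} if and only if m is even (dimension divisible by 4). -/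
theorem result {F : Type*} [Field F] [Fintype F] {m : ℕ} (hm : 1 ≤ m) (h : Fintype.card F ≠ 2 ∨ m ≠ 2) : (∃ g : ↥(Cfsg.isometryGroup F (Cfsg.quadFormPlus m F)), g ∈ Cfsg.Omega F (Cfsg.quadFormPlus m F) ∧ (∀ v : Fin m ⊕ Fin m → F, (∀ i, v (Sum.inr i) = 0) → ∀ i, (((g : Matrix.GeneralLinearGroup (Fin m ⊕ Fin m) F) : Matrix (Fin m ⊕ Fin m) (Fin m ⊕ Fin m) F).mulVec v) (Sum.inl i) = 0) ∧ (∀ v : Fin m ⊕ Fin m → F, (∀ i, v (Sum.inl i) = 0) → ∀ i, (((g : Matrix.GeneralLinearGroup (Fin m ⊕ Fin m) F) : Matrix (Fin m ⊕ Fin m) (Fin m ⊕ Fin m) F).mulVec v) (Sum.inr i) = 0)) ↔ Even m := by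
  have hE : ¬ H56.IsExc (H58.qPlus m F) := H56.not_isExc_of_card (h.imp id fun h => by
    simp only [Module.finrank_fintype_fun_eq_card, Fintype.card_sum, Fintype.card_fin]; omega)
  have hQ := H58.qPlus_nondeg m F
  constructor
  · rintro ⟨g, hg, h1, -⟩
    rw [H56.mem_Omega_iff _ (H58.coe_qPlus m F), H56.mem_commutator_iff hQ hE] at hg
    exact (dickson_swap hE _ h1).1 hg.1
  · intro hev
    let s : H56.O (H58.qPlus m F) := ⟨LinearEquiv.funCongrLeft F F (Equiv.sumComm _ _), fun v => by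
      simp [H58.qPlus_apply, LinearEquiv.funCongrLeft, LinearMap.funLeft_apply, mul_comm]⟩
    have hs1 : ∀ v i, s v (Sum.inl i) = v (Sum.inr i) := fun _ _ => rfl
    have hs2 : ∀ v i, s v (Sum.inr i) = v (Sum.inl i) := fun _ _ => rfl
    obtain ⟨t, ht, hts⟩ := H56.sqcl_surjective (H56.spinor hQ s)
    let k := H58.dgO m F (Pi.mulSingle ⟨0, hm⟩ (Units.mk0 t ht)) * s
    refine ⟨(H56.toO _ (H58.coe_qPlus m F)).symm k, ?_, fun v hv i => ?_, fun v hv i => ?_⟩
    · rw [H56.mem_Omega_iff _ (H58.coe_qPlus m F), MulEquiv.apply_symm_apply,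
        H56.mem_commutator_iff hQ hE, map_mul, map_mul, H58.dickson_dgO, H58.spinor_dgO,
        (dickson_swap hE s fun v hv i => by rw [hs1, hv]).2 hev, Finset.prod_pi_mulSingle', ← hts]
      simp
    · rw [H56.toO_symm_mulVec, H56.O.mul_apply, H58.dgO_apply, H58.dg_apply_inl, hs1, hv, mul_zero]
    · rw [H56.toO_symm_mulVec, H56.O.mul_apply, H58.dgO_apply, H58.dg_apply_inr, hs2, hv, mul_zero]

end Cfsg.Agent.S2612
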