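import Cfsg.Statements.S2613
import Cfsg.Agent.Base
import Cfsg.Agent.H55.OSum
import Cfsg.Agent.H58.Diag
import Cfsg.Agent.H56.OrthStd

set_option autoImplicit false
open Cfsg

namespace Cfsg.Agent.S2613

open H55 H56 H58 Module

/-- The signs negating the first `i` hyperbolic pairs. -/
def sg (F : Type*) [Field F] (m i : ℕ) : Fin m → Fˣ := fun j => if (j : ℕ) < i then -1 else 1

theorem prod_sg (F : Type*) [Field F] {m i : ℕ} (him : i ≤ m) :
    ((∏ j, sg F m i j : Fˣ) : F) = (-1) ^ i := by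
  have : (Finset.univ.filter fun j : Fin m => (j : ℕ) < i).card = i := by
    rw [Fin.card_filter_val_lt]; omega
  simp [sg, Finset.prod_ite, this]

theorem diag_mulVec (F : Type*) [Field F] (m i : ℕ) (v : Fin m ⊕ Fin m → F) :
    (Matrix.diagonal (fun k : Fin m ⊕ Fin m => if (Sum.elim (fun j : Fin m => (j : ℕ))
      (fun j : Fin m => (j : ℕ)) k) < i then (-1 : F) else 1)).mulVec v = dgO m F (sg F m i) v := by
  funext k
  rw [Matrix.mulVec_diagonal, dgO_apply]
  rcases k with k | k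
  · rw [dg_apply_inl, sg, Sum.elim_inl]
    split_ifs <;> simp
  · rw [dg_apply_inr, sg, Sum.elim_inr]
    split_ifs <;> simp

theorem spinor_iff {F : Type*} [Field F] [Fintype F] (hq : Odd (Fintype.card F)) {m i : ℕ}
    (him : i ≤ m) : spinor (qPlus_nondeg m F) (dgO m F (sg F m i)) = 1 ↔
      Fintype.card F ^ i % 4 = 1 := by
  rw [spinor_dgO, prod_sg F him, sqcl_eq_one_iff', H56.isSquare_neg_one_pow_iff hq]

/-- For the hyperbolic form Σ x_j y_j on F^(2m), F finite with q elements, q odd, and 1 ≤ i ≤ m: the involution negating the first i hyperbolic pairs (x_j, y_j ↦ −x_j, −y_j for j < i) and fixing the rest lies in Ω⁺_2m(q) (commutator subgroup of the orthogonal group) if and only if q^i ≡ 1 (mod 4); its (−1)-eigenspace is a hyperbolic 2i-space. -/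
theorem result {F : Type*} [Field F] [Fintype F] {q : ℕ} (hF : Fintype.card F = q) (hq : Odd q) {m : ℕ} (i : ℕ) (hi : 1 ≤ i) (him : i ≤ m) : (∃ g : ↥(Cfsg.isometryGroup F (Cfsg.quadFormPlus m F)), g ∈ Cfsg.Omega F (Cfsg.quadFormPlus m F) ∧ ((g : Matrix.GeneralLinearGroup (Fin m ⊕ Fin m) F) : Matrix (Fin m ⊕ Fin m) (Fin m ⊕ Fin m) F) = Matrix.diagonal (fun k : Fin m ⊕ Fin m => if (Sum.elim (fun j : Fin m => (j : ℕ)) (fun j : Fin m => (j : ℕ)) k) < i then (-1 : F) else 1)) ↔ q ^ i % 4 = 1 := by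
  subst hF
  rw [exists_Omega_coe_eq_iff _ (coe_qPlus m F) (diag_mulVec F m i),
    mem_commutator_iff (qPlus_nondeg m F) (not_isExc_of_two_ne (two_ne_zero_of_odd_card hq)),
    dickson_dgO, spinor_iff hq him]
  simp

end Cfsg.Agent.S2613
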