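import Cfsg.Statements.S2614
import Cfsg.Agent.Base
import Cfsg.Agent.S2613

set_option autoImplicit false
open Cfsg

namespace Cfsg.Agent.S2614

open H55 H56 H58 Module Cfsg.Agent.S2613

/-- For the form x_0² + Σ x_j y_j on F^(2m+1), F finite with q elements, q odd, and 1 ≤ i ≤ m: the involution of determinant one negating the first i hyperbolic pairs (and fixing x_0 and the other pairs) lies in Ω_(2m+1)(q) (commutator subgroup of the orthogonal group) if and only if q^i ≡ 1 (mod 4); its (−1)-eigenspace is a hyperbolic 2i-space. -/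
theorem result {F : Type*} [Field F] [Fintype F] {q : ℕ} (hF : Fintype.card F = q) (hq : Odd q) {m : ℕ} (i : ℕ) (hi : 1 ≤ i) (him : i ≤ m) : (∃ g : ↥(Cfsg.isometryGroup F (Cfsg.quadFormOdd m F)), g ∈ Cfsg.Omega F (Cfsg.quadFormOdd m F) ∧ ((g : Matrix.GeneralLinearGroup (Unit ⊕ (Fin m ⊕ Fin m)) F) : Matrix (Unit ⊕ (Fin m ⊕ Fin m)) (Unit ⊕ (Fin m ⊕ Fin m)) F) = Matrix.diagonal (fun k : Unit ⊕ (Fin m ⊕ Fin m) => if (Sum.elim (fun _ : Unit => i) (Sum.elim (fun j : Fin m => (j : ℕ)) (fun j : Fin m => (j : ℕ))) k) < i then (-1 : F) else 1)) ↔ q ^ i % 4 = 1 := by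
  subst hF
  have h2 := two_ne_zero_of_odd_card hq
  let Q₁ : QuadraticForm F (Unit → F) := QuadraticMap.proj () ()
  have hQ₁ : Q₁.polarBilin.Nondegenerate := nondegenerate_of_polar fun x hx => by
    have := hx fun _ => 1
    simp only [QuadraticMap.polar, Q₁, QuadraticMap.proj_apply, Pi.add_apply] at this
    funext u
    have h : 2 * x () = 0 := by linear_combination this
    exact (mul_eq_zero.1 h).resolve_left h2
  have he : ∀ x, qOdd m F (sumEquiv F Unit (Fin m ⊕ Fin m) x) = Q₁ x.1 + qPlus m F x.2 := fun x => by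
    rw [qOdd_apply, qPlus_apply, sumEquiv_apply]
    simp [Q₁, pow_two]
  have hM : Matrix.diagonal (fun k : Unit ⊕ (Fin m ⊕ Fin m) => if (Sum.elim (fun _ : Unit => i)
      (Sum.elim (fun j : Fin m => (j : ℕ)) (fun j : Fin m => (j : ℕ))) k) < i then (-1 : F) else 1) =
      Matrix.fromBlocks 1 0 0 (Matrix.diagonal (fun k : Fin m ⊕ Fin m =>
        if (Sum.elim (fun j : Fin m => (j : ℕ)) (fun j : Fin m => (j : ℕ)) k) < i then (-1 : F)
        else 1)) := by
    rw [← Matrix.diagonal_one, Matrix.fromBlocks_diagonal]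
    congr 1
    funext k
    rcases k with k | k
    · simp
    · rfl
  rw [hM, exists_Omega_coe_eq_iff _ (coe_qOdd m F) (fromBlocks_mulVec_eq he
    (g := (1, dgO m F (sg F m i))) (fun _ => Matrix.one_mulVec _) (diag_mulVec F m i)),
    mem_commutator_iff (qOdd_nondeg m h2) (not_isExc_of_two_ne h2),
    dickson_sumHom _ _ hQ₁ (qPlus_nondeg m F), spinor_sumHom _ _ hQ₁ (qPlus_nondeg m F),
    dickson_dgO, map_one, map_one, one_mul, one_mul, spinor_iff hq him]
  simp

end Cfsg.Agent.S2614
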