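import Cfsg.Statements.S2615
import Cfsg.Agent.Base
import Cfsg.Agent.S2613

set_option autoImplicit false
open Cfsg

namespace Cfsg.Agent.S2615

open H55 H56 H58 Module Cfsg.Agent.S2613

/-- For an elliptic form Σ_(j<m−1) x_j y_j + (z₁² + a z₁z₂ + b z₂²) (anisotropic binary part) on F^(2m), F finite with q elements, q odd, and 1 ≤ i ≤ m − 1: the involution negating the first i hyperbolic pairs and fixing the rest lies in Ω⁻_2m(q) (commutator subgroup of the orthogonal group) if and only if q^i ≡ 1 (mod 4). -/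
theorem result {F : Type*} [Field F] [Fintype F] {q : ℕ} (hF : Fintype.card F = q) (hq : Odd q) {m : ℕ} (a b : F) (hab : ∀ z₁ z₂ : F, z₁ ^ 2 + a * z₁ * z₂ + b * z₂ ^ 2 = 0 → z₁ = 0 ∧ z₂ = 0) (i : ℕ) (hi : 1 ≤ i) (him : i + 1 ≤ m) : (∃ g : ↥(Cfsg.isometryGroup F (Cfsg.quadFormMinus (m - 1) F a b)), g ∈ Cfsg.Omega F (Cfsg.quadFormMinus (m - 1) F a b) ∧ ((g : Matrix.GeneralLinearGroup ((Fin (m - 1) ⊕ Fin (m - 1)) ⊕ Fin 2) F) : Matrix ((Fin (m - 1) ⊕ Fin (m - 1)) ⊕ Fin 2) ((Fin (m - 1) ⊕ Fin (m - 1)) ⊕ Fin 2) F) = Matrix.diagonal (fun k : (Fin (m - 1) ⊕ Fin (m - 1)) ⊕ Fin 2 => if (Sum.elim (Sum.elim (fun j : Fin (m - 1) => (j : ℕ)) (fun j : Fin (m - 1) => (j : ℕ))) (fun _ : Fin 2 => i) k) < i then (-1 : F) else 1)) ↔ q ^ i % 4 = 1 := by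
  subst hF
  have h2 := two_ne_zero_of_odd_card hq
  have hQ₂ := qBin_nondeg (disc_ne_zero_of_aniso hab)
  have he : ∀ x, qMinus (m - 1) F a b (sumEquiv F _ (Fin 2) x) =
      qPlus (m - 1) F x.1 + qBin F a b x.2 := fun x => rfl
  have hM : Matrix.diagonal (fun k : (Fin (m - 1) ⊕ Fin (m - 1)) ⊕ Fin 2 => if (Sum.elim
      (Sum.elim (fun j : Fin (m - 1) => (j : ℕ)) (fun j : Fin (m - 1) => (j : ℕ)))
        (fun _ : Fin 2 => i) k) < i then (-1 : F) else 1) =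
      Matrix.fromBlocks (Matrix.diagonal (fun k : Fin (m - 1) ⊕ Fin (m - 1) =>
        if (Sum.elim (fun j : Fin (m - 1) => (j : ℕ)) (fun j : Fin (m - 1) => (j : ℕ)) k) < i
        then (-1 : F) else 1)) 0 0 1 := by
    rw [← Matrix.diagonal_one, Matrix.fromBlocks_diagonal]
    congr 1
    funext k
    rcases k with k | k
    · rfl
    · simp
  rw [hM, exists_Omega_coe_eq_iff _ (coe_qMinus (m - 1) F a b) (fromBlocks_mulVec_eq he
    (g := (dgO (m - 1) F (sg F (m - 1) i), 1)) (diag_mulVec F (m - 1) i)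
    (fun _ => Matrix.one_mulVec _)),
    mem_commutator_iff (qMinus_nondeg (m - 1) hab) (not_isExc_of_two_ne h2),
    dickson_sumHom _ _ (qPlus_nondeg _ F) hQ₂, spinor_sumHom _ _ (qPlus_nondeg _ F) hQ₂,
    dickson_dgO, map_one, map_one, one_mul, mul_one, spinor_iff hq (by omega)]
  simp

end Cfsg.Agent.S2615
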