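import Cfsg.Statements.S2628
import Cfsg.Agent.Base
import Cfsg.Agent.H55.OSum

set_option autoImplicit false
open Cfsg

namespace Cfsg.Agent.S2628

open H55 H56

/-- For the orthogonal direct sum Q ⊕ Q of two copies of a quadratic form Q with non-degenerate polar form on F^k (F finite), every isometry g of Q acting diagonally, diag(g, g), lies in Ω(Q ⊕ Q), the commutator subgroup of the orthogonal group of Q ⊕ Q. (Excluded: k = 2 over the field of two elements, where Q ⊕ Q is the hyperbolic 4-space whose orthogonal group's commutator subgroup is smaller than the group usually called Ω.) -/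
theorem result {F : Type*} [Field F] [Fintype F] {k : ℕ} (h : Fintype.card F ≠ 2 ∨ k ≠ 2) (Q : QuadraticForm F (Fin k → F)) (hQ : (QuadraticMap.polarBilin Q).Nondegenerate) (g : ↥(Cfsg.isometryGroup F ⇑Q)) : ∃ x : ↥(Cfsg.isometryGroup F (fun v : Fin k ⊕ Fin k → F => Q (v ∘ Sum.inl) + Q (v ∘ Sum.inr))), x ∈ Cfsg.Omega F (fun v : Fin k ⊕ Fin k → F => Q (v ∘ Sum.inl) + Q (v ∘ Sum.inr)) ∧ ((x : Matrix.GeneralLinearGroup (Fin k ⊕ Fin k) F) : Matrix (Fin k ⊕ Fin k) (Fin k ⊕ Fin k) F) = Matrix.fromBlocks ((g : Matrix.GeneralLinearGroup (Fin k) F) : Matrix (Fin k) (Fin k) F) 0 0 ((g : Matrix.GeneralLinearGroup (Fin k) F) : Matrix (Fin k) (Fin k) F) := by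
  have hP := nondegenerate_sum _ (sumQ_sumEquiv Q Q) hQ hQ
  rw [exists_Omega_coe_eq_iff (sumQ Q Q) (coe_sumQ Q Q)
    (fromBlocks_mulVec_eq (sumQ_sumEquiv Q Q) (g := (toO Q rfl g, toO Q rfl g))
      (fun _ => rfl) fun _ => rfl),
    mem_commutator_iff hP (not_isExc_of_card (h.imp_right fun h => by simp; omega)),
    dickson_sumHom _ _ hQ hQ, spinor_sumHom _ _ hQ hQ]
  exact ⟨Int.units_mul_self _, SqCl.mul_self _⟩

end Cfsg.Agent.S2628
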