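import Cfsg.Statements.S2629
import Cfsg.Agent.Base
import Cfsg.Agent.H55.OSum
import Cfsg.Agent.H58.Sgn

set_option autoImplicit false
open Cfsg

namespace Cfsg.Agent.S2629

open H55 H56 H58 Module

theorem finrank_ker {F : Type*} [Field F] (m : ℕ) : finrank F
    (LinearMap.ker (LinearMap.funLeft F F (Sum.inr : Fin m → Fin m ⊕ Fin m))) = m := by
  have h := LinearMap.finrank_range_add_finrank_ker
    (LinearMap.funLeft F F (Sum.inr : Fin m → Fin m ⊕ Fin m))
  rw [LinearMap.range_eq_top.2 (LinearMap.funLeft_surjective_of_injective _ _ _ Sum.inr_injective)]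
    at h
  simp at h
  omega

theorem singular {F : Type*} [Field F] (m : ℕ) :
    ∀ u ∈ LinearMap.ker (LinearMap.funLeft F F (Sum.inr : Fin m → Fin m ⊕ Fin m)),
      qPlus m F u = 0 := fun u hu => by
  rw [qPlus_apply]
  refine Finset.sum_eq_zero fun i _ => ?_
  rw [show u (Sum.inr i) = 0 from congrFun hu i, mul_zero]

theorem even_iff {F : Type*} [Field F] {m : ℕ} (hE : ¬ IsExc (qPlus m F))
    (g : Cfsg.isometryGroup F (Cfsg.quadFormPlus m F)) :
    Even (m - finrank F ↥(LinearMap.ker (LinearMap.funLeft F F (Sum.inr : Fin m → Fin m ⊕ Fin m)) ⊓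
      (LinearMap.ker (LinearMap.funLeft F F (Sum.inr : Fin m → Fin m ⊕ Fin m))).map
        (Matrix.mulVecLin ((g : GL (Fin m ⊕ Fin m) F) : Matrix _ _ F)))) ↔
      dickson (qPlus_nondeg m F) (toO _ (coe_qPlus m F) g) = 1 := by
  rw [dickson_eq_one_iff_parity _ hE (by rw [finrank_ker]; simp; ring) (singular m), finrank_ker]
  have : finrank F ↥(LinearMap.ker (LinearMap.funLeft F F (Sum.inr : Fin m → Fin m ⊕ Fin m)) ⊓
      (LinearMap.ker (LinearMap.funLeft F F (Sum.inr : Fin m → Fin m ⊕ Fin m))).map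
        (Matrix.mulVecLin ((g : GL (Fin m ⊕ Fin m) F) : Matrix _ _ F))) ≤ m :=
    (Submodule.finrank_mono inf_le_left).trans (finrank_ker m).le
  rw [Nat.even_sub this, Nat.even_add]
  rfl

/-- For the hyperbolic form Σ x_i y_i on F^(2m) over a finite field of odd order (m ≥ 1), an isometry g preserves the class of the maximal totally singular subspace U₀ = {y = 0} (that is, m − dim(U₀ ∩ gU₀) is even) if and only if det g = 1: the stabiliser of each of the two classes of maximal totally singular subspaces is SO. -/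
theorem result {F : Type*} [Field F] [Fintype F] (h2 : (2 : F) ≠ 0) {m : ℕ} (hm : 1 ≤ m) (g : ↥(Cfsg.isometryGroup F (Cfsg.quadFormPlus m F))) : Even (m - Module.finrank F ↥(LinearMap.ker (LinearMap.funLeft F F (Sum.inr : Fin m → Fin m ⊕ Fin m)) ⊓ (LinearMap.ker (LinearMap.funLeft F F (Sum.inr : Fin m → Fin m ⊕ Fin m))).map (Matrix.mulVecLin ((g : Matrix.GeneralLinearGroup (Fin m ⊕ Fin m) F) : Matrix (Fin m ⊕ Fin m) (Fin m ⊕ Fin m) F)))) ↔ ((g : Matrix.GeneralLinearGroup (Fin m ⊕ Fin m) F) : Matrix (Fin m ⊕ Fin m) (Fin m ⊕ Fin m) F).det = 1 := by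
  rw [even_iff (not_isExc_of_two_ne h2), dickson_eq_one_iff_det _ h2, det_toO]

end Cfsg.Agent.S2629
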