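import Cfsg.Statements.S2631
import Cfsg.Agent.Base
import Cfsg.Agent.H55.OSum
import Cfsg.Agent.H58.Sgn

set_option autoImplicit false
open Cfsg

namespace Cfsg.Agent.S2631

open H55 H56 H58 Module

/-- For the hyperbolic form Σ x_i y_i on F^(2m) over a finite field (m ≥ 1, excluding m = 2 over the field of two elements), Ω (the commutator subgroup of the orthogonal group) acts transitively on each of the two classes of maximal totally singular subspaces: if U and W are m-dimensional totally singular subspaces with m − dim(U ∩ W) even, some element of Ω carries U to W. -/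
theorem result {F : Type*} [Field F] [Fintype F] {m : ℕ} (hm : 1 ≤ m) (h : Fintype.card F ≠ 2 ∨ m ≠ 2) (U W : Submodule F (Fin m ⊕ Fin m → F)) (hU : Module.finrank F U = m) (hW : Module.finrank F W = m) (hU0 : ∀ u ∈ U, Cfsg.quadFormPlus m F u = 0) (hW0 : ∀ w ∈ W, Cfsg.quadFormPlus m F w = 0) (he : Even (m - Module.finrank F ↥(U ⊓ W))) : ∃ g : ↥(Cfsg.isometryGroup F (Cfsg.quadFormPlus m F)), g ∈ Cfsg.Omega F (Cfsg.quadFormPlus m F) ∧ U.map (Matrix.mulVecLin ((g : Matrix.GeneralLinearGroup (Fin m ⊕ Fin m) F) : Matrix (Fin m ⊕ Fin m) (Fin m ⊕ Fin m) F)) = W := by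
  have hQ := qPlus_nondeg m F
  have hE : ¬ IsExc (qPlus m F) := not_isExc_of_card (h.imp_right fun h => by simp; omega)
  rw [← coe_qPlus] at hU0 hW0
  obtain ⟨g, hg⟩ := exists_img_eq_of_singular hQ (hU.trans hW.symm) hU0 hW0
  have hd : dickson hQ g = 1 := by
    rw [dickson_eq_one_iff_parity hQ hE (by rw [hU]; simp; ring) hU0, hU]
    have : finrank F ↥(U ⊓ W) ≤ m := (Submodule.finrank_mono inf_le_left).trans hU.le
    rw [Nat.even_sub this, ← Nat.even_add, ← hg] at he
    exact he
  obtain ⟨c, hc, e⟩ := sqcl_surjective (spinor hQ g)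
  obtain ⟨k, hk, d, s⟩ := exists_sstab_spinor hQ (U := W) (by rintro rfl; simp at hW; omega) hW0 hc
  refine exists_Omega_map_eq _ (coe_qPlus m F) (x := k * g) ((mem_commutator_iff hQ hE _).2
    ⟨by rw [map_mul, d, hd, one_mul], by rw [map_mul, s, e, SqCl.mul_self]⟩) ?_
  rw [H60.img_mul, hg, H60.img_eq_iff.2 hk]

end Cfsg.Agent.S2631
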