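import Cfsg.Statements.S2632
import Cfsg.Agent.Base
import Cfsg.Agent.H55.OSum

set_option autoImplicit false
open Cfsg

namespace Cfsg.Agent.S2632

open H55 H56 H58 Module

/-- Ω is transitive on non-degenerate subspaces of each isometry type: for a quadratic form Q on F^n, n ≥ 3, with non-degenerate polar form (F finite; excluding dimension 4 over the field of two elements), if U and W are subspaces on which the polar form is non-degenerate and there is a Q-preserving linear isomorphism U → W, then some element of Ω (the commutator subgroup of the orthogonal group) carries U to W. (In dimension 2 this fails: Ω can be {±1}, which fixes every line.) -/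
theorem result {F : Type*} [Field F] [Fintype F] {n : ℕ} (hn : 3 ≤ n) (h : Fintype.card F ≠ 2 ∨ n ≠ 4) (Q : QuadraticForm F (Fin n → F)) (hQ : (QuadraticMap.polarBilin Q).Nondegenerate) (U W : Submodule F (Fin n → F)) (hU : U ⊓ LinearMap.BilinForm.orthogonal (QuadraticMap.polarBilin Q) U = ⊥) (hW : W ⊓ LinearMap.BilinForm.orthogonal (QuadraticMap.polarBilin Q) W = ⊥) (e : U ≃ₗ[F] W) (he : ∀ u : U, Q (e u : Fin n → F) = Q (u : Fin n → F)) : ∃ g : ↥(Cfsg.isometryGroup F ⇑Q), g ∈ Cfsg.Omega F ⇑Q ∧ U.map (Matrix.mulVecLin ((g : Matrix.GeneralLinearGroup (Fin n) F) : Matrix (Fin n) (Fin n) F)) = W := by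
  have hE : ¬ IsExc Q := not_isExc_of_card (h.imp_right fun h => by simpa using h)
  have hf : finrank F U = finrank F W := e.finrank_eq
  obtain ⟨g, hg⟩ := witt_sub hQ U (W.subtype ∘ₗ e.toLinearMap) he
    (W.injective_subtype.comp e.injective)
  have hg' : H60.img g U = W := by
    refine Submodule.eq_of_le_of_finrank_eq ?_ (by rw [H60.finrank_img, hf])
    rintro _ ⟨x, hx, rfl⟩
    rw [O.lin_apply, hg ⟨x, hx⟩]
    exact (e ⟨x, hx⟩).2
  have hW' : H60.Nondeg Q W := fun x hx h => by
    have : x ∈ W ⊓ LinearMap.BilinForm.orthogonal (QuadraticMap.polarBilin Q) W := ⟨hx, h⟩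
    rwa [hW] at this
  obtain ⟨k, hk, hm⟩ := exists_mul_mem_commutator_of_refl hQ hE (H := H60.sstab Q (W : Set _))
    (fun c hc => by
      have h1 := finrank_perp hQ W
      rw [Module.finrank_fin_fun] at h1
      by_cases h2 : 2 ≤ finrank F W
      · obtain ⟨x, hx, e⟩ := hW'.exists_Q_eq h2 hc
        exact ⟨x, e, H60.refl_mem_sstab hx⟩
      · obtain ⟨x, hx, e⟩ := (hW'.perp hQ).exists_Q_eq (by omega) hc
        exact ⟨x, e, H60.sstab_perp hQ W ▸ H60.refl_mem_sstab hx⟩) g
  refine exists_Omega_map_eq _ rfl hm ?_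
  rw [H60.img_mul, hg', H60.img_eq_iff.2 hk]

end Cfsg.Agent.S2632
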