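import Cfsg.Statements.S2633
import Cfsg.Agent.Base
import Cfsg.Agent.H55.OSum
import Cfsg.Agent.H58.WittIndex

set_option autoImplicit false
open Cfsg

namespace Cfsg.Agent.S2633

open H55 H56 H58 Module

/-- Ω is transitive on totally singular subspaces of each dimension less than half the dimension: for a quadratic form Q on F^n with non-degenerate polar form (F finite; excluding dimension 4 over the field of two elements), if U and W are subspaces of the same dimension k with 2k < n on which Q vanishes, then some element of Ω (the commutator subgroup of the orthogonal group) carries U to W. -/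
theorem result {F : Type*} [Field F] [Fintype F] {n : ℕ} (h : Fintype.card F ≠ 2 ∨ n ≠ 4) (Q : QuadraticForm F (Fin n → F)) (hQ : (QuadraticMap.polarBilin Q).Nondegenerate) (U W : Submodule F (Fin n → F)) {k : ℕ} (hk : 2 * k < n) (hU : Module.finrank F U = k) (hW : Module.finrank F W = k) (hU0 : ∀ u ∈ U, Q u = 0) (hW0 : ∀ w ∈ W, Q w = 0) : ∃ g : ↥(Cfsg.isometryGroup F ⇑Q), g ∈ Cfsg.Omega F ⇑Q ∧ U.map (Matrix.mulVecLin ((g : Matrix.GeneralLinearGroup (Fin n) F) : Matrix (Fin n) (Fin n) F)) = W := by
  have hE : ¬ IsExc Q := not_isExc_of_card (h.imp_right fun h => by simpa using h)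
  by_cases h0 : W = ⊥
  · subst h0
    rw [finrank_bot] at hW
    rw [← hW, Submodule.finrank_eq_zero] at hU
    exact exists_Omega_map_eq _ rfl (one_mem _) (by rw [H60.img_one, hU])
  obtain ⟨g, hg⟩ := exists_img_eq_of_singular hQ (hU.trans hW.symm) hU0 hW0
  obtain ⟨x, hx, hm⟩ := exists_mul_mem_commutator hQ hE (H := H60.sstab Q (W : Set _)) (by
    by_contra! hc
    have h1 : ∀ v ∈ perp Q W, Q v = 0 := fun v hv => by
      by_contra hv0
      exact hc _ (H60.sstab_perp hQ W ▸ H60.refl_mem_sstab hv) (dickson_refl hQ hv0)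
    have h2 := two_mul_finrank_le_of_singular hQ h1
    have h3 := finrank_perp hQ W
    rw [Module.finrank_fin_fun] at h2 h3
    omega) (fun c hc => exists_sstab_spinor hQ h0 hW0 hc) g
  refine exists_Omega_map_eq _ rfl hm ?_
  rw [H60.img_mul, hg, H60.img_eq_iff.2 hx]

end Cfsg.Agent.S2633
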