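import Cfsg.Statements.S2634
import Cfsg.Agent.Base
import Cfsg.Agent.H55.OSum

set_option autoImplicit false
open Cfsg

namespace Cfsg.Agent.S2634

open H55 H56 H58 Module

/-- Over a finite field of characteristic two, Ω (the commutator subgroup of the orthogonal group of a quadratic form Q on F^n with non-degenerate polar form; excluding dimension 4 over the field of two elements) acts transitively on the non-singular 1-spaces: for u, v with Q(u) ≠ 0 and Q(v) ≠ 0 some element of Ω carries the line through u to the line through v. -/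
theorem result {F : Type*} [Field F] [Fintype F] [CharP F 2] {n : ℕ} (h : Fintype.card F ≠ 2 ∨ n ≠ 4) (Q : QuadraticForm F (Fin n → F)) (hQ : (QuadraticMap.polarBilin Q).Nondegenerate) (u v : Fin n → F) (hu : Q u ≠ 0) (hv : Q v ≠ 0) : ∃ g : ↥(Cfsg.isometryGroup F ⇑Q), g ∈ Cfsg.Omega F ⇑Q ∧ (F ∙ ((g : Matrix.GeneralLinearGroup (Fin n) F) : Matrix (Fin n) (Fin n) F).mulVec u) = F ∙ v := by
  have hE : ¬ IsExc Q := not_isExc_of_card (h.imp_right fun h => by simpa using h)
  have h2 : (2 : F) = 0 := by simpa using CharP.cast_eq_zero F 2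
  have := SqCl.subsingleton_of_char_two h2
  obtain ⟨c, hc, e⟩ := (sqcl_eq_iff hu hv).1 (Subsingleton.elim _ _)
  have hu0 : u ≠ 0 := by rintro rfl; simp at hu
  have hv0 : v ≠ 0 := by rintro rfl; simp at hv
  obtain ⟨g, hg⟩ := witt_one hQ (smul_ne_zero hc hu0) hv0 (by rw [e, H56.Q_smul])
  obtain ⟨k, hk, hm⟩ := exists_mul_mem_commutator hQ hE (H := H60.sstab Q ((F ∙ v : Submodule F _) :
    Set _)) ⟨_, H60.refl_mem_sstab (Submodule.mem_span_singleton_self v), dickson_refl hQ hv⟩
    (fun c _ => ⟨1, one_mem _, map_one _, Subsingleton.elim _ _⟩) g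
  have hg' : H60.img g (F ∙ u) = F ∙ v := by
    rw [H60.img, Submodule.map_span, Set.image_singleton, ← hg, map_smul,
      Submodule.span_singleton_smul_eq (IsUnit.mk0 c hc)]
    rfl
  obtain ⟨x, hx, hx'⟩ := exists_Omega_map_eq (U := F ∙ u) (U' := F ∙ v) _ rfl hm
    (by rw [H60.img_mul, hg', H60.img_eq_iff.2 hk])
  refine ⟨x, hx, ?_⟩
  rw [← hx', Submodule.map_span, Set.image_singleton]
  rfl

end Cfsg.Agent.S2634
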