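import Cfsg.Statements.S2635
import Cfsg.Agent.Base
import Cfsg.Agent.H55.OSum

set_option autoImplicit false
open Cfsg

namespace Cfsg.Agent.S2635

open H55 H56 H58 Module

/-- Over a finite field of characteristic two, for a quadratic form Q on F^n with non-degenerate polar form, n ≥ 2, other than dimension 4 over the field of two elements, Ω (the commutator subgroup of the orthogonal group) is exactly the subgroup generated by the products of two reflections (orthogonal transvections) x ↦ x − Q(v)⁻¹ f(x, v) v, Q(v) ≠ 0: the products of an even number of reflections. -/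
theorem result {F : Type*} [Field F] [Fintype F] [CharP F 2] {n : ℕ} (hn : 2 ≤ n) (h : Fintype.card F ≠ 2 ∨ n ≠ 4) (Q : QuadraticForm F (Fin n → F)) (hQ : (QuadraticMap.polarBilin Q).Nondegenerate) : Cfsg.Omega F ⇑Q = Subgroup.closure {g : ↥(Cfsg.isometryGroup F ⇑Q) | ∃ u v : Fin n → F, Q u ≠ 0 ∧ Q v ≠ 0 ∧ ((g : Matrix.GeneralLinearGroup (Fin n) F) : Matrix (Fin n) (Fin n) F) = Cfsg.reflectionMatrix ⇑Q u * Cfsg.reflectionMatrix ⇑Q v} := by
  have hE : ¬ IsExc Q := not_isExc_of_card (h.imp_right fun h => by simpa using h)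
  have h2 : (2 : F) = 0 := by simpa using CharP.cast_eq_zero F 2
  have := SqCl.subsingleton_of_char_two h2
  have key : ∀ (g : Cfsg.isometryGroup F ⇑Q) (u v : Fin n → F),
      ((g : GL (Fin n) F) : Matrix (Fin n) (Fin n) F) =
        Cfsg.reflectionMatrix ⇑Q u * Cfsg.reflectionMatrix ⇑Q v ↔
        toO Q rfl g = refl Q u * refl Q v := fun g u v =>
    coe_eq_iff_toO Q rfl fun x => by
      rw [← Matrix.mulVec_mulVec, reflectionMatrix_mulVec, reflectionMatrix_mulVec, O.mul_apply]
  refine le_antisymm (fun g hg => ?_) ?_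
  · set K := Subgroup.closure {g : ↥(Cfsg.isometryGroup F ⇑Q) | ∃ u v : Fin n → F, Q u ≠ 0 ∧
      Q v ≠ 0 ∧ ((g : GL (Fin n) F) : Matrix (Fin n) (Fin n) F) =
        Cfsg.reflectionMatrix ⇑Q u * Cfsg.reflectionMatrix ⇑Q v}
    have hK : ∀ u v, Q u ≠ 0 → Q v ≠ 0 → (toO Q rfl).symm (refl Q u * refl Q v) ∈ K :=
      fun u v hu hv => Subgroup.subset_closure ⟨u, v, hu, hv, (key _ u v).2 (by simp)⟩
    have main : ∀ x : O Q, ((toO Q rfl).symm x ∈ K ∧ dickson hQ x = 1) ∨
        ∃ a, Q a ≠ 0 ∧ (toO Q rfl).symm (refl Q a * x) ∈ K ∧ dickson hQ x = -1 := fun x => by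
      induction x using O.refl_induction hQ hE with
      | h1 => exact Or.inl ⟨by rw [map_one]; exact K.one_mem, map_one _⟩
      | hmul v hv x ih =>
        rcases ih with ⟨h1, h2⟩ | ⟨a, ha, h1, h2⟩
        · refine Or.inr ⟨v, hv, by rwa [← mul_assoc, refl_mul_self, one_mul], ?_⟩
          rw [map_mul, h2, dickson_refl hQ hv, mul_one]
        · refine Or.inl ⟨?_, by rw [map_mul, h2, dickson_refl hQ hv]; simp⟩
          have : refl Q v * x = refl Q v * refl Q a * (refl Q a * x) := by
            rw [mul_assoc, ← mul_assoc (refl Q a), refl_mul_self, one_mul]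
          rw [this, map_mul]
          exact K.mul_mem (hK v a hv ha) h1
    rcases main (toO Q rfl g) with ⟨h1, -⟩ | ⟨a, -, -, h1⟩
    · simpa using h1
    · rw [((mem_commutator_iff hQ hE _).1 ((mem_Omega_iff Q rfl).1 hg)).1] at h1
      exact absurd h1 (by decide)
  · rw [Subgroup.closure_le]
    rintro g ⟨u, v, hu, hv, e⟩
    rw [SetLike.mem_coe, mem_Omega_iff Q rfl, (key g u v).1 e]
    exact refl_mul_refl_mem_commutator hQ hu hv (Subsingleton.elim _ _)

end Cfsg.Agent.S2635
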