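import Cfsg.Statements.S2636
import Cfsg.Agent.Base
import Cfsg.Agent.H57.PslTwist

set_option autoImplicit false
open Cfsg

namespace Cfsg.Agent.S2636

/-- Centraliser of a field automorphism in PGL_n: let F be the field with q = q₀^r elements, σ a field automorphism of F of prime order r (so its fixed field has q₀ elements) and n ≥ 1. The invertible matrices g whose entrywise image under σ is a scalar multiple of g — those whose coset modulo scalars is fixed by σ — number (q − 1)/(q₀ − 1) · |GL_n(q₀)|; equivalently the centraliser in PGL_n(q) of the induced automorphism has the order of PGL_n(q₀). -/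
theorem result {F : Type*} [Field F] [Fintype F] {q₀ r n : ℕ} (hr : r.Prime) (hn : 1 ≤ n) (hF : Fintype.card F = q₀ ^ r) (σ : F ≃+* F) (hσ : orderOf σ = r) : Nat.card {g : GL (Fin n) F // ∃ c : F, c ≠ 0 ∧ (g : Matrix (Fin n) (Fin n) F).map σ = c • (g : Matrix (Fin n) (Fin n) F)} = (q₀ ^ r - 1) / (q₀ - 1) * ∏ i : Fin n, (q₀ ^ n - q₀ ^ (i : ℕ)) := by
  have : NeZero n := ⟨by omega⟩
  have := Fintype.ofFinite (H57.fixedSub σ)
  have h0 := H57.card_eq_card_fixedSub_pow σ
  rw [Nat.card_eq_fintype_card, hF, hσ] at h0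
  have hK : Nat.card (H57.fixedSub σ) = q₀ := (Nat.pow_left_injective hr.ne_zero h0).symm
  have hφ : ∀ a, a ∈ (H57.fixedSub σ).subtype.range ↔ σ a = a := fun a => by
    rw [← H57.mem_fixedSub]
    exact ⟨fun ⟨b, hb⟩ => hb ▸ b.2, fun h => ⟨⟨a, h⟩, rfl⟩⟩
  have hC := H57.comap_centralizer_pslField (ι := Fin n) σ _ hφ
  have e := H57.infCentralizerEquiv' _ _ _ (Subgroup.center _) hC (H57.center_eq_comap_map _)
  set S := (Subgroup.centralizer {H57.pslField (Fin n) F σ}).comap (H57.pslDiag (Fin n) F) with hS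
  have h1 : Nat.card {g : GL (Fin n) F // ∃ c : F, c ≠ 0 ∧
      (g : Matrix (Fin n) (Fin n) F).map σ = c • (g : Matrix (Fin n) (Fin n) F)} = Nat.card S := by
    refine Nat.card_congr (Equiv.subtypeEquivRight fun g => ?_)
    rw [hS, (H57.twists_field σ).mem_comap_iff]
    constructor
    · rintro ⟨c, hc, h⟩
      exact ⟨Units.mk0 c hc, Units.ext (by rw [H57.coe_mul_scalar]; exact h.symm)⟩
    · rintro ⟨c, h⟩
      exact ⟨c, c.ne_zero, by rw [← H57.coe_mul_scalar, h]; rfl⟩
  have hle : (H57.pslDiag (Fin n) F).ker ≤ S := by rw [hC]; exact le_sup_right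
  have h2 := ((H57.pslDiag (Fin n) F).comp S.subtype).ker.card_mul_index
  rw [Subgroup.index_ker, MonoidHom.range_comp, Subgroup.range_subtype, hS, Subgroup.map_comap_eq,
    Nat.card_congr e.toEquiv, ← MonoidHom.comap_ker, ← hS, ← Subgroup.subgroupOf,
    Nat.card_congr (Subgroup.subgroupOfEquivOfLe hle).toEquiv, H57.ker_pslDiag, H57.card_center_gl,
    Nat.card_units, Nat.card_eq_fintype_card (α := F), hF] at h2
  have h3 := Subgroup.card_eq_card_quotient_mul_card_subgroup
    (Subgroup.center (GL (Fin n) (H57.fixedSub σ)))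
  rw [H57.card_center_gl, Nat.card_units, hK, Matrix.card_GL_field, ← Nat.card_eq_fintype_card,
    hK] at h3
  rw [h1, ← h2, h3, mul_comm _ (q₀ - 1), ← mul_assoc, Nat.div_mul_cancel (Nat.sub_one_dvd_pow_sub_one _ _)]

end Cfsg.Agent.S2636
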