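import Cfsg.Statements.S2677
import Cfsg.Agent.Base
import Cfsg.Agent.H59.Twist

set_option autoImplicit false
open Cfsg

namespace Cfsg.Agent.S2677

theorem card_center {F : Type*} [Field F] [Fintype F] {q n : ℕ} (hF : Fintype.card F = q ^ 2)
    (hn : 2 ≤ n) : Nat.card (Subgroup.center (Cfsg.GU n F q)) = q + 1 := by
  have : Nonempty (Fin n) := ⟨⟨0, by omega⟩⟩
  rw [H59.center_GU_eq_range hF hn, ← H59.card_normOne hF]
  refine (Nat.card_congr (MonoidHom.ofInjective fun a b h => ?_).toEquiv).symm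
  have := congrArg (fun g : Cfsg.GU n F q => g.1.1 (Classical.arbitrary _) (Classical.arbitrary _)) h
  exact Subtype.ext (Units.ext (by simpa [H59.coe_guScalar, Matrix.GeneralLinearGroup.scalar] using this))

theorem cast_ordGU {q : ℕ} (hq : 1 ≤ q) (n : ℕ) : (H59.ordGU q n : ℤ) =
    (q : ℤ) ^ (n * (n - 1) / 2) * ∏ i : Fin n, ((q : ℤ) ^ ((i : ℕ) + 1) - (-1) ^ ((i : ℕ) + 1)) := by
  rw [H59.ordGU, Finset.prod_range]
  push_cast
  congr 1
  refine Finset.prod_congr rfl fun i _ => ?_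
  split_ifs with h
  · rw [h.add_one.neg_one_pow, sub_neg_eq_add]
  · rw [((Nat.not_even_iff_odd.1 h).add_one).neg_one_pow, Nat.cast_sub (Nat.one_le_pow _ _ hq)]
    simp

/-- Centraliser of a field automorphism of odd prime order in PGU_n(q): let q = q₀^r with r an odd prime, K the field with q² elements and σ a field automorphism of K of order r (fixed field of order q₀²). The elements g of GU_n(q) whose entrywise image under σ is a scalar multiple of g — those whose coset modulo the q + 1 unitary scalars is fixed by σ — number (q + 1)/(q₀ + 1) · |GU_n(q₀)|; equivalently the centraliser in PGU_n(q) of the induced automorphism has the order of PGU_n(q₀). -/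
theorem result {K : Type*} [Field K] [Fintype K] {q₀ q r n : ℕ} (hr : r.Prime) (hr2 : r ≠ 2) (hn : 1 ≤ n) (hq : q = q₀ ^ r) (hK : Fintype.card K = q ^ 2) (σ : K ≃+* K) (hσ : orderOf σ = r) : (Nat.card {g : ↥(Cfsg.GU n K q) // ∃ c : K, c ≠ 0 ∧ ((g : GL (Fin n) K) : Matrix (Fin n) (Fin n) K).map σ = c • ((g : GL (Fin n) K) : Matrix (Fin n) (Fin n) K)} : ℤ) = ((q + 1) / (q₀ + 1) : ℕ) * ((q₀ : ℤ) ^ (n * (n - 1) / 2) * ∏ i : Fin n, ((q₀ : ℤ) ^ ((i : ℕ) + 1) - (-1) ^ ((i : ℕ) + 1))) := by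
  have hro : Odd r := hr.odd_of_ne_two hr2
  have hdvd : q₀ + 1 ∣ q + 1 := by simpa [hq] using hro.nat_add_dvd_pow_add_pow q₀ 1
  have hq2 := H59.two_le_q hK
  have hq₀ : 1 ≤ q₀ := by
    rcases Nat.eq_zero_or_pos q₀ with rfl | h
    · rw [zero_pow hr.ne_zero] at hq; omega
    · exact h
  rw [← cast_ordGU hq₀]
  norm_cast
  rcases hn.eq_or_lt with rfl | hn
  · rw [Nat.card_congr (Equiv.subtypeUnivEquiv fun g => ?_), H59.card_GU hK]
    · simp [H59.ordGU, Nat.div_mul_cancel hdvd]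
    · have h0 : g.1.1 0 0 ≠ 0 := by simpa using g.1.det_ne_zero
      refine ⟨σ (g.1.1 0 0) / g.1.1 0 0, div_ne_zero (by simpa using h0) h0, ?_⟩
      ext i j
      rw [Subsingleton.elim i 0, Subsingleton.elim j 0]
      simp [h0]
  obtain ⟨q₁, h1, h2⟩ := H59.exists_fixedSub_card hK σ (hσ ▸ hro)
  obtain rfl : q₁ = q₀ := Nat.pow_left_injective hr.ne_zero (by
    change q₁ ^ r = q₀ ^ r
    rw [← hq, h1]; exact congrArg _ hσ.symm)
  have := Fintype.ofFinite (H57.fixedSub σ)
  have hF₀ : Fintype.card (H57.fixedSub σ) = q₁ ^ 2 := by rw [← h2, Nat.card_eq_fintype_card]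
  obtain ⟨φ, D⟩ := H59.exists_subData hK hF₀ σ hro hq h2
  have hC := D.comap_centralizer (n := n) hn
  have hinj : Function.Injective (D.guMap n) := fun a b h => Subtype.ext (Units.ext
    (Matrix.map_injective φ.injective (congrArg (fun g : Cfsg.GU n K q => g.1.1) h)))
  have h3 : Nat.card ((Subgroup.centralizer {H59.psuField n K q σ}).comap (H59.psuDiag n K q)) =
      (q + 1) / (q₁ + 1) * H59.ordGU q₁ n := by
    have h4 := Subgroup.relIndex_sup_right (D.guMap n).range (H59.psuDiag n K q).ker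
    have h5 : Nat.card ((H59.psuDiag n K q).ker.comap (D.guMap n)) = q₁ + 1 := by
      rw [← D.scalars_eq_comap hn, ← card_center hF₀ hn]
      congr 2
      ext g
      rw [Subgroup.mem_subgroupOf, Cfsg.Geo.mem_scalars_iff, H59.center_GU_eq_range hF₀ hn]
      refine ⟨fun ⟨c, hc⟩ => ?_, ?_⟩
      · rw [← H59.center_GU_eq_range hF₀ hn, H59.mem_center_GU_iff hF₀ hn]
        exact ⟨c, hc⟩
      · rintro ⟨a, rfl⟩
        exact ⟨a.1, by simp [H59.coe_guScalar, Matrix.GeneralLinearGroup.scalar, Matrix.smul_one_eq_diagonal]⟩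
    have h6 := ((H59.psuDiag n K q).ker.comap (D.guMap n)).card_mul_index
    rw [h5, H59.card_GU hF₀, Subgroup.index_comap] at h6
    have h7 := ((H59.psuDiag n K q).ker.subgroupOf
      ((D.guMap n).range ⊔ (H59.psuDiag n K q).ker)).card_mul_index
    rw [Nat.card_congr (Subgroup.subgroupOfEquivOfLe le_sup_right).toEquiv, ← Subgroup.relIndex, h4]
      at h7
    rw [hC, ← h7, ← h6, ← mul_assoc, Nat.div_mul_cancel hdvd, H59.ker_psuDiag hK hn, card_center hK hn]
  rw [← h3]
  refine Nat.card_congr (Equiv.subtypeEquivRight fun g => ?_)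
  rw [Subgroup.mem_comap, Subgroup.mem_centralizer_singleton_iff, H59.psuField_mul_psuDiag,
    mul_left_inj, eq_comm, MonoidHom.eq_iff, H59.ker_psuDiag hK hn, H59.mem_center_GU_iff hK hn]
  refine exists_congr fun c => ?_
  have h8 : (g⁻¹ * H59.guField n K q σ g).1.1 = c • 1 ↔ g.1.1.map σ = c • g.1.1 := by
    rw [Subgroup.coe_mul, Subgroup.coe_inv, Units.val_mul, Units.inv_mul_eq_iff_eq_mul,
      mul_smul_comm, mul_one]
    rfl
  rw [h8, and_iff_right_iff_imp]
  rintro h rfl
  have : Nonempty (Fin n) := ⟨⟨0, by omega⟩⟩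
  exact (H59.guField n K q σ g).1.ne_zero (h.trans (zero_smul _ _))

end Cfsg.Agent.S2677
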