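import Cfsg.Statements.S2637
import Cfsg.Agent.Base
import Cfsg.Agent.H62.UniCent2
import Cfsg.Agent.S2677

set_option autoImplicit false
open Cfsg

namespace Cfsg.Agent.S2637

open Matrix Module H53 QuadraticAlgebra

/-- The field generated by a primitive cube root of unity. -/
abbrev Kw (F : Type*) [Field F] := QuadraticAlgebra F (-1) (-1)

theorem card_cent {F V : Type*} [Field F] [Fintype F] [AddCommGroup V] [Module F V]
    [FiniteDimensional F V] {B : V →ₗ[F] V →ₗ[F] F} (hB : IsSF (σ := RingHom.id F) (-1) B)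
    (hq : Fintype.card F % 3 = 2) {x : End F V} (hx : H53.Inv B x) (hxx : ∀ v, x (x v) = -v - x v)
    {m : ℕ} (hV : finrank F V = 2 * m) :
    Nat.card {g : End F V // H53.Inv B g ∧ g * x = x * g} = H59.ordGU (Fintype.card F) m := by
  obtain ⟨k, hk⟩ : ∃ k, Fintype.card F = 3 * k + 2 := ⟨Fintype.card F / 3, by omega⟩
  haveI : Fact (∀ r : F, r ^ 2 ≠ -1 + -1 * r) := ⟨fun r hr => by
    have h3 : r ^ 3 = 1 := by linear_combination (r - 1) * hr
    have h4 := FiniteField.pow_card r
    rw [hk, pow_add, pow_mul, h3, one_pow, one_mul] at h4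
    have h5 : r = 1 := by linear_combination h3 - (r + 1) * h4
    have h6 := FiniteField.cast_card_eq_zero F
    rw [hk] at h6
    subst h5
    push_cast at h6
    exact one_ne_zero (α := F) (by linear_combination (k + 1) * hr - h6)⟩
  let φ : (Kw F) →ₐ[F] End F V := lift ⟨x, LinearMap.ext fun v => by simp [hxx, sub_eq_add_neg]⟩
  letI : Module (Kw F) V := Module.compHom V φ.toRingHom
  haveI : IsScalarTower F (Kw F) V := ⟨fun a c v => by
    change φ (a • c) v = a • φ c v
    rw [map_smul]; rfl⟩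
  have sm : ∀ (c : (Kw F)) (v : V), c • v = c.re • v + c.im • x v := fun c v => by
    change φ c v = _
    simp [φ, lift]
  have hr2 : finrank F (Kw F) = 2 := finrank_eq_two _ _
  haveI : Finite (Kw F) := Module.finite_of_finite F
  haveI := Fintype.ofFinite (Kw F)
  have hK : Fintype.card (Kw F) = Fintype.card F ^ 2 := by rw [Module.card_eq_pow_finrank (K := F), hr2]
  haveI : FiniteDimensional (Kw F) V := Module.Finite.of_restrictScalars_finite F _ _
  have hm : finrank (Kw F) V = m := by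
    have := Module.finrank_mul_finrank F (Kw F) V
    rw [hr2] at this
    omega
  have xl : ∀ u v, B (x u) v = -B u v - B u (x v) := fun u v => by
    rw [← hx u v, ← hx u (x v), hxx, map_sub, map_neg]; ring
  let h : V →ₛₗ[starRingEnd (Kw F)] V →ₗ[(Kw F)] (Kw F) := LinearMap.mk₂'ₛₗ (starRingEnd (Kw F)) (RingHom.id _)
    (fun u v => (⟨B u v + B u (x v), B u v⟩ : (Kw F)))
    (fun a b v => by ext <;> simp; ring)
    (fun c a v => by
      rw [sm]
      ext <;> simp [xl, hxx, starRingEnd_apply] <;> ring)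
    (fun a b v => by ext <;> simp; ring)
    (fun c a v => by
      rw [sm]
      ext <;> simp [hxx] <;> ring)
  have hh : ∀ u v, h u v = ⟨B u v + B u (x v), B u v⟩ := fun _ _ => rfl
  have hσ : starRingEnd (Kw F) = H59.frob hK := RingHom.ext fun c => by
    have w3 : (ω : (Kw F)) ^ 3 = 1 := by ext <;> simp [pow_succ]
    have w : (ω : (Kw F)) ^ Fintype.card F = star ω := by
      rw [hk, pow_add, pow_mul, w3, one_pow, one_mul]
      ext <;> simp [pow_succ]
    have e : c = algebraMap F (Kw F) c.re + algebraMap F (Kw F) c.im * ω := by ext <;> simp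
    have a : ∀ r : F, H59.frob hK (algebraMap F (Kw F) r) = algebraMap F (Kw F) r := fun r => by
      rw [H59.frob_apply, ← map_pow, FiniteField.pow_card]
    conv_rhs => rw [e, map_add, map_mul, a, a, H59.frob_apply, w]
    ext <;> simp [starRingEnd_apply]
  have key : ∀ σ : (Kw F) →+* (Kw F), σ = H59.frob hK → ∀ h : V →ₛₗ[σ] V →ₗ[(Kw F)] (Kw F), H59.IsHerm h →
      Nat.card (H59.isom h) = H59.ordGU (Fintype.card F) m := by
    rintro _ rfl h hh
    rw [hh.card_isom hK, hm]
  rw [← key _ hσ h ⟨hσ ▸ H59.frob_ne_id hK, star_star, fun u v => ?_,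
    fun u hu => hB.nondeg u fun v => congrArg im (hu v)⟩]
  · refine (Nat.card_congr (Equiv.ofBijective (fun g : H59.isom h => ⟨(g.1.restrictScalars F).toLinearMap,
      fun u v => congrArg im (g.2 u v), LinearMap.ext fun v => by
        simpa [sm] using g.1.map_smul ω v⟩) ⟨fun g g' H => Subtype.ext
        (LinearEquiv.ext fun v => LinearMap.congr_fun (congrArg Subtype.val H) v), fun g => ?_⟩)).symm
    · have c : ∀ v, g.1 (x v) = x (g.1 v) := LinearMap.congr_fun g.2.2
      refine ⟨⟨(LinearEquiv.ofBijective g.1 ((End.isUnit_iff _).1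
        (H62.UC.isUnit_of_inv hB g.2.1))).toAddEquiv.toLinearEquiv fun a v => ?_, fun u v => ?_⟩, rfl⟩
      · change g.1 (a • v) = a • g.1 v
        rw [sm, sm, map_add, map_smul, map_smul, c]
      · change h (g.1 u) (g.1 v) = _
        rw [hh, hh, ← c, g.2.1, g.2.1]
  · rw [hh, hh, hB.symm u v, hB.symm (x u) v, xl]
    ext <;> simp [starRingEnd_apply]


/-- Centraliser of a fixed-point-free element of order three in Sp_2m(q) when q ≡ 2 (mod 3): if x ∈ Sp_2m(F) (|F| = q, m ≥ 1) satisfies x³ = 1 and x − 1 is invertible, then its centraliser in Sp_2m(F) has the order of the unitary group GU_m(q), namely q^(m(m−1)/2) Π_(i=1)^m (q^i − (−1)^i) (x lies in the centre of a subgroup GU_m(q) of Sp_2m(q)). -/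
theorem result {F : Type*} [Field F] [Fintype F] {q : ℕ} (hF : Fintype.card F = q) (hq : q % 3 = 2) {m : ℕ} (hm : 1 ≤ m) (x : Matrix.symplecticGroup (Fin m) F) (hx3 : x ^ 3 = 1) (hfpf : IsUnit ((x : Matrix (Fin m ⊕ Fin m) (Fin m ⊕ Fin m) F) - 1)) : (Nat.card ↥(Subgroup.centralizer ({x} : Set ↥(Matrix.symplecticGroup (Fin m) F))) : ℤ) = (q : ℤ) ^ (m * (m - 1) / 2) * ∏ i : Fin m, ((q : ℤ) ^ ((i : ℕ) + 1) - (-1) ^ ((i : ℕ) + 1)) := by
  subst hF
  have h3 : (x : Matrix (Fin m ⊕ Fin m) (Fin m ⊕ Fin m) F) * x = -1 - x := by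
    refine hfpf.mul_left_cancel ?_
    have : (x : Matrix (Fin m ⊕ Fin m) (Fin m ⊕ Fin m) F) ^ 3 = 1 := congrArg Subtype.val hx3
    rw [pow_three] at this
    rw [sub_mul, this]
    noncomm_ring
  rw [← S2677.cast_ordGU (by omega), ← card_cent (isSF_spB (Fin m) F) hq (inv_sp x) (fun v => by
    rw [← LinearMap.comp_apply, ← toLin'_mul, h3]; simp [sub_mulVec, neg_mulVec])
    (by simp [two_mul]), Nat.cast_inj]
  refine Nat.card_congr (Equiv.ofBijective (fun g => ⟨toLin' g.1.1, inv_sp _,
    (toLin'_mul_comm_iff _ _).2 (congrArg Subtype.val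
      (Subgroup.mem_centralizer_singleton_iff.1 g.2))⟩)
    ⟨fun g g' H => Subtype.ext (Subtype.ext (toLin'.injective (congrArg (fun x => x.1) H))),
      fun y => ?_⟩)
  obtain ⟨g, hg⟩ := exists_sp_toLin'_eq y.2.1
  exact ⟨⟨g, Subgroup.mem_centralizer_singleton_iff.2 (Subtype.ext
    ((toLin'_mul_comm_iff _ _).1 (hg ▸ y.2.2)))⟩, Subtype.ext hg⟩

end Cfsg.Agent.S2637
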