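import Cfsg.Statements.S2638
import Cfsg.Agent.H53.SS

set_option autoImplicit false
open Cfsg

namespace Cfsg.Agent.S2638

/-- If an element x of GL_n(q), n ≥ 1, has prime order r and the multiplicative order of q modulo r is n (r is a primitive prime divisor of q^n − 1, so x acts irreducibly), then the centraliser of x in GL_n(q) is cyclic of order q^n − 1 (the multiplicative group of the field with q^n elements, a Singer cycle). -/
theorem result {F : Type*} [Field F] [Fintype F] {p q : ℕ} [Fact p.Prime] [CharP F p] (hF : Fintype.card F = q) {n r : ℕ} (hn : 1 ≤ n) (hr : r.Prime) (hrp : r ≠ p) (hi : orderOf (q : ZMod r) = n) (x : GL (Fin n) F) (hx : orderOf x = r) : IsCyclic ↥(Subgroup.centralizer ({x} : Set (GL (Fin n) F))) ∧ Nat.card ↥(Subgroup.centralizer ({x} : Set (GL (Fin n) F))) = q ^ n - 1 := by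
  have h0 := H53.natCast_ne_zero_of_prime_ne (F := F) p hr hrp
  have h1 : (x : Matrix (Fin n) (Fin n) F) ^ r = 1 := by
    rw [← hx, ← Units.val_pow_eq_pow_val, pow_orderOf_eq_one, Units.val_one]
  have h2 : (x : Matrix (Fin n) (Fin n) F) ≠ 1 := by
    intro h
    rw [Units.val_eq_one.1 h, orderOf_one] at hx
    exact hr.one_lt.ne hx
  rw [H53.pow_prime_eq_one_iff_med hr h0] at h1
  rw [Ne, H53.eq_one_iff_med] at h2
  push Not at h2
  obtain ⟨φ, h3, h4⟩ := h2
  have h5 := (h1 φ h3).resolve_left h4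
  have h6 := H53.natDegree_of_mem_cycF h0 h5
  rw [Nat.card_eq_fintype_card, hF, hi] at h6
  obtain ⟨hm, hirr, -⟩ := (H53.mem_cycF h0).1 h5
  obtain ⟨s, hs⟩ := Multiset.exists_cons_of_mem h3
  have h7 : s = 0 := by
    by_contra h
    obtain ⟨ψ, hψ⟩ := Multiset.exists_mem_of_ne_zero h
    have h8 := H53.sum_natDegree_med (x : Matrix (Fin n) (Fin n) F)
    have h9 := (H53.med_isPP _ ψ (hs ▸ Multiset.mem_cons_of_mem hψ)).natDegree_pos
    have h10 : ψ.natDegree ≤ (s.map Polynomial.natDegree).sum :=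
      Multiset.single_le_sum (by simp) _ (Multiset.mem_map_of_mem _ hψ)
    rw [hs, Multiset.map_cons, Multiset.sum_cons, h6, Fintype.card_fin] at h8
    omega
  subst h7
  have h8 : H53.med (x : Matrix (Fin n) (Fin n) F) = {φ ^ 1} := by rw [hs, pow_one]; rfl
  rw [← H53.cent_eq_centralizer, H53.card_cent_of_med_eq_singleton hirr one_pos h8, h6,
    Nat.card_eq_fintype_card, hF]
  refine ⟨?_, by simp⟩
  obtain ⟨e, -⟩ := H53.exists_centEquiv (H53.sim_cyc_of_med_eq_singleton (P := φ) hs)
  have := Fact.mk hirr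
  have := H53.finite_adjoinRoot hirr.ne_zero
  have : Finite (AdjoinRoot φ) := Module.finite_of_finite F
  exact isCyclic_of_surjective e e.surjective

end Cfsg.Agent.S2638
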