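import Cfsg.Statements.S2641
import Cfsg.Agent.H65.HermQuad

set_option autoImplicit false
open Cfsg

namespace Cfsg.Agent.S2641

/-- For m odd, the unitary group GU_m(q) (over the field with q² elements) embeds in the orthogonal group O⁻_2m(q) of an elliptic form (Σ_(i<m−1) x_i y_i plus an anisotropic binary form) over the field with q elements (there is an injective homomorphism). -/
theorem result {K F : Type*} [Field K] [Fintype K] [Field F] [Fintype F] {q : ℕ} (hK : Fintype.card K = q ^ 2) (hF : Fintype.card F = q) (m : ℕ) (hm : Odd m) (a b : F) (hab : ∀ z₁ z₂ : F, z₁ ^ 2 + a * z₁ * z₂ + b * z₂ ^ 2 = 0 → z₁ = 0 ∧ z₂ = 0) : ∃ φ : ↥(Cfsg.GU m K q) →* ↥(Cfsg.isometryGroup F (Cfsg.quadFormMinus (m - 1) F a b)), Function.Injective φ := by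
  obtain ⟨ι⟩ := H54.nonempty_ringHom_of_card_eq_pow (F := F) (K := K) (m := 2) (by rw [hK, hF])
  let _ := ι.toAlgebra
  obtain ⟨f, h⟩ := H65.HQ.exists_dat hK hF
  obtain ⟨φ, hφ⟩ := H65.HQ.exists_hom hK h m
  haveI : Module.Finite F K := Module.Finite.of_finite
  obtain ⟨-, g, hg⟩ := H58.exists_equiv_of_not_isPlus
    (fun hp => Nat.not_even_iff_odd.2 hm ((h.isPlus_iff m).1 hp)) h.nondeg (m := m)
    (by rw [h.finrank_eq]; simp) hab
  let e := (H56.O.congr g hg).symm.trans (H56.toO _ (H58.coe_qMinus (m - 1) F a b)).symm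
  exact ⟨e.toMonoidHom.comp φ, e.injective.comp hφ⟩

end Cfsg.Agent.S2641
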