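import Cfsg.Statements.S2642
import Cfsg.Agent.H53.GUClass
import Cfsg.Agent.S2570

set_option autoImplicit false
open Cfsg

namespace Cfsg.Agent.S2642

/-- Number of conjugacy classes of elements of order p in the general unitary group GU_n(q), q a power of p: every unipotent Jordan type occurs and the classes correspond to the partitions of n with all parts at most p other than the all-ones partition, exactly as in GL_n; so there are (number of partitions of n with parts ≤ p) − 1 classes. -/
theorem result {K : Type*} [Field K] [Fintype K] {p q n : ℕ} [Fact p.Prime] [CharP K p] (hK : Fintype.card K = q ^ 2) : Nat.card {C : ConjClasses ↥(Cfsg.GU n K q) // ∃ g : ↥(Cfsg.GU n K q), ConjClasses.mk g = C ∧ orderOf g = p} = (Finset.univ.filter (fun μ : Nat.Partition n => ∀ a ∈ μ.parts, a ≤ p)).card - 1 := by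
  rw [← Cfsg.Agent.S2570.result (F := K) n,
    H53.card_conjClasses_eq_of_invariant (fun g : Cfsg.GU n K q => orderOf g = p)
      (fun g => ConjClasses.mk (g : GL (Fin n) K)) (fun g h _ _ => by
        rw [H53.isConj_GU_iff_gl hK, ConjClasses.mk_eq_mk_iff_isConj])]
  refine Nat.card_congr (Equiv.subtypeEquivRight fun C => ⟨?_, ?_⟩)
  · rintro ⟨g, h1, h2⟩
    exact ⟨g, h2, by rwa [Subgroup.orderOf_coe]⟩
  · rintro ⟨g, rfl, h1⟩
    have h2 : IsNilpotent ((g : Matrix (Fin n) (Fin n) K) - 1) :=
      (H53.isNilpotent_iff_exists_pow_char_pow (F := K) p _).2 ⟨1, by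
        rw [pow_one, ← h1, ← Units.val_pow_eq_pow_val, pow_orderOf_eq_one, Units.val_one]⟩
    obtain ⟨u, hu⟩ := H53.exists_GU_isConj hK g.isUnit
      (H53.map_pstar_of_isNilpotent ((H53.isNilpotent_toLin'_sub_one _).2 h2))
    have h3 := (H53.isConj_units_iff _ _).2 hu
    refine ⟨u, ?_, (ConjClasses.mk_eq_mk_iff_isConj.2 h3).symm⟩
    obtain ⟨c, hc⟩ := isConj_iff.1 h3
    rw [← Subgroup.orderOf_coe, ← hc, ← h1]
    exact (MulAut.conj c).orderOf_eq g

end Cfsg.Agent.S2642
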