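import Cfsg.Statements.S2643
import Cfsg.Agent.H53.GUClass

set_option autoImplicit false
open Cfsg

namespace Cfsg.Agent.S2643

/-- Regular unipotent classes of SU_n(q), n ≥ 2: the elements u of the special unitary group (isometries of Σ u_i v_i^q of determinant one over the field with q² elements) with (u − 1)^n = 0 and rank(u − 1) = n − 1 form exactly gcd(n, q + 1) conjugacy classes of SU_n(q). -/
theorem result {K : Type*} [Field K] [Fintype K] {q n : ℕ} (hK : Fintype.card K = q ^ 2) (hn : 2 ≤ n) : Nat.card {C : ConjClasses ↥(Cfsg.SU n K q) // ∃ u : ↥(Cfsg.SU n K q), ConjClasses.mk u = C ∧ (((u : GL (Fin n) K) : Matrix (Fin n) (Fin n) K) - 1) ^ n = 0 ∧ (((u : GL (Fin n) K) : Matrix (Fin n) (Fin n) K) - 1).rank = n - 1} = Nat.gcd n (q + 1) := by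
  obtain ⟨g, hA, h1⟩ := H53.exists_GU_mjt_eq (d := n) hK (μ := {n}) (by simp; omega) (by simp)
  obtain ⟨x, rfl⟩ := (H53.mem_range_suToGU hK g).2
    (Subtype.ext (Units.ext (H53.det_eq_one_of_isNilpotent_sub_one hA)))
  have h3 := H53.card_SU_classes hK (by omega) x
  rw [H53.map_guDet_of_mjt_eq_singleton hK _ hA h1, IsCyclic.index_powMonoidHom_range,
    H53.card_Mu hK, Nat.gcd_comm] at h3
  rw [← h3]
  rw [H53.coe_suToGU] at hA h1
  refine Nat.card_congr (Equiv.subtypeEquivRight fun C => exists_congr fun u =>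
    and_congr_right fun _ => ⟨fun ⟨h4, h5⟩ => ?_, fun h4 => ?_⟩)
  · refine (H53.isConj_iff_mjt_eq hA ⟨n, h4⟩).2 ?_
    rw [h1]
    exact ((H53.mjt_eq_singleton ⟨n, h4⟩ (by simp; omega) (by simpa using h5)).trans
      (by rw [Fintype.card_fin])).symm
  · refine ⟨H53.sub_one_pow_eq_zero_of_isConj h4 (by
      rw [H53.sub_one_pow_eq_zero_iff_mjt hA, h1]; simp), ?_⟩
    have h6 := H53.rank_sub_one_add_card hA
    rw [h1, Multiset.card_singleton, Fintype.card_fin, H53.rank_sub_one_eq_of_isConj h4] at h6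
    exact Nat.eq_sub_of_add_eq h6

end Cfsg.Agent.S2643
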