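import Cfsg.Statements.S2645
import Cfsg.Agent.H53.PrimeOrd

set_option autoImplicit false
open Cfsg

namespace Cfsg.Agent.S2645

/-- Number of conjugacy classes of elements of odd prime order r, r different from the characteristic, in the symplectic group Sp_2m(q): let i be the multiplicative order of q modulo r and t = (r − 1)/i. If i is odd the eigenvalue orbits pair off (Λ ≠ Λ⁻¹) and the classes correspond to the non-zero (t/2)-tuples (a_j) with 2i Σ a_j ≤ 2m, giving C(⌊m/i⌋ + t/2, t/2) − 1 classes; if i is even (Λ = Λ⁻¹) they correspond to the non-zero t-tuples with i Σ a_j ≤ 2m, giving C(⌊2m/i⌋ + t, t) − 1 classes. -/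
theorem result {F : Type*} [Field F] [Fintype F] {p q : ℕ} [Fact p.Prime] [CharP F p] (hF : Fintype.card F = q) (m r i t : ℕ) (hr : r.Prime) (hr2 : r ≠ 2) (hrp : r ≠ p) (hi : i = orderOf (q : ZMod r)) (ht : t * i = r - 1) : Nat.card {C : ConjClasses ↥(Matrix.symplecticGroup (Fin m) F) // ∃ g : Matrix.symplecticGroup (Fin m) F, ConjClasses.mk g = C ∧ orderOf g = r} = if Odd i then Nat.choose (m / i + t / 2) (t / 2) - 1 else Nat.choose (2 * m / i + t) t - 1 := by
  have h0 := H53.natCast_ne_zero_of_prime_ne (F := F) p hr hrp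
  have h2 : 2 < r := lt_of_le_of_ne hr.two_le hr2.symm
  rw [← hF, ← Nat.card_eq_fintype_card] at hi
  subst hi
  have h3 : Fintype.card (Fin m ⊕ Fin m) = 2 * m := by simp [two_mul]
  rw [H53.card_classes_prime_order (Matrix.symplecticGroup (Fin m) F).subtype Subtype.val_injective
    hr h0 (fun g h hg => H53.isConj_sp_of_med fun P hP =>
      (((H53.orderOf_eq_prime_iff_med hr h0 _).1 ((H53.orderOf_sp g).trans hg)).1 P hP).imp id
        fun h => Or.inr (H53.isCoprime_of_mem_cycF h2 h0 h))
    (fun s => s.map (H53.pstar (RingHom.id F)) = s) (fun s h4 h5 => ?_), h3,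
    ← H53.card_cycF_eq hr h0 ht]
  · split_ifs with h
    · rw [H53.card_invariant_of_free (fun x => H53.pstar_mem_cycF (fun _ => rfl) h0)
        (fun x hx => H53.pstar_pstar (fun _ => rfl) ((H53.mem_cycF h0).1 hx).1)
        (fun x hx => mt (H53.pstar_id_eq_self_iff_even hr hr2 h0 hx).1 (Nat.not_even_iff_odd.2 h))
        (H53.orderOf_card_pos h0), Nat.mul_div_mul_left _ _ two_pos]
    · rw [H53.card_invariant_of_fixed (fun x hx => (H53.pstar_id_eq_self_iff_even hr hr2 h0 hx).2
        (Nat.not_odd_iff_even.1 h)) (H53.orderOf_card_pos h0)]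
  · have h6 := H53.sum_natDegree_of_mem_cycF h0 h4
    rw [← H53.real_alt_add_replicate_iff (fun x hx => H53.isPP_of_mem_cycF h0 (h4 x hx))
      (fun x hx => H53.coeff_zero_ne_zero_of_mem_cycF h0 (h4 x hx))
      (fun x hx => H53.isCoprime_of_mem_cycF h2 h0 (h4 x hx))
      (by rw [h6, Nat.add_sub_cancel' h5, h3]; exact even_two_mul m)]
    exact ⟨fun ⟨g, hg⟩ => hg ▸ H53.real_med_sp g, fun h => H53.exists_sp_med_eq h (by
      rw [H53.sum_natDegree_add_replicate, h6, Nat.add_sub_cancel' h5, h3, Fintype.card_fin])⟩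

end Cfsg.Agent.S2645
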