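import Cfsg.Statements.S2646
import Cfsg.Agent.Base
import Cfsg.Agent.H62.UniCent2
import Cfsg.Agent.S2677

set_option autoImplicit false
open Cfsg

namespace Cfsg.Agent.S2646

open Matrix H62.UC H53

/-- Order of the centraliser in the general unitary group GU_n(q) of a unipotent element of given Jordan type: if u ∈ GU_n(q) (isometries of Σ u_i v_i^q over the field with q² elements) is similar to the unipotent matrix with a_i Jordan blocks of size i (all sizes at least 1), then its centraliser in GU_n(q) has order q^γ · Π_i |GU_(a_i)(q)| with γ = 2 Σ_(i<j) i a_i a_j + Σ_i (i − 1) a_i², the same exponent as in GL_n(q), where |GU_a(q)| = q^(a(a−1)/2) Π_(k=1)^a (q^k − (−1)^k). -/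
theorem result {K : Type*} [Field K] [Fintype K] {q n t : ℕ} (hK : Fintype.card K = q ^ 2) (d : Fin t → ℕ) (hd : ∀ k, 1 ≤ d k) (e : ((k : Fin t) × Fin (d k)) ≃ Fin n) (u : ↥(Cfsg.GU n K q)) (hu : IsConj (Matrix.reindex e e (Cfsg.jordanTypeMatrix d K)) ((u : GL (Fin n) K) : Matrix (Fin n) (Fin n) K)) : (Nat.card ↥(Subgroup.centralizer ({u} : Set ↥(Cfsg.GU n K q))) : ℤ) = (q : ℤ) ^ (2 * (∑ i ∈ Finset.range (Finset.univ.sup d + 1), ∑ j ∈ Finset.range (Finset.univ.sup d + 1), if i < j then i * (Finset.univ.filter (fun k : Fin t => d k = i)).card * (Finset.univ.filter (fun k : Fin t => d k = j)).card else 0) + ∑ i ∈ Finset.range (Finset.univ.sup d + 1), (i - 1) * (Finset.univ.filter (fun k : Fin t => d k = i)).card ^ 2) * ∏ i ∈ Finset.range (Finset.univ.sup d + 1), ((q : ℤ) ^ ((Finset.univ.filter (fun k : Fin t => d k = i)).card * ((Finset.univ.filter (fun k : Fin t => d k = i)).card - 1) / 2) * ∏ j : Fin (Finset.univ.filter (fun k : Fin t => d k = i)).card, ((q : ℤ) ^ ((j : ℕ)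 + 1) - (-1) ^ ((j : ℕ) + 1))) := by
  obtain ⟨e', b, h⟩ := exists_jb_of_sim hd
    ((sim_toLin'_reindex e _).trans ((isConj_iff_sim _ _).1 hu))
  obtain ⟨θ, hθ⟩ := H59.exists_trace_eq (H59.frob_ne_id hK) (H59.frob_frob hK) (map_one _)
  obtain ⟨δ, hδ0, hδ⟩ := H59.exists_trace_zero_ne_zero (H59.frob_ne_id hK) (H59.frob_frob hK)
  have hB := isSF_uForm hK n
  obtain ⟨γ, h1, h2, h3⟩ := card_inv hB (inv_GU hK u) h ((add_comm _ _).trans hθ)
  have h4 := card_fixed_ker hB (inv_GU hK u) h (H59.frob_ne_id hK) h2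
  rw [Nat.card_eq_fintype_card (α := K), hK, ← pow_mul, mul_comm, pow_mul] at h4
  have hq := H59.two_le_q hK
  rw [Nat.pow_left_injective two_ne_zero h4, Nat.card_eq_fintype_card (α := K), hK, ← pow_mul,
    two_mul (gam d), pow_add q (gam d), ← mul_assoc, Nat.mul_left_inj (by positivity),
    ← card_cen_mat _ _ fun _ => isUnit_of_inv hB] at h3
  have h5 : ∀ i, Nat.card (H59.isom (γ i)) = H59.ordGU q (mu d i) := fun i => by
    have : H59.isom (γ i) = H59.isom (δ ^ (i.1 - 1) • γ i) := by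
      ext g; simp [H59.mem_isom, hδ0]
    rw [this, H59.IsHerm.card_isom hK ⟨H59.frob_ne_id hK, H59.frob_frob hK, fun x y => ?_,
      fun x hx => (h1 i).nondeg x fun y => by simpa [hδ0] using hx y⟩,
      Module.finrank_fintype_fun_eq_card, card_blk]
    have e : H59.frob hK δ = -δ := by linear_combination hδ
    simp only [LinearMap.smul_apply, smul_eq_mul, map_mul, map_pow]
    rw [(h1 i).symm x y, e, neg_pow]
    ring
  rw [← Nat.card_congr ((Equiv.subtypeSubtypeEquivSubtypeInter (· ∈ GU n K q)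
    fun g : GL (Fin n) K => (g : Matrix (Fin n) (Fin n) K) * (u : GL (Fin n) K) =
      (u : GL (Fin n) K) * g).trans
    (Equiv.subtypeEquivRight fun g => and_congr_left' (mem_GU_iff_inv hK g)))] at h3
  rw [Nat.card_congr (Equiv.subtypeEquivRight fun g => ?_), h3, mul_comm]
  · simp only [h5]
    push_cast
    rw [Fin.prod_univ_eq_prod_range fun i => (H59.ordGU q (mu d i) : ℤ)]
    simp only [S2677.cast_ordGU (by omega : 1 ≤ q)]
  · rw [Subgroup.mem_centralizer_singleton_iff, Subtype.ext_iff, Units.ext_iff]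
    rfl

end Cfsg.Agent.S2646
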