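import Cfsg.Statements.S2657
import Cfsg.Agent.Base
import Cfsg.Agent.H55.AltSec3

set_option autoImplicit false
open scoped MatrixGroups
open Cfsg

namespace Cfsg.Agent.S2657

/-- Alternating sections of the groups of type F₄. Let `F` be a finite field of characteristic `p` and let `G` be the Chevalley group of type F₄ over `F`. If some subgroup of `G` has a quotient isomorphic to the alternating group of degree `r`, then `r` is at most 10, or 11 in characteristic 11. (Only an upper bound is asserted.) -/
theorem result {F : Type*} [Field F] [Fintype F] (p : ℕ) [Fact p.Prime] [CharP F p]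
    (r : ℕ) (H : Subgroup ↥(Cfsg.Lie.chevF4.group F)) (K : Subgroup ↥H) [K.Normal]
    (h : Nonempty (↥H ⧸ K ≃* ↥(alternatingGroup (Fin r)))) :
    r ≤ 10 + (if p = 11 then 1 else 0) := by
  obtain ⟨n, hp, hn⟩ := FiniteField.card F p
  have key : ∀ ℓ : ℕ, ℓ.Prime → p ≠ ℓ → ¬ ℓ ∣ Fintype.card F := fun ℓ hl hne hd =>
    hne ((Nat.prime_dvd_prime_iff_eq hl hp).1 (hl.dvd_of_dvd_pow (hn ▸ hd))).symm
  split_ifs with h5
  · exact H55.Alt.F4_le_eleven (key 5 (by norm_num) (by omega)) (key 7 (by norm_num) (by omega)) h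
  · exact H55.Alt.F4_le_ten (key 11 (by norm_num) h5) h

end Cfsg.Agent.S2657
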