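import Cfsg.Statements.S2669
import Cfsg.Agent.Base
import Cfsg.Agent.H55.Shin

set_option autoImplicit false
open Cfsg

namespace Cfsg.Agent.S2669

theorem card_fib {A B C : Type*} (R : A → B → Prop) (h : ∀ a, Nonempty ({b // R a b} ≃ C)) :
    Nat.card {p : A × B // R p.1 p.2} = Nat.card A * Nat.card C := by
  rw [← Nat.card_prod]
  exact Nat.card_congr ((Equiv.subtypeProdEquivSigmaSubtype R).trans
    ((Equiv.sigmaCongrRight fun a => (h a).some).trans (Equiv.sigmaEquivProd A C)))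

/-- Shintani descent preserves numbers of fixed points on coset spaces (abstract form). Let `σ` be an automorphism of a group `X` and `e ≥ 1`; write `G` for the fixed points of `σᵉ` and `H` for the fixed points of `σ`, and assume `G` is finite. Let `Y` be a `σ`-stable subgroup of `X` on which the maps `a ↦ a σ(a)⁻¹` and `a ↦ a σᵉ(a)⁻¹` are surjective (as for a closed connected `σ`-stable subgroup of an algebraic group). Let `g ∈ G`, let `a ∈ X` satisfy `g = a σ(a)⁻¹` and put `x = σᵉ(a)⁻¹ a` (the Shintani image, an element of `H`). The element `g σ` of the semidirect product acts on the cosets of `Y ∩ G` in `G` by `k (Y ∩ G) ↦ g σ(k) (Y ∩ G)`, fixing that coset exactly when `k⁻¹ g σ(k) ∈ Y`; and `x` fixes the coset `h (Y ∩ H)` of `H` exactly when `h⁻¹ x h ∈ Y`. Then the two numbers of fixed cosets agree; in cross-multiplied form, `#{k ∈ G : k⁻¹ g σ(k) ∈ Y} · |Y ∩ H| = #{h ∈ H : h⁻¹ x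 h ∈ Y} · |Y ∩ G|`. -/
theorem result {X : Type*} [Group X] (σ : MulAut X) (e : ℕ) (he : 1 ≤ e)
    [Finite ↥((MulEquiv.toMonoidHom (σ ^ e)).eqLocus (MonoidHom.id X))]
    (Y : Subgroup X) (hY : ∀ y : X, y ∈ Y ↔ σ y ∈ Y)
    (hYL : ∀ y ∈ Y, ∃ a ∈ Y, y = a * (σ a)⁻¹) (hYLe : ∀ y ∈ Y, ∃ a ∈ Y, y = a * ((σ ^ e) a)⁻¹)
    (g : X) (hg : g ∈ (MulEquiv.toMonoidHom (σ ^ e)).eqLocus (MonoidHom.id X)) (a : X) (ha : g = a * (σ a)⁻¹) :
    Nat.card {k : ↥((MulEquiv.toMonoidHom (σ ^ e)).eqLocus (MonoidHom.id X)) // (k : X)⁻¹ * g * σ k ∈ Y} *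
        Nat.card ↥(Y ⊓ (MulEquiv.toMonoidHom σ).eqLocus (MonoidHom.id X)) =
      Nat.card {h : ↥((MulEquiv.toMonoidHom σ).eqLocus (MonoidHom.id X)) // (h : X)⁻¹ * (((σ ^ e) a)⁻¹ * a) * h ∈ Y} *
        Nat.card ↥(Y ⊓ (MulEquiv.toMonoidHom (σ ^ e)).eqLocus (MonoidHom.id X)) := by
  subst ha
  have hYe : ∀ n : ℕ, ∀ y ∈ Y, (σ ^ n) y ∈ Y := fun n => by
    induction n with
    | zero => exact fun y hy => hy
    | succ n ih => exact fun y hy => by rw [pow_succ, MulAut.mul_apply]; exact ih _ ((hY y).1 hy)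
  rw [← card_fib (B := Y) (fun k b => (k.1 : X)⁻¹ * (a * (σ a)⁻¹) * σ k.1 = b * (σ b)⁻¹) fun k => ?_,
    ← card_fib (B := Y) (fun h b => (h.1 : X)⁻¹ * (((σ ^ e) a)⁻¹ * a) * h.1 = ((σ ^ e) b)⁻¹ * b)
      fun h => ?_]
  · have key : ∀ k b : X, (σ ^ e) k = k → k⁻¹ * (a * (σ a)⁻¹) * σ k = b * (σ b)⁻¹ →
        σ (a⁻¹ * k * b) = a⁻¹ * k * b ∧ (a⁻¹ * k * b)⁻¹ * (((σ ^ e) a)⁻¹ * a) * (a⁻¹ * k * b) =
          ((σ ^ e) b)⁻¹ * b := fun k b hk h => by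
      have h1 : σ (a⁻¹ * k * b) = a⁻¹ * k * b := by
        rw [map_mul, map_mul, map_inv]
        calc _ = a⁻¹ * k * (k⁻¹ * (a * (σ a)⁻¹) * σ k) * σ b := by group
          _ = _ := by rw [h]; group
      refine ⟨h1, ?_⟩
      have h2 := H55.Shin.pow_fix h1 e
      rw [map_mul, map_mul, map_inv, hk] at h2
      conv_lhs => arg 1; arg 1; rw [← h2]
      group
    have key' : ∀ h b : X, σ h = h → h⁻¹ * (((σ ^ e) a)⁻¹ * a) * h = ((σ ^ e) b)⁻¹ * b →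
        (σ ^ e) (a * h * b⁻¹) = a * h * b⁻¹ ∧
          (a * h * b⁻¹)⁻¹ * (a * (σ a)⁻¹) * σ (a * h * b⁻¹) = b * (σ b)⁻¹ := fun h b hh h1 => by
      constructor
      · rw [map_mul, map_mul, map_inv, H55.Shin.pow_fix hh]
        calc _ = (σ ^ e) a * h * (((σ ^ e) b)⁻¹ * b) * b⁻¹ := by group
          _ = _ := by rw [← h1]; group
      · rw [map_mul, map_mul, map_inv, hh]; group
    refine Nat.card_congr
      ⟨fun p => ⟨(⟨⟨a⁻¹ * p.1.1.1 * p.1.2, (key _ _ p.1.1.1.2 p.2).1⟩, ?_⟩, p.1.2),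
        (key _ _ p.1.1.1.2 p.2).2⟩,
      fun p => ⟨(⟨⟨a * p.1.1.1 * (p.1.2 : X)⁻¹, (key' _ _ p.1.1.1.2 p.2).1⟩, ?_⟩, p.1.2),
        (key' _ _ p.1.1.1.2 p.2).2⟩, fun p => ?_, fun p => ?_⟩
    · rw [(key _ _ p.1.1.1.2 p.2).2]
      exact mul_mem (inv_mem (hYe e _ p.1.2.2)) p.1.2.2
    · rw [(key' _ _ p.1.1.1.2 p.2).2]
      exact mul_mem p.1.2.2 (inv_mem ((hY _).1 p.1.2.2))
    · refine Subtype.ext (Prod.ext (Subtype.ext (Subtype.ext ?_)) rfl)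
      change a * (a⁻¹ * _ * _) * _ = _
      group
    · refine Subtype.ext (Prod.ext (Subtype.ext (Subtype.ext ?_)) rfl)
      change a⁻¹ * (a * _ * _) * _ = _
      group
  · obtain ⟨c, hc, e1⟩ := hYLe _ (inv_mem h.2)
    have e2 : (h.1 : X)⁻¹ * (((σ ^ e) a)⁻¹ * a) * h.1 = (σ ^ e) c * c⁻¹ := by
      rw [← inv_inj, e1]; group
    refine ⟨⟨fun b => ⟨b.1 * c, mul_mem b.1.2 hc, ?_⟩, fun z => ⟨⟨z * c⁻¹, mul_mem z.2.1 (inv_mem hc)⟩,
      ?_⟩, fun b => Subtype.ext (Subtype.ext (mul_inv_cancel_right _ _)),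
      fun z => Subtype.ext (inv_mul_cancel_right _ _)⟩⟩
    · have := e2.symm.trans b.2
      change (σ ^ e) (_ * _) = _ * _
      rw [map_mul]
      calc _ = (σ ^ e) b.1 * ((σ ^ e) c * c⁻¹) * c := by group
        _ = _ := by rw [this]; group
    · have : (σ ^ e) z = z := z.2.2
      rw [e2, map_mul, map_inv, this]
      group
  · obtain ⟨c, hc, e1⟩ := hYL _ k.2
    refine ⟨⟨fun b => ⟨c⁻¹ * b.1, Y.mul_mem (Y.inv_mem hc) b.1.2, ?_⟩, fun z => ⟨⟨c * z, mul_mem hc z.2.1⟩,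
      ?_⟩, fun b => Subtype.ext (Subtype.ext (mul_inv_cancel_left _ _)),
      fun z => Subtype.ext (inv_mul_cancel_left _ _)⟩⟩
    · have := e1.symm.trans b.2
      change σ (_ * _) = _ * _
      rw [map_mul, map_inv]
      calc _ = c⁻¹ * (c * (σ c)⁻¹) * σ b.1 := by group
        _ = _ := by rw [this]; group
    · have : σ z = z := z.2.2
      rw [e1, map_mul, this]
      group

end Cfsg.Agent.S2669
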