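import Cfsg.Statements.S2671
import Cfsg.Agent.H53.PrimeOrd

set_option autoImplicit false
open Cfsg

namespace Cfsg.Agent.S2671

/-- Number of conjugacy classes of elements of odd prime order r in the general unitary group GU_n(q), for r not dividing q(q + 1): let i be the multiplicative order of q modulo r, b = i if i is odd and b = i/2 if i is even, and s = (r − 1)/b. If i ≢ 2 (mod 4) the eigenvalue orbits pair off into dual pairs of totally isotropic blocks and there are C(⌊n/(2b)⌋ + s/2, s/2) − 1 classes; if i ≡ 2 (mod 4) each orbit gives a non-degenerate block of dimension i/2 and there are C(⌊2n/i⌋ + s, s) − 1 classes. -/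
theorem result {K : Type*} [Field K] [Fintype K] {p q n r i b s : ℕ} [Fact p.Prime] [CharP K p] (hK : Fintype.card K = q ^ 2) (hr : r.Prime) (hr2 : r ≠ 2) (hrp : r ≠ p) (hi : i = orderOf (q : ZMod r)) (hi2 : i ≠ 2) (hb : b = if Odd i then i else i / 2) (hs : s * b = r - 1) : Nat.card {C : ConjClasses ↥(Cfsg.GU n K q) // ∃ g : ↥(Cfsg.GU n K q), ConjClasses.mk g = C ∧ orderOf g = r} = if i % 4 = 2 then Nat.choose (2 * n / i + s) s - 1 else Nat.choose (n / (2 * b) + s / 2) (s / 2) - 1 := by
  have h0 := H53.natCast_ne_zero_of_prime_ne (F := K) p hr hrp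
  have h1 : orderOf (Nat.card K : ZMod r) = b := by
    rw [Nat.card_eq_fintype_card, hK, Nat.cast_pow, orderOf_pow' _ two_ne_zero, ← hi, hb]
    split_ifs with h
    · rw [Nat.coprime_two_right.2 h, Nat.div_one]
    · rw [Nat.gcd_eq_right (even_iff_two_dvd.1 (Nat.not_odd_iff_even.1 h))]
  have h2 := H53.orderOf_card_pos h0
  rw [H53.card_classes_prime_order ((Units.coeHom _).comp (Cfsg.GU n K q).subtype)
    (Units.val_injective.comp Subtype.val_injective)
    hr h0 (fun g h _ => (H53.isConj_GU_iff hK g h).2)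
    (fun s => s.map (H53.pstar (H59.frob hK)) = s) (fun s h4 h5 => ?_), Fintype.card_fin,
    ← H53.card_cycF_eq (t := s) hr h0 (h1 ▸ hs)]
  · split_ifs with h
    · rw [H53.card_invariant_of_fixed (fun x hx =>
        (H53.pstar_frob_eq_self_iff_mod hK hr hr2 h0 hx).2 (hi ▸ h)) h2, h1, hb,
        if_neg (Nat.not_odd_iff_even.2 (Nat.even_iff.2 (by omega))),
        ← Nat.mul_div_mul_left n (i / 2) two_pos, show 2 * (i / 2) = i by omega]
    · rw [H53.card_invariant_of_free (fun x => H53.pstar_mem_cycF (H59.frob_frob hK) h0)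
        (fun x hx => H53.pstar_pstar (H59.frob_frob hK) ((H53.mem_cycF h0).1 hx).1)
        (fun x hx => mt (H53.pstar_frob_eq_self_iff_mod hK hr hr2 h0 hx).1 (hi ▸ h)) h2, h1]
  · exact ⟨fun ⟨g, hg⟩ => H53.map_pstar_add_replicate_iff.1 (hg ▸ H53.map_pstar_med_GU hK g),
      fun h => H53.exists_GU_med_eq hK
        (H53.isPP_add_replicate (fun x hx => H53.isPP_of_mem_cycF h0 (h4 x hx)) _)
        (H53.coeff_zero_add_replicate
          (fun x hx => H53.coeff_zero_ne_zero_of_mem_cycF h0 (h4 x hx)) _)
        (H53.map_pstar_add_replicate_iff.2 h) (by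
          rw [H53.sum_natDegree_add_replicate, H53.sum_natDegree_of_mem_cycF h0 h4,
            Nat.add_sub_cancel' h5, Fintype.card_fin])⟩

end Cfsg.Agent.S2671
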