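import Cfsg.Statements.S2673
import Cfsg.Agent.H53.PrimeOrd

set_option autoImplicit false
open Cfsg

namespace Cfsg.Agent.S2673

/-- Number of conjugacy classes of elements of odd prime order r ≠ p in the orthogonal group O_(2m+1)(q) of x_0² + Σ x_j y_j, q odd: with i the multiplicative order of q mod r and t = (r − 1)/i, there are C(⌊m/i⌋ + t/2, t/2) − 1 classes if i is odd (dual pairs of totally singular i-blocks) and C(⌊(2m+1)/i⌋ + t, t) − 1 if i is even (elliptic i-blocks). -/
theorem result {F : Type*} [Field F] [Fintype F] {p q : ℕ} [Fact p.Prime] [CharP F p] (hF : Fintype.card F = q) (hq : Odd q) (m r i t : ℕ) (hr : r.Prime) (hr2 : r ≠ 2) (hrp : r ≠ p) (hi : i = orderOf (q : ZMod r)) (ht : t * i = r - 1) : Nat.card {C : ConjClasses ↥(Cfsg.isometryGroup F (Cfsg.quadFormOdd m F)) // ∃ g : ↥(Cfsg.isometryGroup F (Cfsg.quadFormOdd m F)), ConjClasses.mk g = C ∧ orderOf g = r} = if Odd i then Nat.choose (m / i + t / 2) (t / 2) - 1 else Nat.choose ((2 * m + 1) / i + t)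 t - 1 := by
  have h0 := H53.natCast_ne_zero_of_prime_ne (F := F) p hr hrp
  have h2 : 2 < r := lt_of_le_of_ne hr.two_le hr2.symm
  have h7 := H58.two_ne_zero_of_odd_card (F := F) (hF ▸ hq)
  rw [← hF, ← Nat.card_eq_fintype_card] at hi
  subst hi
  have h3 : Fintype.card (Unit ⊕ (Fin m ⊕ Fin m)) = 2 * m + 1 := by simp [two_mul, add_comm]
  rw [H53.card_classes_prime_order ((Units.coeHom _).comp (Cfsg.isometryGroup F _).subtype)
    (Units.val_injective.comp Subtype.val_injective)
    hr h0 (fun g h hg => H53.isConj_O_of_med (H58.coe_qOdd m F) (H58.qOdd_nondeg m h7) (one_mul 1)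
      fun P hP => (((H53.orderOf_eq_prime_iff_med hr h0 _).1
        (by rw [orderOf_units, Subgroup.orderOf_coe, hg])).1 P hP).imp id
        fun h => H53.isCoprime_of_mem_cycF h2 h0 h)
    (fun s => s.map (H53.pstar (RingHom.id F)) = s) (fun s h4 h5 => ?_), h3,
    ← H53.card_cycF_eq hr h0 ht]
  · split_ifs with h
    · rw [H53.card_invariant_of_free (fun x => H53.pstar_mem_cycF (fun _ => rfl) h0)
        (fun x hx => H53.pstar_pstar (fun _ => rfl) ((H53.mem_cycF h0).1 hx).1)
        (fun x hx => mt (H53.pstar_id_eq_self_iff_even hr hr2 h0 hx).1 (Nat.not_even_iff_odd.2 h))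
        (H53.orderOf_card_pos h0), ← Nat.div_div_eq_div_mul, show (2 * m + 1) / 2 = m by omega]
    · rw [H53.card_invariant_of_fixed (fun x hx => (H53.pstar_id_eq_self_iff_even hr hr2 h0 hx).2
        (Nat.not_odd_iff_even.1 h)) (H53.orderOf_card_pos h0)]
  · have h6 := H53.sum_natDegree_of_mem_cycF h0 h4
    rw [← H53.real_symm_add_replicate_iff h7 (fun x hx => H53.isPP_of_mem_cycF h0 (h4 x hx))
      (fun x hx => H53.coeff_zero_ne_zero_of_mem_cycF h0 (h4 x hx))
      (fun x hx => H53.isCoprime_of_mem_cycF h2 h0 (h4 x hx))]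
    exact ⟨fun ⟨g, hg⟩ => hg ▸ (H53.realQ_med_O (H58.coe_qOdd m F) (H58.qOdd_nondeg m h7) g).real,
      fun h => H53.exists_O_med_eq_of_odd (H58.coe_qOdd m F) (H58.qOdd_nondeg m h7)
        (h3 ▸ odd_two_mul_add_one m) h (by
      rw [H53.sum_natDegree_add_replicate, h6, Nat.add_sub_cancel' h5])⟩

end Cfsg.Agent.S2673
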