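import Cfsg.Statements.S2675
import Cfsg.Agent.H53.PrimeOrd

set_option autoImplicit false
open Cfsg

namespace Cfsg.Agent.S2675

/-- Number of conjugacy classes of elements of odd prime order r ≠ p in the orthogonal group O⁻_2m(q) of an elliptic form Σ_(j<m−1) x_j y_j + z₁² + a z₁z₂ + c z₂² (binary part anisotropic, m ≥ 1): with i the multiplicative order of q mod r and t = (r − 1)/i — if i is odd, C(⌊m/i⌋ + t/2, t/2) − 1 minus, when i divides m, the C(m/i + t/2 − 1, t/2 − 1) tuples filling the whole space (dual pairs of totally singular blocks fill a hyperbolic space); if i is even, C(⌊2m/i⌋ + t, t) − 1 minus, when i divides 2m with even quotient, the C(2m/i + t − 1, t − 1) tuples filling the whole space with an even number of elliptic blocks. -/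
theorem result {F : Type*} [Field F] [Fintype F] {p q : ℕ} [Fact p.Prime] [CharP F p] (hF : Fintype.card F = q) (m r i t : ℕ) (hm : 1 ≤ m) (a c : F) (hac : ∀ z₁ z₂ : F, z₁ ^ 2 + a * z₁ * z₂ + c * z₂ ^ 2 = 0 → z₁ = 0 ∧ z₂ = 0) (hr : r.Prime) (hr2 : r ≠ 2) (hrp : r ≠ p) (hi : i = orderOf (q : ZMod r)) (ht : t * i = r - 1) : Nat.card {C : ConjClasses ↥(Cfsg.isometryGroup F (Cfsg.quadFormMinus (m - 1) F a c)) // ∃ g : ↥(Cfsg.isometryGroup F (Cfsg.quadFormMinus (m - 1) F a c)), ConjClasses.mk g = C ∧ orderOf g = r} = if Odd i then Nat.choose (m / i + t / 2) (t / 2) - 1 - (if i ∣ m then Nat.choose (m / i + t / 2 - 1) (t / 2 - 1) else 0) else Nat.choose (2 * m / i + t) t - 1 - (if i ∣ 2 * m ∧ Even (2 * m / i) then Nat.choose (2 * m / i + t - 1) (t - 1) else 0) := by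
  classical
  have h0 := H53.natCast_ne_zero_of_prime_ne (F := F) p hr hrp
  have h2 : 2 < r := lt_of_le_of_ne hr.two_le hr2.symm
  rw [← hF, ← Nat.card_eq_fintype_card] at hi
  have h8 := hi ▸ H53.orderOf_card_pos h0
  have h9 : 0 < t := Nat.pos_of_ne_zero fun h => by rw [h] at ht; omega
  have h3 : Fintype.card ((Fin (m - 1) ⊕ Fin (m - 1)) ⊕ Fin 2) = 2 * m := by simp; omega
  have h10 := H53.card_cycF_eq (t := t) hr h0 (hi ▸ ht)
  have hQ := H58.qMinus_nondeg (m - 1) hac
  rw [H53.card_classes_prime_order ((Units.coeHom _).comp (Cfsg.isometryGroup F _).subtype)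
    (Units.val_injective.comp Subtype.val_injective)
    hr h0 (fun g h hg => H53.isConj_O_of_med (H58.coe_qMinus _ F a c) hQ (one_mul 1)
      fun P hP => (((H53.orderOf_eq_prime_iff_med hr h0 _).1
        (by rw [orderOf_units, Subgroup.orderOf_coe, hg])).1 P hP).imp id
        fun h => H53.isCoprime_of_mem_cycF h2 h0 h)
    (fun s => s.map (H53.pstar (RingHom.id F)) = s ∧ (2 * m - s.card * i = 0 →
      ¬ Even (s.filter fun P => H53.pstar (RingHom.id F) P = P).card)) (fun s h4 h5 => ?_), h3,
    ← hi]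
  · have h11 := fun x hx => hi ▸ H53.pstar_id_eq_self_iff_even hr hr2 h0 (φ := x) hx
    by_cases h : Odd i
    · have h12 := fun x hx => mt (h11 x hx).1 (Nat.not_even_iff_odd.2 h)
      obtain ⟨T, h13, h14⟩ := H53.card_multiset_invariant _ _
        (fun x => H53.pstar_mem_cycF (σ := RingHom.id F) (fun _ => rfl) h0)
        (fun x hx => H53.pstar_pstar (fun _ => rfl) ((H53.mem_cycF h0).1 hx).1) h12
      rw [if_pos h, show t / 2 = T.card by omega]
      refine Eq.trans (Nat.card_congr (Equiv.subtypeEquivRight fun s => and_congr_right fun hs => ?_))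
        ((h14 fun c => c * i < 2 * m ∧ c ≠ 0).trans ?_)
      · rw [Multiset.filter_eq_nil.2 fun x hx => h12 x (hs x hx), Ne, Ne, Multiset.card_eq_zero]
        simp only [Multiset.card_zero, Even.zero, not_true, imp_false]
        constructor
        · exact fun h => ⟨h.2.2.1, by omega, h.2.1⟩
        · exact fun h => ⟨h.2.1.le, h.2.2, h.1, by omega⟩
      split_ifs with h15
      · obtain ⟨M, rfl⟩ := h15
        rw [Nat.mul_div_cancel_left _ h8, Nat.choose_symm_of_eq_add (show M + T.card - 1 =
          T.card - 1 + M by omega),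
          show M + T.card - 1 = T.card + M - 1 by rw [add_comm],
          ← H53.card_multiset_card_le_ne_zero_ne (M := M) _ (by rintro rfl; simp at hm) le_rfl]
        refine Nat.card_congr (Equiv.subtypeEquivRight fun s => ?_)
        rw [mul_assoc, Nat.mul_lt_mul_left two_pos, mul_comm i, Nat.mul_lt_mul_right h8,
          lt_iff_le_and_ne]
        simp only [Ne, mul_eq_zero, two_ne_zero, false_or, Multiset.card_eq_zero]
        tauto
      · rw [Nat.sub_zero, ← H53.card_multiset_card_le_ne_zero]
        refine Nat.card_congr (Equiv.subtypeEquivRight fun s => ?_)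
        rw [mul_assoc, Nat.mul_lt_mul_left two_pos, Nat.le_div_iff_mul_le h8, lt_iff_le_and_ne,
          and_iff_left (fun h16 : s.card * i = m => h15 (h16 ▸ dvd_mul_left _ _))]
        simp only [Ne, mul_eq_zero, two_ne_zero, false_or, Multiset.card_eq_zero]
        tauto
    have h12 := fun x hx => (h11 x hx).2 (Nat.not_odd_iff_even.1 h)
    rw [if_neg h, ← h10]
    split_ifs with h13
    · obtain ⟨⟨M, h14⟩, h15⟩ := h13
      rw [h14, Nat.mul_div_cancel_left _ h8] at h15 ⊢
      rw [Nat.choose_symm_of_eq_add (show M + (H53.cycF F r).card - 1 =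
        (H53.cycF F r).card - 1 + M by omega),
        show M + (H53.cycF F r).card - 1 = (H53.cycF F r).card + M - 1 by rw [add_comm],
        ← H53.card_multiset_card_le_ne_zero_ne (M := M) _ (by rintro rfl; omega) le_rfl]
      refine Nat.card_congr (Equiv.subtypeEquivRight fun s => ?_)
      rw [and_assoc]
      refine and_congr_right fun hs => ?_
      rw [Multiset.filter_eq_self.2 fun x hx => h12 x (hs x hx), mul_comm i, Nat.mul_le_mul_right_iff h8,
        H53.map_eq_self_of_forall fun x hx => h12 x (hs x hx), ← Nat.sub_mul]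
      refine and_congr_right fun h16 => and_congr_right fun _ => ⟨fun h17 h18 => ?_, fun h17 =>
        ⟨rfl, fun h18 => absurd ?_ h17⟩⟩
      · exact h17.2 (by rw [h18, Nat.sub_self, zero_mul]) (h18 ▸ h15)
      · have := (Nat.mul_eq_zero.1 h18).resolve_right h8.ne'
        omega
    · rw [Nat.sub_zero, ← H53.card_invariant_of_fixed h12 h8]
      refine Nat.card_congr (Equiv.subtypeEquivRight fun s => and_congr_right fun hs =>
        and_congr_right fun h14 => and_congr_right fun _ => and_iff_left fun h15 => ?_)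
      rw [Multiset.filter_eq_self.2 fun x hx => h12 x (hs x hx)]
      have h16 : 2 * m = s.card * i := by omega
      rw [h16, Nat.mul_div_cancel _ h8] at h13
      exact fun h17 => h13 ⟨dvd_mul_left _ _, h17⟩
  · have h6 := H53.sum_natDegree_of_mem_cycF h0 h4
    have h7 := H53.realQ_add_replicate_iff (fun x hx => ⟨((H53.mem_cycF h0).1 (h4 x hx)).1,
      ((H53.mem_cycF h0).1 (h4 x hx)).2.1⟩)
      (fun x hx => H53.coeff_zero_ne_zero_of_mem_cycF h0 (h4 x hx))
      (fun x hx => H53.isCoprime_of_mem_cycF h2 h0 (h4 x hx))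
      (N := Fintype.card ((Fin (m - 1) ⊕ Fin (m - 1)) ⊕ Fin 2) -
        s.card * orderOf (Nat.card F : ZMod r))
      (by rw [h6, Nat.add_sub_cancel' h5, h3]; exact even_two_mul m)
      (H58.IsPlus (H58.qMinus (m - 1) F a c))
    rw [iff_false_intro (H58.not_isPlus_qMinus _ hac), false_iff] at h7
    rw [hi, ← h3, ← h7, ← iff_false_intro (H58.not_isPlus_qMinus (m - 1) hac)]
    exact ⟨fun ⟨g, hg⟩ => hg ▸ H53.realQ_med_O (H58.coe_qMinus _ F a c) hQ g,
      fun h => H53.exists_O_med_eq_of_even (H58.coe_qMinus _ F a c) hQ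
        (h3 ▸ even_two_mul m) h (by
      rw [H53.sum_natDegree_add_replicate, h6, Nat.add_sub_cancel' h5])⟩

end Cfsg.Agent.S2675
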