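import Cfsg.Statements.S2676
import Cfsg.Agent.H64.SpUni

set_option autoImplicit false
open Classical
open Cfsg

namespace Cfsg.Agent.S2676

/-- Number of conjugacy classes of elements of order p in Sp_2m(q), q a power of the odd prime p: the classes correspond to the signed partitions of 2m — partitions with all parts at most p in which every odd part has even multiplicity, each even part size that occurs carrying a sign — other than the all-ones partition; so the count is the sum over such partitions of 2^(number of distinct even parts), minus one. -/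
theorem result {F : Type*} [Field F] [Fintype F] {p : ℕ} [Fact p.Prime] [CharP F p] (hp : p ≠ 2) (m : ℕ) : Nat.card {C : ConjClasses ↥(Matrix.symplecticGroup (Fin m) F) // ∃ g : Matrix.symplecticGroup (Fin m) F, ConjClasses.mk g = C ∧ orderOf g = p} = (∑ μ ∈ Finset.univ.filter (fun μ : Nat.Partition (2 * m) => (∀ a ∈ μ.parts, a ≤ p) ∧ ∀ j : ℕ, Odd j → Even (μ.parts.count j)), 2 ^ ((μ.parts.toFinset.filter (fun j : ℕ => Even j)).card)) - 1 := by
  classical
  have hp' : p.Prime := Fact.out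
  have h2 : (2 : F) ≠ 0 := fun h => hp ((Nat.prime_dvd_prime_iff_eq hp' Nat.prime_two).1
    ((CharP.cast_eq_zero_iff F p 2).1 (by exact_mod_cast h)))
  have hc : Fintype.card (Fin m ⊕ Fin m) = 2 * m := by simp [two_mul]
  have hu : ∀ g : Matrix.symplecticGroup (Fin m) F, orderOf g = p ↔
      IsNilpotent ((g : Matrix (Fin m ⊕ Fin m) (Fin m ⊕ Fin m) F) - 1) ∧
        (∀ k ∈ H53.mjt (g : Matrix (Fin m ⊕ Fin m) (Fin m ⊕ Fin m) F), k ≤ p) ∧
        ¬ ∀ k ∈ H53.mjt (g : Matrix (Fin m ⊕ Fin m) (Fin m ⊕ Fin m) F), k = 1 := by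
    intro g
    have h1 : g ^ p = 1 ↔ ((g : Matrix (Fin m ⊕ Fin m) (Fin m ⊕ Fin m) F) - 1) ^ p = 0 := by
      have := H53.pow_char_pow_eq_one_iff (F := F) p 1 (g : Matrix (Fin m ⊕ Fin m) (Fin m ⊕ Fin m) F)
      rw [pow_one] at this
      rw [← this, Subtype.ext_iff]; rfl
    have h4 : g = 1 ↔ (g : Matrix (Fin m ⊕ Fin m) (Fin m ⊕ Fin m) F) = 1 := Subtype.ext_iff
    rw [orderOf_eq_prime_iff, h1]
    constructor
    · rintro ⟨h2, h3⟩
      have hn : IsNilpotent ((g : Matrix (Fin m ⊕ Fin m) (Fin m ⊕ Fin m) F) - 1) := ⟨_, h2⟩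
      refine ⟨hn, (H53.sub_one_pow_eq_zero_iff_mjt hn p).1 h2, ?_⟩
      rwa [← H53.eq_one_iff_mjt hn, ← h4]
    · rintro ⟨hn, h2, h3⟩
      refine ⟨(H53.sub_one_pow_eq_zero_iff_mjt hn p).2 h2, ?_⟩
      rwa [← H53.eq_one_iff_mjt hn, ← h4] at h3
  let part : Matrix.symplecticGroup (Fin m) F → Nat.Partition (2 * m) := fun g =>
    ⟨H53.mjt (g : Matrix (Fin m ⊕ Fin m) (Fin m ⊕ Fin m) F), fun {k} hk => H53.mjt_pos _ k hk,
      (H53.sum_mjt _).trans hc⟩
  let φ : {C : ConjClasses ↥(Matrix.symplecticGroup (Fin m) F) //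
      ∃ g : Matrix.symplecticGroup (Fin m) F, ConjClasses.mk g = C ∧ orderOf g = p} →
      Nat.Partition (2 * m) := fun C => part C.2.choose
  have hφ : ∀ C (g : Matrix.symplecticGroup (Fin m) F), ConjClasses.mk g = C.1 → φ C = part g := by
    intro C g hg
    ext1
    exact H53.mjt_eq_of_isConj (H53.isConj_matrix_of_isConj_sp
      (ConjClasses.mk_eq_mk_iff_isConj.1 (C.2.choose_spec.1.trans hg.symm)))
  let one : Nat.Partition (2 * m) := ⟨Multiset.replicate (2 * m) 1, fun {i} hi => by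
    rw [Multiset.eq_of_mem_replicate hi]; exact one_pos, by simp⟩
  have hone' : ∀ μ : Nat.Partition (2 * m), μ = one ↔ ∀ k ∈ μ.parts, k = 1 := by
    intro μ
    constructor
    · rintro rfl k hk
      exact Multiset.eq_of_mem_replicate hk
    · intro h
      have h1 := Multiset.eq_replicate_of_mem h
      have h2 := μ.parts_sum
      rw [h1] at h2
      simp only [Multiset.sum_replicate, smul_eq_mul, mul_one] at h2
      ext1
      rw [h1, h2]
  set T := Finset.univ.filter (fun μ : Nat.Partition (2 * m) =>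
    (∀ a ∈ μ.parts, a ≤ p) ∧ ∀ j : ℕ, Odd j → Even (μ.parts.count j)) with hT
  have hone : one ∈ T := by
    refine Finset.mem_filter.2 ⟨Finset.mem_univ _, fun a ha => ?_, fun j _ => ?_⟩
    · rw [Multiset.eq_of_mem_replicate ha]; exact hp'.one_lt.le
    · change Even (Multiset.count j (Multiset.replicate (2 * m) 1))
      rw [Multiset.count_replicate]
      split_ifs <;> simp
  have h1 : (one.parts.toFinset.filter fun j : ℕ => Even j) = ∅ :=
    Finset.filter_eq_empty_iff.2 fun j hj => by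
      rw [Multiset.eq_of_mem_replicate (Multiset.mem_toFinset.1 hj)]; decide
  rw [← Finset.add_sum_erase _ _ hone, h1, Finset.card_empty, pow_zero, Nat.add_sub_cancel_left,
    Nat.card_congr (Equiv.sigmaFiberEquiv φ).symm, Nat.card_sigma,
    ← Finset.sum_subset (Finset.subset_univ (T.erase one))]
  · refine Finset.sum_congr rfl fun μ hμ => ?_
    obtain ⟨h3, h4⟩ := Finset.mem_erase.1 hμ
    obtain ⟨-, h4, h5⟩ := Finset.mem_filter.1 h4
    rw [← H64.SpU.card_classes (F := F) h2 (l := Fin m) (fun k hk => μ.parts_pos hk)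
      (by simpa using μ.parts_sum) h5]
    refine Nat.card_congr
      { toFun := fun C => ⟨C.1.1, C.1.2.choose, C.1.2.choose_spec.1,
          ((hu _).1 C.1.2.choose_spec.2).1, congrArg Nat.Partition.parts C.2⟩
        invFun := fun C => ⟨⟨C.1, C.2.imp fun g hg => ⟨hg.1, (hu g).2 ⟨hg.2.1,
          by rw [hg.2.2]; exact h4, by rw [hg.2.2]; exact fun h => h3 ((hone' μ).2 h)⟩⟩⟩, ?_⟩
        left_inv := fun _ => rfl
        right_inv := fun _ => rfl }
    obtain ⟨g, hg⟩ := C.2
    rw [hφ _ g hg.1]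
    ext1
    exact hg.2.2
  · intro μ _ hμ
    refine Nat.card_eq_zero.2 (.inl ⟨fun C => hμ ?_⟩)
    obtain ⟨⟨C, g, hg, h3⟩, rfl⟩ := C
    rw [hφ _ g hg]
    obtain ⟨h4, h5, h6⟩ := (hu g).1 h3
    refine Finset.mem_erase.2 ⟨fun h => h6 ((hone' _).1 h), Finset.mem_filter.2
      ⟨Finset.mem_univ _, h5, (H53.real_alt_unip_iff (F := F) (H53.mjt_pos _)).1 ?_⟩⟩
    have := H53.real_med_sp g
    rwa [H53.med, H53.ed_eq_map_jt ((H53.isNilpotent_toLin'_sub_one _).2 h4)] at this

end Cfsg.Agent.S2676
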