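import Cfsg.Statements.S2678
import Cfsg.Agent.Base
import Cfsg.Agent.H54.SpExt

set_option autoImplicit false
open Cfsg

namespace Cfsg.Agent.S2678

/-- Field-extension embedding of symplectic groups: for a field K with q² elements and a field F with q elements there is an injective homomorphism Sp_2a(K) → Sp_4a(F). -/
theorem result {K F : Type*} [Field K] [Fintype K] [Field F] [Fintype F] {q : ℕ} (hK : Fintype.card K = q ^ 2) (hF : Fintype.card F = q) (a : ℕ) : ∃ φ : ↥(Matrix.symplecticGroup (Fin a) K) →* ↥(Matrix.symplecticGroup (Fin (2 * a)) F), Function.Injective φ := by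
  obtain ⟨ι⟩ := H54.nonempty_ringHom_of_card_eq_pow (F := F) (K := K) (m := 2) (by rw [hK, hF])
  let _ := ι.toAlgebra
  have h2 : Module.finrank F K = 2 := H54.finrank_eq_of_card_eq_pow (by rw [hK, hF])
  exact H54.exists_sp_injective_sp (Fin a) (Fin (2 * a)) (by simp [h2])

end Cfsg.Agent.S2678
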