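import Cfsg.Statements.S2679
import Cfsg.Agent.H54.SpExt
import Cfsg.Agent.H53.OClass
import Cfsg.Agent.H58.ODescent

set_option autoImplicit false
open Cfsg

namespace Cfsg.Agent.S2679

open H58 H56 in
theorem isPlus_ext {K : Type*} [Field K] (m : ℕ) {a c r : K} (hr : r ^ 2 + a * r + c = 0) :
    IsPlus (qMinus m K a c) := by
  have h1 : IsPlus (qBin K a c) := by
    refine ⟨Submodule.span K {![r, 1]}, ?_, ?_⟩
    · rw [finrank_span_singleton (by intro h; simpa using congrFun h 1)]; simp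
    · intro u hu
      obtain ⟨t, rfl⟩ := Submodule.mem_span_singleton.1 hu
      rw [qBin_apply]
      simp
      linear_combination t ^ 2 * hr
  exact (H53.isPlus_prod (isPlus_qPlus m) h1).of_equiv
    (LinearEquiv.sumArrowLequivProdArrow _ _ K K).symm fun v => by
      rw [qMinus_apply']; rfl

theorem exists_root {F K : Type*} [Field F] [Fintype F] [Field K] [Fintype K] [Algebra F K]
    (h2 : Module.finrank F K = 2) (a c : F) :
    ∃ r : K, r ^ 2 + algebraMap F K a * r + algebraMap F K c = 0 := by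
  by_cases h : ∃ r : F, r ^ 2 = -c + -a * r
  · obtain ⟨r, hr⟩ := h
    refine ⟨algebraMap F K r, ?_⟩
    rw [← map_pow, hr]; simp
  push Not at h
  haveI : Fact (∀ r : F, r ^ 2 ≠ -c + -a * r) := ⟨h⟩
  haveI : Finite (QuadraticAlgebra F (-c) (-a)) := Module.finite_of_finite F
  obtain ⟨ψ⟩ := FiniteField.nonempty_algHom_of_finrank_dvd (F := F) (K := QuadraticAlgebra F (-c) (-a))
    (L := K) (by rw [h2, QuadraticAlgebra.finrank_eq_two])
  refine ⟨ψ QuadraticAlgebra.omega, ?_⟩
  rw [pow_two, ← map_mul, QuadraticAlgebra.omega_mul_omega_eq_algebraMap]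
  simp

/-- An elliptic orthogonal group embeds in the hyperbolic orthogonal group of the same dimension over the quadratic extension: for a field F with q elements and a field K with q² elements there is an injective homomorphism from O⁻_2m(F) (isometries of Σ_(j<m−1) x_j y_j + z₁² + a z₁z₂ + c z₂², binary part anisotropic) to O⁺_2m(K) (isometries of Σ_(j<m) x_j y_j over K). -/
theorem result {F K : Type*} [Field F] [Fintype F] [Field K] [Fintype K] {q : ℕ} (hF : Fintype.card F = q) (hK : Fintype.card K = q ^ 2) {m : ℕ} (hm : 1 ≤ m) (a c : F) (hac : ∀ z₁ z₂ : F, z₁ ^ 2 + a * z₁ * z₂ + c * z₂ ^ 2 = 0 → z₁ = 0 ∧ z₂ = 0) : ∃ φ : ↥(Cfsg.isometryGroup F (Cfsg.quadFormMinus (m - 1) F a c)) →* ↥(Cfsg.isometryGroup K (Cfsg.quadFormPlus m K)), Function.Injective φ := by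
  obtain ⟨ι⟩ := H54.nonempty_ringHom_of_card_eq_pow (F := F) (K := K) (m := 2) (by rw [hK, hF])
  let _ := ι.toAlgebra
  have h2 : Module.finrank F K = 2 := H54.finrank_eq_of_card_eq_pow (by rw [hK, hF])
  obtain ⟨r, hr⟩ := exists_root h2 a c
  have hbc := H58.isBCQ_qMinus ι (m - 1) a c
  have hnd := hbc.nondeg_iff.2 (H58.qMinus_nondeg (m - 1) hac)
  obtain ⟨g, hg⟩ := (isPlus_ext (m - 1) hr).exists_equiv hnd (m := m) (by simp; omega)
  have hmem : ∀ x : Cfsg.isometryGroup F (Cfsg.quadFormMinus (m - 1) F a c),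
      Matrix.GeneralLinearGroup.map ι x.1 ∈
        Cfsg.isometryGroup K (Cfsg.quadFormMinus (m - 1) K (ι a) (ι c)) := by
    intro x
    rw [H56.mem_isometryGroup, ← H58.coe_qMinus]
    have hx : ∀ v, H58.qMinus (m - 1) F a c (Matrix.mulVec x.1.val v) = H58.qMinus (m - 1) F a c v := by
      rw [H58.coe_qMinus]; exact H56.mem_isometryGroup.1 x.2
    refine hbc.toIsBC.quad_ext (Q := (H58.qMinus (m - 1) K (ι a) (ι c)).comp
      (Matrix.toLin' (x.1.val.map ι))) fun w => ?_
    have : Matrix.toLin' (x.1.val.map ι) (H58.piMap ι _ w) =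
        H58.piMap ι _ (Matrix.mulVec x.1.val w) := by
      funext i
      rw [Matrix.toLin'_apply, H58.piMap_apply, RingHom.map_mulVec]
      rfl
    rw [QuadraticMap.comp_apply, this, hbc.map_Q, hbc.map_Q, hx]
  let φ₀ : Cfsg.isometryGroup F (Cfsg.quadFormMinus (m - 1) F a c) →*
      Cfsg.isometryGroup K (Cfsg.quadFormMinus (m - 1) K (ι a) (ι c)) :=
    ((Matrix.GeneralLinearGroup.map ι).comp (Subgroup.subtype _)).codRestrict _ hmem
  have h0 : Function.Injective φ₀ := by
    intro x y h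
    have h1 : x.1.val.map ι = y.1.val.map ι :=
      congrArg (fun z : Cfsg.isometryGroup K (Cfsg.quadFormMinus (m - 1) K (ι a) (ι c)) =>
        z.1.val) h
    exact Subtype.ext (Units.ext (Matrix.map_injective ι.injective h1))
  let e := ((H56.toO _ (H58.coe_qMinus (m - 1) K (ι a) (ι c))).trans (H56.O.congr g hg).symm).trans
    (H56.toO _ (H58.coe_qPlus m K)).symm
  exact ⟨e.toMonoidHom.comp φ₀, e.injective.comp h0⟩

end Cfsg.Agent.S2679
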