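import Cfsg.Statements.S2712
import Cfsg.Agent.Base
import Cfsg.Agent.H54.SpTwist

set_option autoImplicit false
open Cfsg

namespace Cfsg.Agent.S2712

/-- Let T = PSp_{2m}(F) be simple over the field F with p^f elements (m ≥ 2, (2m, |F|) ≠ (4, 2)), G = Inndiag(T) the image of the projective conformal symplectic group PGSp_{2m}(F), and x a field automorphism of T of prime order r. Then r divides f; C_G(x) is isomorphic to PGSp_{2m}(F₀) for a field F₀ with p^(f/r) elements; and the G-class of x is the union of exactly gcd(gcd(2, p^f − 1), r) T-classes. -/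
theorem result {F : Type*} [Field F] [Fintype F] {p f : ℕ} [Fact p.Prime] (hF : Fintype.card F = p ^ f) (hf : 1 ≤ f) {m : ℕ} (hm : 2 ≤ m) (hs : m = 2 → 3 ≤ Fintype.card F) (x : MulAut (Cfsg.PSp m F)) (hx : Cfsg.IsFieldAutClassPSp x) {r : ℕ} (hr : r.Prime) (hxr : orderOf x = r) (F₀ : Type*) [Field F₀] [Fintype F₀] (hF₀ : Fintype.card F₀ = p ^ (f / r)) :
    r ∣ f ∧ Nonempty (↥(Cfsg.inndiagPSp m F ⊓ Subgroup.centralizer {x}) ≃* Cfsg.PGSp m F₀) ∧ Cfsg.splitClassCount (Cfsg.inndiagPSp m F) (Cfsg.Inn (Cfsg.PSp m F)) x = Nat.gcd (Nat.gcd 2 (p ^ f - 1)) r := by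
  have hm1 : 1 ≤ m := by omega
  have hN := H54.range_pspDiag_normal (F := F) hm
  obtain ⟨α, σ, -, hσ, hx⟩ := H54.exists_of_isFieldAutClassPSp hm1 hx
  obtain ⟨h1, h2⟩ := H57.card_fixedSub hF σ
  rw [hσ, hxr] at h1 h2
  have := Fintype.ofFinite (H57.fixedSub σ)
  let e : F₀ ≃+* H57.fixedSub σ :=
    FiniteField.ringEquivOfCardEq (by rw [hF₀, ← h2, Nat.card_eq_fintype_card])
  let φ : F₀ →+* F := (H57.fixedSub σ).subtype.comp (e : F₀ →+* H57.fixedSub σ)
  have hφ : ∀ a, a ∈ φ.range ↔ σ a = a := fun a => by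
    rw [← H57.mem_fixedSub]
    exact ⟨fun ⟨b, hb⟩ => hb ▸ (e b).2, fun h => ⟨e.symm ⟨a, h⟩, by simp [φ]⟩⟩
  have hC := H54.comap_centralizer_pspField hm1 σ φ hφ
  refine ⟨h1, ⟨?_⟩, ?_⟩
  · rw [H54.inndiagPSp_eq_range]
    refine (H57.infCentralizerConj hN α x).trans ?_
    rw [hx]
    exact H57.infCentralizerEquiv' _ _ _ _ hC (H54.scalars_eq_comap_gspMap φ)
  · rw [← H57.splitClassCount_conj (by rw [H54.inndiagPSp_eq_range]; exact hN) (Cfsg.innNormal _) α,
      hx, H54.splitClassCount_psp hm1 _ _ hC, H54.index_map_gspMult_range_gspMap,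
      Nat.card_eq_fintype_card, Nat.card_eq_fintype_card, hF, hF₀]
    have h3 : p ^ f = (p ^ (f / r)) ^ r := by rw [← pow_mul, Nat.div_mul_cancel h1]
    rw [h3]
    exact H54.gcd_two_geom (hF₀ ▸ Fintype.one_lt_card) hr.one_le

end Cfsg.Agent.S2712
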