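import Cfsg.Statements.S2713
import Cfsg.Agent.Base
import Cfsg.Agent.H54.SpTwist

set_option autoImplicit false
open Cfsg

namespace Cfsg.Agent.S2713

/-- Let T = PSp_{2m}(F) be simple over a finite field (m ≥ 2, (2m, |F|) ≠ (4, 2)) and let x be a field automorphism of T of prime order r. Then an element y of the coset Inndiag(T)·x (y = δ x with δ in the image of the projective conformal symplectic group) has order r if and only if y is conjugate to x by an element of Inndiag(T). -/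
theorem result {F : Type*} [Field F] [Fintype F] {m : ℕ} (hm : 2 ≤ m) (hs : m = 2 → 3 ≤ Fintype.card F) (x δ : MulAut (Cfsg.PSp m F)) (hx : Cfsg.IsFieldAutClassPSp x) {r : ℕ} (hr : r.Prime) (hxr : orderOf x = r) (hδ : δ ∈ Cfsg.inndiagPSp m F) :
    orderOf (δ * x) = r ↔ Cfsg.IsConjUnder (Cfsg.inndiagPSp m F) x (δ * x) := by
  refine ⟨fun hord => ?_, fun h => by rw [H57.isConjUnder_orderOf h, hxr]⟩
  rw [H54.inndiagPSp_eq_range] at hδ ⊢
  have hN := H54.range_pspDiag_normal (F := F) hm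
  obtain ⟨α, σ, -, hσ, hx⟩ := H54.exists_of_isFieldAutClassPSp (by omega) hx
  have e : α * (δ * x) * α⁻¹ = α * δ * α⁻¹ * (α * x * α⁻¹) := by group
  have e2 : (α * δ * α⁻¹ * (α * x * α⁻¹)) ^ r = 1 := by
    rw [← e, ← hord, ← H57.orderOf_conj_mul α, pow_orderOf_eq_one]
  obtain ⟨g, hg⟩ := hN.conj_mem δ hδ α
  rw [← H57.isConjUnder_conj_iff hN α, e, ← hg, hx]
  rw [← hg, hx] at e2
  exact H54.isConjUnder_pspField σ (hσ.trans hxr) g e2

end Cfsg.Agent.S2713
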