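import Cfsg.Statements.S2714
import Cfsg.Agent.H58.OField

set_option autoImplicit false
open Cfsg

namespace Cfsg.Agent.S2714

/-- Let T = Ω_{2m+1}(F) (m ≥ 3, |F| = p^f odd; realised as PΩ of the form x₀² + Σ xᵢ yᵢ), G = Inndiag(T) the image of the conformal orthogonal group in Aut(T), and x a field automorphism of T of prime order r. Then r divides f; C_G(x) is isomorphic to Inndiag(Ω_{2m+1}(F₀)) for a field F₀ with p^(f/r) elements; and the G-class of x is a single T-class when r is odd and the union of exactly two T-classes when r = 2. -/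
theorem result {F : Type*} [Field F] [Fintype F] {p f : ℕ} [Fact p.Prime] (hF : Fintype.card F = p ^ f) (hf : 1 ≤ f) (hodd : Odd (Fintype.card F)) {m : ℕ} (hm : 3 ≤ m) (x : MulAut (Cfsg.POmega F (Cfsg.quadFormOdd m F))) (hx : Cfsg.IsFieldAutClassPOmega (Cfsg.quadFormOdd m F) x) {r : ℕ} (hr : r.Prime) (hxr : orderOf x = r) (F₀ : Type*) [Field F₀] [Fintype F₀] (hF₀ : Fintype.card F₀ = p ^ (f / r)) :
    r ∣ f ∧ Nonempty (↥(Cfsg.inndiagPOmegaOdd m F ⊓ Subgroup.centralizer {x}) ≃* ↥(Cfsg.inndiagPOmegaOdd m F₀)) ∧ (Odd r → Cfsg.splitClassCount (Cfsg.inndiagPOmegaOdd m F) (Cfsg.Inn (Cfsg.POmega F (Cfsg.quadFormOdd m F))) x = 1) ∧ (r = 2 → Cfsg.splitClassCount (Cfsg.inndiagPOmegaOdd m F) (Cfsg.Inn (Cfsg.POmega F (Cfsg.quadFormOdd m F))) x = 2) := by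
  have h2 := H58.two_ne_zero_of_odd_card hodd
  have hQ := H58.qOdd_nondeg m h2
  have h5 : 5 ≤ Module.finrank F (Unit ⊕ (Fin m ⊕ Fin m) → F) := by simp; omega
  have hρ := H58.ker_rhoM _ (H58.coe_qOdd m F) hQ (by simp; omega)
  obtain ⟨S₀, hS, rfl⟩ := H58.exists_of_fieldClass (H58.coe_qOdd m F)
    (H56.rho_surjective_qOdd h2 hm) (H58.qOdd_map m) hx
  have : Nontrivial (Unit ⊕ (Fin m ⊕ Fin m) → F) := inferInstance
  obtain ⟨h1, a, hS⟩ := H58.exists_lift hρ hS hr hxr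
  rw [← H58.rho_sc_mul hρ a]
  have h1 : orderOf (H58.Gam.sc _ a * S₀).σ = r := by simpa using h1
  generalize H58.Gam.sc _ a * S₀ = S at h1 hS ⊢
  obtain ⟨hdvd, φ, hφ⟩ := H58.exists_emb hF h1 F₀ hF₀
  have h2' := H58.two_ne_zero_of_map φ h2
  have hQ₀ := H58.qOdd_nondeg m h2'
  obtain ⟨j, Q₀, d, h⟩ := H58.exists_isDesc' h1 hr.pos hS hφ
  obtain ⟨c, hc, g, hg⟩ := H58.similar_qOdd (h.nondeg_iff.1 hQ) (m := m) (by simp; ring)
  have h := h.comp_equiv g hc hg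
  rw [H58.inndiagPOmegaOdd_eq h2, H58.inndiagPOmegaOdd_eq h2', ← H58.map_rhoM_OmG _ (H58.coe_qOdd m F),
    h.splitClassCount_eq hQ hQ₀ hρ h5 h1 hS]
  refine ⟨hdvd, h.centralizer_equiv hQ hQ₀ hρ (H58.ker_rhoM _ _ hQ₀ (by simp; omega)) h5 h1 hS,
    fun ho => ?_, ?_⟩
  · rw [h.sup_eq_of_odd hQ hQ₀ h5 ho (h1 ▸ pow_orderOf_eq_one _), Subgroup.relIndex_self]
  · rintro rfl
    exact h.count_two_of_odd hQ hQ₀ h5 h1 ⟨m, by simp; ring⟩

end Cfsg.Agent.S2714
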