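import Cfsg.Statements.S2715
import Cfsg.Agent.H58.D4Track

set_option autoImplicit false
open Cfsg

namespace Cfsg.Agent.S2715

/-- Let T = PΩ⁺_{2m}(F) (m ≥ 4, |F| = p^f; the form Σ xᵢ yᵢ), G = Inndiag(T) the image of the class-preserving similarities in Aut(T), and x a field automorphism of T of prime order r. Then r divides f; C_G(x) is isomorphic to Inndiag(PΩ⁺_{2m}(F₀)) for a field F₀ with p^(f/r) elements; and the G-class of x is the union of exactly c T-classes, where c = 1 if r is odd or p = 2, and otherwise (r = 2, p odd) c = 2 when m is odd and p^(f/2) ≡ 1 (mod 4), and c = 4 in the remaining cases. -/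
theorem result {F : Type*} [Field F] [Fintype F] {p f : ℕ} [Fact p.Prime] (hF : Fintype.card F = p ^ f) (hf : 1 ≤ f) {m : ℕ} (hm : 4 ≤ m) (x : MulAut (Cfsg.POmega F (Cfsg.quadFormPlus m F))) (hx : Cfsg.IsFieldAutClassPOmega (Cfsg.quadFormPlus m F) x) {r : ℕ} (hr : r.Prime) (hxr : orderOf x = r) (F₀ : Type*) [Field F₀] [Fintype F₀] (hF₀ : Fintype.card F₀ = p ^ (f / r)) :
    r ∣ f ∧ Nonempty (↥(Cfsg.inndiagPOmegaPlus m F ⊓ Subgroup.centralizer {x}) ≃* ↥(Cfsg.inndiagPOmegaPlus m F₀)) ∧ ((Odd r ∨ p = 2) → Cfsg.splitClassCount (Cfsg.inndiagPOmegaPlus m F) (Cfsg.Inn (Cfsg.POmega F (Cfsg.quadFormPlus m F))) x = 1) ∧ ((r = 2 ∧ p ≠ 2 ∧ Odd m ∧ p ^ (f / 2) % 4 = 1) → Cfsg.splitClassCount (Cfsg.inndiagPOmegaPlus m F) (Cfsg.Inn (Cfsg.POmega F (Cfsg.quadFormPlus m F))) x = 2) ∧ ((r = 2 ∧ p ≠ 2 ∧ ¬ (Odd m ∧ p ^ (f / 2) % 4 = 1)) → Cfsg.splitClassCount (Cfsg.inndiagPOmegaPlus m F) (Cfsg.Inn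 (Cfsg.POmega F (Cfsg.quadFormPlus m F))) x = 4) := by
  have hQ := H58.qPlus_nondeg m F
  have h5 : 5 ≤ Module.finrank F (Fin m ⊕ Fin m → F) := by simp; omega
  have hρ := H58.ker_rhoM _ (H58.coe_qPlus m F) hQ (by simp; omega)
  have hN := H58.inndiagPlus_normal (F := F) hm
  obtain ⟨α, φ, σ, hσ, hφ, hα⟩ := hx
  rw [H58.isFieldAut_iff (H58.coe_qPlus m F) (T := H58.fldP m F σ) fun _ => rfl] at hφ
  have h0 : orderOf (H58.rhoM _ (H58.coe_qPlus m F) (H58.fldP m F σ)) = r := by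
    rw [← hφ, ← hα, ← hxr]
    exact (MulAut.conj α).orderOf_eq x
  have h1 : orderOf σ = r := (H58.orderOf_σ_eq hρ (S := H58.fldP m F σ) hσ hr h0).1
  have hS : H58.fldP m F σ ^ r = 1 := by rw [← map_pow, ← h1, pow_orderOf_eq_one, map_one]
  obtain ⟨hdvd, φ₀, hφ₀⟩ := H58.exists_emb hF h1 F₀ hF₀
  have h := H58.isDesc_fld (H58.isBCQ_qPlus φ₀ m) (H58.qPlus_map m σ) hφ₀
  have hQ₀ := H58.qPlus_nondeg m F₀
  rw [H58.inndiagPOmegaPlus_eq (m := m) (by omega), H58.inndiagPOmegaPlus_eq (m := m) (by omega),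
    ← H57.splitClassCount_conj hN (Cfsg.innNormal _) α x, hα, hφ,
    ← H58.map_rhoM_OmG _ (H58.coe_qPlus m F)]
  obtain ⟨e⟩ := h.centralizer_equiv hQ hQ₀ hρ (H58.ker_rhoM _ (H58.coe_qPlus m F₀) hQ₀
    (by simp; omega)) h5 h1 hS
  have h2 := H58.two_eq_zero_iff_of_card hF
  refine ⟨hdvd, ⟨(H57.infCentralizerConj hN α x).trans (by rw [hα, hφ]; exact e)⟩, fun ho => ?_,
    ?_, ?_⟩
  · refine (h.splitClassCount_eq hQ hQ₀ hρ h5 h1 hS).trans ?_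
    rcases ho with ho | ho
    · rw [h.sup_eq_of_odd hQ hQ₀ h5 ho (h1 ▸ pow_orderOf_eq_one _), Subgroup.relIndex_self]
    · rw [Subgroup.relIndex_eq_one, ← H58.NG_eq_GP_of_two hQ (h2.2 ho)
        (H56.not_isExc_of_finrank (by omega))]
      exact le_sup_left
  · rintro ⟨rfl, hp, h3⟩
    rw [H58.count_fldP (by omega) hφ₀ h1 (mt h2.1 hp) hρ, hF₀, if_pos h3]
  · rintro ⟨rfl, hp, h3⟩
    rw [H58.count_fldP (by omega) hφ₀ h1 (mt h2.1 hp) hρ, hF₀, if_neg h3]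

end Cfsg.Agent.S2715
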