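import Cfsg.Statements.S2716
import Cfsg.Agent.H58.OField

set_option autoImplicit false
open Cfsg

namespace Cfsg.Agent.S2716

/-- Let T = PΩ⁻_{2m+2}(F) (m ≥ 3, |F| = p^f; the form Σ xᵢ yᵢ + z₁² + a z₁ z₂ + b z₂² with anisotropic binary part), G = Inndiag(T), and x a field automorphism of T of prime order r. Then r is odd and divides f; C_G(x) is isomorphic to Inndiag(PΩ⁻_{2m+2}(F₀)) for a field F₀ with p^(f/r) elements and some anisotropic binary part over F₀; and the G-class of x is a single T-class. -/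
theorem result {F : Type*} [Field F] [Fintype F] {p f : ℕ} [Fact p.Prime] (hF : Fintype.card F = p ^ f) (hf : 1 ≤ f) {m : ℕ} (hm : 3 ≤ m) (a b : F) (hab : (∀ z₁ z₂ : F, z₁ ^ 2 + a * z₁ * z₂ + b * z₂ ^ 2 = 0 → z₁ = 0 ∧ z₂ = 0)) (x : MulAut (Cfsg.POmega F (Cfsg.quadFormMinus m F a b))) (hx : Cfsg.IsFieldAutClassPOmegaMinus m x) {r : ℕ} (hr : r.Prime) (hxr : orderOf x = r) (F₀ : Type*) [Field F₀] [Fintype F₀] (hF₀ : Fintype.card F₀ = p ^ (f / r)) :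
    Odd r ∧ r ∣ f ∧ (∃ a₀ b₀ : F₀, (∀ z₁ z₂ : F₀, z₁ ^ 2 + a₀ * z₁ * z₂ + b₀ * z₂ ^ 2 = 0 → z₁ = 0 ∧ z₂ = 0) ∧ Nonempty (↥(Cfsg.inndiagPOmegaMinus m F a b ⊓ Subgroup.centralizer {x}) ≃* ↥(Cfsg.inndiagPOmegaMinus m F₀ a₀ b₀))) ∧ Cfsg.splitClassCount (Cfsg.inndiagPOmegaMinus m F a b) (Cfsg.Inn (Cfsg.POmega F (Cfsg.quadFormMinus m F a b))) x = 1 := by
  have hQ := H58.qMinus_nondeg m hab
  have h5 : 5 ≤ Module.finrank F ((Fin m ⊕ Fin m) ⊕ Fin 2 → F) := by simp; omega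
  have hev : Even (Module.finrank F ((Fin m ⊕ Fin m) ⊕ Fin 2 → F)) := ⟨m + 1, by simp; ring⟩
  have hρ := H58.ker_rhoM _ (H58.coe_qMinus m F a b) hQ (by simp; omega)
  obtain ⟨S₀, hS, rfl⟩ := H58.exists_of_fieldClassMinus hm hab hx
  have : Nontrivial ((Fin m ⊕ Fin m) ⊕ Fin 2 → F) := inferInstance
  obtain ⟨h1, s, hS⟩ := H58.exists_lift hρ hS hr hxr
  rw [← H58.rho_sc_mul hρ s]
  have h1 : orderOf (H58.Gam.sc _ s * S₀).σ = r := by simpa using h1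
  generalize H58.Gam.sc _ s * S₀ = S at h1 hS ⊢
  have ho : Odd r := hr.odd_of_ne_two (by
    rintro rfl
    exact H58.not_isPlus_qMinus m hab (H58.isPlus_of_involution hQ h5 hev h1 hS))
  have hσ : S.σ ^ r = 1 := h1 ▸ pow_orderOf_eq_one _
  obtain ⟨hdvd, φ, hφ⟩ := H58.exists_emb hF h1 F₀ hF₀
  obtain ⟨a₀, b₀, hab₀⟩ := H58.exists_aniso_pair F₀
  have hQ₀ := H58.qMinus_nondeg m hab₀
  obtain ⟨j, Q₀, d, h⟩ := H58.exists_isDesc' h1 hr.pos hS hφ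
  obtain ⟨-, g, hg⟩ := H58.exists_equiv_of_not_isPlus
    (fun hp => H58.not_isPlus_qMinus m hab ((h.isPlus_iff_of_odd hQ hev ho hσ).1 hp))
    (h.nondeg_iff.1 hQ) (m := m + 1) (by simp; ring) hab₀
  have h := h.comp_equiv (Q₀' := H58.qMinus m F₀ a₀ b₀) g one_ne_zero
    fun w => by rw [one_mul]; exact hg w
  refine ⟨ho, hdvd, ⟨a₀, b₀, hab₀, ?_⟩, ?_⟩
  · rw [H58.inndiagPOmegaMinus_eq (m := m) (by omega) hab, H58.inndiagPOmegaMinus_eq (m := m) (by omega) hab₀]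
    exact h.centralizer_equiv hQ hQ₀ hρ (H58.ker_rhoM _ _ hQ₀ (by simp; omega)) h5 h1 hS
  · rw [H58.inndiagPOmegaMinus_eq (m := m) (by omega) hab,
      ← H58.map_rhoM_OmG _ (H58.coe_qMinus m F a b), h.splitClassCount_eq hQ hQ₀ hρ h5 h1 hS,
      h.sup_eq_of_odd hQ hQ₀ h5 ho hσ, Subgroup.relIndex_self]

end Cfsg.Agent.S2716
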