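import Cfsg.Statements.S2717
import Cfsg.Agent.H58.OField

set_option autoImplicit false
open Cfsg

namespace Cfsg.Agent.S2717

set_option maxHeartbeats 1000000 in
/-- Let T = PΩ⁺_{2m}(F) with m ≥ 5 (dimension 2m ≠ 8) and |F| = p^f, G = Inndiag(T), and x an involutory graph-field automorphism of T. Then f is even; any two involutory graph-field automorphisms of T are G-conjugate; C_G(x) is isomorphic to Inndiag(PΩ⁻_{2m}(F₀)) for a field F₀ with p^(f/2) elements (some anisotropic binary part over F₀); and the G-class of x is the union of exactly c T-classes with c = 1 if p = 2, c = 4 if p is odd, m is odd and p^(f/2) ≡ 1 (mod 4), and c = 2 otherwise. -/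
theorem result {F : Type*} [Field F] [Fintype F] {p f : ℕ} [Fact p.Prime] (hF : Fintype.card F = p ^ f) (hf : 1 ≤ f) {m : ℕ} (hm : 5 ≤ m) (x : MulAut (Cfsg.POmega F (Cfsg.quadFormPlus m F))) (hx : Cfsg.IsGraphFieldAutClassPOmegaPlus m x) (hx2 : orderOf x = 2) (F₀ : Type*) [Field F₀] [Fintype F₀] (hF₀ : Fintype.card F₀ = p ^ (f / 2)) :
    Even f ∧ (∀ y : MulAut (Cfsg.POmega F (Cfsg.quadFormPlus m F)), Cfsg.IsGraphFieldAutClassPOmegaPlus m y → orderOf y = 2 → Cfsg.IsConjUnder (Cfsg.inndiagPOmegaPlus m F) x y) ∧ (∃ a₀ b₀ : F₀, (∀ z₁ z₂ : F₀, z₁ ^ 2 + a₀ * z₁ * z₂ + b₀ * z₂ ^ 2 = 0 → z₁ = 0 ∧ z₂ = 0) ∧ Nonempty (↥(Cfsg.inndiagPOmegaPlus m F ⊓ Subgroup.centralizer {x}) ≃* ↥(Cfsg.inndiagPOmegaMinus (m - 1) F₀ a₀ b₀))) ∧ (p = 2 → Cfsg.splitClassCount (Cfsg.inndiagPOmegaPlus m F) (Cfsg.Inn (Cfsg.POmega F (Cfsg.quadFormPlus m F))) x = 1) ∧ ((p ≠ 2 ∧ Odd m ∧ p ^ (f / 2) % 4 = 1) →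 Cfsg.splitClassCount (Cfsg.inndiagPOmegaPlus m F) (Cfsg.Inn (Cfsg.POmega F (Cfsg.quadFormPlus m F))) x = 4) ∧ ((p ≠ 2 ∧ ¬ (Odd m ∧ p ^ (f / 2) % 4 = 1)) → Cfsg.splitClassCount (Cfsg.inndiagPOmegaPlus m F) (Cfsg.Inn (Cfsg.POmega F (Cfsg.quadFormPlus m F))) x = 2) := by
  have hQ := H58.qPlus_nondeg m F
  have h5 : 5 ≤ Module.finrank F (Fin m ⊕ Fin m → F) := by simp; omega
  have hev : Even (Module.finrank F (Fin m ⊕ Fin m → F)) := ⟨m, by simp⟩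
  have hρ := H58.ker_rhoM _ (H58.coe_qPlus m F) hQ (by simp; omega)
  have h3 : 3 ≤ m := by omega
  obtain ⟨S₀, hS, he, rfl⟩ := H58.exists_of_graphField hm hx
  have : Nontrivial (Fin m ⊕ Fin m → F) := Module.nontrivial_of_finrank_pos (R := F) (by omega)
  obtain ⟨h1, s, hS⟩ := H58.exists_lift hρ hS Nat.prime_two hx2
  rw [← H58.rho_sc_mul hρ s] at hx2 ⊢
  have h1 : orderOf (H58.Gam.sc _ s * S₀).σ = 2 := by simpa using h1
  have he : H58.esgn h3 (H58.Gam.sc _ s * S₀) = -1 := by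
    rw [map_mul, he, H58.esgn_of_σ h3 rfl, H58.sgn_sc, one_mul]
  generalize H58.Gam.sc _ s * S₀ = S at h1 hS he hx2 ⊢
  have hσ : S.σ ≠ 1 := fun h => by simp [h] at h1
  obtain ⟨hdvd, φ, hφ⟩ := H58.exists_emb hF h1 F₀ hF₀
  obtain ⟨a₀, b₀, hab₀⟩ := H58.exists_aniso_pair F₀
  have hQ₀ := H58.qMinus_nondeg (m - 1) hab₀
  obtain ⟨j, Q₀, d, h⟩ := H58.exists_isDesc' h1 two_pos hS hφ
  have h₀ := H58.isDesc_fld (H58.isBCQ_qPlus φ m) (H58.qPlus_map m S.σ) hφ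
  obtain ⟨-, g, hg⟩ := H58.exists_equiv_of_not_isPlus (fun hp => by
      have := (h₀.isPlus_iff_iff hQ h5 hev h1 (H58.Gam.fld_pow _ (h1 ▸ pow_orderOf_eq_one _)) h
        rfl).1 (iff_of_true (H58.isPlus_qPlus m) hp)
      exact absurd (he.symm.trans this) (by decide))
    (h.nondeg_iff.1 hQ) (m := m) (by simp; ring) hab₀
  have h := h.comp_equiv g one_ne_zero fun w => (hg w).trans (one_mul _).symm
  rw [H58.inndiagPOmegaPlus_eq (m := m) (by omega), ← H58.map_rhoM_OmG _ (H58.coe_qPlus m F)]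
  refine ⟨even_iff_two_dvd.2 hdvd, fun y hy hy2 => ?_, ⟨a₀, b₀, hab₀, ?_⟩, fun hp => ?_,
    fun hp => ?_, fun hp => ?_⟩
  · obtain ⟨S', hS', he', rfl⟩ := H58.exists_of_graphField hm hy
    have h2 := H58.ringAut_eq_of_orderOf_two (H58.orderOf_σ_eq hρ hS' Nat.prime_two hy2).1 h1
    refine H58.isConjUnder_of_mem hQ hρ h5 hσ Nat.prime_two hx2 hy2 ⟨by simp [h2], ?_⟩
    rw [← H58.esgn_of_σ h3 (by simp [h2]), map_mul, map_inv, he, he', mul_inv_cancel]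
  · rw [H58.inndiagPOmegaMinus_eq (m := m - 1) (by omega) hab₀]
    exact h.centralizer_equiv hQ hQ₀ hρ (H58.ker_rhoM _ _ hQ₀ (by simp; omega)) h5 h1 hS
  · rw [h.splitClassCount_eq hQ hQ₀ hρ h5 h1 hS, Subgroup.relIndex_eq_one,
      H58.NG_eq_GP_of_two hQ ((H58.two_eq_zero_iff_of_card hF).2 hp)
        (H56.not_isExc_of_finrank (by omega))]
    exact le_sup_left
  · rw [H58.count_graph h3 he hS hφ h1 (mt (H58.two_eq_zero_iff_of_card hF).1 hp.1) hρ, hF₀,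
      if_pos hp.2]
  · rw [H58.count_graph h3 he hS hφ h1 (mt (H58.two_eq_zero_iff_of_card hF).1 hp.1) hρ, hF₀,
      if_neg hp.2]

end Cfsg.Agent.S2717
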