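import Cfsg.Statements.S2719
import Cfsg.Agent.H58.OGraph

set_option autoImplicit false
open Cfsg

namespace Cfsg.Agent.S2719

/-- Let T = PΩ⁻_{2m+2}(F) with m ≥ 3 and |F| = q odd (form with anisotropic binary part z₁² + a z₁ z₂ + b z₂²), G = Inndiag(T), and γ an involutory graph automorphism of T (an automorphism in the image of the semisimilarity group, not inner-diagonal, of order 2). Then the G-class of γ is either a single T-class or the union of exactly two T-classes, and it is the union of two unless m is even and q ≡ 1 (mod 4). -/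
theorem result {F : Type*} [Field F] [Fintype F] (hodd : Odd (Fintype.card F)) {m : ℕ} (hm : 3 ≤ m) (a b : F) (hab : (∀ z₁ z₂ : F, z₁ ^ 2 + a * z₁ * z₂ + b * z₂ ^ 2 = 0 → z₁ = 0 ∧ z₂ = 0)) (γ : MulAut (Cfsg.POmega F (Cfsg.quadFormMinus m F a b))) (hγ : Cfsg.IsGraphAutClassPOmegaMinus m a b γ) (hγ2 : orderOf γ = 2) :
    (Cfsg.splitClassCount (Cfsg.inndiagPOmegaMinus m F a b) (Cfsg.Inn (Cfsg.POmega F (Cfsg.quadFormMinus m F a b))) γ = 1 ∨ Cfsg.splitClassCount (Cfsg.inndiagPOmegaMinus m F a b) (Cfsg.Inn (Cfsg.POmega F (Cfsg.quadFormMinus m F a b))) γ = 2) ∧ (¬ (Even m ∧ Fintype.card F % 4 = 1) → Cfsg.splitClassCount (Cfsg.inndiagPOmegaMinus m F a b) (Cfsg.Inn (Cfsg.POmega F (Cfsg.quadFormMinus m F a b))) γ = 2) := by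
  have h2 := H58.two_ne_zero_of_odd_card hodd
  have hQ := H58.qMinus_nondeg m hab
  have hev : Even (Module.finrank F ((Fin m ⊕ Fin m) ⊕ Fin 2 → F)) := ⟨m + 1, by simp; ring⟩
  have h5 : 5 ≤ Module.finrank F ((Fin m ⊕ Fin m) ⊕ Fin 2 → F) := by simp; omega
  have hρ := H58.ker_rhoM _ (H58.coe_qMinus m F a b) hQ (by simp; omega)
  obtain ⟨h1, h3, -⟩ := hγ
  rw [H58.gammaPOmega_eq (H58.coe_qMinus m F a b)] at h1
  obtain ⟨S, rfl⟩ := h1
  rw [H58.inndiagPOmegaMinus_eq (m := m) (by omega) hab] at h3 ⊢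
  have hσ : S.σ = 1 := by
    by_contra hn
    obtain ⟨h4, s, hs⟩ := H58.exists_lift hρ hn Nat.prime_two hγ2
    exact H58.not_isPlus_qMinus m hab (H58.isPlus_of_involution hQ h5 hev (by simpa using h4) hs)
  have := H58.count_graph_inv hQ h2 hev hρ h5 hσ (fun h => h3 ⟨S, ⟨hσ, h⟩, rfl⟩) hγ2
  rw [H58.map_rhoM_OmG] at this
  refine ⟨this.1, fun h => this.2 ?_⟩
  rcases Nat.even_or_odd m with hm' | ⟨k, hk⟩
  · have h1 := H56.pow_card_mod_four hodd (m + 1)
    have h3 := H58.pow_mod_four_eq_one_iff hodd (m + 1)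
    rw [Nat.odd_add_one, Nat.not_odd_iff_even] at h3
    rw [H56.negOne_mem_commutator_qMinus hodd m hab]
    obtain ⟨j, hj⟩ := hodd
    have : Fintype.card F % 4 = 3 := by
      have : ¬ Fintype.card F % 4 = 1 := fun h' => h ⟨hm', h'⟩
      omega
    left
    have h6 : ¬ Fintype.card F ^ (m + 1) % 4 = 1 := fun h' => h3.1 h' ⟨this, hm'⟩
    omega
  · exact Or.inr ⟨k + 1, by simp; omega⟩

end Cfsg.Agent.S2719
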