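import Cfsg.Statements.S2722
import Cfsg.Agent.H58.OField

set_option autoImplicit false
open Cfsg

namespace Cfsg.Agent.S2722

/-- Let T = PΩ⁺_{2m}(F) with m ≥ 4 and |F| = q odd. Inside Aut(T), the image G̃ of the conformal orthogonal group of the form modulo the image of the special orthogonal group is elementary abelian of order 4. -/
theorem result {F : Type*} [Field F] [Fintype F] (hodd : Odd (Fintype.card F)) {m : ℕ} (hm : 4 ≤ m) :
    (∃ φ : ↥(Cfsg.pgoAut F (Cfsg.quadFormPlus m F)) →* Multiplicative (ZMod 2 × ZMod 2), Function.Surjective φ ∧ φ.ker = (Cfsg.psoAut F (Cfsg.quadFormPlus m F)).subgroupOf (Cfsg.pgoAut F (Cfsg.quadFormPlus m F))) := by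
  have h2 := H58.two_ne_zero_of_odd_card hodd
  have hQ := H58.qPlus_nondeg m F
  have hev : Even (Module.finrank F (Fin m ⊕ Fin m → F)) := ⟨m, by simp⟩
  have : Nontrivial (Fin m ⊕ Fin m → F) :=
    Module.nontrivial_of_finrank_pos (R := F) (by simp; omega)
  have hρ := H58.ker_rhoM _ (H58.coe_qPlus m F) hQ (by simp; omega)
  have hN := H56.negOne_mem_commutator_qPlus hodd m
  rw [H58.pow_mod_four_eq_one_iff hodd, and_comm] at hN
  have hK : (H58.rhoM _ (H58.coe_qPlus m F)).ker ≤ H58.NG _ := hρ.le.trans le_sup_right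
  have := H58.ZS_normal hQ h2
  rw [H58.pgoAut_eq (H58.coe_qPlus m F), H58.psoAut_eq (H58.coe_qPlus m F), ← H58.map_ZS hρ]
  exact H58.exists_hom_of_quot _ (hK.trans H58.NG_le_ZS) (H58.GO_quot_ZS hQ h2 hev)

end Cfsg.Agent.S2722
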