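import Cfsg.Statements.S2723
import Cfsg.Agent.H58.OField

set_option autoImplicit false
open Cfsg

namespace Cfsg.Agent.S2723

/-- Let T = PΩ⁺_{2m}(F) with m ≥ 4 and |F| = q odd. The image of the special orthogonal group in Aut(T) contains the inner automorphism group T with index 1 (they coincide) when m is odd and q ≡ 3 (mod 4), and with index 2 otherwise (the index is 2 exactly when the discriminant of the form is a square). -/
theorem result {F : Type*} [Field F] [Fintype F] (hodd : Odd (Fintype.card F)) {m : ℕ} (hm : 4 ≤ m) :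
    ((Odd m ∧ Fintype.card F % 4 = 3) → (Cfsg.Inn (Cfsg.POmega F (Cfsg.quadFormPlus m F))).relIndex (Cfsg.psoAut F (Cfsg.quadFormPlus m F)) = 1) ∧ (¬ (Odd m ∧ Fintype.card F % 4 = 3) → (Cfsg.Inn (Cfsg.POmega F (Cfsg.quadFormPlus m F))).relIndex (Cfsg.psoAut F (Cfsg.quadFormPlus m F)) = 2) := by
  have h2 := H58.two_ne_zero_of_odd_card hodd
  have hQ := H58.qPlus_nondeg m F
  have hev : Even (Module.finrank F (Fin m ⊕ Fin m → F)) := ⟨m, by simp⟩
  have : Nontrivial (Fin m ⊕ Fin m → F) :=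
    Module.nontrivial_of_finrank_pos (R := F) (by simp; omega)
  have hρ := H58.ker_rhoM _ (H58.coe_qPlus m F) hQ (by simp; omega)
  have hN := H56.negOne_mem_commutator_qPlus hodd m
  rw [H58.pow_mod_four_eq_one_iff hodd, and_comm] at hN
  have hK : (H58.rhoM _ (H58.coe_qPlus m F)).ker ≤ H58.NG _ := hρ.le.trans le_sup_right
  rw [H58.psoAut_eq (H58.coe_qPlus m F), ← H58.map_ZS hρ, ← H58.map_rhoM_OmG _ (H58.coe_qPlus m F),
    ← H58.map_NG hρ, Subgroup.relIndex_map_map, sup_eq_left.2 hK,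
    sup_eq_left.2 (hK.trans H58.NG_le_ZS)]
  exact ⟨fun h => by rw [H58.NG_eq_ZS hQ h2 hev fun h' => hN.1 h' h, Subgroup.relIndex_self],
    fun h => H58.relIndex_NG_ZS hQ h2 (by simp; omega) (Or.inl (hN.2 h))⟩

end Cfsg.Agent.S2723
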