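import Cfsg.Statements.S2726
import Cfsg.Agent.H58.OField

set_option autoImplicit false
open Cfsg

namespace Cfsg.Agent.S2726

set_option maxHeartbeats 1000000 in
/-- Let T = PΩ⁻_{2m+2}(F) with m ≥ 3 and |F| = q odd (form with anisotropic binary part). Inside Aut(T), the image G̃ of the conformal orthogonal group of the form modulo the image of the special orthogonal group is elementary abelian of order 4. -/
theorem result {F : Type*} [Field F] [Fintype F] (hodd : Odd (Fintype.card F)) {m : ℕ} (hm : 3 ≤ m) (a b : F) (hab : (∀ z₁ z₂ : F, z₁ ^ 2 + a * z₁ * z₂ + b * z₂ ^ 2 = 0 → z₁ = 0 ∧ z₂ = 0)) :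
    (∃ φ : ↥(Cfsg.pgoAut F (Cfsg.quadFormMinus m F a b)) →* Multiplicative (ZMod 2 × ZMod 2), Function.Surjective φ ∧ φ.ker = (Cfsg.psoAut F (Cfsg.quadFormMinus m F a b)).subgroupOf (Cfsg.pgoAut F (Cfsg.quadFormMinus m F a b))) := by
  have h2 := H58.two_ne_zero_of_odd_card hodd
  have hQ := H58.qMinus_nondeg m hab
  have hev : Even (Module.finrank F ((Fin m ⊕ Fin m) ⊕ Fin 2 → F)) := ⟨m + 1, by simp; ring⟩
  have hρ := H58.ker_rhoM _ (H58.coe_qMinus m F a b) hQ (by simp; omega)
  have hN : H56.O.negOne (H58.qMinus m F a b) ∈ commutator _ ↔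
      Even m ∧ Fintype.card F % 4 = 3 := by
    have h1 := H56.pow_card_mod_four hodd (m + 1)
    have h3 := H58.pow_mod_four_eq_one_iff hodd (m + 1)
    rw [Nat.odd_add_one, Nat.not_odd_iff_even, and_comm] at h3
    rw [H56.negOne_mem_commutator_qMinus hodd m hab, ← not_iff_not, ← h3]
    omega
  have hK : (H58.rhoM _ (H58.coe_qMinus m F a b)).ker ≤ H58.NG _ := hρ.le.trans le_sup_right
  have := H58.ZS_normal hQ h2
  rw [H58.pgoAut_eq (H58.coe_qMinus m F a b), H58.psoAut_eq (H58.coe_qMinus m F a b),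
    ← H58.map_ZS hρ]
  exact H58.exists_hom_of_quot _ (hK.trans H58.NG_le_ZS) (H58.GO_quot_ZS hQ h2 hev)

end Cfsg.Agent.S2726
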