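import Cfsg.Statements.S2728
import Cfsg.Agent.H58.OField

set_option autoImplicit false
open Cfsg

namespace Cfsg.Agent.S2728

set_option maxHeartbeats 1000000 in
/-- Let T = PΩ⁻_{2m+2}(F) with m ≥ 3 and |F| = q odd (form with anisotropic binary part). The image G̃ of the conformal orthogonal group in Aut(T), taken modulo the inner automorphism group T, is dihedral of order 8 when m is even and q ≡ 3 (mod 4), and elementary abelian of order 4 otherwise. -/
theorem result {F : Type*} [Field F] [Fintype F] (hodd : Odd (Fintype.card F)) {m : ℕ} (hm : 3 ≤ m) (a b : F) (hab : (∀ z₁ z₂ : F, z₁ ^ 2 + a * z₁ * z₂ + b * z₂ ^ 2 = 0 → z₁ = 0 ∧ z₂ = 0)) :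
    ((Even m ∧ Fintype.card F % 4 = 3) → (∃ φ : ↥(Cfsg.pgoAut F (Cfsg.quadFormMinus m F a b)) →* DihedralGroup 4, Function.Surjective φ ∧ φ.ker = (Cfsg.Inn (Cfsg.POmega F (Cfsg.quadFormMinus m F a b))).subgroupOf (Cfsg.pgoAut F (Cfsg.quadFormMinus m F a b)))) ∧ (¬ (Even m ∧ Fintype.card F % 4 = 3) → (∃ φ : ↥(Cfsg.pgoAut F (Cfsg.quadFormMinus m F a b)) →* Multiplicative (ZMod 2 × ZMod 2), Function.Surjective φ ∧ φ.ker = (Cfsg.Inn (Cfsg.POmega F (Cfsg.quadFormMinus m F a b))).subgroupOf (Cfsg.pgoAut F (Cfsg.quadFormMinus m F a b)))) := by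
  have h2 := H58.two_ne_zero_of_odd_card hodd
  have hQ := H58.qMinus_nondeg m hab
  have hev : Even (Module.finrank F ((Fin m ⊕ Fin m) ⊕ Fin 2 → F)) := ⟨m + 1, by simp; ring⟩
  have hρ := H58.ker_rhoM _ (H58.coe_qMinus m F a b) hQ (by simp; omega)
  have hN : H56.O.negOne (H58.qMinus m F a b) ∈ commutator _ ↔
      Even m ∧ Fintype.card F % 4 = 3 := by
    have h1 := H56.pow_card_mod_four hodd (m + 1)
    have h3 := H58.pow_mod_four_eq_one_iff hodd (m + 1)
    rw [Nat.odd_add_one, Nat.not_odd_iff_even, and_comm] at h3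
    rw [H56.negOne_mem_commutator_qMinus hodd m hab, ← not_iff_not, ← h3]
    omega
  have hK : (H58.rhoM _ (H58.coe_qMinus m F a b)).ker ≤ H58.NG _ := hρ.le.trans le_sup_right
  rw [H58.pgoAut_eq (H58.coe_qMinus m F a b), ← H58.map_rhoM_OmG _ (H58.coe_qMinus m F a b),
    ← H58.map_NG hρ]
  exact ⟨fun h => H58.exists_hom_of_quot _ hK (H58.GO_quot_NG_of_mem hQ h2 hev (hN.2 h)),
    fun h => H58.exists_hom_of_quot _ hK (H58.GO_quot_NG_of_notMem hQ h2 hev (mt hN.1 h))⟩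

end Cfsg.Agent.S2728
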