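import Cfsg.Statements.S2736
import Cfsg.Agent.H58.OField

set_option autoImplicit false
open Cfsg

namespace Cfsg.Agent.S2736

/-- Let T = PΩ⁺_{2m}(F) with m ≥ 5 (dimension ≠ 8) and x a field automorphism or a graph-field automorphism of T of prime order r. Then an element y of the coset Inndiag(T)·x (y = δ x with δ induced by a class-preserving similarity) has order r if and only if y is conjugate to x by an element of Inndiag(T). -/
theorem result {F : Type*} [Field F] [Fintype F] {m : ℕ} (hm : 5 ≤ m) (x δ : MulAut (Cfsg.POmega F (Cfsg.quadFormPlus m F))) (hx : Cfsg.IsFieldAutClassPOmega (Cfsg.quadFormPlus m F) x ∨ Cfsg.IsGraphFieldAutClassPOmegaPlus m x) {r : ℕ} (hr : r.Prime) (hxr : orderOf x = r) (hδ : δ ∈ Cfsg.inndiagPOmegaPlus m F) :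
    orderOf (δ * x) = r ↔ Cfsg.IsConjUnder (Cfsg.inndiagPOmegaPlus m F) x (δ * x) := by
  obtain ⟨S, hS, rfl⟩ : ∃ S : H58.Gam (H58.qPlus m F), S.σ ≠ 1 ∧
      x = H58.rhoM _ (H58.coe_qPlus m F) S := by
    rcases hx with hx | hx
    · exact H58.exists_of_fieldClass (H58.coe_qPlus m F) (H56.rho_surjective_qPlus hm)
        (H58.qPlus_map m) hx
    · obtain ⟨S, h1, -, h2⟩ := H58.exists_of_graphField hm hx
      exact ⟨S, h1, h2⟩
  rw [H58.inndiagPOmegaPlus_eq (by omega)] at hδ ⊢
  exact H58.orderOf_mul_iff _ (H58.ker_rhoM _ _ (H58.qPlus_nondeg m F) (by simp; omega))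
    (by simp; omega) hS hr hxr hδ

end Cfsg.Agent.S2736
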