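import Cfsg.Statements.S2739
import Cfsg.Agent.H53.SS

set_option autoImplicit false
open scoped Pointwise
open Cfsg

namespace Cfsg.Agent.S2739

open Matrix Polynomial
open scoped Pointwise

theorem cp3 {F : Type*} [Field F] (A : Matrix (Fin 3) (Fin 3) F) :
    ∃ a b : F, A.charpoly = X ^ 3 - C a * X ^ 2 - C b * X - C A.det := by
  refine ⟨A 0 0 + A 1 1 + A 2 2, -(A 0 0 * A 1 1 + A 0 0 * A 2 2 + A 1 1 * A 2 2
      - A 0 1 * A 1 0 - A 0 2 * A 2 0 - A 1 2 * A 2 1), ?_⟩
  simp [charpoly, det_fin_three]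
  ring

theorem lift {F : Type*} [Field F] [Fintype F] (hF : Fintype.card F = 4)
    (x : ProjectiveSpecialLinearGroup (Fin 3) F) (hx : orderOf x = 3) :
    ∃ A : SpecialLinearGroup (Fin 3) F, (A : ProjectiveSpecialLinearGroup (Fin 3) F) = x ∧
      H53.IsSS A.1 ∧ A.1.charpoly = X ^ 3 - 1 := by
  obtain ⟨B, rfl⟩ := QuotientGroup.mk_surjective x
  have h1 : B ^ 3 ∈ Subgroup.center (SpecialLinearGroup (Fin 3) F) := by
    rw [← QuotientGroup.eq_one_iff, QuotientGroup.mk_pow]
    exact orderOf_dvd_iff_pow_eq_one.1 (dvd_of_eq hx)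
  obtain ⟨c, hc, hB⟩ := Matrix.SpecialLinearGroup.mem_center_iff.1 h1
  rw [Fintype.card_fin] at hc
  have c0 : c ≠ 0 := by rintro rfl; simp at hc
  have h3 : B.1 ^ 3 = c • 1 := by
    rw [← Matrix.SpecialLinearGroup.coe_pow, ← hB, scalar_apply, smul_one_eq_diagonal]
  have h4 : (4 : F) = 0 := by
    have := FiniteField.cast_card_eq_zero F
    rwa [hF] at this
  have cube : ∀ u : F, u ≠ 0 → u ^ 3 = 1 := fun u hu => by
    have := FiniteField.pow_card_sub_one_eq_one u hu
    rwa [hF] at this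
  refine ⟨B, rfl, H53.isSS_of_pow_eq_smul (k := 3) (fun h => one_ne_zero (α := F) ?_) c0 h3, ?_⟩
  · push_cast at h
    linear_combination h4 - h
  obtain ⟨a, b, hab⟩ := cp3 B.1
  have h5 := aeval_self_charpoly B.1
  rw [hab, B.det_coe] at h5
  simp only [map_sub, map_mul, map_pow, aeval_X, aeval_C, map_one, h3,
    Algebra.algebraMap_eq_smul_one, smul_mul_assoc, one_mul] at h5
  have h6 : c • B.1 - (a * c) • 1 - b • B.1 ^ 2 - B.1 = 0 := by
    have := congrArg (· * B.1) h5
    simp only [sub_mul, smul_mul_assoc, one_mul, zero_mul, ← pow_succ, ← pow_two, h3,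
      smul_smul] at this
    exact this
  have h7 : (a * (c - 1) + b ^ 2) • B.1 = (a ^ 2 * c + b * (c - 1)) • 1 := by
    have : (a * (c - 1) + b ^ 2) • B.1 - (a ^ 2 * c + b * (c - 1)) • 1 =
      a • (c • B.1 - (a * c) • 1 - b • B.1 ^ 2 - B.1) -
        b • (c • 1 - a • B.1 ^ 2 - b • B.1 - 1) := by module
    rw [h5, h6, smul_zero, smul_zero, sub_zero, sub_eq_zero] at this
    exact this
  have h8 : a * (c - 1) + b ^ 2 = 0 := by
    by_contra hne
    have h9 : B.1 = ((a * (c - 1) + b ^ 2)⁻¹ * (a ^ 2 * c + b * (c - 1))) • 1 := by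
      rw [← smul_smul, ← h7, smul_smul, inv_mul_cancel₀ hne, one_smul]
    have : B ∈ Subgroup.center (SpecialLinearGroup (Fin 3) F) :=
      Subgroup.mem_center_iff.2 fun g => Subtype.ext (by
        rw [Matrix.SpecialLinearGroup.coe_mul, Matrix.SpecialLinearGroup.coe_mul, h9]; simp)
    rw [(QuotientGroup.eq_one_iff B).2 this, orderOf_one] at hx
    omega
  have h9 : a ^ 2 * c + b * (c - 1) = 0 := by
    rw [h8, zero_smul] at h7
    simpa using congrFun (congrFun h7.symm 0) 0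
  have ha : a = 0 := by
    by_contra ha
    have hb : b ≠ 0 := by
      rintro rfl
      simp [ha, c0] at h9
    have h10 : c = 1 := by linear_combination a * h9 - b * h8 - c * cube a ha + cube b hb
    rw [h10] at h8
    simp [hb] at h8
  have hb : b = 0 := by simpa [ha] using h8
  rw [hab, ha, hb, B.det_coe]
  simp

/-- In the projective special linear group PSL(3, 4) all subgroups of order 3 are conjugate. -/
theorem result (F : Type*) [Field F] [Fintype F] (hF : Fintype.card F = 4) (X Y : Subgroup (Matrix.ProjectiveSpecialLinearGroup (Fin 3) F)) (hX : Nat.card ↥X = 3) (hY : Nat.card ↥Y = 3) : ∃ g : Matrix.ProjectiveSpecialLinearGroup (Fin 3) F, MulAut.conj g • X = Y := by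
  have : Fact (Nat.Prime 3) := ⟨Nat.prime_three⟩
  have gen : ∀ Z : Subgroup (ProjectiveSpecialLinearGroup (Fin 3) F), Nat.card Z = 3 →
      ∃ z, orderOf z = 3 ∧ Subgroup.zpowers z = Z := fun Z hZ => by
    obtain ⟨z, hz⟩ := (Subgroup.isCyclic_iff_exists_zpowers_eq_top Z).1 (isCyclic_of_prime_card hZ)
    exact ⟨z, by rw [← Nat.card_zpowers, hz, hZ], hz⟩
  obtain ⟨x, hx, rfl⟩ := gen X hX
  obtain ⟨y, hy, rfl⟩ := gen Y hY
  obtain ⟨A, rfl, a1, a2⟩ := lift hF x hx
  obtain ⟨B, rfl, b1, b2⟩ := lift hF y hy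
  obtain ⟨g, hg⟩ := isConj_iff.1 ((QuotientGroup.mk' (Subgroup.center _)).map_isConj
    (a1.isConj_sl ((a1.isConj_iff b1).2 (a2.trans b2.symm))))
  exact ⟨g, (MonoidHom.map_zpowers (MulAut.conj g).toMonoidHom _).trans (congrArg _ hg)⟩

end Cfsg.Agent.S2739
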