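import Cfsg.Statements.S2762
import Cfsg.Agent.H11.QdSylow

set_option autoImplicit false
open Cfsg

namespace Cfsg.Agent.S2762

/-- Structure of Qd over a finite field F of characteristic p (the affine subgroup of SL₃(F)): its largest normal p-subgroup is the group of translations (matrices with upper-left block the identity), the block-diagonal matrices form a complement isomorphic to SL₂(F), and the translation subgroup is a natural SL₂(F)-module for that complement. -/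
theorem result {F : Type*} [Field F] [Fintype F] {p : ℕ} [Fact p.Prime] [CharP F p] : (∀ M : ↥(Cfsg.qdOver F), M ∈ Cfsg.pCore p ↥(Cfsg.qdOver F) ↔ ((M : Matrix.SpecialLinearGroup (Fin 3) F) : Matrix (Fin 3) (Fin 3) F) 0 0 = 1 ∧ ((M : Matrix.SpecialLinearGroup (Fin 3) F) : Matrix (Fin 3) (Fin 3) F) 0 1 = 0 ∧ ((M : Matrix.SpecialLinearGroup (Fin 3) F) : Matrix (Fin 3) (Fin 3) F) 1 0 = 0 ∧ ((M : Matrix.SpecialLinearGroup (Fin 3) F) : Matrix (Fin 3) (Fin 3) F) 1 1 = 1) ∧ ∃ K : Subgroup ↥(Cfsg.qdOver F), (∀ M : ↥(Cfsg.qdOver F), M ∈ K ↔ ((M : Matrix.SpecialLinearGroup (Fin 3) F) : Matrix (Fin 3) (Fin 3) F) 0 2 = 0 ∧ ((M : Matrix.SpecialLinearGroup (Fin 3) F) : Matrix (Fin 3) (Fin 3) F) 1 2 = 0) ∧ K ⊓ Cfsg.pCore p ↥(Cfsg.qdOver F) = ⊥ ∧ K ⊔ Cfsg.pCore p ↥(Cfsg.qdOver F) = ⊤ ∧ Nonempty (↥K ≃* Matrix.SpecialLinearGroup (Fin 2) F) ∧ Cfsg.IsNaturalSL2Module F (Cfsg.pCore p ↥(Cfsg.qdOver F)) K := by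
  open H11 in
  rw [pCore_qdOver p]
  open H11 in
  refine ⟨fun M => ?_, qBlk.range, fun M => ?_, ?_, ?_,
    ⟨(MonoidHom.ofInjective qBlk_injective).symm⟩, ?_, ?_⟩
  · obtain ⟨A, v, rfl⟩ := H11.exists_qa M
    rw [MonoidHom.mem_ker, H11.qLin_qa]
    change _ ↔ A 0 0 = 1 ∧ A 0 1 = 0 ∧ A 1 0 = 0 ∧ A 1 1 = 1
    constructor
    · rintro rfl; simp
    · rintro ⟨a, b, c, d⟩
      exact H11.sl_ext (by simpa using a) (by simpa using b) (by simpa using c) (by simpa using d)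
  · obtain ⟨A, v, rfl⟩ := H11.exists_qa M
    change _ ↔ v 0 = 0 ∧ v 1 = 0
    constructor
    · rintro ⟨B, hB⟩
      rw [← (H11.qa_inj.mp hB).2]; simp
    · rintro ⟨a, b⟩
      refine ⟨A, H11.qa_inj.mpr ⟨rfl, ?_⟩⟩
      ext i; fin_cases i
      · exact a.symm
      · exact b.symm
  · rw [eq_bot_iff]
    rintro _ ⟨⟨A, rfl⟩, h⟩
    have h' : A = 1 := (H11.qLin_qa A 0).symm.trans h
    rw [h', map_one]; exact Subgroup.one_mem _
  · rw [eq_top_iff]
    intro x _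
    obtain ⟨A, v, rfl⟩ := H11.exists_qa x
    have h := Subgroup.mul_mem_sup (H11.mem_ker_qLin.mpr ⟨v, rfl⟩) 
      (show H11.qBlk A ∈ H11.qBlk.range from ⟨A, rfl⟩)
    rw [H11.qBlk_apply, H11.qa_mul, one_mul, Matrix.mulVec_zero, add_zero, sup_comm] at h
    exact h
  · exact Subgroup.le_normalizer_of_normal
  · let e : Multiplicative (Fin 2 → F) ≃* (H11.qLin (F := F)).ker :=
      (MonoidHom.ofInjective H11.qTr_injective).trans (MulEquiv.subgroupCongr H11.ker_qLin.symm)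
    have he : ∀ v, ((e (.ofAdd v) : (H11.qLin (F := F)).ker) : qdOver F) = H11.qa 1 v :=
      fun v => rfl
    refine ⟨H11.qLin.comp (Subgroup.subtype _), MulEquiv.toAdditiveLeft e.symm, ?_, ?_, ?_⟩
    · intro A
      exact ⟨⟨_, A, rfl⟩, H11.qLin_qa A 0⟩
    · rw [H11.centralizer_ker_qLin]; rfl
    · rintro ⟨_, A, rfl⟩ v
      obtain ⟨v, rfl⟩ := e.surjective v
      refine ⟨e (.ofAdd ((A : Matrix (Fin 2) (Fin 2) F).mulVec v.toAdd)), ?_, ?_⟩
      · rw [he, ← ofAdd_toAdd v, he]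
        exact (H11.qa_conj A 0 _).symm
      · change (e.symm (e _)).toAdd =
          ((H11.qLin (H11.qa A 0) : Matrix.SpecialLinearGroup (Fin 2) F) :
            Matrix (Fin 2) (Fin 2) F).mulVec (e.symm (e _)).toAdd
        rw [e.symm_apply_apply, e.symm_apply_apply, H11.qLin_qa]
        rfl

end Cfsg.Agent.S2762
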