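import Cfsg.Statements.S2763
import Cfsg.Agent.H11.QdSylow
import Cfsg.Agent.H3.Frattini

set_option autoImplicit false
open Cfsg

namespace Cfsg.Agent.S2763

/-- In the group Qd(p) (p prime; the natural semidirect product of an elementary abelian group of order p² by SL₂(p)), the normalizer of every nontrivial characteristic subgroup of a Sylow p-subgroup S equals the normalizer of S, which is a proper subgroup; in particular no such characteristic subgroup is normal. -/
theorem result {p : ℕ} [Fact p.Prime] (S : Sylow p ↥(Cfsg.qd p)) (T : Subgroup ↥(S : Subgroup ↥(Cfsg.qd p))) (hT : T ≠ ⊥) (hTc : T.Characteristic) : Subgroup.normalizer ((T.map (S : Subgroup ↥(Cfsg.qd p)).subtype : Subgroup ↥(Cfsg.qd p)) : Set ↥(Cfsg.qd p)) = Subgroup.normalizer ((S : Subgroup ↥(Cfsg.qd p)) : Set ↥(Cfsg.qd p)) ∧ Subgroup.normalizer ((S : Subgroup ↥(Cfsg.qd p)) : Set ↥(Cfsg.qd p)) ≠ ⊤ := by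
  revert S T
  change ∀ (S : Sylow p (qdOver (ZMod p))) (T : Subgroup (S : Subgroup (qdOver (ZMod p)))),
    T ≠ ⊥ → T.Characteristic →
      Subgroup.normalizer ((T.map (S : Subgroup (qdOver (ZMod p))).subtype :
        Subgroup (qdOver (ZMod p))) : Set (qdOver (ZMod p))) =
      Subgroup.normalizer ((S : Subgroup (qdOver (ZMod p))) : Set (qdOver (ZMod p))) ∧
      Subgroup.normalizer ((S : Subgroup (qdOver (ZMod p))) : Set (qdOver (ZMod p))) ≠ ⊤
  intro S T hT hTc
  obtain ⟨g, rfl⟩ := MulAction.exists_smul_eq (qdOver (ZMod p)) (H11.sylS (F := ZMod p) p) S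
  let c : qdOver (ZMod p) ≃* qdOver (ZMod p) := MulAut.conj g
  have hS : ((g • H11.sylS (F := ZMod p) p : Sylow p _) : Subgroup (qdOver (ZMod p))) =
      (H11.qS (ZMod p)).map c.toMonoidHom := rfl
  have hN : Subgroup.normalizer (((g • H11.sylS (F := ZMod p) p : Sylow p _) :
      Subgroup (qdOver (ZMod p))) : Set (qdOver (ZMod p))) =
      (Subgroup.normalizer (H11.qS (ZMod p) : Set (qdOver (ZMod p)))).map c.toMonoidHom := by
    rw [hS, Subgroup.map_equiv_normalizer_eq]
  have hle := H3.normalizer_le_normalizer_map_of_characteristic T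
  refine ⟨le_antisymm ?_ hle, ?_⟩
  · have h1 := Subgroup.le_normalizer.trans hle
    set N := Subgroup.normalizer ((T.map (g • H11.sylS (F := ZMod p) p : Sylow p _).toSubgroup.subtype :
        Subgroup (qdOver (ZMod p))) : Set (qdOver (ZMod p))) with hNdef
    rw [hS, Subgroup.map_le_iff_le_comap] at h1
    rcases H11.eq_top_or_le_normalizer_qS h1 with h | h
    · exfalso
      have hNt : N = ⊤ := by
        rw [← Subgroup.map_comap_eq_self_of_surjective (f := c.toMonoidHom) c.surjective N, h,
          ← MonoidHom.range_eq_map, MonoidHom.range_eq_top]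
        exact c.surjective
      have hn : (T.map (g • H11.sylS (F := ZMod p) p : Sylow p _).toSubgroup.subtype).Normal :=
        Subgroup.normalizer_eq_top_iff.mp hNt
      have hp : IsPGroup p (T.map (g • H11.sylS (F := ZMod p) p : Sylow p _).toSubgroup.subtype) :=
        ((g • H11.sylS (F := ZMod p) p).isPGroup'.to_subgroup T).map _
      have hV := H2.le_pCore hp
      rw [H11.pCore_qdOver p] at hV
      rcases H11.eq_bot_or_eq_ker_qLin _ hV with h | h
      · exact hT ((Subgroup.map_eq_bot_iff_of_injective _ (Subgroup.subtype_injective _)).mp h)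
      · obtain ⟨α, x, hx, hαx⟩ := H11.exists_aut_qS (F := ZMod p)
        let e : H11.qS (ZMod p) ≃* (g • H11.sylS (F := ZMod p) p : Sylow p _).toSubgroup :=
          (H11.qS (ZMod p)).equivMapOfInjective c.toMonoidHom c.injective
        have he : ∀ y, e y ∈ T ↔ (y : qdOver (ZMod p)) ∈ (H11.qLin (F := ZMod p)).ker := by
          intro y
          rw [← Subgroup.mem_map_iff_mem (Subgroup.subtype_injective _), h]
          change g * y * g⁻¹ ∈ _ ↔ _
          exact ⟨fun h => by simpa [mul_assoc] using Subgroup.Normal.conj_mem inferInstance _ h g⁻¹,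
            fun h => Subgroup.Normal.conj_mem inferInstance _ h g⟩
        have := (Subgroup.characteristic_iff_le_comap.mp hTc ((e.symm.trans α).trans e))
          ((he x).mpr hx)
        rw [Subgroup.mem_comap] at this
        apply hαx
        rw [← he]
        simpa using this
    · rw [hN, ← Subgroup.map_comap_eq_self_of_surjective (f := c.toMonoidHom) c.surjective N]
      exact Subgroup.map_mono h
  · intro h
    apply H11.normalizer_qS_ne_top (F := ZMod p)
    rw [hN] at h
    rw [← Subgroup.comap_map_eq_self_of_injective (f := c.toMonoidHom) c.injective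
      (Subgroup.normalizer _), h, Subgroup.comap_top]

end Cfsg.Agent.S2763
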