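import Cfsg.Statements.S2856
import Cfsg.Agent.Base
import Cfsg.Agent.H97.CharPAmalgam

set_option autoImplicit false
open Cfsg

namespace Cfsg.Agent.S2856

/-- Let (M₁, M₂) be an amalgam pair in X satisfying the rank-two standing hypothesis (characteristic p, the normalizers in M₁ and in M₂ of a Sylow p-subgroup of M₁ ∩ M₂ equal and contained in M₁ ∩ M₂, and strongly p-embedded residues), λ a vertex of the coset graph, L_λ the subgroup of its stabilizer generated by the p-elements, Q_λ = O_p of the stabilizer, O^p(L_λ) the subgroup of L_λ generated by its elements of order prime to p, and V_λ^{(k)} the subgroup generated by the Z_μ over the vertices μ at distance at most k from λ (Z_μ being generated by the Ω₁(Z(S)), S a Sylow p-subgroup of the stabilizer of μ). If n ≥ 1 and V_λ^{(n)} ≤ Q_λ, then O^p(L_λ) does not centralize V_λ^{(n)}/[V_λ^{(n)}, Q_λ], that is, [V_λ^{(n)}, O^p(L_λ)] is not contained in [V_λ^{(n)}, Q_λ]. -/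
theorem result {X : Type*} [Group X] {p : ℕ} [Fact p.Prime] (M₁ M₂ : Subgroup X) (h : Cfsg.IsSpeAmalgamPair p M₁ M₂) (lam : Cfsg.CosetVertex M₁ M₂) (n : ℕ) (hn : 1 ≤ n) (V : Subgroup X) (hV : V = Cfsg.vertexVIter p M₁ M₂ n lam) (hVQ : V ≤ Cfsg.vertexQ p lam) : ¬ ⁅V, ((Cfsg.pResidual p ↥(Cfsg.pElementClosure p (MulAction.stabilizer X lam))).map (Cfsg.pElementClosure p (MulAction.stabilizer X lam)).subtype)⁆ ≤ ⁅V, Cfsg.vertexQ p lam⁆ := by
  intro hle
  subst hV
  obtain ⟨m, rfl⟩ : ∃ m, n = m + 1 := ⟨n - 1, by omega⟩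
  obtain ⟨μ, hμ⟩ := H97.exists_adj lam
  have hgen := h.1.1.1
  have := H97.cp_finite h.1 lam
  set L := pElementClosure p (MulAction.stabilizer X lam) with hL
  set Q := vertexQ p lam with hQ
  set V := vertexVIter p M₁ M₂ (m + 1) lam with hV
  set W := vertexVIter p M₁ M₂ m μ with hW
  have hLle : L ≤ MulAction.stabilizer X lam := H97.pElementClosure_le _
  have := H98.finite_of_le hLle
  have hQle : Q ≤ MulAction.stabilizer X lam := H98.pCoreOf_le _
  have := H98.finite_of_le hQle
  obtain ⟨T, hT⟩ := H98.exists_isSyl p (edgeStabilizer lam μ)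
  have hT' := H97.cp_isSyl h.1 hμ hT
  have hTL : H98.IsSyl p T L := hT'.of_le (H97.le_pElementClosure hT'.isPGroup hT'.le) hLle
  have h1 : W ≤ V := H97.vertexVIter_le_of_adj hgen hμ _
  have hVn : MulAction.stabilizer X lam ≤ Subgroup.normalizer (V : Set X) :=
    H97.le_normalizer_vertexVIter _ _
  have hQn : MulAction.stabilizer X lam ≤ Subgroup.normalizer (Q : Set X) :=
    H98.self_le_normalizer_pCoreOf _
  have hWn : MulAction.stabilizer X μ ≤ Subgroup.normalizer (W : Set X) :=
    H97.le_normalizer_vertexVIter _ _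
  have hQW : Q ≤ Subgroup.normalizer (W : Set X) := (H97.cp_Q_le h.1 hμ).trans hWn
  -- `L` normalizes `W [V, Q]`
  have hVQV : ⁅V, Q⁆ ≤ V := H98.commutator_le_left' (hQle.trans hVn)
  have hLn : L ≤ Subgroup.normalizer ((W ⊔ ⁅V, Q⁆ : Subgroup X) : Set X) := by
    rw [← hTL.sup_res]
    refine sup_le (H98.le_normalizer_sup ((hT.le.trans inf_le_right).trans hWn)
      (H98.le_normalizer_commutator (hT'.le.trans hVn) (hT'.le.trans hQn))) ?_
    exact H98.le_normalizer_of_commutator_le (hle.trans le_sup_right) (sup_le h1 hVQV)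
  have hZ : vertexZ p lam ≤ Subgroup.centralizer (Q : Set X) :=
    H97.sylowCenterClosure_le_centralizer_pCoreOf _
  have h2 : V ≤ (W ⊔ vertexZ p lam) ⊔ ⁅V, Q⁆ := by
    rw [hV, H97.vertexVIter_le_iff]
    intro ν hν
    by_cases e : lam = ν
    · subst e; exact le_sup_right.trans le_sup_left
    · obtain ⟨c, hc, hd⟩ := H97.exists_adj_dist (H97.cosetGraph_connected hgen) e
      obtain ⟨g, hg, rfl⟩ := H97.spe_transitive h hμ hc
      have h3 : vertexZ p ν ≤ H98.cj g W := by
        rw [hW, H97.cj_vertexVIter]; exact H97.Z_le_vertexVIter (by omega)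
      exact (h3.trans (H98.cj_le_of_le le_sup_left (hLn hg))).trans
        (sup_le_sup_right le_sup_left _)
  have hZQ : vertexZ p lam ≤ Q := H97.cp_Z_le_Q h.1 lam
  have h3 : V ≤ W ⊔ vertexZ p lam :=
    H97.le_of_le_sup_commutator (H98.isPGroup_pCoreOf _) hVQ (sup_le (h1.trans hVQ) hZQ)
      (H98.le_normalizer_sup hQW (hQle.trans (H97.le_normalizer_sylowCenterClosure _))) h2
  have h4 : ⁅V, Q⁆ ≤ W := by
    refine (Subgroup.commutator_mono h3 le_rfl).trans ?_
    refine H98.commutator_sup_left_le Subgroup.le_normalizer (hZQ.trans hQW)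
      (H98.commutator_le_left' hQW) ?_
    rw [Subgroup.commutator_eq_bot_iff_le_centralizer.2 hZ]; exact bot_le
  rw [sup_eq_left.2 h4] at hLn
  have hb : W = ⊥ :=
    H97.spe_eq_bot h hμ ((h1.trans hVQ).trans (le_inf hQle (H97.cp_Q_le h.1 hμ))) hLn
      ((H97.pElementClosure_le _).trans hWn)
  exact H97.cp_Z_ne_bot h.1 μ (le_bot_iff.1 (hb ▸ H97.Z_le_vertexVIter (by simp)))

end Cfsg.Agent.S2856
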