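import Cfsg.Statements.S2857
import Cfsg.Agent.Base
import Cfsg.Agent.H97.CharPAmalgam

set_option autoImplicit false
open Cfsg

namespace Cfsg.Agent.S2857

/-- Let (M₁, M₂) be an amalgam pair in X satisfying the rank-two standing hypothesis (characteristic p, the normalizers in M₁ and in M₂ of a Sylow p-subgroup of M₁ ∩ M₂ equal and contained in M₁ ∩ M₂, and strongly p-embedded residues), λ a vertex of the coset graph, L_λ the subgroup of its stabilizer generated by the p-elements, Q_λ = O_p of the stabilizer, O^p(L_λ) the subgroup of L_λ generated by its elements of order prime to p, and V_λ^{(k)} the subgroup generated by the Z_μ over the vertices μ at distance at most k from λ (Z_μ being generated by the Ω₁(Z(S)), S a Sylow p-subgroup of the stabilizer of μ). If n ≥ 2 and V_λ^{(n)} ≤ Q_λ, then O^p(L_λ) does not centralize V_λ^{(n)}/V_λ^{(n-2)}, that is, [V_λ^{(n)}, O^p(L_λ)] is not contained in V_λ^{(n-2)}. -/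
theorem result {X : Type*} [Group X] {p : ℕ} [Fact p.Prime] (M₁ M₂ : Subgroup X) (h : Cfsg.IsSpeAmalgamPair p M₁ M₂) (lam : Cfsg.CosetVertex M₁ M₂) (n : ℕ) (hn : 2 ≤ n) (hVQ : Cfsg.vertexVIter p M₁ M₂ n lam ≤ Cfsg.vertexQ p lam) : ¬ ⁅Cfsg.vertexVIter p M₁ M₂ n lam, ((Cfsg.pResidual p ↥(Cfsg.pElementClosure p (MulAction.stabilizer X lam))).map (Cfsg.pElementClosure p (MulAction.stabilizer X lam)).subtype)⁆ ≤ Cfsg.vertexVIter p M₁ M₂ (n - 2) lam := by
  intro hle
  obtain ⟨m, rfl⟩ : ∃ m, n = m + 2 := ⟨n - 2, by omega⟩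
  rw [Nat.add_sub_cancel] at hle
  obtain ⟨μ, hμ⟩ := H97.exists_adj lam
  have hgen := h.1.1.1
  have := H97.cp_finite h.1 lam
  set L := pElementClosure p (MulAction.stabilizer X lam) with hL
  have hLle : L ≤ MulAction.stabilizer X lam := H97.pElementClosure_le _
  have := H98.finite_of_le hLle
  obtain ⟨T, hT⟩ := H98.exists_isSyl p (edgeStabilizer lam μ)
  have hT' := H97.cp_isSyl h.1 hμ hT
  have hTL : H98.IsSyl p T L := hT'.of_le (H97.le_pElementClosure hT'.isPGroup hT'.le) hLle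
  have h1 : vertexVIter p M₁ M₂ (m + 1) μ ≤ vertexVIter p M₁ M₂ (m + 2) lam :=
    H97.vertexVIter_le_of_adj hgen hμ _
  have h2 : vertexVIter p M₁ M₂ m lam ≤ vertexVIter p M₁ M₂ (m + 1) μ :=
    H97.vertexVIter_le_of_adj hgen hμ.symm _
  have hb : vertexVIter p M₁ M₂ (m + 1) μ = ⊥ := by
    refine H97.spe_eq_bot h hμ ((h1.trans hVQ).trans (le_inf (H98.pCoreOf_le _) (H97.cp_Q_le h.1 hμ)))
      ?_ ((H97.pElementClosure_le _).trans (H97.le_normalizer_vertexVIter _ _))
    rw [← hL, ← hTL.sup_res]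
    exact sup_le ((hT.le.trans inf_le_right).trans (H97.le_normalizer_vertexVIter _ _))
      (H98.le_normalizer_of_commutator_le (hle.trans h2) h1)
  exact H97.cp_Z_ne_bot h.1 μ (le_bot_iff.1 (hb ▸ H97.Z_le_vertexVIter (by simp)))

end Cfsg.Agent.S2857
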