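import Cfsg.Statements.S2947
import Cfsg.Agent.Base
import Cfsg.Agent.H99.SPE

set_option autoImplicit false
open Cfsg

namespace Cfsg.Agent.S2947

open Subgroup Cfsg H98 H99

/-- Let G be a finite group of characteristic 2 type in which every 2-local subgroup is solvable and the centralizer of Ω₁(Z(S)) lies in N_G(S) for every Sylow 2-subgroup S; suppose O₂(G) = 1, fix a Sylow 2-subgroup S and a 2-local subgroup M containing N_G(J(S)) (J the Thompson subgroup generated by the elementary abelian 2-subgroups of largest order). Then M is strongly embedded in G (a proper subgroup of even order whose intersection with each conjugate by an element outside M has odd order) if and only if no nontrivial 2-subgroup of M lies in a 2-local subgroup of G not contained in M. -/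
theorem result {G : Type*} [Group G] [Finite G] (hL : Cfsg.IsCharacteristicTwoType G) (hN : ∀ N : Subgroup G, Cfsg.IsTwoLocal N → Group.IsSolvable ↥N)
    (hZ : ∀ S : Sylow 2 G, Subgroup.centralizer (Cfsg.omegaCenterOf (S : Subgroup G) : Set G) ≤ Subgroup.normalizer ((S : Subgroup G) : Set G)) (hO : Cfsg.pCore 2 G = ⊥) (S : Sylow 2 G) (M : Subgroup G) (hM : Cfsg.IsTwoLocal M)
    (hMJ : Subgroup.normalizer (Cfsg.thompsonSubgroupOf 2 (S : Subgroup G) : Set G) ≤ M) :
    Cfsg.IsStronglyEmbedded M ↔ Cfsg.straddlingTwoSubgroups M = ∅ := by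
  haveI : Fact (Nat.Prime 2) := ⟨Nat.prime_two⟩
  rw [← H84.spe_two_iff]
  constructor
  · intro hX
    rw [Set.eq_empty_iff_forall_notMem]
    rintro T ⟨hT, hT1, hTM, L, ⟨U, hU, hU1, rfl⟩, hTL, hn⟩
    have hp : IsPGroup 2 ↥(T ⊔ U) := hT.to_sup_of_normal_right' hU hTL
    have hle : T ⊔ U ≤ M :=
      spe_le_of_inf_ne_bot hX hp fun h => hT1 (le_bot_iff.1 (h ▸ le_inf le_sup_left hTM))
    exact hn (spe_normalizer hX (le_sup_right.trans hle) hU hU1)
  · intro h
    rw [Set.eq_empty_iff_forall_notMem] at h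
    obtain ⟨T, hT, hT1, rfl⟩ := hM
    refine H84.spe_iff_normalizers.2 ⟨fun he => hT1 ?_, ?_, fun A hA hp h1 => ?_⟩
    · haveI : T.Normal := normalizer_eq_top_iff.1 he
      exact le_bot_iff.1 (hO ▸ H2.le_pCore hT)
    · obtain ⟨x, hx, hxo⟩ := H84.exists_orderOf_eq_of_isPGroup hT hT1
      exact (H84.dvd_card_iff_exists_orderOf _).2 ⟨x, le_normalizer hx, hxo⟩
    · by_contra hn
      exact h A ⟨hp, h1, hA, _, ⟨A, hp, h1, rfl⟩, le_normalizer, hn⟩

end Cfsg.Agent.S2947
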