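import Cfsg.Statements.S3085
import Cfsg.Agent.H9.ExtraAut

set_option autoImplicit false
open Cfsg

namespace Cfsg.Agent.S3085

open QuadraticMap in
theorem aux {G V : Type*} [Group G] [Finite G] [AddCommGroup V] [Module (ZMod 2) V]
    (c : H27.CForm G V (ZMod 2)) (hnd : (QuadraticMap.polarBilin c.Q).Nondegenerate)
    {u v₁ v₂ x₁ x₂ y : V} (hu : c.Q u = 1) (h₁ : c.Q v₁ = 1) (h₂ : c.Q v₂ = 1)
    (hu₁ : polar c.Q u v₁ = 0) (hu₂ : polar c.Q u v₂ = 0) (h₁₂ : polar c.Q v₁ v₂ = 0)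
    (hx₁ : polar c.Q v₁ x₁ = 1) (hx₁' : polar c.Q u x₁ = 0) (hx₁'' : polar c.Q v₂ x₁ = 0)
    (hx₂ : polar c.Q v₂ x₂ = 1) (hx₂' : polar c.Q u x₂ = 0) (hy : polar c.Q u y = 1)
    (L : Subgroup (MulAut G)) : ¬ (Cfsg.Inn G).IsComplement' L := by
  intro hL
  obtain ⟨ρ, hsurj, hker, hρ⟩ := H9.cform_exists_aut_hom_O c hnd
  have hZ : c.Z.Characteristic :=
    c.center_eq_of_nondeg (c.polarBilin_Q ▸ hnd) ▸ inferInstance
  have hex : ∀ g, ∃ s ∈ L, ρ s = g := fun g => by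
    obtain ⟨φ, rfl⟩ := hsurj g
    obtain ⟨⟨a, b⟩, h, -⟩ := hL.existsUnique φ
    refine ⟨b, b.2, ?_⟩
    have ha : ρ a = 1 := (MonoidHom.mem_ker (f := ρ)).mp (by rw [hker]; exact a.2)
    rw [← h, map_mul, ha, one_mul]
  have hinj : ∀ s ∈ L, ∀ t ∈ L, ρ s = ρ t → s = t := fun s hs t ht h => by
    have h1 : s⁻¹ * t ∈ Cfsg.Inn G := by
      rw [← hker, MonoidHom.mem_ker, map_mul, map_inv, h, inv_mul_cancel]
    exact inv_mul_eq_one.mp (Subgroup.disjoint_def.mp hL.disjoint h1 (L.mul_mem (L.inv_mem hs) ht))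
  obtain ⟨s, hsL, hs⟩ := hex (H56.refl c.Q u)
  have hfix : ∀ v x, c.Q v = 1 → polar c.Q u v = 0 → polar c.Q v x = 1 → polar c.Q u x = 0 →
      ∀ g, c.π g = v → s g = g := by
    intro v x hv huv hvx hux g hg
    obtain ⟨t, htL, ht⟩ := hex (H56.refl c.Q v)
    have hst : s * t = t * s := hinj _ (L.mul_mem hsL htL) _ (L.mul_mem htL hsL) (by
      rw [map_mul, map_mul, hs, ht, ← mul_inv_eq_iff_eq_mul, H56.conj_refl,
        H56.refl_apply_of_orth huv])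
    obtain ⟨x, rfl⟩ := c.π_surj x
    obtain ⟨a, ha⟩ := c.π_eq_iff.mp (show c.π x = c.π (s x) by
      rw [← hρ, hs, H56.refl_apply_of_orth hux])
    obtain ⟨b, hb⟩ := c.π_eq_iff.mp (show c.π (x * g) = c.π (t x) by
      rw [← hρ, ht, H56.refl_apply, hv, hvx, c.π_mul, hg, sub_eq_add_neg, H27.zmod2_neg_eq]
      simp)
    have h1 : s (t x) = t (s x) := DFunLike.congr_fun hst x
    rw [ha, map_mul, hb, map_mul, map_mul, ha, H9.cform_aut_ζ c hZ, H9.cform_aut_ζ c hZ,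
      mul_assoc, mul_assoc, mul_assoc, mul_assoc, mul_right_inj, c.ζ_comm a, ← mul_assoc g,
      mul_left_inj, mul_left_inj] at h1
    exact h1
  have hss : s * s = 1 := hinj _ (L.mul_mem hsL hsL) _ L.one_mem (by
    rw [map_mul, hs, H56.refl_mul_self, map_one])
  have hpu : polar c.Q u u = 0 := by rw [c.polar_Q, c.B_self]
  obtain ⟨y, rfl⟩ := c.π_surj y
  obtain ⟨g₁, rfl⟩ := c.π_surj v₁
  obtain ⟨g₂, rfl⟩ := c.π_surj v₂
  set w := y⁻¹ * s y with hw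
  have hwu : c.π w = u := by
    rw [hw, c.π_mul, c.π_inv, ← hρ, hs, H56.refl_apply, hu, hy, sub_eq_add_neg,
      H27.zmod2_neg_eq (_ • u)]
    simp
  have e1 := hfix _ _ h₁ hu₁ hx₁ hx₁' g₁ rfl
  have e2 := hfix _ _ h₂ hu₂ hx₂ hx₂' g₂ rfl
  have e3 := hfix (u + c.π g₁ + c.π g₂) x₁ (by
      rw [H58.Q_add, H58.Q_add, polar_add_left, hu, h₁, h₂, hu₁, hu₂, h₁₂]; decide)
    (by rw [polar_add_right, polar_add_right, hpu, hu₁, hu₂]; decide)
    (by rw [polar_add_left, polar_add_left, hx₁, hx₁', hx₁'']; decide) hx₁' (w * g₁ * g₂)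
    (by rw [c.π_mul, c.π_mul, hwu])
  rw [map_mul, map_mul, e1, e2, mul_left_inj, mul_left_inj] at e3
  have h3 : s (s y) = y := DFunLike.congr_fun hss y
  have h4 : s y = y * w := by rw [hw, mul_inv_cancel_left]
  rw [h4, map_mul, h4, e3, mul_assoc, mul_eq_left, ← pow_two, ← c.Q_eq_zero_iff, hwu, hu] at h3
  exact one_ne_zero h3

/-- Let Q be an extraspecial 2-group of order 2^(2n+1) with n ≥ 3 that is of plus type (it contains an elementary abelian subgroup of order 2^(n+1)). Then the group of inner automorphisms of Q has no complement in the full automorphism group of Q: the extension of the inner automorphism group (elementary abelian of order 2^(2n)) by the outer automorphism group (the orthogonal group of plus type) does not split. -/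
theorem result {Q : Type*} [Group Q] [Finite Q] (n : ℕ) (hn : 3 ≤ n) (hQ : Cfsg.IsExtraspecial 2 Q) (hcard : Nat.card Q = 2 ^ (2 * n + 1)) (hplus : ∃ E : Subgroup Q, Cfsg.IsElementaryAbelian 2 E ∧ Nat.card ↥E = 2 ^ (n + 1)) (L : Subgroup (MulAut Q)) : ¬ (Cfsg.Inn Q).IsComplement' L := by
  obtain ⟨m, rfl⟩ : ∃ k, n = k + 3 := ⟨n - 3, by omega⟩
  obtain ⟨A, hA, hAc⟩ := hplus
  obtain ⟨c, hc⟩ := H9.isPlusType_of_exists_elementary (m := m + 2) hQ hcard hA.2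
    (by rw [hAc]; exact Nat.pow_lt_pow_right one_lt_two (by omega))
  obtain ⟨e, f, hF⟩ : ∃ e f : Fin (m + 2 + 1) → _, H58.IsHypFrame c.Q e f :=
    ⟨_, _, hc ▸ H58.frame_qPlus (ZMod 2) (m + 2 + 1)⟩
  have h1 : ∀ i, c.Q (e i + f i) = 1 := fun i => by simp [H58.Q_add, hF.qe, hF.qf, hF.ef]
  have h2 : ∀ i j, QuadraticMap.polar c.Q (e i + f i) (e j) = if i = j then 1 else 0 :=
    fun i j => by simp [hF.ee, hF.fe]
  have h3 : ∀ i j, i ≠ j → QuadraticMap.polar c.Q (e i + f i) (e j + f j) = 0 :=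
    fun i j h => by simp [hF.ee, hF.fe, hF.ef, hF.ff, h]
  have h01 : (0 : Fin (m + 2 + 1)) ≠ 1 := by simp
  have h02 : (0 : Fin (m + 2 + 1)) ≠ 2 := by
    simp [Fin.ext_iff, Nat.mod_eq_of_lt (show 2 < m + 2 + 1 by omega)]
  have h12 : (1 : Fin (m + 2 + 1)) ≠ 2 := by
    simp [Fin.ext_iff, Nat.mod_eq_of_lt (show 2 < m + 2 + 1 by omega)]
  exact aux c (hc ▸ H58.qPlus_nondeg _ _) (h1 0) (h1 1) (h1 2) (h3 _ _ h01) (h3 _ _ h02)
    (h3 _ _ h12) ((h2 1 1).trans (if_pos rfl)) ((h2 0 1).trans (if_neg h01))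
    ((h2 2 1).trans (if_neg h12.symm)) ((h2 2 2).trans (if_pos rfl))
    ((h2 0 2).trans (if_neg h02)) ((h2 0 0).trans (if_pos rfl)) L

end Cfsg.Agent.S3085
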