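import Cfsg.Statements.S3371
import Cfsg.Agent.H18.HalfTr

set_option autoImplicit false
open Cfsg

namespace Cfsg.Agent.S3371

/-- Let q be a prime, V a non-trivial finite vector space over the field with q elements, and G a finite p-group (p prime) acting faithfully and linearly on V such that all G-orbits on the non-zero vectors have the same size. Then one of the following holds: G is cyclic or generalized quaternion and acts semiregularly on the non-zero vectors; or V has q² elements with q = 2^m − 1 and G is dihedral of order 2^(m+1) or semidihedral of order 2^(m+2); or V has q² elements with q = 2^m + 1 and, in suitable coordinates V = F_q², G is exactly the group of maps (x, y) ↦ (a x, ± a⁻¹ y) and (x, y) ↦ (± a⁻¹ y, a x) with a ≠ 0; or V has 81 elements (q = 3) and G is a 2-group. -/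
theorem result (q : ℕ) [Fact q.Prime] {V : Type*} [AddCommGroup V] [Module (ZMod q) V] [Finite V] [Nontrivial V]
    {G : Type*} [Group G] [Finite G] (p : ℕ) [Fact p.Prime] (hG : IsPGroup p G)
    (ρ : G →* (V ≃ₗ[ZMod q] V)) (hρ : Function.Injective ρ)
    (hhalf : ∀ v w : V, v ≠ 0 → w ≠ 0 → Nat.card {u : V | ∃ g : G, ρ g v = u} = Nat.card {u : V | ∃ g : G, ρ g w = u}) :
    ((IsCyclic G ∨ ∃ n : ℕ, Nonempty (G ≃* QuaternionGroup n)) ∧ ∀ v : V, v ≠ 0 → ∀ g : G, ρ g v = v → g = 1) ∨
    (Nat.card V = q ^ 2 ∧ ∃ m : ℕ, q = 2 ^ m - 1 ∧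
      (Nonempty (G ≃* DihedralGroup (2 ^ m)) ∨ (Cfsg.IsQuasiDihedral G ∧ Nat.card G = 2 ^ (m + 2)))) ∨
    (Nat.card V = q ^ 2 ∧ (∃ m : ℕ, q = 2 ^ m + 1) ∧
      ∃ e : V ≃ₗ[ZMod q] (Fin 2 → ZMod q), ∀ f : (Fin 2 → ZMod q) ≃ₗ[ZMod q] (Fin 2 → ZMod q),
        (∃ g : G, f = e.symm.trans ((ρ g).trans e)) ↔
        ∃ a s : ZMod q, a ≠ 0 ∧ (s = 1 ∨ s = -1) ∧
          ((∀ v, f v = ![a * v 0, s * a⁻¹ * v 1]) ∨ (∀ v, f v = ![s * a⁻¹ * v 1, a * v 0]))) ∨
    (Nat.card V = 81 ∧ q = 3 ∧ p = 2) := by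
  letI : DistribMulAction G V := DistribMulAction.compHom V ρ
  have hsm : ∀ (g : G) (v : V), g • v = ρ g v := fun _ _ => rfl
  haveI : SMulCommClass G (ZMod q) V := ⟨fun g c v => map_smul (ρ g) c v⟩
  have hs : ∀ v w : V, v ≠ 0 → w ≠ 0 →
      Nat.card (MulAction.stabilizer G v) = Nat.card (MulAction.stabilizer G w) := by
    intro v w hv hw
    have h1 := (MulAction.stabilizer G v).card_mul_index
    have h2 := (MulAction.stabilizer G w).card_mul_index
    have h3 : (MulAction.stabilizer G v).index = (MulAction.stabilizer G w).index := by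
      rw [MulAction.index_stabilizer, MulAction.index_stabilizer]
      exact hhalf v w hv hw
    rw [h3, ← h2] at h1
    exact Nat.eq_of_mul_eq_mul_right (Nat.pos_of_ne_zero Subgroup.index_ne_zero_of_finite) h1
  rcases H18.HT.main (G := G) (V := V) q p hG
    (fun g hg => hρ (by rw [map_one]; exact LinearEquiv.ext hg)) hs with h | h | ⟨h1, h2, e, he⟩ | h
  · exact Or.inl h
  · exact Or.inr (Or.inl h)
  · refine Or.inr (Or.inr (Or.inl ⟨h1, h2, e, fun f => ?_⟩))
    rw [← he f]
    exact exists_congr fun g => ⟨fun h x => by rw [h]; rfl, fun h => LinearEquiv.ext h⟩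
  · exact Or.inr (Or.inr (Or.inr h))

end Cfsg.Agent.S3371
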