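import Cfsg.Agent.Base
import Cfsg.Agent.H90.SL25
import Cfsg.Agent.S0253
import Cfsg.Statements.S3377

set_option autoImplicit false
open Cfsg

namespace Cfsg.Agent.S3377

/-- The alternating group of degree 5 has the presentation ⟨x, y | x³ = 1, y⁵ = 1, (xy)² = 1⟩: the group so presented is isomorphic to Alt(5). -/
theorem result :
    Nonempty (PresentedGroup ({FreeGroup.of (0 : Fin 2) ^ 3, FreeGroup.of (1 : Fin 2) ^ 5,
        (FreeGroup.of (0 : Fin 2) * FreeGroup.of 1) ^ 2} : Set (FreeGroup (Fin 2))) ≃* alternatingGroup (Fin 5)) := by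

  set rels : Set (FreeGroup (Fin 2)) := {FreeGroup.of (0 : Fin 2) ^ 3, FreeGroup.of (1 : Fin 2) ^ 5,
        (FreeGroup.of (0 : Fin 2) * FreeGroup.of 1) ^ 2} with hrels
  have hr : ∀ r ∈ rels, PresentedGroup.mk rels r = 1 := fun r hr => PresentedGroup.one_of_mem hr
  obtain ⟨φ, h1, h2, h3⟩ := H90.exists_hom_SL5 (G := PresentedGroup rels)
    (x := PresentedGroup.of 0) (y := PresentedGroup.of 1) (z := 1)
    (by simpa [PresentedGroup.of] using hr _ (by simp [hrels] : FreeGroup.of (0 : Fin 2) ^ 3 ∈ rels))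
    (by simpa [PresentedGroup.of] using hr _ (by simp [hrels] : FreeGroup.of (1 : Fin 2) ^ 5 ∈ rels))
    (by simp) (by simp) (by simp)
    (by simpa [PresentedGroup.of] using hr _ (by simp [hrels] : (FreeGroup.of (0 : Fin 2) * FreeGroup.of 1) ^ 2 ∈ rels))
  have hφ : Function.Surjective φ := by
    rw [← MonoidHom.range_eq_top, eq_top_iff, ← PresentedGroup.closure_range_of, Subgroup.closure_le]
    rintro _ ⟨i, rfl⟩
    fin_cases i
    · exact ⟨_, h1⟩
    · exact ⟨_, h2⟩
  let ψ : H90.SL5 ⧸ Subgroup.center H90.SL5 →* PresentedGroup rels :=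
    QuotientGroup.lift _ φ (by
      intro g hg
      rcases H61.sl_mem_center_iff.1 hg with rfl | rfl
      · exact map_one φ
      · exact h3)
  have hψ : Function.Surjective ψ := QuotientGroup.lift_surjective_of_surjective _ _ hφ _
  let π := QuotientGroup.mk' (Subgroup.center H90.SL5)
  let θ : PresentedGroup rels →* H90.SL5 ⧸ Subgroup.center H90.SL5 :=
    PresentedGroup.toGroup (f := ![π H90.m3, π (H11.uMat 1)]) (by
      intro r hr
      simp only [hrels, Set.mem_insert_iff, Set.mem_singleton_iff] at hr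
      rcases hr with rfl | rfl | rfl
      · simp only [map_pow, FreeGroup.lift_apply_of, Matrix.cons_val_zero]
        rw [← map_pow, show H90.m3 ^ 3 = 1 by decide, map_one]
      · simp only [map_pow, FreeGroup.lift_apply_of, Matrix.cons_val_one, Matrix.cons_val_zero]
        rw [← map_pow, show (H11.uMat 1 : H90.SL5) ^ 5 = 1 by decide, map_one]
      · simp only [map_pow, map_mul, FreeGroup.lift_apply_of, Matrix.cons_val_one,
          Matrix.cons_val_zero]
        rw [← map_mul, ← map_pow, show (H90.m3 * H11.uMat 1) ^ 2 = -1 by decide]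
        exact (QuotientGroup.eq_one_iff _).2 (H61.sl_mem_center_iff.2 (Or.inr rfl)))
  have hθψ : ∀ g, θ (ψ g) = g := by
    intro g
    obtain ⟨g, rfl⟩ := QuotientGroup.mk'_surjective _ g
    have : (θ.comp φ).eqLocus π = ⊤ := by
      apply H90.eq_top_of_m3_uMat
      · change θ (φ _) = _
        rw [h1]; simp [θ]
      · change θ (φ _) = _
        rw [h2]; simp [θ]
    exact (show g ∈ (θ.comp φ).eqLocus π by rw [this]; trivial)
  have hinj : Function.Injective ψ := Function.LeftInverse.injective hθψ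
  obtain ⟨e⟩ := Cfsg.Agent.S0253.result (F := ZMod 5) (by simp)
  exact ⟨(MulEquiv.ofBijective ψ ⟨hinj, hψ⟩).symm.trans e⟩

end Cfsg.Agent.S3377
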