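import Cfsg.Agent.Base
import Cfsg.Statements.S3381

set_option autoImplicit false
open Cfsg

namespace Cfsg.Agent.S3381

/-- Let G be a finite group acting faithfully and linearly on a non-trivial finite vector space V over the field with q elements (q prime) so that every non-zero vector has a stabilizer of order 2, and suppose G has a central involution. Then V has q^(2r) elements for some r and G contains exactly q^r + 1 non-central involutions. -/
theorem result
    (q : ℕ) [Fact q.Prime] {V : Type*} [AddCommGroup V] [Module (ZMod q) V] [Finite V] [Nontrivial V]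
    {G : Type*} [Group G] [Finite G] (ρ : G →* (V ≃ₗ[ZMod q] V)) (hρ : Function.Injective ρ)
    (hstab : ∀ v : V, v ≠ 0 → Nat.card {g : G // ρ g v = v} = 2)
    (z : G) (hz : orderOf z = 2) (hzc : z ∈ Subgroup.center G) :
    ∃ r : ℕ, Nat.card V = q ^ (2 * r) ∧
      Nat.card {g : G // orderOf g = 2 ∧ g ∉ Subgroup.center G} = q ^ r + 1 := by
  classical
  have huniq : ∀ v : V, v ≠ 0 → ∀ s t : G, s ≠ 1 → t ≠ 1 → ρ s v = v → ρ t v = v → s = t := by
    intro v hv s t hs ht h1 h2
    obtain ⟨y, -, hy⟩ := (Nat.card_eq_two_iff' (⟨1, by simp⟩ : {g : G // ρ g v = v})).1 (hstab v hv)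
    have h3 := hy ⟨s, h1⟩ (fun h => hs (congrArg Subtype.val h))
    have h4 := hy ⟨t, h2⟩ (fun h => ht (congrArg Subtype.val h))
    exact congrArg Subtype.val (h3.trans h4.symm)
  have hex : ∀ v : V, v ≠ 0 → ∃ t : G, t ≠ 1 ∧ t * t = 1 ∧ ρ t v = v := by
    intro v hv
    obtain ⟨y, hy, -⟩ := (Nat.card_eq_two_iff' (⟨1, by simp⟩ : {g : G // ρ g v = v})).1 (hstab v hv)
    have hy1 : y.1 ≠ 1 := fun h => hy (Subtype.ext h)
    refine ⟨y.1, hy1, ?_, y.2⟩
    by_contra h
    have := huniq v hv _ _ h hy1 (by rw [map_mul, LinearEquiv.mul_apply, y.2, y.2]) y.2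
    exact hy1 (by simpa using this)
  have hfaith : ∀ g : G, (∀ v, ρ g v = v) → g = 1 := fun g hg =>
    hρ (by rw [map_one]; exact LinearEquiv.ext hg)
  have hsq : ∀ t : G, t * t = 1 → ∀ v, ρ t (ρ t v) = v := fun t ht v => by
    rw [← LinearEquiv.mul_apply, ← map_mul, ht, map_one]; rfl
  have hcen : ∀ c : G, c ≠ 1 → c * c = 1 → c ∈ Subgroup.center G → ∀ v, ρ c v = v → v = 0 := by
    intro c hc1 hc2 hcc v hv
    by_contra hv0
    have h1 : ∀ u, ρ c u ≠ u → u + ρ c u = 0 := by
      intro u hu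
      by_contra h0
      obtain ⟨t, ht1, -, ht⟩ := hex u (by rintro rfl; exact hu (map_zero _))
      have h2 : ρ t (ρ c u) = ρ c u := by
        rw [← LinearEquiv.mul_apply, ← map_mul, Subgroup.mem_center_iff.1 hcc t, map_mul,
          LinearEquiv.mul_apply, ht]
      have := huniq _ h0 t c ht1 hc1 (by rw [map_add, ht, h2]) (by rw [map_add, hsq c hc2, add_comm])
      exact hu (this ▸ ht)
    obtain ⟨u, hu⟩ : ∃ u, ρ c u ≠ u := not_forall.1 fun h => hc1 (hfaith c h)
    have h2 := h1 u hu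
    have h3 := h1 (u + v) (by rw [map_add, hv]; exact fun h => hu (add_right_cancel h))
    rw [map_add, hv] at h3
    have h4 : (2 : ZMod q) • v = 0 := by
      rw [two_smul]
      calc v + v = (u + v + (ρ c u + v)) - (u + ρ c u) := by abel
        _ = 0 := by rw [h2, h3, sub_zero]
    have h5 : (2 : ZMod q) = 0 := (smul_eq_zero.1 h4).resolve_right hv0
    have h6 : u + u = 0 := by rw [← two_smul (ZMod q) u, h5, zero_smul]
    exact hu (add_left_cancel (h2.trans h6.symm))
  have hneg : ∀ c : G, c ≠ 1 → c * c = 1 → c ∈ Subgroup.center G → ∀ v, ρ c v = -v := by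
    intro c hc1 hc2 hcc v
    have := hcen c hc1 hc2 hcc (v + ρ c v) (by rw [map_add, hsq c hc2, add_comm])
    exact eq_neg_of_add_eq_zero_right this
  have hord : ∀ g : G, orderOf g = 2 ↔ g ≠ 1 ∧ g * g = 1 := by
    intro g
    have : Fact (Nat.Prime 2) := ⟨Nat.prime_two⟩
    rw [orderOf_eq_prime_iff, sq]
    tauto
  obtain ⟨hz1, hz2⟩ := (hord z).1 hz
  have hzn := hneg z hz1 hz2 hzc
  have h2 : (2 : ZMod q) ≠ 0 := by
    intro h
    obtain ⟨v, hv⟩ := exists_ne (0 : V)
    refine hv (hcen z hz1 hz2 hzc v ?_)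
    rw [hzn, neg_eq_iff_add_eq_zero, ← two_smul (ZMod q) v, h, zero_smul]
  let C : G → Submodule (ZMod q) V := fun g => LinearMap.eqLocus (ρ g : V →ₗ[ZMod q] V) LinearMap.id
  have hC : ∀ g v, v ∈ C g ↔ ρ g v = v := fun g v => Iff.rfl
  let I : G → Prop := fun g => orderOf g = 2 ∧ g ∉ Subgroup.center G
  have hI : ∀ g, I g ↔ (g ≠ 1 ∧ g * g = 1) ∧ g ∉ Subgroup.center G := fun g => by
    simp only [I, hord]
  have hzz : ∀ t : G, t * z * z = t := fun t => by rw [mul_assoc, hz2, mul_one]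
  have hne : ∀ t : G, t ≠ t * z := fun t h => hz1 (by simpa using h)
  have hIz : ∀ t, I t → I (t * z) := by
    intro t ht
    rw [hI] at ht ⊢
    have h3 : t * z ∉ Subgroup.center G := fun h => ht.2 (hzz t ▸ Subgroup.mul_mem _ h hzc)
    refine ⟨⟨fun h => h3 (h ▸ Subgroup.one_mem _), ?_⟩, h3⟩
    calc t * z * (t * z) = t * (z * t) * z := by group
      _ = 1 := by rw [← Subgroup.mem_center_iff.1 hzc t, ← mul_assoc, ht.1.2, one_mul, hz2]
  have hdisj : ∀ s t, I s → I t → s ≠ t → Disjoint (C s) (C t) := by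
    intro s t hs ht hst
    rw [Submodule.disjoint_def]
    intro v h3 h4
    by_contra hv
    exact hst (huniq v hv s t ((hI s).1 hs).1.1 ((hI t).1 ht).1.1 h3 h4)
  have hle : ∀ s t, I s → I t → s ≠ t →
      Module.finrank (ZMod q) (C s) + Module.finrank (ZMod q) (C t) ≤ Module.finrank (ZMod q) V :=
    fun s t hs ht hst => Submodule.finrank_add_finrank_le_of_disjoint (hdisj s t hs ht hst)
  have hsup : ∀ t, I t → C t ⊔ C (t * z) = ⊤ := by
    intro t ht
    rw [eq_top_iff]
    intro v _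
    have h3 := hsq t ((hI t).1 ht).1.2
    rw [Submodule.mem_sup]
    refine ⟨(2 : ZMod q)⁻¹ • (v + ρ t v), (C t).smul_mem _ ?_, (2 : ZMod q)⁻¹ • (v - ρ t v),
      (C (t * z)).smul_mem _ ?_, ?_⟩
    · rw [hC, map_add, h3, add_comm]
    · rw [hC, map_mul, LinearEquiv.mul_apply, hzn, map_neg, map_sub, h3, neg_sub]
    · rw [← smul_add, show v + ρ t v + (v - ρ t v) = (2 : ZMod q) • v by rw [two_smul]; abel,
        smul_smul, inv_mul_cancel₀ h2, one_smul]
  have heq : ∀ t, I t →
      Module.finrank (ZMod q) (C t) + Module.finrank (ZMod q) (C (t * z)) = Module.finrank (ZMod q) V :=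
    fun t ht => Submodule.finrank_add_eq_of_isCompl
      ⟨hdisj _ _ ht (hIz t ht) (hne t), codisjoint_iff.2 (hsup t ht)⟩
  have hnz : ∀ t, I t → ∃ v, v ≠ 0 ∧ ρ t v = v := by
    intro t ht
    by_contra h
    push Not at h
    have h3 : C t = ⊥ := by
      rw [eq_bot_iff]
      intro v hv
      by_contra h0
      exact h v h0 hv
    have h4 := hsup t ht
    rw [h3, bot_sup_eq] at h4
    exact ((hI _).1 (hIz t ht)).1.1 (hfaith _ fun v => (hC _ v).1 (h4 ▸ Submodule.mem_top))
  have hexI : ∀ v : V, v ≠ 0 → ∃ t, I t ∧ ρ t v = v := by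
    intro v hv
    obtain ⟨t, h3, h4, h5⟩ := hex v hv
    exact ⟨t, (hI t).2 ⟨⟨h3, h4⟩, fun h => hv (hcen t h3 h4 h v h5)⟩, h5⟩
  have hhalf : ∀ t, I t → 2 * Module.finrank (ZMod q) (C t) = Module.finrank (ZMod q) V := by
    intro t ht
    have ht' := hIz t ht
    obtain ⟨v, hv, h3⟩ := hnz t ht
    obtain ⟨w, hw, h4⟩ := hnz _ ht'
    have hd := Submodule.disjoint_def.1 (hdisj _ _ ht ht' (hne t))
    obtain ⟨s, hs, h5⟩ := hexI (v + w) (fun h => hv (hd v h3 (by
      rw [eq_neg_of_add_eq_zero_left h]; exact (C (t * z)).neg_mem h4)))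
    have h6 : s ≠ t := by
      rintro rfl
      rw [map_add, h3] at h5
      exact hw (hd w (add_left_cancel h5) h4)
    have h7 : s ≠ t * z := by
      rintro rfl
      rw [map_add, h4] at h5
      exact hv (hd v h3 (add_right_cancel h5))
    have e1 := hle s t hs ht h6
    have e2 := hle s _ hs ht' h7
    have e3 := hle (s * z) t (hIz s hs) ht (fun h => h7 (by rw [← h, hzz]))
    have e4 := hle (s * z) _ (hIz s hs) ht' (fun h => h6 (mul_right_cancel h))
    have e5 := heq s hs
    have e6 := heq t ht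
    omega
  obtain ⟨v₀, hv₀⟩ := exists_ne (0 : V)
  obtain ⟨t₀, ht₀, -⟩ := hexI v₀ hv₀
  obtain ⟨r, hr⟩ : ∃ r, r = Module.finrank (ZMod q) (C t₀) := ⟨_, rfl⟩
  have hV : Nat.card V = q ^ (2 * r) := by
    rw [Module.natCard_eq_pow_finrank (K := ZMod q), Nat.card_zmod, hr, hhalf t₀ ht₀]
  have hCt : ∀ t, I t → Nat.card (C t) = q ^ r := by
    intro t ht
    have h3 := hhalf t ht
    have h4 := hhalf t₀ ht₀
    rw [Module.natCard_eq_pow_finrank (K := ZMod q), Nat.card_zmod]
    congr 1
    omega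
  refine ⟨r, hV, ?_⟩
  have := Fintype.ofFinite V
  have := Fintype.ofFinite G
  choose! f hf using hexI
  have hcount := Finset.card_eq_sum_card_fiberwise (s := Finset.univ.erase (0 : V))
    (t := Finset.univ.filter I) (f := f) (fun v hv => by
      simpa using (hf v (Finset.ne_of_mem_erase hv)).1)
  have hfib : ∀ t ∈ Finset.univ.filter I,
      ((Finset.univ.erase (0 : V)).filter fun v => f v = t).card = q ^ r - 1 := by
    intro t ht
    have ht' : I t := by simpa using ht
    have h3 : ((Finset.univ.erase (0 : V)).filter fun v => f v = t) =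
        (Finset.univ.filter fun v => v ∈ C t).erase 0 := by
      ext v
      simp only [Finset.mem_filter, Finset.mem_erase, Finset.mem_univ, and_true, true_and]
      refine and_congr_right fun hv => ⟨fun h => h ▸ (hf v hv).2, fun h => ?_⟩
      exact huniq v hv _ _ ((hI _).1 (hf v hv).1).1.1 ((hI _).1 ht').1.1 (hf v hv).2 h
    rw [h3, Finset.card_erase_of_mem (by simp), ← hCt t ht', Nat.card_eq_fintype_card,
      Fintype.card_subtype]
  rw [Finset.sum_const_nat hfib, Finset.card_erase_of_mem (Finset.mem_univ _), Finset.card_univ,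
    ← Nat.card_eq_fintype_card, hV] at hcount
  have h3 : Nat.card {g : G // orderOf g = 2 ∧ g ∉ Subgroup.center G} = (Finset.univ.filter I).card := by
    rw [Nat.card_eq_fintype_card, Fintype.card_subtype]
  rw [h3]
  have h4 : 1 < q ^ r := by
    have h5 : 1 < Nat.card V := Finite.one_lt_card
    rw [hV] at h5
    rcases Nat.eq_zero_or_pos r with rfl | h
    · simp at h5
    · exact Nat.one_lt_pow h.ne' (Fact.out : q.Prime).one_lt
  rw [mul_comm 2 r, pow_mul] at hcount
  obtain ⟨k, hk⟩ : ∃ k, q ^ r = k + 1 := ⟨q ^ r - 1, by omega⟩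
  rw [hk] at hcount h4 ⊢
  have h5 : (k + 1) ^ 2 - 1 = (k + 1 + 1) * k := by
    rw [show (k + 1) ^ 2 = (k + 1 + 1) * k + 1 by ring, Nat.add_sub_cancel]
  rw [h5, Nat.add_sub_cancel] at hcount
  exact (Nat.eq_of_mul_eq_mul_right (by omega) hcount).symm

end Cfsg.Agent.S3381
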