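import Cfsg.Statements.S3382
import Cfsg.Agent.H86.OddAut
import Cfsg.Agent.H98.Sylow

set_option autoImplicit false
open Cfsg

namespace Cfsg.Agent.S3382

open Subgroup

section
variable {K : Type} [Field K]

abbrev E (K : Type) [Field K] := (Fin 2 → K) ≃ₗ[K] (Fin 2 → K)

def Dg (f : E K) (a b : K) : Prop := ∀ v, f v = ![a * v 0, b * v 1]
def An (f : E K) (a b : K) : Prop := ∀ v, f v = ![b * v 1, a * v 0]

variable {f g : E K} {a b c d : K}

theorem Dg.mul (h : Dg f a b) (k : Dg g c d) : Dg (f * g) (a * c) (b * d) := fun v => by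
  rw [LinearEquiv.mul_apply, k, h]; simp [mul_assoc]
theorem Dg.mulA (h : Dg f a b) (k : An g c d) : An (f * g) (b * c) (a * d) := fun v => by
  rw [LinearEquiv.mul_apply, k, h]; simp [mul_assoc]
theorem An.mulD (h : An f a b) (k : Dg g c d) : An (f * g) (a * c) (b * d) := fun v => by
  rw [LinearEquiv.mul_apply, k, h]; simp [mul_assoc]
theorem An.mul (h : An f a b) (k : An g c d) : Dg (f * g) (b * c) (a * d) := fun v => by
  rw [LinearEquiv.mul_apply, k, h]; simp [mul_assoc]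
theorem dg_one : Dg (1 : E K) 1 1 := fun v => by
  ext i; fin_cases i <;> simp
theorem Dg.eq (h : Dg f a b) (k : Dg g c d) (e1 : a = c) (e2 : b = d) : f = g :=
  LinearEquiv.ext fun v => by rw [h, k, e1, e2]
theorem An.eq (h : An f a b) (k : An g c d) (e1 : a = c) (e2 : b = d) : f = g :=
  LinearEquiv.ext fun v => by rw [h, k, e1, e2]
theorem Dg.inj (h : Dg f a b) (k : Dg f c d) : a = c ∧ b = d := by
  have := (h ![1, 1]).symm.trans (k ![1, 1])
  simpa using this
theorem An.inj (h : An f a b) (k : An f c d) : a = c ∧ b = d := by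
  have := (h ![1, 1]).symm.trans (k ![1, 1])
  simpa [and_comm] using this
theorem Dg.pow (h : Dg f a b) (n : ℕ) : Dg (f ^ n) (a ^ n) (b ^ n) := by
  induction n with
  | zero => simpa using dg_one
  | succ n ih => rw [pow_succ, pow_succ, pow_succ]; exact ih.mul h

theorem ex_dg (ha : a ≠ 0) (hb : b ≠ 0) : ∃ f : E K, Dg f a b :=
  ⟨{ toFun := fun v => ![a * v 0, b * v 1]
     invFun := fun v => ![a⁻¹ * v 0, b⁻¹ * v 1]
     map_add' := fun v w => by ext i; fin_cases i <;> simp [mul_add]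
     map_smul' := fun r v => by ext i; fin_cases i <;> simp [mul_left_comm]
     left_inv := fun v => by ext i; fin_cases i <;> simp [ha, hb]
     right_inv := fun v => by ext i; fin_cases i <;> simp [ha, hb] }, fun _ => rfl⟩

theorem ex_an (ha : a ≠ 0) (hb : b ≠ 0) : ∃ f : E K, An f a b :=
  ⟨{ toFun := fun v => ![b * v 1, a * v 0]
     invFun := fun v => ![a⁻¹ * v 1, b⁻¹ * v 0]
     map_add' := fun v w => by ext i; fin_cases i <;> simp [mul_add]
     map_smul' := fun r v => by ext i; fin_cases i <;> simp [mul_left_comm]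
     left_inv := fun v => by ext i; fin_cases i <;> simp [ha, hb]
     right_inv := fun v => by ext i; fin_cases i <;> simp [ha, hb] }, fun _ => rfl⟩

variable {T : Subgroup (E K)} {φ : E K → E K}
  (hT : ∀ f, f ∈ T ↔ ∃ a b : K, (a * b = 1 ∨ a * b = -1) ∧ (Dg f a b ∨ An f a b))
include hT

theorem inv_sq (hf : f ∈ T) : ∃ a b : K, (a * b = 1 ∨ a * b = -1) ∧ (Dg f⁻¹ a b ∨ An f⁻¹ a b) :=
  (hT _).1 (inv_mem hf)

theorem big (h2 : (2 : K) ≠ 0) (hP : IsPGroup 2 T) {x : K} (x0 : x ≠ 0) (x4 : x ^ 4 ≠ 1) (h : H86.OddAut T φ) :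
    ∀ f ∈ T, φ f = f := by
  have n1 : (-1 : K) ≠ 0 := neg_ne_zero.2 one_ne_zero
  have ne : ∀ {a : K}, a = -a → a = 0 := fun {a} e => (mul_eq_zero.1 (show 2 * a = 0 by
    linear_combination e)).resolve_left h2
  obtain ⟨u, hu⟩ := ex_dg (one_ne_zero (α := K)) n1
  obtain ⟨z, hz⟩ := ex_dg n1 n1
  obtain ⟨w, hw⟩ := ex_an (one_ne_zero (α := K)) one_ne_zero
  obtain ⟨δ, hδ⟩ := ex_dg x0 (inv_ne_zero x0)
  have uT : u ∈ T := (hT u).2 ⟨1, -1, Or.inr (one_mul _), Or.inl hu⟩
  have zT : z ∈ T := (hT z).2 ⟨-1, -1, Or.inl (by ring), Or.inl hz⟩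
  have wT : w ∈ T := (hT w).2 ⟨1, 1, Or.inl (one_mul _), Or.inr hw⟩
  have δT : δ ∈ T := (hT δ).2 ⟨x, x⁻¹, Or.inl (mul_inv_cancel₀ x0), Or.inl hδ⟩
  set D := T ⊓ centralizer {u} with hD
  have dD : ∀ {f : E K} {a b : K}, f ∈ T → Dg f a b → f ∈ D := fun hf k =>
    ⟨hf, mem_centralizer_singleton_iff.2 ((k.mul hu).eq (hu.mul k) (mul_comm _ _) (mul_comm _ _))⟩
  have cs : ∀ f ∈ T, (f ∈ D ∧ ∃ a b, Dg f a b) ∨ (f ∉ D ∧ ∃ a b, (a * b = 1 ∨ a * b = -1) ∧ An f a b) :=
    fun f hf => by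
    obtain ⟨a, b, s, k | k⟩ := (hT f).1 hf
    · exact Or.inl ⟨dD hf k, a, b, k⟩
    · refine Or.inr ⟨fun hc => ?_, a, b, s, k⟩
      have e := (k.mulD hu).inj (mem_centralizer_singleton_iff.1 hc.2 ▸ hu.mulA k)
      have : a = 0 := ne (by linear_combination e.1)
      rw [this, zero_mul] at s
      rcases s with s | s
      exacts [one_ne_zero s.symm, n1 s.symm]
  have Dd : ∀ f ∈ D, ∃ a b, Dg f a b := fun f hf => ((cs f hf.1).resolve_right fun k => k.1 hf).2
  have cm : ∀ f ∈ D, ∀ g ∈ D, f * g = g * f := fun f hf g hg => by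
    obtain ⟨a, b, k⟩ := Dd f hf
    obtain ⟨c, d, l⟩ := Dd g hg
    exact (k.mul l).eq (l.mul k) (mul_comm _ _) (mul_comm _ _)
  have p4 : ∀ f ∈ T, f ^ 4 ≠ 1 → f ∈ D := fun f hf h4 => by
    by_contra hc
    obtain ⟨-, a, b, s, k⟩ := (cs f hf).resolve_left fun k => hc k.1
    have e : f ^ 4 = f * f * (f * f) := by simp only [pow_succ, pow_zero, one_mul, mul_assoc]
    refine h4 (e ▸ ((k.mul k).mul (k.mul k)).eq dg_one ?_ ?_) <;> rcases s with s | s <;>
      first | linear_combination (a * b + 1) * s | linear_combination (a * b - 1) * s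
  have f4 : ∀ f ∈ T, f ^ 4 ≠ 1 → φ f ∈ D := fun f hf h4 => p4 _ (h.mem f hf) fun e => h4 (by
    rwa [← h.map_pow hf, h.eq_one_iff (pow_mem hf 4)] at e)
  have δ4 : δ ^ 4 ≠ 1 := fun e => x4 ((hδ.pow 4).inj (e ▸ dg_one)).1
  have inv : ∀ f ∈ D, φ f ∈ D := fun f hf => by
    by_cases h4 : f ^ 4 = 1
    · have k := f4 (f * δ) (mul_mem hf.1 δT) (by
        rw [(show Commute f δ from cm f hf δ (dD δT hδ)).mul_pow, h4, one_mul]; exact δ4)
      rw [h.mul f hf.1 δ δT] at k
      exact (mul_mem_cancel_right (f4 δ δT δ4)).1 k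
    · exact f4 f hf.1 h4
  have zc : ∀ g ∈ T, g * z = z * g := fun g hg => by
    obtain ⟨a, b, -, k | k⟩ := (hT g).1 hg
    · exact (k.mul hz).eq (hz.mul k) (mul_comm _ _) (mul_comm _ _)
    · exact (k.mulD hz).eq (hz.mulA k) (mul_comm _ _) (mul_comm _ _)
  have om : ∀ f ∈ D, f * f = 1 → f = 1 ∨ f = z ∨ f = u ∨ f = u * z := fun f hf e => by
    obtain ⟨a, b, k⟩ := Dd f hf
    obtain ⟨e1, e2⟩ := (k.mul k).inj (e ▸ dg_one)
    rcases mul_self_eq_one_iff.1 e1 with rfl | rfl <;> rcases mul_self_eq_one_iff.1 e2 with rfl | rfl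
    · exact Or.inl (k.eq dg_one rfl rfl)
    · exact Or.inr (Or.inr (Or.inl (k.eq hu rfl rfl)))
    · exact Or.inr (Or.inr (Or.inr (k.eq (hu.mul hz) (by ring) (by ring))))
    · exact Or.inr (Or.inl (k.eq hz rfl rfl))
  have zz : z * z = 1 := (hz.mul hz).eq dg_one (by ring) (by ring)
  have uu : u * u = 1 := (hu.mul hu).eq dg_one (by ring) (by ring)
  have z1 : z ≠ 1 := fun e => one_ne_zero (ne ((hz.inj (e ▸ dg_one)).1.symm))
  have uw : w * u ≠ u * w := fun e => one_ne_zero (ne (by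
    have := ((hw.mulD hu).inj (e ▸ hu.mulA hw)).1
    linear_combination this))
  have sq : ∀ f ∈ T, f * f = 1 → φ f * φ f = 1 := fun f hf e => by rw [← h.mul f hf f hf, e, h.map_one]
  have fz : φ z = z := by
    have c := h.central zT zc w wT
    rcases om _ (inv z (dD zT hz)) (sq z zT zz) with e | e | e | e
    · exact (z1 ((h.eq_one_iff zT).1 e)).elim
    · exact e
    · exact (uw (e ▸ c)).elim
    · rw [e, ← mul_assoc, mul_assoc u, ← zc w wT, ← mul_assoc] at c
      exact (uw (mul_right_cancel c)).elim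
  have fu : φ u = u := by
    rcases om _ (inv u (dD uT hu)) (sq u uT uu) with e | e | e | e
    · rw [h.eq_one_iff uT] at e
      exact (uw (by rw [e, mul_one, one_mul])).elim
    · have := h.inj uT zT (e.trans fz.symm)
      exact (uw (this ▸ zc w wT)).elim
    · exact e
    · exact h.fix_of_mul uT zT fz (e := 1) (by rw [pow_one, pow_two, zz]) e
  have fD := (h.restrict inf_le_left inv).fix_of_abelian (hP.to_le inf_le_left) cm fun f hf e => by
    rcases om f hf e with rfl | rfl | rfl | rfl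
    exacts [h.map_one, fz, fu, h.fix_mul uT zT fu fz]
  refine h.fix_of_index_two hP inf_le_left fD fun f hf g hg nf ng => ?_
  obtain ⟨-, a, b, -, k⟩ := (cs _ (inv_mem hf)).resolve_left fun k => nf (inv_mem_iff.1 k.1)
  obtain ⟨-, c, d, -, l⟩ := (cs _ hg).resolve_left fun k => ng k.1
  exact dD (mul_mem (inv_mem hf) hg) (k.mul l)

theorem small (hP : IsPGroup 2 T) (hK : ∀ a : K, a ≠ 0 → a = 1 ∨ a = -1) (h : H86.OddAut T φ) :
    ∀ f ∈ T, φ f = f := by
  have n1 : (-1 : K) ≠ 0 := neg_ne_zero.2 one_ne_zero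
  obtain ⟨r, hr⟩ := ex_an (one_ne_zero (α := K)) n1
  have rT : r ∈ T := (hT r).2 ⟨1, -1, Or.inr (one_mul _), Or.inr hr⟩
  have r2 := hr.mul hr
  have nz : ∀ {a b : K}, (a * b = 1 ∨ a * b = -1) → a ≠ 0 := fun {a b} s e => by
    rw [e, zero_mul] at s
    rcases s with s | s
    exacts [one_ne_zero s.symm, n1 s.symm]
  have m1 : ∀ {f : E K} {a b : K}, Dg f a b → a * b = 1 → f ∈ zpowers r := fun {f a b} k s => by
    rcases hK a (nz (Or.inl s)) with rfl | rfl
    · rw [k.eq dg_one rfl (by linear_combination s)]; exact one_mem _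
    · rw [k.eq r2 (by ring) (by linear_combination -s)]
      exact mul_mem (mem_zpowers r) (mem_zpowers r)
  have m2 : ∀ {f : E K} {a b : K}, An f a b → a * b = -1 → f ∈ zpowers r := fun {f a b} k s => by
    rcases hK a (nz (Or.inr s)) with rfl | rfl
    · rw [k.eq hr rfl (by linear_combination s)]; exact mem_zpowers r
    · rw [k.eq (r2.mulA hr) (by ring) (by linear_combination -s)]
      exact mul_mem (mul_mem (mem_zpowers r) (mem_zpowers r)) (mem_zpowers r)
  have cs : ∀ f ∈ T, f ∉ zpowers r → ∃ a b, (Dg f a b ∧ a * b = -1) ∨ (An f a b ∧ a * b = 1) := fun f hf n => by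
    obtain ⟨a, b, s | s, k | k⟩ := (hT f).1 hf
    exacts [(n (m1 k s)).elim, ⟨a, b, Or.inr ⟨k, s⟩⟩, ⟨a, b, Or.inl ⟨k, s⟩⟩, (n (m2 k s)).elim]
  have sq : ∀ {a : K}, a ≠ 0 → a * a = 1 := fun {a} a0 => by rcases hK a a0 with rfl | rfl <;> ring
  have fr : φ r = r := by
    refine h.fix_of_zpowers (e := 2) rT ?_ ?_
    · have e : r ^ 2 ^ 2 = r * r * (r * r) := by
        simp only [show 2 ^ 2 = 4 from rfl, pow_succ, pow_zero, one_mul, mul_assoc]
      exact e ▸ (r2.mul r2).eq dg_one (by ring) (by ring)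
    by_contra n
    obtain ⟨a, b, k⟩ := cs _ (h.mem r rT) n
    have e : φ r * φ r = 1 := by
      rcases k with ⟨k, s⟩ | ⟨k, s⟩
      · exact (k.mul k).eq dg_one (sq (nz (Or.inr s))) (sq (nz (b := a) (Or.inr (by rw [mul_comm, s]))))
      · exact (k.mul k).eq dg_one (by rw [mul_comm, s]) s
    rw [← h.mul r rT r rT, h.eq_one_iff (mul_mem rT rT)] at e
    have e1 := (r2.inj (e ▸ dg_one)).1
    rcases k with ⟨k, s⟩ | ⟨k, s⟩
    · exact n (m1 k (by linear_combination s + e1))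
    · exact n (m2 k (by linear_combination s - e1))
  refine h.fix_of_index_two hP (zpowers_le.2 rT) (h.fix_zpowers rT fr) fun f hf g hg nf ng => ?_
  obtain ⟨a, b, k⟩ := cs _ (inv_mem hf) fun k => nf (inv_mem_iff.1 k)
  obtain ⟨c, d, l⟩ := cs _ hg ng
  rcases k with ⟨k, s⟩ | ⟨k, s⟩ <;> rcases l with ⟨l, t⟩ | ⟨l, t⟩
  · exact m1 (k.mul l) (by linear_combination c * d * s - t)
  · exact m2 (k.mulA l) (by linear_combination c * d * s - t)
  · exact m2 (k.mulD l) (by linear_combination c * d * s + t)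
  · exact m1 (k.mul l) (by linear_combination c * d * s + t)

end

/-- Let q = 2^m + 1 be a prime other than 5. Then the automorphism group of the group of linear maps of F_q² of the forms (x, y) ↦ (a x, ± a⁻¹ y) and (x, y) ↦ (± a⁻¹ y, a x) with a ≠ 0 is itself a 2-group. -/
theorem result (q m : ℕ) [Fact q.Prime] (hq : q = 2 ^ m + 1) (hq5 : q ≠ 5)
    (T : Subgroup ((Fin 2 → ZMod q) ≃ₗ[ZMod q] (Fin 2 → ZMod q)))
    (hT : ∀ f, f ∈ T ↔ ∃ a s : ZMod q, a ≠ 0 ∧ (s = 1 ∨ s = -1) ∧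
      ((∀ v, f v = ![a * v 0, s * a⁻¹ * v 1]) ∨ (∀ v, f v = ![s * a⁻¹ * v 1, a * v 0]))) :
    IsPGroup 2 (MulAut T) := by
  have pq : q.Prime := Fact.out
  have hT' : ∀ f, f ∈ T ↔ ∃ a b : ZMod q, (a * b = 1 ∨ a * b = -1) ∧ (Dg f a b ∨ An f a b) := fun f => by
    rw [hT]
    constructor
    · rintro ⟨a, s, a0, hs, k⟩
      refine ⟨a, s * a⁻¹, ?_, k⟩
      rwa [mul_left_comm, mul_inv_cancel₀ a0, mul_one]
    · rintro ⟨a, b, s, k⟩
      have a0 : a ≠ 0 := fun e => by
        rw [e, zero_mul] at s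
        rcases s with s | s
        exacts [one_ne_zero s.symm, neg_ne_zero.2 one_ne_zero s.symm]
      refine ⟨a, a * b, a0, s, ?_⟩
      rwa [mul_comm a b, mul_assoc b, mul_inv_cancel₀ a0, mul_one]
  have fm : ∀ a : ZMod q, a ≠ 0 → a ^ 2 ^ m = 1 := fun a a0 => by
    have := ZMod.pow_card_sub_one_eq_one a0
    have e : q - 1 = 2 ^ m := Nat.sub_eq_of_eq_add hq
    rwa [e] at this
  have hP : IsPGroup 2 T := H98.isPGroup_iff_forall.2 fun f hf => by
    obtain ⟨a, b, s, k⟩ := (hT' f).1 hf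
    have ab : a * b ≠ 0 := by
      rcases s with s | s <;> rw [s]
      exacts [one_ne_zero, neg_ne_zero.2 one_ne_zero]
    rcases k with k | k
    · exact ⟨m, (k.pow _).eq dg_one (fm a (left_ne_zero_of_mul ab)) (fm b (right_ne_zero_of_mul ab))⟩
    · refine ⟨m + 1, ?_⟩
      rw [pow_succ', pow_mul, pow_two]
      exact ((k.mul k).pow _).eq dg_one (fm _ (mul_comm a b ▸ ab)) (fm _ ab)
  haveI : Finite (E (ZMod q)) := DFunLike.finite _
  refine H86.isPGroup_mulAut fun φ h => ?_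
  by_cases hm : m ≤ 1
  · refine small hT' hP (fun a a0 => mul_self_eq_one_iff.1 ?_) h
    have := fm a a0
    interval_cases m
    · rw [pow_zero, pow_one] at this; rw [this, mul_one]
    · rwa [pow_one, pow_two] at this
  · have m2 : m ≠ 2 := fun e => hq5 (by rw [hq, e]; norm_num)
    have h8 : 2 ^ 3 ≤ 2 ^ m := Nat.pow_le_pow_right (by norm_num) (by omega)
    obtain ⟨x, hx⟩ := IsCyclic.exists_ofOrder_eq_natCard (α := (ZMod q)ˣ)
    rw [Nat.card_eq_fintype_card, ZMod.card_units] at hx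
    refine big hT' ?_ hP x.ne_zero (fun e => ?_) h
    · intro e
      have := (ZMod.natCast_eq_zero_iff 2 q).1 (by exact_mod_cast e)
      have := Nat.le_of_dvd (by norm_num) this
      omega
    · have : x ^ 4 = 1 := Units.ext (by rw [Units.val_pow_eq_pow_val, e, Units.val_one])
      have := Nat.le_of_dvd (by norm_num) (orderOf_dvd_of_pow_eq_one this)
      omega

end Cfsg.Agent.S3382
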