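import Cfsg.Statements.S3420
import Cfsg.Agent.H74.PQ
import Cfsg.Agent.H3.TwoPrimes

set_option autoImplicit false
open Cfsg

namespace Cfsg.Agent.S3420

theorem sq_not {G : Type*} [Group G] {n p : ℕ} (hn : 11 ≤ n)
    (hcard : Nat.card G = Nat.card ↥(alternatingGroup (Fin n))) (hp : p.Prime) (h1 : n < 2 * p) :
    ¬ p ^ 2 ∣ Nat.card G := by
  haveI : Nontrivial (Fin n) := Fin.nontrivial_iff_two_le.2 (by omega)
  intro h
  have h2 : p ^ 2 ∣ n.factorial := by
    have := two_mul_nat_card_alternatingGroup (α := Fin n)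
    rw [Nat.card_perm, Nat.card_fin, ← hcard] at this
    rw [← this]
    exact h.mul_left 2
  have h3 := H74.PQ.pow_dvd_factorial hp (by nlinarith [hp.two_le]) h2
  have := (Nat.le_div_iff_mul_le hp.pos).1 h3
  omega

theorem dvd_card {G : Type*} [Group G] {n p : ℕ} (hn : 5 ≤ n)
    (hcard : Nat.card G = Nat.card ↥(alternatingGroup (Fin n))) (hp : p.Prime) (h1 : 2 < p)
    (h2 : p ≤ n) : p ∣ Nat.card G := by
  haveI : Nontrivial (Fin n) := Fin.nontrivial_iff_two_le.2 (by omega)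
  have := two_mul_nat_card_alternatingGroup (α := Fin n)
  rw [Nat.card_perm, Nat.card_fin, ← hcard] at this
  have h3 : p ∣ 2 * Nat.card G := this ▸ hp.dvd_factorial.2 h2
  exact (hp.dvd_mul.1 h3).resolve_left fun h => by
    have := Nat.le_of_dvd two_pos h
    omega

theorem no_pq {G : Type*} [Group G] {n p q : ℕ}
    (hspec : Set.range (orderOf : G → ℕ) = Set.range (orderOf : ↥(alternatingGroup (Fin n)) → ℕ))
    (hp : p.Prime) (hq : q.Prime) (hpq : p ≠ q) (h : n < p + q) (g : G) : orderOf g ≠ p * q := by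
  intro hg
  have : p * q ∈ Set.range (orderOf : ↥(alternatingGroup (Fin n)) → ℕ) := hspec ▸ ⟨g, hg⟩
  obtain ⟨σ, hσ⟩ := this
  have := H74.PQ.perm_add_le hp hq hpq ((Subgroup.orderOf_coe σ).trans hσ)
  rw [Fintype.card_fin] at this
  omega

theorem cond {G : Type*} [Group G] {n p q : ℕ} (hn : 11 ≤ n)
    (hcard : Nat.card G = Nat.card ↥(alternatingGroup (Fin n))) (hp : p.Prime) (hq : q.Prime)
    (h1 : n < 2 * p) (h2 : p ≤ n) (h3 : n < 2 * q) :
    ∀ i, 1 ≤ i → p ^ i ∣ Nat.card G → ¬ p ^ i ≡ 1 [MOD q] := by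
  intro i hi hd hm
  have hi1 : i = 1 := by
    by_contra hc
    exact sq_not hn hcard hp h1 ((pow_dvd_pow p (by omega)).trans hd)
  rw [hi1, pow_one] at hm
  obtain ⟨k, hk⟩ := (Nat.modEq_iff_dvd' hp.one_le).1 hm.symm
  have hp2 := hp.two_le
  have hk1 : k = 1 := by
    rcases k with _ | _ | k
    · omega
    · rfl
    · exfalso
      have : q * (k + 1 + 1) = 2 * q + q * k := by ring
      omega
  have ho1 := hp.eq_two_or_odd
  have ho2 := hq.eq_two_or_odd
  subst hk1
  omega

theorem two {n : ℕ} (hn : 11 ≤ n) :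
    ∃ p q : ℕ, p.Prime ∧ q.Prime ∧ n < 2 * p ∧ p < q ∧ q ≤ n := by
  by_cases h : 17 ≤ n
  · obtain ⟨p, q, hp, hq, h1, h2, h3⟩ := H3.two_primes h
    exact ⟨p, q, hp, hq, h1, by omega, h3⟩
  · by_cases h' : n ≤ 13
    · exact ⟨7, 11, by norm_num, by norm_num, by omega, by omega, hn⟩
    · exact ⟨11, 13, by norm_num, by norm_num, by omega, by omega, by omega⟩

/-- Let n ≥ 11 and let G be a finite group with the same order and the same set of element orders as the alternating group of degree n. Then G has normal subgroups N < H such that H/N is a non-abelian simple group whose order is divisible by every prime p with n/2 < p ≤ n. -/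
theorem result {G : Type*} [Group G] [Finite G] (n : ℕ) (hn : 11 ≤ n)
    (hcard : Nat.card G = Nat.card ↥(alternatingGroup (Fin n)))
    (hspec : Set.range (orderOf : G → ℕ) = Set.range (orderOf : ↥(alternatingGroup (Fin n)) → ℕ)) :
    ∃ (N H : Subgroup G) (_ : N.Normal), H.Normal ∧ N < H ∧
      IsSimpleGroup (↥H ⧸ N.subgroupOf H) ∧ ¬ IsMulCommutative (↥H ⧸ N.subgroupOf H) ∧
      ∀ p : ℕ, p.Prime → n < 2 * p → p ≤ n → p ∣ Nat.card (↥H ⧸ N.subgroupOf H) := by
  obtain ⟨p, q, hp, hq, h1, h2, h3⟩ := two hn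
  have hpG := dvd_card (by omega) hcard hp (by omega) (by omega)
  obtain ⟨N, H, hN, hH, hlt, hpH, hpN, hs⟩ := H74.PQ.chief hp hpG (sq_not hn hcard hp h1)
  have hall : ∀ r : ℕ, r.Prime → n < 2 * r → r ≤ n → r ∣ Nat.card H ∧ ¬ r ∣ Nat.card N := by
    intro r hr r1 r2
    by_cases e : r = p
    · subst e; exact ⟨hpH, hpN⟩
    have hrG := dvd_card (by omega) hcard hr (by omega) r2
    constructor
    · by_contra hc
      obtain ⟨g, hg⟩ := H74.PQ.fr H hp hr (Ne.symm e) hpH hrG hc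
        (cond hn hcard hp hr h1 (by omega) r1)
      exact no_pq hspec hp hr (Ne.symm e) (by omega) g hg
    · intro hc
      obtain ⟨g, hg⟩ := H74.PQ.fr N hr hp e hc hpG hpN (cond hn hcard hr hp r1 r2 h1)
      exact no_pq hspec hr hp e (by omega) g hg
  refine ⟨N, H, hN, hH, hlt, hs, fun hc => ?_, fun r hr r1 r2 => ?_⟩
  · obtain ⟨a1, a2⟩ := hall q hq (by omega) h3
    obtain ⟨g, hg⟩ := H74.PQ.abel N H hp hq h2.ne hpH a1 hpN a2 (fun a ha b hb => by
      have := hc.is_comm.comm (QuotientGroup.mk (⟨b, hb⟩ : H)) (QuotientGroup.mk (⟨a, ha⟩ : H))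
      rw [← QuotientGroup.mk_mul, ← QuotientGroup.mk_mul, QuotientGroup.eq,
        Subgroup.mem_subgroupOf] at this
      simpa [mul_assoc] using this)
    exact no_pq hspec hp hq h2.ne (by omega) g hg
  · obtain ⟨a1, a2⟩ := hall r hr r1 r2
    rw [Subgroup.card_eq_card_quotient_mul_card_subgroup (N.subgroupOf H),
      Nat.card_congr (Subgroup.subgroupOfEquivOfLe hlt.le).toEquiv] at a1
    exact (hr.dvd_mul.1 a1).resolve_right a2

end Cfsg.Agent.S3420
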