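import Cfsg.Statements.S3419
import Cfsg.Agent.S3420

set_option autoImplicit false
open Cfsg

namespace Cfsg.Agent.S3419

theorem small {G : Type*} [Group G] {n p q k : ℕ} (hn : 5 ≤ n)
    (hcard : Nat.card G = Nat.card ↥(alternatingGroup (Fin n))) (hp : p.Prime)
    (h1 : n < p ^ 2) (h2 : n / p ≤ k) (h3 : ∀ i ≤ k, 1 ≤ i → ¬ p ^ i ≡ 1 [MOD q]) :
    ∀ i, 1 ≤ i → p ^ i ∣ Nat.card G → ¬ p ^ i ≡ 1 [MOD q] := by
  haveI : Nontrivial (Fin n) := Fin.nontrivial_iff_two_le.2 (by omega)
  intro i hi h
  have h2' : p ^ i ∣ n.factorial := by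
    have := two_mul_nat_card_alternatingGroup (α := Fin n)
    rw [Nat.card_perm, Nat.card_fin, ← hcard] at this
    rw [← this]
    exact h.mul_left 2
  exact h3 i ((H74.PQ.pow_dvd_factorial hp h1 h2').trans h2) hi

/-- Let n ≥ 5 and let G be a finite group with the same order and the same set of element orders as the alternating group of degree n. Then G is not solvable. -/
theorem result {G : Type*} [Group G] [Finite G] (n : ℕ) (hn : 5 ≤ n)
    (hcard : Nat.card G = Nat.card ↥(alternatingGroup (Fin n)))
    (hspec : Set.range (orderOf : G → ℕ) = Set.range (orderOf : ↥(alternatingGroup (Fin n)) → ℕ)) :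
    ¬ Group.IsSolvable G := by
  by_cases h11 : 11 ≤ n
  · obtain ⟨p, q, hp, hq, h1, h2, h3⟩ := S3420.two h11
    exact H74.PQ.not_solvable hp hq h2.ne (S3420.dvd_card hn hcard hp (by omega) (by omega))
      (S3420.dvd_card hn hcard hq (by omega) h3)
      (S3420.cond h11 hcard hp hq h1 (by omega) (by omega))
      (S3420.cond h11 hcard hq hp (by omega) h3 h1) (S3420.no_pq hspec hp hq h2.ne (by omega))
  by_cases h7 : 7 ≤ n
  · have hp : Nat.Prime 5 := by norm_num
    have hq : Nat.Prime 7 := by norm_num
    exact H74.PQ.not_solvable hp hq (by omega) (S3420.dvd_card hn hcard hp (by omega) (by omega))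
      (S3420.dvd_card hn hcard hq (by omega) h7)
      (small (k := 2) hn hcard hp (by omega) (by omega) (by decide))
      (small (k := 1) hn hcard hq (by omega) (by omega) (by decide))
      (S3420.no_pq hspec hp hq (by omega) (by omega))
  · have hp : Nat.Prime 3 := by norm_num
    have hq : Nat.Prime 5 := by norm_num
    exact H74.PQ.not_solvable hp hq (by omega) (S3420.dvd_card hn hcard hp (by omega) (by omega))
      (S3420.dvd_card hn hcard hq (by omega) hn)
      (small (k := 2) hn hcard hp (by omega) (by omega) (by decide))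
      (small (k := 1) hn hcard hq (by omega) (by omega) (by decide))
      (S3420.no_pq hspec hp hq (by omega) (by omega))

end Cfsg.Agent.S3419
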