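import Cfsg.Agent.Base
import Cfsg.Agent.H89.Prim
import Cfsg.Statements.S3704

set_option autoImplicit false
open Cfsg

namespace Cfsg.Agent.S3704

open MulAction Matrix

theorem inv_matrix {G Ω Q : Type*} [Group G] [MulAction G Ω] [MulAction G Q] [Fintype Q]
    (h2 : IsMultiplyPretransitive G Ω 2) {x₁ x₂ : Ω} (h12 : x₁ ≠ x₂) (A B : Matrix Ω Q ℚ)
    (hA : ∀ (g : G) x q, A (g • x) (g • q) = A x q) (hB : ∀ (g : G) x q, B (g • x) (g • q) = B x q) :
    (∀ x, (A * Bᵀ) x x = (A * Bᵀ) x₁ x₁) ∧ ∀ x y, x ≠ y → (A * Bᵀ) x y = (A * Bᵀ) x₁ x₂ := by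
  have key : ∀ (g : G) x y, (A * Bᵀ) (g • x) (g • y) = (A * Bᵀ) x y := fun g x y => by
    simp only [mul_apply, transpose_apply]
    rw [← Equiv.sum_comp (toPerm g)]
    simp only [toPerm_apply, hA, hB]
  rw [is_two_pretransitive_iff] at h2
  refine ⟨fun x => ?_, fun x y hxy => ?_⟩
  · by_cases hx : x = x₁
    · rw [hx]
    obtain ⟨g, hg, -⟩ := @h2 x₁ x x x₁ (Ne.symm hx) hx
    rw [← hg, key]
  · obtain ⟨g, rfl, rfl⟩ := @h2 x₁ x₂ x y h12 hxy
    rw [key]

theorem no_three {G Ω : Type*} [Group G] [Finite G] [MulAction G Ω] [Finite Ω]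
    (h2 : IsMultiplyPretransitive G Ω 2) (H : Subgroup G) (hidx : H.index = Nat.card Ω)
    {x₁ x₂ x₃ : Ω} (h12 : x₂ ∉ orbit H x₁) (h13 : x₃ ∉ orbit H x₁) (h21 : x₁ ∉ orbit H x₂)
    (h23 : x₃ ∉ orbit H x₂) : False := by
  classical
  have := Fintype.ofFinite Ω
  have := Fintype.ofFinite (G ⧸ H)
  let N : Ω → Matrix Ω (G ⧸ H) ℚ := fun z x q =>
    if ∃ g : G, (g : G ⧸ H) = q ∧ g⁻¹ • x ∈ orbit H z then 1 else 0
  have hN : ∀ z (g : G) x q, N z (g • x) (g • q) = N z x q := fun z g x q => by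
    refine if_congr ⟨?_, ?_⟩ rfl rfl
    · rintro ⟨k, hk, h⟩
      refine ⟨g⁻¹ * k, ?_, by rwa [_root_.mul_inv_rev, inv_inv, mul_smul]⟩
      rw [← inv_smul_smul g q, ← hk]
      rfl
    · rintro ⟨k, rfl, h⟩
      exact ⟨g * k, rfl, by rwa [_root_.mul_inv_rev, mul_smul, inv_smul_smul]⟩
  have hN1 : ∀ z x, N z x ((1 : G) : G ⧸ H) = if x ∈ orbit H z then 1 else 0 := fun z x => by
    refine if_congr ⟨?_, fun h => ⟨1, rfl, by simpa using h⟩⟩ rfl rfl
    rintro ⟨k, hk, h⟩
    rw [QuotientGroup.eq, mul_one, inv_mem_iff] at hk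
    have := mem_orbit_of_mem_orbit (⟨k, hk⟩ : H) h
    rwa [Subgroup.mk_smul, smul_inv_smul] at this
  have h01 : ∀ z x q, N z x q = 0 ∨ N z x q = 1 := fun z x q => by
    simp only [N]
    split_ifs <;> simp
  have hne : x₁ ≠ x₃ := fun h => h13 (h ▸ mem_orbit_self _)
  let J : Matrix Ω (G ⧸ H) ℚ := fun _ _ => 1
  obtain ⟨hd1, ho1⟩ := inv_matrix h2 hne (N x₁) (N x₁) (hN x₁) (hN x₁)
  obtain ⟨hd2, ho2⟩ := inv_matrix h2 hne (N x₂) (N x₁) (hN x₂) (hN x₁)
  set d₁ := (N x₁ * (N x₁)ᵀ) x₁ x₁ with hd₁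
  set o₁ := (N x₁ * (N x₁)ᵀ) x₁ x₃ with ho₁
  set d₂ := (N x₂ * (N x₁)ᵀ) x₁ x₁
  set o₂ := (N x₂ * (N x₁)ᵀ) x₁ x₃
  have hJ : ∀ x y, (J * (N x₁)ᵀ) x y = d₁ := fun x y => by
    rw [← hd1 y]
    simp only [mul_apply, transpose_apply, J]
    refine Finset.sum_congr rfl fun q _ => ?_
    rcases h01 x₁ y q with h | h <;> simp [h]
  have ho0 : 0 ≤ o₁ := by
    rw [ho₁, mul_apply]
    refine Finset.sum_nonneg fun q _ => ?_
    rw [transpose_apply]
    rcases h01 x₁ x₁ q with h | h <;> rcases h01 x₁ x₃ q with h' | h' <;> simp [h, h']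
  have hlt : o₁ < d₁ := by
    rw [ho₁, hd₁, mul_apply, mul_apply]
    refine Finset.sum_lt_sum (fun q _ => ?_) ⟨((1 : G) : G ⧸ H), Finset.mem_univ _, ?_⟩
    · rw [transpose_apply, transpose_apply]
      rcases h01 x₁ x₁ q with h | h <;> rcases h01 x₁ x₃ q with h' | h' <;> simp [h, h']
    · simp [transpose_apply, hN1, h13]
  have hinj : Function.Injective (N x₁)ᵀ.mulVecLin := by
    rw [injective_iff_map_eq_zero]
    intro v hv
    have h1 : ∀ x, (d₁ - o₁) * v x + o₁ * ∑ y, v y = 0 := fun x => by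
      have : ((N x₁ * (N x₁)ᵀ) *ᵥ v) x = 0 := by
        rw [← mulVec_mulVec, show (N x₁)ᵀ *ᵥ v = 0 from hv, mulVec_zero, Pi.zero_apply]
      have h5 : ∑ y ∈ Finset.univ.erase x, (N x₁ * (N x₁)ᵀ) x y * v y =
          ∑ y ∈ Finset.univ.erase x, o₁ * v y :=
        Finset.sum_congr rfl fun y hy => by rw [ho1 x y (Finset.ne_of_mem_erase hy).symm]
      rw [← this, mulVec, dotProduct, Finset.mul_sum, ← Finset.add_sum_erase _ _ (Finset.mem_univ x),
        ← Finset.add_sum_erase _ _ (Finset.mem_univ x), hd1, h5]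
      ring
    have h3 : ∑ y, v y = 0 := by
      have := Finset.sum_congr (s₁ := Finset.univ) rfl fun x _ => h1 x
      rw [Finset.sum_add_distrib, ← Finset.mul_sum, Finset.sum_const, Finset.sum_const_zero,
        nsmul_eq_mul, ← mul_assoc, ← add_mul, mul_eq_zero] at this
      refine this.resolve_left (ne_of_gt ?_)
      have : 0 ≤ ((Finset.univ : Finset Ω).card : ℚ) * o₁ := by positivity
      linarith
    ext x
    have := h1 x
    rw [h3, mul_zero, add_zero, mul_eq_zero] at this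
    exact this.resolve_left (by linarith)
  have hsurj := (LinearMap.injective_iff_surjective_of_finrank_eq_finrank (by
    rw [Module.finrank_fintype_fun_eq_card, Module.finrank_fintype_fun_eq_card,
      ← Nat.card_eq_fintype_card, ← Nat.card_eq_fintype_card, ← hidx]; rfl)).1 hinj
  set l := (d₂ - o₂) / (d₁ - o₁) with hl
  set c := (o₂ - l * o₁) / d₁ with hc
  have hd0 : d₁ ≠ 0 := by linarith
  have hdo : d₁ - o₁ ≠ 0 := by linarith
  have hM : (N x₂ - l • N x₁ - c • J) * (N x₁)ᵀ = 0 := by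
    ext x y
    rw [Matrix.sub_mul, Matrix.sub_mul, Matrix.smul_mul, Matrix.smul_mul, Matrix.sub_apply, Matrix.sub_apply,
      Matrix.smul_apply, Matrix.smul_apply, hJ, Matrix.zero_apply, smul_eq_mul, smul_eq_mul, hc, div_mul_cancel₀ _ hd0]
    by_cases hxy : x = y
    · rw [hxy, hd1, hd2, hl]
      field_simp
      ring
    · rw [ho1 x y hxy, ho2 x y hxy]
      ring
  obtain ⟨v, hv⟩ := hsurj (Pi.single ((1 : G) : G ⧸ H) 1)
  have h0 : ∀ x, N x₂ x ((1 : G) : G ⧸ H) - l * N x₁ x ((1 : G) : G ⧸ H) - c = 0 := fun x => by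
    have : (((N x₂ - l • N x₁ - c • J) * (N x₁)ᵀ) *ᵥ v) x = 0 := by rw [hM]; simp
    rw [← mulVec_mulVec, show (N x₁)ᵀ *ᵥ v = _ from hv, mulVec_single_one] at this
    rw [← mul_one c]
    exact this
  have e2 := h0 x₂
  have e3 := h0 x₃
  simp [hN1, h12, h13, h23] at e2 e3
  linarith

/-- Let G be a finite group acting faithfully and 2-transitively on a finite set Ω of size n, and let H be a subgroup of index n in G which is not transitive on Ω and fixes no point of Ω. Then H has exactly two orbits on Ω. -/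
theorem result {G Ω : Type*} [Group G] [Finite G] [MulAction G Ω] [FaithfulSMul G Ω] [Finite Ω] (h2 : MulAction.IsMultiplyPretransitive G Ω 2) (H : Subgroup G) (hidx : H.index = Nat.card Ω) (hnt : ¬ MulAction.IsPretransitive H Ω) (hfix : ∀ a : Ω, ∃ h : H, h • a ≠ a) : Nat.card (MulAction.orbitRel.Quotient H Ω) = 2 := by
  have h1 : Nontrivial (orbitRel.Quotient H Ω) := by
    by_contra h
    rw [not_nontrivial_iff_subsingleton] at h
    exact hnt ((pretransitive_iff_subsingleton_quotient H Ω).2 h)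
  have h3 := Finite.one_lt_card_iff_nontrivial.2 h1
  by_contra h4
  have := Fintype.ofFinite (orbitRel.Quotient H Ω)
  rw [Nat.card_eq_fintype_card] at h3 h4
  obtain ⟨a, b, c, hab, hac, hbc⟩ := Fintype.two_lt_card_iff.1
    (show 2 < Fintype.card (orbitRel.Quotient H Ω) by omega)
  induction a using Quotient.inductionOn'
  induction b using Quotient.inductionOn'
  induction c using Quotient.inductionOn'
  exact no_three h2 H hidx (fun h => hab (Quotient.sound' h).symm)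
    (fun h => hac (Quotient.sound' h).symm) (fun h => hab (Quotient.sound' h))
    (fun h => hbc (Quotient.sound' h).symm)

end Cfsg.Agent.S3704
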