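import Cfsg.Agent.Base
import Cfsg.Statements.S3733

set_option autoImplicit false
open Cfsg

namespace Cfsg.Agent.S3733

/-- Let A and V be subgroups of a finite group with V abelian and nontrivial and A normalizing V. Suppose a nonempty finite family of proper subgroups of A partitions A: every non-identity element of A lies in exactly one member. If the number of members minus one is coprime to the order of V, then some member B of the family has a non-identity fixed point on V, that is V ∩ C(B) ≠ 1. -/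
theorem result {G : Type*} [Group G] [Finite G] (A V : Subgroup G) (hVab : IsMulCommutative V) (hV : V ≠ ⊥) (hAV : A ≤ Subgroup.normalizer (V : Set G)) (𝒜 : Finset (Subgroup G)) (hne : 𝒜.Nonempty) (hprop : ∀ B ∈ 𝒜, B < A) (hpart : ∀ a ∈ A, a ≠ 1 → ∃! B, B ∈ 𝒜 ∧ a ∈ B) (hk : (𝒜.card - 1).Coprime (Nat.card V)) : ∃ B ∈ 𝒜, V ⊓ Subgroup.centralizer (B : Set G) ≠ ⊥ := by
  classical
  by_contra hcon
  push Not at hcon
  let _ : CommGroup V := { (inferInstance : Group V) with mul_comm := hVab.is_comm.comm }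
  have := Fintype.ofFinite A
  let φ : A →* MulAut V := V.normalizerMonoidHom.comp (Subgroup.inclusion hAV)
  have key : ∀ (v : V) (C : Subgroup G) (B : Subgroup G), B ∈ 𝒜 → B ≤ C →
      ∏ a ∈ Finset.univ.filter (fun a : A => (a : G) ∈ C), φ a v = 1 := by
    intro v C B hB hBC
    apply Subtype.ext
    change _ = (1 : G)
    rw [← Subgroup.mem_bot, ← hcon B hB]
    refine ⟨Subtype.prop _, fun b hb => ?_⟩
    let b' : A := ⟨b, (hprop B hB).le hb⟩
    have h1 : φ b' (∏ a ∈ Finset.univ.filter (fun a : A => (a : G) ∈ C), φ a v) = ∏ a ∈ Finset.univ.filter (fun a : A => (a : G) ∈ C), φ a v := by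
      rw [map_prod]
      refine Finset.prod_equiv (Equiv.mulLeft b') (fun a => ?_) fun a _ => ?_
      · simp only [Finset.mem_filter, Finset.mem_univ, true_and]
        exact (C.mul_mem_cancel_left (hBC hb)).symm
      · rw [Equiv.coe_mulLeft, map_mul, MulAut.mul_apply]
    exact mul_inv_eq_iff_eq_mul.1 (congrArg Subtype.val h1)
  obtain ⟨B₀, hB₀⟩ := hne
  apply hV
  rw [eq_bot_iff]
  intro v hv
  have h1 : ∏ B ∈ 𝒜, ∏ a ∈ Finset.univ.filter (fun a : A => (a : G) ∈ B), φ a ⟨v, hv⟩ = 1 :=
    Finset.prod_eq_one fun B hB => key _ B B hB le_rfl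
  have h2 := key ⟨v, hv⟩ ⊤ B₀ hB₀ le_top
  simp only [Subgroup.mem_top, Finset.filter_true] at h2
  simp only [Finset.prod_filter] at h1
  rw [Finset.prod_comm, ← Finset.mul_prod_erase _ _ (Finset.mem_univ (1 : A))] at h1
  rw [← Finset.mul_prod_erase _ _ (Finset.mem_univ (1 : A))] at h2
  have h3 : ∀ a ∈ Finset.univ.erase (1 : A),
      (∏ B ∈ 𝒜, if (a : G) ∈ B then φ a ⟨v, hv⟩ else 1) = φ a ⟨v, hv⟩ := by
    intro a ha
    obtain ⟨B, ⟨hB, haB⟩, hu⟩ := hpart a a.2 fun e => (Finset.mem_erase.1 ha).1 (Subtype.ext e)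
    rw [Finset.prod_eq_single_of_mem B hB fun C hC hne => if_neg fun h => hne (hu C ⟨hC, h⟩),
      if_pos haB]
  rw [Finset.prod_congr rfl h3] at h1
  simp only [OneMemClass.coe_one, one_mem, if_true, Finset.prod_const, map_one,
    MulAut.one_apply] at h1 h2
  rw [← Nat.sub_add_cancel (Finset.card_pos.2 ⟨B₀, hB₀⟩), pow_succ, mul_assoc, h2, mul_one] at h1
  have h4 : (⟨v, hv⟩ : V) = 1 := by
    rw [← orderOf_eq_one_iff]
    exact (Nat.coprime_self _).1 (((hk.coprime_dvd_left
      (orderOf_dvd_of_pow_eq_one h1))).coprime_dvd_right (orderOf_dvd_natCard _))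
  exact congrArg Subtype.val h4

end Cfsg.Agent.S3733
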