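import Cfsg.Statements.S3734
import Cfsg.Agent.Base
import Cfsg.Agent.H1.CoprimeGen
import Cfsg.Agent.H22.HHSub

set_option autoImplicit false
open Cfsg

namespace Cfsg.Agent.S3734

/-- Let A and G be subgroups of a finite group with A abelian, A normalizing G and the orders of A and G coprime. Then G is generated by the fixed-point subgroups C_G(B) of those subgroups B of A for which A/B is cyclic (that is, A = ⟨B, a⟩ for some a), and [G, A] is generated by the commutator subgroups [C_G(B), A] over the same subgroups B. -/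
theorem result {X : Type*} [Group X] [Finite X] (A G : Subgroup X) (hAab : IsMulCommutative A) (hAG : A ≤ Subgroup.normalizer (G : Set X)) (hcop : (Nat.card A).Coprime (Nat.card G)) : (⨆ B ∈ {B : Subgroup X | B ≤ A ∧ ∃ a ∈ A, B ⊔ Subgroup.zpowers a = A}, G ⊓ Subgroup.centralizer (B : Set X)) = G ∧ (⨆ B ∈ {B : Subgroup X | B ≤ A ∧ ∃ a ∈ A, B ⊔ Subgroup.zpowers a = A}, ⁅G ⊓ Subgroup.centralizer (B : Set X), A⁆) = ⁅G, A⁆ := by
  have hsolv : Group.IsSolvable A := H1.isSolvable_of_isMulCommutative _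
  have key : ∀ L : Subgroup X, (∀ B : Subgroup X, B ≤ A → (∃ a ∈ A, B ⊔ Subgroup.zpowers a = A) →
      G ⊓ Subgroup.centralizer (B : Set X) ≤ L) → G ≤ L := by
    intro L hL
    refine H1.le_of_cocyclic_centralizer_le hAG hcop L fun Y hY hc => hL Y hY ?_
    obtain ⟨g, hg⟩ := hc.exists_generator
    obtain ⟨a, rfl⟩ := QuotientGroup.mk_surjective g
    refine ⟨a, a.2, le_antisymm (sup_le hY (Subgroup.zpowers_le.2 a.2)) fun b hb => ?_⟩
    obtain ⟨k, hk⟩ := hg (QuotientGroup.mk ⟨b, hb⟩)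
    have h1 : (a ^ k)⁻¹ * ⟨b, hb⟩ ∈ Y.subgroupOf A := QuotientGroup.eq.1 hk
    have h2 : b = (a : X) ^ k * (((a : X) ^ k)⁻¹ * b) := by group
    rw [h2]
    exact mul_mem (Subgroup.mem_sup_right (Subgroup.zpow_mem_zpowers _ k))
      (Subgroup.mem_sup_left h1)
  refine ⟨le_antisymm (iSup₂_le fun B _ => inf_le_left) (key _ fun B h1 h2 =>
    le_iSup₂_of_le (f := fun B (_ : B ∈ {B : Subgroup X | B ≤ A ∧ ∃ a ∈ A,
      B ⊔ Subgroup.zpowers a = A}) => G ⊓ Subgroup.centralizer (B : Set X)) B ⟨h1, h2⟩ le_rfl),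
    le_antisymm (iSup₂_le fun B _ => Subgroup.commutator_mono inf_le_left le_rfl) ?_⟩
  set L := ⨆ B ∈ {B : Subgroup X | B ≤ A ∧ ∃ a ∈ A, B ⊔ Subgroup.zpowers a = A},
    ⁅G ⊓ Subgroup.centralizer (B : Set X), A⁆ with hL
  have hle : ∀ B : Subgroup X, B ≤ A → (∃ a ∈ A, B ⊔ Subgroup.zpowers a = A) →
      ⁅G ⊓ Subgroup.centralizer (B : Set X), A⁆ ≤ L := fun B h1 h2 =>
    le_iSup₂_of_le (f := fun B (_ : B ∈ {B : Subgroup X | B ≤ A ∧ ∃ a ∈ A,
      B ⊔ Subgroup.zpowers a = A}) => ⁅G ⊓ Subgroup.centralizer (B : Set X), A⁆) B ⟨h1, h2⟩ le_rfl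
  have hCL : G ⊓ Subgroup.centralizer (A : Set X) ≤ Subgroup.normalizer (L : Set X) := by
    refine H1.le_normalizer_of_conj_mem fun c hc x hx => ?_
    have : L ≤ L.comap (MulAut.conj c).toMonoidHom := by
      refine iSup₂_le fun B hB y hy => hle B hB.1 hB.2 ?_
      exact H1.conj_mem_of_le_normalizer (H1.le_normalizer_commutator_left _ A)
        ⟨hc.1, Subgroup.centralizer_le hB.1 hc.2⟩ hy
    exact this hx
  have hGL : G ≤ Subgroup.normalizer (L : Set X) := by
    refine key _ fun B h1 h2 => ?_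
    have hAB : A ≤ Subgroup.normalizer ((G ⊓ Subgroup.centralizer (B : Set X) : Subgroup X) : Set X) :=
      H1.le_normalizer_inf hAG (H1.le_normalizer_centralizer (le_trans (Subgroup.le_centralizer A)
        ((Subgroup.centralizer_le h1).trans (Subgroup.centralizer_le_normalizer _))))
    rw [← H1.commutator_sup_centralizer hAB
      (hcop.coprime_dvd_right (Subgroup.card_dvd_of_le inf_le_left)) (Or.inl hsolv)]
    exact sup_le ((hle B h1 h2).trans Subgroup.le_normalizer)
      ((inf_le_inf_right _ inf_le_left).trans hCL)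
  have hD : G ≤ H22.commInto A L := key _ fun B h1 h2 t ht => ⟨hGL ht.1, fun a ha => by
    rw [← Subgroup.inv_mem_iff, commutatorElement_inv]
    exact hle B h1 h2 (Subgroup.commutator_mem_commutator ht ha)⟩
  rw [Subgroup.commutator_comm, Subgroup.commutator_le]
  exact fun a ha t ht => (hD ht).2 a ha

end Cfsg.Agent.S3734
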