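import Cfsg.Statements.S3735
import Cfsg.Agent.H98.Basic

set_option autoImplicit false
open Cfsg

namespace Cfsg.Agent.S3735

/-- Clifford's Theorem for actions on finite abelian groups, first part. Let H and V be subgroups of a finite group with V abelian and H normalizing V, and let A be a normal subgroup of H. If every H-invariant subgroup of V has an H-invariant complement in V, then every A-invariant subgroup of V has an A-invariant complement in V. -/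
theorem result {G : Type*} [Group G] [Finite G] (H A V : Subgroup G) (hVab : IsMulCommutative V) (hHV : H ≤ Subgroup.normalizer (V : Set G)) (hAH : A ≤ H) (hAn : H ≤ Subgroup.normalizer (A : Set G)) (hss : ∀ U : Subgroup G, U ≤ V → H ≤ Subgroup.normalizer (U : Set G) → ∃ W : Subgroup G, W ≤ V ∧ H ≤ Subgroup.normalizer (W : Set G) ∧ U ⊓ W = ⊥ ∧ U ⊔ W = V) (U : Subgroup G) (hUV : U ≤ V) (hAU : A ≤ Subgroup.normalizer (U : Set G)) : ∃ W : Subgroup G, W ≤ V ∧ A ≤ Subgroup.normalizer (W : Set G) ∧ U ⊓ W = ⊥ ∧ U ⊔ W = V := by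
  open H98 in
  have hcomm : ∀ X ≤ V, ∀ Y ≤ V, X ≤ Subgroup.normalizer (Y : Set G) := by
    intro X hX Y hY
    apply le_normalizer_of_le_centralizer
    intro x hx
    rw [Subgroup.mem_centralizer_iff]
    intro y hy
    exact congrArg Subtype.val (hVab.is_comm.comm (⟨y, hY hy⟩ : V) ⟨x, hX hx⟩)
  let Mi : Subgroup G → Prop := fun X => X ≤ V ∧ A ≤ Subgroup.normalizer (X : Set G) ∧ X ≠ ⊥ ∧
    ∀ Y ≤ X, A ≤ Subgroup.normalizer (Y : Set G) → Y ≠ ⊥ → Y = X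
  have hex : ∀ W ≤ V, A ≤ Subgroup.normalizer (W : Set G) → W ≠ ⊥ → ∃ X ≤ W, Mi X := by
    intro W hW hAW hW0
    obtain ⟨X, ⟨h1, h2, h3⟩, hmin⟩ := WellFounded.has_min (wellFounded_lt (α := Subgroup G))
      {X | X ≤ W ∧ A ≤ Subgroup.normalizer (X : Set G) ∧ X ≠ ⊥} ⟨W, le_rfl, hAW, hW0⟩
    refine ⟨X, h1, h1.trans hW, h2, h3, fun Y hY hAY hY0 => ?_⟩
    by_contra e
    exact hmin Y ⟨hY.trans h1, hAY, hY0⟩ (lt_of_le_of_ne hY e)
  have hnorm : ∀ h ∈ H, ∀ X : Subgroup G, A ≤ Subgroup.normalizer (X : Set G) →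
      A ≤ Subgroup.normalizer (H98.cj h X : Set G) := by
    intro h hh X hX
    rw [← H98.cj_normalizer, ← H98.cj_eq_self (hAn hh)]
    exact H98.cj_mono h hX
  have hcj : ∀ h ∈ H, ∀ X, Mi X → Mi (H98.cj h X) := by
    rintro h hh X ⟨h1, h2, h3, h4⟩
    refine ⟨H98.cj_le_of_le h1 (hHV hh), hnorm h hh X h2, fun e => h3 (H98.cj_eq_bot_iff.1 e),
      fun Y hY hAY hY0 => ?_⟩
    rw [← h4 (H98.cj h⁻¹ Y) (H98.le_cj_iff.1 hY) (hnorm _ (inv_mem hh) Y hAY)
      (fun e => hY0 (H98.cj_eq_bot_iff.1 e)), H98.cj_cj_inv]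
  set S : Subgroup G := ⨆ X : {X // Mi X}, X.1 with hS
  have hle : ∀ X, Mi X → X ≤ S := fun X hX => le_iSup (fun X : {X // Mi X} => X.1) ⟨X, hX⟩
  have hSV : S ≤ V := iSup_le fun X => X.2.1
  have hHS : H ≤ Subgroup.normalizer (S : Set G) := by
    intro h hh
    apply H98.mem_normalizer_of_cj_le
    rw [H98.cj_le_iff]
    refine iSup_le fun X => ?_
    rw [← H98.cj_le_iff]
    exact hle _ (hcj h hh X X.2)
  have hSeq : S = V := by
    obtain ⟨W, h1, h2, h3, h4⟩ := hss S hSV hHS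
    by_cases hW : W = ⊥
    · rw [← h4, hW, sup_bot_eq]
    · obtain ⟨X, hX, hMi⟩ := hex W h1 (hAH.trans h2) hW
      exact absurd (le_bot_iff.1 (h3 ▸ le_inf (hle X hMi) hX)) hMi.2.2.1
  obtain ⟨W, ⟨h1, h2, h3⟩, hmax⟩ := WellFounded.has_min (wellFounded_gt (α := Subgroup G))
    {W | W ≤ V ∧ A ≤ Subgroup.normalizer (W : Set G) ∧ U ⊓ W = ⊥}
    ⟨⊥, bot_le, H98.le_normalizer_bot A, inf_bot_eq U⟩
  refine ⟨W, h1, h2, h3, le_antisymm (sup_le hUV h1) ?_⟩
  rw [← hSeq]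
  refine iSup_le fun ⟨X, x1, x2, x3, x4⟩ => ?_
  by_contra hX
  have hd : X ⊓ (U ⊔ W) = ⊥ := by
    by_contra e
    exact hX ((x4 _ inf_le_left (H98.le_normalizer_inf x2 (H98.le_normalizer_sup hAU h2)) e).ge.trans
      inf_le_right)
  refine hmax (W ⊔ X) ⟨sup_le h1 x1, H98.le_normalizer_sup h2 x2, ?_⟩
    (lt_of_le_of_ne le_sup_left fun e => hX ((le_sup_right.trans e.ge).trans le_sup_right))
  rw [eq_bot_iff]
  rintro u ⟨hu, hu'⟩
  obtain ⟨w, hw, x, hx, rfl⟩ := (H98.mem_sup_right_norm (hcomm X x1 W h1)).1 hu'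
  have hx1 : x ∈ X ⊓ (U ⊔ W) := by
    refine Subgroup.mem_inf.2 ⟨hx, ?_⟩
    have := mul_mem (inv_mem (Subgroup.mem_sup_right (S := U) hw))
      (Subgroup.mem_sup_left (T := W) hu)
    simpa using this
  rw [hd, Subgroup.mem_bot] at hx1
  subst hx1
  rw [← h3]
  exact Subgroup.mem_inf.2 ⟨hu, by simpa using hw⟩

end Cfsg.Agent.S3735
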