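import Cfsg.Statements.S3738
import Cfsg.Agent.H9.Nine2

set_option autoImplicit false
open Cfsg

namespace Cfsg.Agent.S3738

/-- Let d be a non-identity 3-element of a finite group and P a 2-subgroup normalized by d on which ⟨d⟩ acts faithfully (no non-identity power of d centralizes P) and without non-identity fixed points (C_P(d) = 1). If every abelian subgroup of P has 2-rank at most 2, then d has order 3. -/
theorem result {X : Type*} [Group X] [Finite X] (d : X) (n : ℕ) (hn : 1 ≤ n) (hd : orderOf d = 3 ^ n) (P : Subgroup X) (hP : IsPGroup 2 P) (hdP : d ∈ Subgroup.normalizer (P : Set X)) (hfaith : Subgroup.zpowers d ⊓ Subgroup.centralizer (P : Set X) = ⊥) (hfpf : P ⊓ Subgroup.centralizer {d} = ⊥) (hrank : ∀ V : Subgroup X, V ≤ P → IsMulCommutative V → Cfsg.PRankLE 2 2 V) : orderOf d = 3 := by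
  have h3 := H9.Nine.cube_cen hP (fun A hA hE => by
    have := hrank A hA hE.1 ⊤ (by haveI := hE.1; infer_instance) (fun a _ => Subtype.ext (hE.2 a a.2))
    rwa [Subgroup.card_top] at this) hdP (n := n) (by rw [← hd]; exact pow_orderOf_eq_one d)
  have h1 : d ^ 3 = 1 := by
    have : d ^ 3 ∈ Subgroup.zpowers d ⊓ Subgroup.centralizer (P : Set X) :=
      ⟨Subgroup.pow_mem _ (Subgroup.mem_zpowers d) 3, h3⟩
    rwa [hfaith, Subgroup.mem_bot] at this
  haveI : Fact (Nat.Prime 3) := ⟨Nat.prime_three⟩
  refine orderOf_eq_prime h1 fun e => ?_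
  rw [e, orderOf_one] at hd
  have : 3 ^ 1 ≤ 3 ^ n := Nat.pow_le_pow_right (by norm_num) hn
  omega

end Cfsg.Agent.S3738
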