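import Cfsg.Statements.S3741
import Cfsg.Agent.Base
import Cfsg.Agent.H3.Pairing
import Cfsg.Agent.H1.Coprime

set_option autoImplicit false
open Cfsg

namespace Cfsg.Agent.S3741

/-- Let A and B be subgroups of a finite p-group with [A, B] ≤ A ∩ B and [A, B] of order at most p. Then |A : C_A(B)| = |B : C_B(A)|. -/
theorem result {G : Type*} [Group G] [Finite G] {p : ℕ} [Fact p.Prime] (hG : IsPGroup p G) (A B : Subgroup G) (hAB : ⁅A, B⁆ ≤ A ⊓ B) (hcard : Nat.card ↥⁅A, B⁆ ≤ p) : (A ⊓ Subgroup.centralizer (B : Set G)).relIndex A = (B ⊓ Subgroup.centralizer (A : Set G)).relIndex B := by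
  have hp : p.Prime := Fact.out
  rw [Subgroup.inf_relIndex_left, Subgroup.inf_relIndex_left]
  refine H3.relIndex_centralizer_eq_of_isCyclic (Z := ⁅A, B⁆) ?_ le_rfl
    (H3.le_centralizer_of_card_le hG hcard (H1.le_normalizer_commutator_left A B))
    (H3.le_centralizer_of_card_le hG hcard (H1.le_normalizer_commutator_right A B))
  obtain ⟨n, hn⟩ := IsPGroup.iff_card.mp (hG.to_subgroup ⁅A, B⁆)
  refine isCyclic_of_card_dvd_prime (p := p) ?_
  rw [hn] at hcard ⊢
  nth_rewrite 2 [← pow_one p] at hcard ⊢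
  exact pow_dvd_pow p ((Nat.pow_le_pow_iff_right hp.one_lt).mp hcard)

end Cfsg.Agent.S3741
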