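import Cfsg.Statements.S3746
import Cfsg.Agent.H14.FStar
import Cfsg.Agent.H98.Basic

set_option autoImplicit false
open Cfsg

namespace Cfsg.Agent.S3746

/-- Let Z ≤ Z(G) be a central subgroup of a finite group G and E a subgroup of G containing Z whose image E/Z is a component of G/Z (subnormal and quasisimple). Then the derived subgroup [E, E] is a component of G. -/
theorem result {G : Type*} [Group G] [Finite G] (Z : Subgroup G) (hZ : Z ≤ Subgroup.center G) [Z.Normal] (E : Subgroup G) (hZE : Z ≤ E) (hE : Cfsg.IsComponent (E.map (QuotientGroup.mk' Z))) : Cfsg.IsComponent ⁅E, E⁆ := by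
  open Subgroup H14 in
  have hk : (QuotientGroup.mk' Z).ker = Z := QuotientGroup.ker_mk' Z
  have h1 : ⁅E, E⁆.map (QuotientGroup.mk' Z) = E.map (QuotientGroup.mk' Z) := by
    rw [map_commutator, comp_perfect hE]
  have h2 : E ≤ ⁅E, E⁆ ⊔ Z := by
    have := Subgroup.map_le_map_iff.mp h1.ge
    rwa [hk] at this
  have hc : ∀ A : Subgroup G, ⁅Z, A⁆ = ⊥ := fun A => commutator_eq_bot_iff_comm.mpr
    fun z hz a _ => (mem_center_iff.mp (hZ hz) a).symm
  have h3 : ⁅⁅E, E⁆, ⁅E, E⁆⁆ = ⁅E, E⁆ := by
    refine le_antisymm (H98.commutator_le_of_le le_rfl le_rfl) ((commutator_mono h2 h2).trans ?_)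
    have hn : ∀ A : Subgroup G, A ≤ E → A ≤ normalizer ((⁅⁅E, E⁆, ⁅E, E⁆⁆ : Subgroup G) : Set G) :=
      fun A hA => hA.trans (H98.le_normalizer_commutator
        (H98.le_normalizer_commutator le_normalizer le_normalizer)
        (H98.le_normalizer_commutator le_normalizer le_normalizer))
    have hEE : ⁅E, E⁆ ≤ E := H98.commutator_le_of_le le_rfl le_rfl
    refine H98.commutator_sup_left_le (hn _ hEE) (hn _ hZE) ?_ (by rw [hc]; exact bot_le)
    exact H98.commutator_sup_right_le (hn _ hEE) (hn _ hZE) le_rfl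
      (by rw [commutator_comm, hc]; exact bot_le)
  refine ⟨subnormal_of_le_normalizer (S := E) ?_ (H98.commutator_le_of_le le_rfl le_rfl)
    (H98.le_normalizer_commutator le_normalizer le_normalizer), ?_⟩
  · have := (comp_subnormal hE).comap (QuotientGroup.mk' Z)
    rwa [comap_map_eq, hk, sup_eq_left.mpr hZE] at this
  · refine quasi_of_map (QuotientGroup.mk' Z) h3 ?_ (h1 ▸ comp_quasi hE)
    rw [hk]
    exact commutator_eq_bot_mono (hc _) inf_le_left le_rfl

end Cfsg.Agent.S3746
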