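import Cfsg.Statements.S3747
import Cfsg.Agent.H14.FStar
import Cfsg.Agent.H98.Norm

set_option autoImplicit false
open Cfsg

namespace Cfsg.Agent.S3747

/-- Let G be a finite group. (a) If K is a component of G with trivial centre, then the normal closure of K in G is a minimal normal subgroup of G. (b) If the Fitting subgroup of G is trivial, then the layer E(G) is generated by the minimal normal subgroups of G. -/
theorem result {G : Type*} [Group G] [Finite G] : (∀ K : Subgroup G, Cfsg.IsComponent K → Subgroup.center ↥K = ⊥ → (Subgroup.normalClosure (K : Set G) ≠ ⊥ ∧ ∀ N : Subgroup G, N.Normal → N ≤ Subgroup.normalClosure (K : Set G) → N = ⊥ ∨ N = Subgroup.normalClosure (K : Set G))) ∧ (Cfsg.fittingSubgroup G = ⊥ → sSup {N : Subgroup G | N ≠ ⊥ ∧ N.Normal ∧ ∀ N' : Subgroup G, N'.Normal → N' ≤ N → N' = ⊥ ∨ N' = N} = Cfsg.layer G) := by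
  open Subgroup H14 in
  have key : ∀ K : Subgroup G, IsComponent K → center K = ⊥ → ∀ N : Subgroup G, N.Normal →
      N ≤ normalClosure (K : Set G) → N = ⊥ ∨ N = normalClosure (K : Set G) := by
    intro K hK hZ N hN hle
    rcases comp_le_or_of_normal hK N with h | h
    · exact Or.inr (le_antisymm hle (normalClosure_le_normal h))
    left
    have h1 : normalClosure (K : Set G) ≤ centralizer (N : Set G) :=
      normalClosure_le_normal (commutator_eq_bot_iff_le_centralizer.mp h)
    have h2 : normalClosure (K : Set G) = sSup (Set.range fun g : G => H98.cj g K) := by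
      rw [← H98.ncl_top, sSup_range]
      exact le_antisymm (H98.ncl_le_iff.mpr fun g _ => le_iSup (fun g : G => H98.cj g K) g)
        (iSup_le fun g => H98.cj_le_ncl trivial)
    have h3 := sSup_comp_center_le (S := Set.range fun g : G => H98.cj g K) (Set.toFinite _)
      (by rintro _ ⟨g, rfl⟩; exact comp_map_conj hK g)
    rw [← h2] at h3
    rw [eq_bot_iff]
    refine (le_inf hle (le_centralizer_iff.mp h1)).trans (h3.trans (iSup₂_le ?_))
    rintro _ ⟨g, rfl⟩
    rw [← H98.cj_centralizer, ← H98.cj_inf, ← map_center_subtype, hZ, Subgroup.map_bot, H98.cj_bot]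
  have hne : ∀ K : Subgroup G, IsComponent K → normalClosure (K : Set G) ≠ ⊥ := fun K hK h =>
    comp_ne_bot hK (le_bot_iff.mp (h ▸ le_normalClosure))
  refine ⟨fun K hK hZ => ⟨hne K hK, key K hK hZ⟩, fun hF => le_antisymm (sSup_le ?_) ?_⟩
  · rintro N ⟨h1, h2, h3⟩
    by_cases h4 : ∃ K, IsComponent K ∧ K ≤ N
    · obtain ⟨K, hK, h5⟩ := h4
      rw [← (h3 _ inferInstance (normalClosure_le_normal h5)).resolve_left (hne K hK)]
      exact normalClosure_le_normal (comp_le_layer hK)
    · push Not at h4
      have h5 := layer_commutator_eq_bot (H := N) fun L hL =>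
        (comp_le_or_of_normal hL N).resolve_left (h4 L hL)
      have h6 := le_fitting_of_commutator_fstar (commutator_eq_bot_symm h5)
        (by rw [hF, commutator_bot_right])
      exact absurd (le_bot_iff.mp (hF ▸ h6)) h1
  · refine layer_le fun K hK => le_normalClosure.trans (le_sSup ⟨hne K hK, inferInstance, key K hK ?_⟩)
    have := comp_center_le_fitting hK
    rwa [hF, ← map_center_subtype, le_bot_iff, Subgroup.map_eq_bot_iff, ker_subtype,
      le_bot_iff] at this

end Cfsg.Agent.S3747
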