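import Cfsg.Statements.S3748
import Cfsg.Agent.H18.Subnormal
import Cfsg.Agent.H2.Misc1
import Cfsg.Agent.H2.Fitting

set_option autoImplicit false
open Cfsg

namespace Cfsg.Agent.S3748

/-- Call a proper subgroup M of G primitive when M = N_G(N) for every non-trivial normal subgroup N of M. If M is a primitive subgroup of the finite group G, then no non-trivial subnormal subgroup of G is contained in M; in particular M ∩ F(G) = 1. -/
theorem result {G : Type*} [Group G] [Finite G] (M : Subgroup G) (hM : M ≠ ⊤) (hprim : ∀ N : Subgroup G, N ≤ M → M ≤ Subgroup.normalizer (N : Set G) → N ≠ ⊥ → Subgroup.normalizer (N : Set G) = M) : (∀ L : Subgroup G, L.IsSubnormal → L ≤ M → L = ⊥) ∧ M ⊓ Cfsg.fittingSubgroup G = ⊥ := by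
  have h0 : ∀ L : Subgroup G, L.IsSubnormal → L ≤ M → L = ⊥ := by
    intro N hN hNM
    by_contra hne
    have hle : N ≤ sSup {L : Subgroup G | L.IsSubnormal ∧ L ≤ M} := le_sSup ⟨hN, hNM⟩
    exact hM (H18.eq_top_of_normalizer_sSup_le (hprim _ (sSup_le fun A hA => hA.2)
      (H18.le_normalizer_sSup_isSubnormal M) (fun e => hne (le_bot_iff.1 (e ▸ hle)))).le)
  refine ⟨h0, h0 _ ?_ inf_le_left⟩
  exact Subgroup.IsSubnormal.trans inf_le_right (H2.isSubnormal_of_isNilpotent _)
    (H2.fitting_normal G).isSubnormal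

end Cfsg.Agent.S3748
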