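import Cfsg.Statements.S3749
import Cfsg.Agent.H98.CharP
import Cfsg.Agent.H1.InvSylow

set_option autoImplicit false
open Cfsg

namespace Cfsg.Agent.S3749

/-- Call a proper subgroup M of G primitive when M = N_G(N) for every non-trivial normal subgroup N of M. Let M be a primitive subgroup of the finite group G, p a prime with O_p(M) ≠ 1, and N a normal subgroup of G with M ∩ N = 1. Then p does not divide the order of N; for every prime q there is exactly one Sylow q-subgroup of N normalized by M; and if the order of N has at least two prime divisors then M is not a maximal subgroup of G. -/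
theorem result {G : Type*} [Group G] [Finite G] (M : Subgroup G) (hM : M ≠ ⊤) (hprim : ∀ N : Subgroup G, N ≤ M → M ≤ Subgroup.normalizer (N : Set G) → N ≠ ⊥ → Subgroup.normalizer (N : Set G) = M) {p : ℕ} [Fact p.Prime] (hOp : Cfsg.pCore p ↥M ≠ ⊥) (N : Subgroup G) [N.Normal] (hMN : M ⊓ N = ⊥) : ¬ p ∣ Nat.card N ∧ (∀ q : ℕ, [Fact q.Prime] → ∃! Q : Sylow q ↥N, M ≤ Subgroup.normalizer ((Q : Subgroup ↥N).map N.subtype : Set G)) ∧ ((∃ q r : ℕ, q.Prime ∧ r.Prime ∧ q ≠ r ∧ q ∣ Nat.card N ∧ r ∣ Nat.card N) → ¬ IsCoatom M) := by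
  have hp : p.Prime := Fact.out
  set P : Subgroup G := pCoreOf p M with hPdef
  have hP : IsPGroup p P := H98.isPGroup_pCoreOf M
  have hP0 : P ≠ ⊥ := fun h => hOp (H98.pCoreOf_eq_bot_iff.1 h)
  have hNP : Subgroup.normalizer (P : Set G) = M :=
    hprim P (H98.pCoreOf_le M) (H98.self_le_normalizer_pCoreOf M) hP0
  have hC : N ⊓ Subgroup.centralizer (P : Set G) = ⊥ := by
    rw [eq_bot_iff, ← hMN]
    refine le_inf (inf_le_right.trans ?_) inf_le_left
    rw [← hNP]
    exact Subgroup.centralizer_le_normalizer _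
  have hn : ∀ A : Subgroup G, A ≤ Subgroup.normalizer (N : Set G) := fun A => by
    rw [Subgroup.normalizer_eq_top]; exact le_top
  have h1 : ¬ p ∣ Nat.card N := by
    intro hd
    obtain ⟨T, hT, hPT⟩ := H98.exists_isSyl_le hP (le_top (a := P))
    have hS := hT.inf_of_le_normalizer (le_top (a := N)) (hn T)
    have hne : T ⊓ N ≠ ⊥ := fun h => (hS.eq_bot_iff.1 h) hd
    have := H98.inf_centralizer_ne_bot hS.isPGroup hP
      (H98.le_normalizer_inf (H98.le_normalizer_of_le hPT) (hn P)) hne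
    refine this (eq_bot_iff.2 ?_)
    rw [← hC]
    exact inf_le_inf_right _ inf_le_right
  have hco : (Nat.card P).Coprime (Nat.card N) := by
    obtain ⟨k, hk⟩ := IsPGroup.iff_card.1 hP
    rw [hk]
    exact Nat.Coprime.pow_left _ ((Nat.Prime.coprime_iff_not_dvd hp).2 h1)
  have hsol : Group.IsSolvable P := by
    have := hP.isNilpotent
    infer_instance
  have huniq : ∀ (q : ℕ) [Fact q.Prime] (Q R : Sylow q N),
      P ≤ Subgroup.normalizer ((Q : Subgroup N).map N.subtype : Set G) →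
      P ≤ Subgroup.normalizer ((R : Subgroup N).map N.subtype : Set G) → Q = R := by
    intro q _ Q R hQ hR
    obtain ⟨c, hc, e⟩ := H1.invariant_sylow_conj_subgroup P N (hn P) hco (Or.inl hsol) q Q R hQ hR
    have : (c : G) ∈ N ⊓ Subgroup.centralizer (P : Set G) := ⟨c.2, hc⟩
    rw [hC, Subgroup.mem_bot] at this
    have hc1 : c = 1 := Subtype.ext this
    rw [← e, hc1, one_smul]
  have h2 : ∀ q : ℕ, [Fact q.Prime] → ∃! Q : Sylow q ↥N,
      M ≤ Subgroup.normalizer ((Q : Subgroup ↥N).map N.subtype : Set G) := by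
    intro q _
    obtain ⟨Q, hQ⟩ := H1.exists_invariant_sylow_subgroup P N (hn P) hco (Or.inl hsol) q
    refine ⟨Q, fun m hm => ?_, fun R hR => huniq q R Q ((H98.pCoreOf_le M).trans hR) hQ⟩
    have hs := (H98.isSyl_map_subtype Q).cj_of_mem_normalizer (g := m) (hn ⊤ trivial)
    obtain ⟨R, hR⟩ := hs.exists_sylow_map
    have hRQ : R = Q := by
      refine huniq q R Q ?_ hQ
      rw [hR, ← H98.cj_normalizer]
      have : H98.cj m P = P := H98.cj_eq_self (hNP ▸ hm)
      rw [← this]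
      exact H98.cj_mono m hQ
    rw [← H98.cj_eq_self_iff, ← hR, hRQ]
  refine ⟨h1, h2, ?_⟩
  rintro ⟨q, r, hq, hr, hqr, hqN, hrN⟩ hco
  haveI : Fact q.Prime := ⟨hq⟩
  obtain ⟨Q, hQ, -⟩ := h2 q
  have hs := H98.isSyl_map_subtype Q
  set Q' : Subgroup G := (Q : Subgroup N).map N.subtype
  have hQ0 : Q' ≠ ⊥ := fun h => (hs.eq_bot_iff.1 h) hqN
  have htop : M ⊔ Q' = ⊤ := by
    refine hco.2 _ (lt_of_le_of_ne le_sup_left fun e => hQ0 ?_)
    rw [eq_bot_iff, ← hMN]
    exact le_inf (e ▸ le_sup_right) hs.le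
  have := H98.sup_inf_of_le_right hQ hs.le
  rw [htop, top_inf_eq, hMN, bot_sup_eq] at this
  exact H98.not_dvd_card_of_isPGroup_ne hr (Ne.symm hqr) hs.isPGroup (this ▸ hrN)

end Cfsg.Agent.S3749
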