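import Cfsg.Statements.S3750
import Cfsg.Agent.H98.Basic
import Cfsg.Agent.H14.FStar
import Cfsg.Agent.S3748
import Cfsg.Agent.H20.CN

set_option autoImplicit false
open Cfsg

namespace Cfsg.Agent.S3750

/-- Call a proper subgroup M of G primitive when M = N_G(N) for every non-trivial normal subgroup N of M. Let M be a primitive subgroup of the finite group G and N a normal subgroup of G with M ∩ F*(N) ≠ 1. Then F(G) = 1 and F*(N) = F*(G) = E(G); in particular every minimal normal subgroup of G is contained in N. -/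
theorem result {G : Type*} [Group G] [Finite G] (M : Subgroup G) (hM : M ≠ ⊤) (hprim : ∀ N : Subgroup G, N ≤ M → M ≤ Subgroup.normalizer (N : Set G) → N ≠ ⊥ → Subgroup.normalizer (N : Set G) = M) (N : Subgroup G) [N.Normal] (hMF : M ⊓ (Cfsg.generalizedFittingSubgroup ↥N).map N.subtype ≠ ⊥) : Cfsg.fittingSubgroup G = ⊥ ∧ (Cfsg.generalizedFittingSubgroup ↥N).map N.subtype = Cfsg.generalizedFittingSubgroup G ∧ Cfsg.generalizedFittingSubgroup G = Cfsg.layer G ∧ ∀ K : Subgroup G, K.Normal → K ≠ ⊥ → (∀ K' : Subgroup G, K'.Normal → K' ≤ K → K' = ⊥ ∨ K' = K) → K ≤ N := by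
  have hN : N.Normal := inferInstance
  have hF := H14.map_fstar_subtype_eq_of_subnormal hN.isSubnormal
  rw [hF] at hMF ⊢
  have hFn : (generalizedFittingSubgroup G).Normal := H14.fstar_normal G
  set F : Subgroup G := generalizedFittingSubgroup G ⊓ N with hFdef
  have hFn' : F.Normal := by rw [hFdef]; infer_instance
  have hn : ∀ A : Subgroup G, A ≤ Subgroup.normalizer (F : Set G) := fun A => by
    rw [Subgroup.normalizer_eq_top]; exact le_top
  have hX := hprim (M ⊓ F) inf_le_left (H98.le_normalizer_inf Subgroup.le_normalizer (hn M)) hMF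
  have hC : Subgroup.centralizer (F : Set G) = ⊥ := by
    refine (Cfsg.Agent.S3748.result M hM hprim).1 _ (Subgroup.Normal.isSubnormal inferInstance) ?_
    rw [← hX]
    exact (H98.centralizer_anti inf_le_right).trans (Subgroup.centralizer_le_normalizer _)
  have hCN : ∀ K : Subgroup G, ⁅K, N⁆ = ⊥ → K = ⊥ := fun K h => by
    rw [eq_bot_iff, ← hC]
    exact (Subgroup.commutator_eq_bot_iff_le_centralizer.1 h).trans (H98.centralizer_anti inf_le_right)
  have h1 : fittingSubgroup G = ⊥ := by
    by_contra hne
    obtain ⟨z, hz, hz1, hzc⟩ := H20.exists_center_of_nil (H2.fitting_isNilpotent G) hne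
    apply hz1
    rw [← Subgroup.mem_bot, ← hC]
    refine H98.centralizer_anti inf_le_left ?_
    rw [generalizedFittingSubgroup, H98.centralizer_sup]
    exact ⟨H14.fitting_le_centralizer_layer hz, fun h hh => (hzc h hh).eq⟩
  have h3 : generalizedFittingSubgroup G = layer G := by
    rw [generalizedFittingSubgroup, h1, sup_bot_eq]
  refine ⟨h1, ?_, h3, ?_⟩
  · rw [hFdef, inf_eq_left, h3]
    refine H14.layer_le fun L hL => ?_
    rcases H14.comp_le_or_of_normal hL N with h | h
    · exact h
    · exact absurd (hCN L h) (H14.comp_ne_bot hL)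
  · intro K hK hK0 hmin
    rcases hmin (K ⊓ N) inferInstance inf_le_left with h | h
    · refine absurd (hCN K ?_) hK0
      rw [eq_bot_iff, ← h]
      exact Subgroup.commutator_le_inf K N
    · exact inf_eq_left.1 h

end Cfsg.Agent.S3750
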