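import Cfsg.Statements.S3753
import Cfsg.Agent.H20.PrimPair

set_option autoImplicit false
open Cfsg

namespace Cfsg.Agent.S3753

theorem core_le_aux {G : Type*} [Group G] {L M : Subgroup G} (h : H20.PrimPair 2 L M)
    (hS : ∀ S : Sylow 2 L, IsMulCommutative (S : Subgroup L)) : pCoreOf 2 M ≤ pCoreOf 2 L := by
  obtain ⟨T, hT, hle⟩ := H98.exists_isSyl_le (H98.isPGroup_pCoreOf M) h.le₂
  have h1 := hT.pCoreOf_le
  obtain ⟨S, rfl⟩ := hT.exists_sylow_map
  have := hS S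
  refine h.char₁.le_pCoreOf h.le₂ fun x hx y hy => ?_
  obtain ⟨a, ha, rfl⟩ := hle hx
  obtain ⟨b, hb, rfl⟩ := h1 hy
  rw [← map_mul, ← map_mul, Subgroup.mul_comm_of_mem_isMulCommutative _ hb ha]


/-- Two distinct subgroups M₁, M₂ of G form a primitive pair when, for {i, j} = {1, 2}, every non-trivial normal subgroup A of M_i contained in M₁ ∩ M₂ satisfies N_{M_j}(A) = M₁ ∩ M₂; the pair has characteristic p when moreover C_{M_i}(O_p(M_i)) ≤ O_p(M_i) for both i and O_p(M₁)O_p(M₂) ≤ M₁ ∩ M₂. If the finite group G has a primitive pair (M₁, M₂) of characteristic p for some prime p, then M₁ or M₂ has non-abelian Sylow 2-subgroups. In particular no group of odd order has a primitive pair of characteristic p. -/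
theorem result {G : Type*} [Group G] [Finite G] {p : ℕ} [Fact p.Prime] (M₁ M₂ : Subgroup G) (hne : M₁ ≠ M₂) (hP : ∀ A : Subgroup G, A ≠ ⊥ → A ≤ M₁ ⊓ M₂ → (M₁ ≤ Subgroup.normalizer (A : Set G) → M₂ ⊓ Subgroup.normalizer (A : Set G) = M₁ ⊓ M₂) ∧ (M₂ ≤ Subgroup.normalizer (A : Set G) → M₁ ⊓ Subgroup.normalizer (A : Set G) = M₁ ⊓ M₂)) (hc₁ : Subgroup.centralizer (Cfsg.pCore p ↥M₁ : Set ↥M₁) ≤ Cfsg.pCore p ↥M₁) (hc₂ : Subgroup.centralizer (Cfsg.pCore p ↥M₂ : Set ↥M₂) ≤ Cfsg.pCore p ↥M₂) (hO : (Cfsg.pCore p ↥M₁).map M₁.subtype ⊔ (Cfsg.pCore p ↥M₂).map M₂.subtype ≤ M₁ ⊓ M₂) : (∃ S : Sylow 2 ↥M₁, ¬ IsMulCommutative (S : Subgroup ↥M₁)) ∨ (∃ S : Sylow 2 ↥M₂, ¬ IsMulCommutative (S : Subgroup ↥M₂)) := by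
  have h : H20.PrimPair p M₁ M₂ :=
    ⟨hne, fun A a b c d => ((hP A a (le_inf b c)).1 d).le.trans inf_le_left,
      fun A a b c d => ((hP A a (le_inf b c)).2 d).le.trans inf_le_right,
      H98.charP_iff.2 hc₁, H98.charP_iff.2 hc₂, (le_sup_left.trans hO).trans inf_le_right,
      (le_sup_right.trans hO).trans inf_le_left⟩
  by_contra hcon
  push Not at hcon
  by_cases hp : p = 2
  · subst hp
    exact h.core_ne (le_antisymm (core_le_aux h.symm hcon.2) (core_le_aux h hcon.1))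
  · haveI : Fact (Nat.Prime 2) := ⟨Nat.prime_two⟩
    refine H20.not_sAdj ⟨h, H20.qstab_of_not_involves hp ?_, H20.qstab_of_not_involves hp ?_⟩
    · exact H11.not_involves_qd_of_comm_sylow hp default (hcon.1 _)
    · exact H11.not_involves_qd_of_comm_sylow hp default (hcon.2 _)

end Cfsg.Agent.S3753
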