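import Cfsg.Statements.S3761
import Cfsg.Agent.Base
import Cfsg.Agent.H3.DSQAut

set_option autoImplicit false
open Cfsg

namespace Cfsg.Agent.S3761

open Subgroup H3 in
theorem index_two {G : Type*} [Group G] [Finite G] (hG : IsPGroup 2 G) {a : G} {m : ℕ}
    (hna : (zpowers a).Normal) (hself : ∀ x : G, x * a = a * x → x ∈ zpowers a)
    (hM : orderOf a = 2 ^ (m + 1)) {y : G} (hy : y ∉ zpowers a)
    (h : m < 2 ∨ ∀ x : G, x * a ^ 2 = a ^ 2 * x → x ∈ zpowers a) : (zpowers a).index = 2 := by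
  suffices h : ∀ x y : G, x ∉ zpowers a → y ∉ zpowers a → x * y ∈ zpowers a by
    refine index_eq_two_iff.mpr ⟨y, fun b => ?_⟩
    by_cases hb : b ∈ zpowers a
    · exact Or.inr ⟨hb, fun h2 => hy (by simpa using mul_mem (inv_mem hb) h2)⟩
    · exact Or.inl ⟨h b y hb hy, hb⟩
  rcases Nat.lt_or_ge m 2 with hm | hm
  · have key : ∀ x : G, x ∉ zpowers a → x * a * x⁻¹ = a⁻¹ := by
      intro x hx
      obtain ⟨k, hk⟩ := exists_conj_eq_zpow_of_normal hna x
      obtain ⟨c, rfl⟩ := odd_of_conj_eq_zpow hM hk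
      have h4 : (orderOf a : ℤ) ∣ 4 := by
        rw [hM]; push_cast
        exact (pow_dvd_pow (2 : ℤ) (show m + 1 ≤ 2 by omega))
      rcases Int.even_or_odd' c with ⟨d, rfl | rfl⟩
      · exact absurd (hself x (by
          simpa using (commute_iff_dvd_of_conj_eq_zpow hk 1).mpr
            (h4.trans ⟨d, by ring⟩))) hx
      · rw [hk, ← zpow_neg_one, zpow_eq_zpow_iff_modEq, Int.modEq_iff_dvd]
        exact h4.trans ⟨-d - 1, by ring⟩
    intro x y hx hy
    apply hself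
    calc x * y * a = x * (y * a * y⁻¹) * x⁻¹ * (x * y) := by group
      _ = (x * a * x⁻¹)⁻¹ * (x * y) := by rw [key y hy]; group
      _ = _ := by rw [key x hx, inv_inv]
  have ha : ∀ x : G, x * a ^ (2 : ℤ) = a ^ (2 : ℤ) * x → x ∈ zpowers a := fun x hx =>
    h.resolve_left (by omega) x (by exact_mod_cast hx)
  have hb : ∀ x : G, x ∉ zpowers a → x ^ 2 ∈ zpowers a →
      x * a ^ (2 : ℤ) * x⁻¹ = a ^ (-2 : ℤ) := by
    intro x hx hx2
    obtain ⟨k, hk⟩ := exists_conj_eq_zpow_of_normal hna x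
    rcases conj_eq_cases_two hM hk (mul_comm_of_mem_zpowers hx2) with h | h | h | h
    · exact absurd (hself x h) hx
    · rw [← conj_zpow, h]; group
    · refine absurd (ha x ((commute_iff_dvd_of_conj_eq_zpow h 2).mpr ?_)) hx
      rw [hM]; exact ⟨1, by push_cast; ring⟩
    · rw [conj_zpow_of_conj_eq_zpow h, zpow_eq_zpow_iff_modEq, Int.modEq_iff_dvd, hM]
      exact ⟨-1, by push_cast; ring⟩
  have hc : ∀ x : G, x ^ 2 ∈ zpowers a := by
    intro x
    by_contra hx
    obtain ⟨j, h1, h2⟩ := exists_pow_notMem_pow_succ_mem hG hx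
    rw [← pow_mul x 2, mul_comm 2, pow_mul] at h1 h2
    generalize x ^ 2 ^ j = z at h1 h2
    obtain ⟨k, hk⟩ := exists_conj_eq_zpow_of_normal hna z
    have h3 := hb _ h1 h2
    rw [conj_zpow_of_conj_eq_zpow (pow_conj_of_conj_eq_zpow hk 2), zpow_eq_zpow_iff_modEq,
      Int.modEq_iff_dvd, hM] at h3
    push_cast at h3
    have h4 : (2 : ℤ) ^ 3 ∣ -2 - k ^ 2 * 2 := (pow_dvd_pow (2 : ℤ) (by omega)).trans h3
    obtain ⟨c, rfl⟩ := odd_of_conj_eq_zpow hM hk
    have h5 : (-2 - (2 * c + 1) ^ 2 * 2 : ℤ) = -4 - 8 * (c ^ 2 + c) := by ring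
    rw [h5] at h4
    omega
  intro x y hx hy
  apply ha
  calc x * y * a ^ (2 : ℤ) = x * (y * a ^ (2 : ℤ) * y⁻¹) * x⁻¹ * (x * y) := by group
    _ = (x * a ^ (2 : ℤ) * x⁻¹)⁻¹ * (x * y) := by rw [hb y hy (hc y)]; group
    _ = _ := by rw [hb x hx (hc x)]; group

open Subgroup H3 in
theorem modular_case {G : Type*} [Group G] [Finite G] {p : ℕ} [Fact p.Prime] {a : G} {m : ℕ}
    (hna : (zpowers a).Normal) (hself : ∀ x : G, x * a = a * x → x ∈ zpowers a)
    (hM : orderOf a = p ^ (m + 1)) (hm : 1 ≤ m) (hm2 : p = 2 → 2 ≤ m) {b : G}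
    (hb : b ∉ zpowers a) (hbM : b * a ^ p = a ^ p * b) (M : Subgroup G)
    (hMdef : M = centralizer {a ^ p}) :
    (zpowers a).relIndex M = p ∧ Cfsg.IsElementaryAbelian p (Cfsg.omegaOne p M) ∧
      Nat.card (Cfsg.omegaOne p M) = p ^ 2 ∧ (Cfsg.omegaOne p M).Characteristic := by
  have hp : p.Prime := Fact.out
  have hp0 : (p : ℤ) ≠ 0 := by exact_mod_cast hp.ne_zero
  have hact : ∀ x : G, x * a ^ p = a ^ p * x → ∃ t : ℤ, x * a * x⁻¹ = a ^ (1 + (p : ℤ) ^ m * t) := by
    intro x hx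
    obtain ⟨k, hk⟩ := exists_conj_eq_zpow_of_normal hna x
    have h1 := (commute_iff_dvd_of_conj_eq_zpow hk p).mp (by exact_mod_cast hx)
    rw [hM] at h1
    push_cast at h1
    rw [pow_succ, mul_dvd_mul_iff_right hp0] at h1
    obtain ⟨t, ht⟩ := h1
    exact ⟨t, by rw [hk, ← ht]; congr 1; ring⟩
  have hpm : ∀ t : ℤ, (p : ℤ) ∣ 1 + (p : ℤ) ^ m * t - 1 := fun t => by
    rw [add_sub_cancel_left]; exact (dvd_pow_self _ (by omega)).mul_right t
  have hpm2 : ∀ t : ℤ, p = 2 → (4 : ℤ) ∣ 1 + (p : ℤ) ^ m * t - 1 := fun t h => by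
    rw [add_sub_cancel_left]
    subst h
    exact (pow_dvd_pow (2 : ℤ) (hm2 rfl)).mul_right t
  have hpow : ∀ (t : ℤ) (s : ℕ), (orderOf a : ℤ) ∣
      (1 + (p : ℤ) ^ m * t) ^ s - (1 + s * ((p : ℤ) ^ m * t)) := by
    intro t s
    refine dvd_trans ?_ (sq_dvd_one_add_pow _ s)
    rw [hM, mul_pow, ← pow_mul]
    push_cast
    exact (pow_dvd_pow _ (by omega)).mul_right _
  obtain ⟨t₀, ht₀⟩ := hact b hbM
  have hne : b * a ≠ a * b := fun h => hb (hself b h)
  have hbp : b ^ p ∈ zpowers a := by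
    apply hself
    have := (commute_iff_dvd_of_conj_eq_zpow (pow_conj_of_conj_eq_zpow ht₀ p) 1).mpr (by
      have h1 := hpow t₀ p
      have h2 : (orderOf a : ℤ) ∣ p * ((p : ℤ) ^ m * t₀) := by
        rw [hM]; exact ⟨t₀, by push_cast; ring⟩
      exact (dvd_add h1 h2).trans (dvd_of_eq (by ring)))
    simpa using this
  obtain ⟨x, hx⟩ := exists_zpow_mul_pow_eq_one hp hM ht₀ (hpm t₀) (hpm2 t₀) hbp hne
  have hc := zpow_mul_conj_of_conj_eq_zpow ht₀ x
  have hca : a ^ x * b ∉ zpowers a := fun h =>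
    hb (by simpa using mul_mem (inv_mem (zpow_mem_zpowers a x)) h)
  generalize a ^ x * b = c at hx hc hca
  have hcne : c * a ≠ a * c := fun h => hca (hself c h)
  obtain ⟨s, hs⟩ := exists_pow_conj_eq hp hm hM hc (by rw [add_sub_cancel_left]; exact dvd_mul_right _ _) hcne
  have hcM : c ∈ M := by
    rw [hMdef, mem_centralizer_singleton_iff]
    have := (commute_iff_dvd_of_conj_eq_zpow hc p).mpr (by
      rw [hM]; exact ⟨t₀, by push_cast; ring⟩)
    exact_mod_cast this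
  have haM : zpowers a ≤ M := by
    rw [hMdef, zpowers_le, mem_centralizer_singleton_iff]; group
  have hform : ∀ y ∈ M, ∃ (i : ℤ) (j : ℕ), y = a ^ i * c ^ j := by
    intro y hy
    rw [hMdef, mem_centralizer_singleton_iff] at hy
    obtain ⟨t, ht⟩ := hact y hy
    obtain ⟨j, hj⟩ : ∃ j : ℕ, (p : ℤ) ∣ t - j := by
      refine ⟨(t % p).toNat, ?_⟩
      rw [Int.toNat_of_nonneg (Int.emod_nonneg t hp0)]
      exact Int.dvd_self_sub_emod
    have h1 : (c ^ s) ^ j * a * ((c ^ s) ^ j)⁻¹ = y * a * y⁻¹ := by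
      rw [pow_conj_of_conj_eq_zpow hs j, ht, zpow_eq_zpow_iff_modEq, Int.modEq_iff_dvd]
      have h2 := hpow 1 j
      have h3 : (orderOf a : ℤ) ∣ (p : ℤ) ^ m * (t - j) := by
        rw [hM]; push_cast; rw [pow_succ]; exact mul_dvd_mul_left _ hj
      exact (dvd_sub h3 h2).trans (dvd_of_eq (by ring))
    have h2 : ((c ^ s) ^ j)⁻¹ * y ∈ zpowers a := by
      apply hself
      calc ((c ^ s) ^ j)⁻¹ * y * a = ((c ^ s) ^ j)⁻¹ * (y * a * y⁻¹) * y := by group
        _ = _ := by rw [← h1]; group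
    obtain ⟨i, hi⟩ := mem_zpowers_iff.mp (hna.conj_mem _ h2 ((c ^ s) ^ j))
    exact ⟨i, s * j, by rw [hi, pow_mul]; group⟩
  have hMeq : M = zpowers a ⊔ zpowers c := by
    refine le_antisymm (fun y hy => ?_) (sup_le haM (zpowers_le.mpr hcM))
    obtain ⟨i, j, rfl⟩ := hform y hy
    exact mul_mem_sup (zpow_mem_zpowers a i) (pow_mem (mem_zpowers c) j)
  have hzo : orderOf (a ^ p ^ m) = p := by
    rw [orderOf_pow' _ (pow_pos hp.pos m).ne', hM, Nat.gcd_eq_right (pow_dvd_pow p (by omega)),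
      pow_succ, Nat.mul_div_cancel_left _ (pow_pos hp.pos m)]
  have hzc : Commute (a ^ p ^ m) c := by
    obtain ⟨m', rfl⟩ := Nat.exists_eq_add_of_le' hm
    rw [hMdef, mem_centralizer_singleton_iff] at hcM
    rw [pow_succ', pow_mul]
    exact (Commute.symm hcM).pow_left _
  have hco : orderOf c = p := orderOf_eq_prime hx fun h => hca (h ▸ one_mem _)
  have hzp : (a ^ p ^ m) ^ p = 1 := by rw [← pow_mul, ← pow_succ, ← hM, pow_orderOf_eq_one]
  have hE := isElementaryAbelian_sup_zpowers hzc hzp hx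
  have hΩ : Cfsg.omegaOne p M = zpowers (a ^ p ^ m) ⊔ zpowers c := by
    refine le_antisymm ((closure_le _).mpr ?_) (sup_le (zpowers_le.mpr (subset_closure
      ⟨haM (pow_mem (mem_zpowers a) _), hzp⟩))
      (zpowers_le.mpr (subset_closure ⟨hcM, hx⟩)))
    rintro y ⟨hy, hyp⟩
    obtain ⟨i, j, rfl⟩ := hform y hy
    obtain ⟨t, ht⟩ := hact (c ^ j) (by
      have := pow_mem hcM j
      rwa [hMdef, mem_centralizer_singleton_iff] at this)
    obtain ⟨d, hd⟩ := exists_geom_sum_eq hp (hpm t) (hpm2 t)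
    rw [zpow_mul_pow_of_conj_eq_zpow ht, ← pow_mul c, mul_comm j, pow_mul c, hx, one_pow, mul_one, hd,
      ← orderOf_dvd_iff_zpow_eq_one, hM] at hyp
    push_cast at hyp
    rw [← mul_assoc] at hyp
    have h7 := (isCoprime_pow_one_add_mul (p : ℤ) d (m + 1)).dvd_of_dvd_mul_right hyp
    rw [pow_succ, mul_dvd_mul_iff_right hp0] at h7
    obtain ⟨w, rfl⟩ := h7
    refine mul_mem_sup ⟨w, ?_⟩ (pow_mem (mem_zpowers c) j)
    simp only
    rw [← zpow_natCast, ← zpow_mul]; push_cast; rfl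
  rw [← hΩ] at hE
  have hMn : ∀ y ∈ M, ∀ g : G, g * y * g⁻¹ ∈ M := by
    intro y hy g
    rw [hMdef, mem_centralizer_singleton_iff] at hy ⊢
    obtain ⟨k, hk⟩ := exists_conj_eq_zpow_of_normal hna g⁻¹
    have h1 : g⁻¹ * a ^ p * g = (a ^ p) ^ k := by
      rw [← zpow_natCast a, ← zpow_mul, mul_comm (p : ℤ), ← conj_zpow_of_conj_eq_zpow hk, inv_inv]
    have h2 : y * (a ^ p) ^ k = (a ^ p) ^ k * y := (Commute.zpow_right hy k).eq
    calc g * y * g⁻¹ * a ^ p = g * (y * (g⁻¹ * a ^ p * g)) * g⁻¹ := by group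
      _ = _ := by rw [h1, h2, ← h1]; group
  have hle : Cfsg.omegaOne p M ≤ M := (closure_le _).mpr fun _ h => h.1
  refine ⟨?_, hE, ?_, ?_⟩
  · rw [hMeq]; exact relIndex_sup_zpowers_eq_prime hca (hx ▸ one_mem _)
  · rw [hΩ]
    exact card_sup_zpowers_of_commute hp hzc hzo hco fun h =>
      hca (zpowers_le.mpr (pow_mem (mem_zpowers a) _) h)
  · refine characteristic_iff_map_le.mpr fun φ => ?_
    rintro _ ⟨e, he, rfl⟩
    refine subset_closure ⟨?_, by
      change φ e ^ p = 1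
      rw [← map_pow, hE.2 e he, map_one]⟩
    change φ e ∈ M
    have h1 : φ e * a * (φ e)⁻¹ * a⁻¹ ∈ zpowers a :=
      mul_mem (hna.conj_mem _ (mem_zpowers a) _) (inv_mem (mem_zpowers a))
    have h2 : (φ e * a * (φ e)⁻¹ * a⁻¹) ^ p = 1 := by
      have h3 : φ.symm a * e⁻¹ * (φ.symm a)⁻¹ ∈ Cfsg.omegaOne p M :=
        subset_closure ⟨hMn _ (inv_mem (hle he)) _, by
          rw [conj_pow, inv_pow, hE.2 e he]; group⟩
      have h4 := congrArg φ (hE.2 _ (mul_mem he h3))
      simpa [mul_assoc] using h4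
    rw [hMdef, mem_centralizer_singleton_iff]
    calc φ e * a ^ p = (φ e * a * (φ e)⁻¹ * a⁻¹ * a) ^ p * φ e := by
          rw [inv_mul_cancel_right, conj_pow]; group
      _ = _ := by rw [Commute.mul_pow (mul_comm_of_mem_zpowers h1), h2, one_mul]

/-- Let G be a finite non-abelian p-group with a cyclic normal subgroup U of order p^n such that C_G(U) = U. Then either p = 2 and G is dihedral, generalized quaternion or semidihedral of order 2^(n+1); or, writing U₁ for the subgroup generated by the p-th powers of elements of U and M = C_G(U₁), the subgroup U has index p in M and the subgroup Ω₁(M) generated by the elements of M of order dividing p is elementary abelian of order p² and characteristic in G. -/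
theorem result {G : Type*} [Group G] [Finite G] {p : ℕ} [Fact p.Prime] (hG : IsPGroup p G) (hna : ¬ IsMulCommutative G) (U : Subgroup G) [U.Normal] (hU : IsCyclic U) (n : ℕ) (hUn : Nat.card U = p ^ n) (hC : Subgroup.centralizer (U : Set G) = U) : (p = 2 ∧ Nat.card G = 2 ^ (n + 1) ∧ ((∃ m : ℕ, Nonempty (G ≃* DihedralGroup m)) ∨ (∃ m : ℕ, Nonempty (G ≃* QuaternionGroup m)) ∨ Cfsg.IsQuasiDihedral G)) ∨ (U.relIndex (Subgroup.centralizer (Cfsg.powerClosure p 1 U : Set G)) = p ∧ Cfsg.IsElementaryAbelian p (Cfsg.omegaOne p (Subgroup.centralizer (Cfsg.powerClosure p 1 U : Set G))) ∧ Nat.card ↥(Cfsg.omegaOne p (Subgroup.centralizer (Cfsg.powerClosure p 1 U : Set G))) = p ^ 2 ∧ (Cfsg.omegaOne p (Subgroup.centralizer (Cfsg.powerClosure p 1 U : Set G))).Characteristic) := by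
  have hp : p.Prime := Fact.out
  obtain ⟨a, rfl⟩ := (Subgroup.isCyclic_iff_exists_zpowers_eq_top U).mp hU
  rw [Nat.card_zpowers] at hUn
  rw [Subgroup.zpowers_eq_closure, Subgroup.centralizer_closure, ← Subgroup.zpowers_eq_closure] at hC
  have hself : ∀ x : G, x * a = a * x → x ∈ Subgroup.zpowers a := fun x hx =>
    hC ▸ Subgroup.mem_centralizer_singleton_iff.mpr hx
  have hn : (Subgroup.zpowers a).Normal := inferInstance
  obtain ⟨y, hy⟩ : ∃ y, y ∉ Subgroup.zpowers a := by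
    by_contra hcon
    push Not at hcon
    have : IsCyclic G := isCyclic_iff_exists_zpowers_eq_top.mpr ⟨a, (Subgroup.eq_top_iff' _).mpr hcon⟩
    exact hna inferInstance
  have hpc : Subgroup.centralizer (Cfsg.powerClosure p 1 (Subgroup.zpowers a) : Set G) =
      Subgroup.centralizer {a ^ p} := by
    rw [Cfsg.powerClosure, Subgroup.centralizer_closure]
    refine le_antisymm (Subgroup.centralizer_le (Set.singleton_subset_iff.mpr
      ⟨a, Subgroup.mem_zpowers a, by rw [pow_one]⟩)) fun g hg => ?_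
    rintro _ ⟨_, ⟨k, rfl⟩, rfl⟩
    have h1 : Commute g (a ^ p) := Subgroup.mem_centralizer_singleton_iff.mp hg
    simp only [pow_one]
    rw [← zpow_natCast, ← zpow_mul, mul_comm k, zpow_mul, zpow_natCast]
    exact (h1.zpow_right k).symm
  have hn2 : 2 ≤ n := by
    by_contra hlt
    have h1 : Nat.card (Subgroup.zpowers a) ≤ p := by
      rw [Nat.card_zpowers, hUn]
      exact (Nat.pow_le_pow_right hp.pos (by omega : n ≤ 1)).trans (pow_one p).le
    exact hy (hself y (Subgroup.mem_center_iff.mp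
      (H9.le_center_of_card_le hG h1 (Subgroup.mem_zpowers a)) y))
  obtain ⟨m, rfl⟩ : ∃ m, n = m + 1 := ⟨n - 1, by omega⟩
  by_cases hcase : p = 2 ∧ (m < 2 ∨ ∀ x : G, x * a ^ 2 = a ^ 2 * x → x ∈ Subgroup.zpowers a)
  · obtain ⟨rfl, hcase⟩ := hcase
    have hi := index_two hG hn hself hUn hy hcase
    have hcard : Nat.card G = 2 ^ (m + 2) := by
      rw [← (Subgroup.zpowers a).card_mul_index, hi, Nat.card_zpowers, hUn, ← pow_succ]
    refine Or.inl ⟨rfl, hcard, ?_⟩
    obtain ⟨a', b', h3, h4 | ⟨h4, h5, h6, h7, h8⟩⟩ :=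
      H3.dsq_or_modular_of_cyclic_index_two m hcard _ inferInstance hi hna
    · rcases h4.three_cases' with h | h | h
      exacts [Or.inl ⟨_, h⟩, Or.inr (Or.inl ⟨_, h⟩), Or.inr (Or.inr h)]
    · exfalso
      refine h5 (h3 ▸ hcase.resolve_left (by omega) b' ?_)
      obtain ⟨i, rfl⟩ := Subgroup.mem_zpowers_iff.mp (h3 ▸ Subgroup.mem_zpowers a : a ∈ Subgroup.zpowers a')
      have h9 : b' * a' * b'⁻¹ = a' ^ (1 + (2 : ℤ) ^ m) := by
        rw [h8, ← zpow_natCast]; push_cast; rfl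
      rw [← zpow_natCast, ← zpow_mul, H3.commute_iff_dvd_of_conj_eq_zpow h9, h4]
      exact ⟨i, by push_cast; ring⟩
  · right
    obtain ⟨b, hb, hbM⟩ : ∃ b : G, b ∉ Subgroup.zpowers a ∧ b * a ^ p = a ^ p * b := by
      by_cases hp2 : p = 2
      · subst hp2
        by_contra hcon
        push Not at hcon
        exact hcase ⟨rfl, Or.inr fun x hx => by_contra fun h => hcon x h hx⟩
      · obtain ⟨j, hx, hxp⟩ := H3.exists_pow_notMem_pow_succ_mem hG hy
        refine ⟨_, hx, ?_⟩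
        generalize y ^ p ^ j = x at hx hxp
        obtain ⟨k, hk⟩ := H3.exists_conj_eq_zpow_of_normal hn x
        have h1 := H3.dvd_pow_sub_one_of_conj_eq_zpow hk (H3.mul_comm_of_mem_zpowers hxp)
        rw [hUn] at h1
        push_cast at h1
        have := (H3.commute_iff_dvd_of_conj_eq_zpow hk p).mpr (by
          rw [hUn]; push_cast; rw [pow_succ]
          exact mul_dvd_mul_right (H3.pow_dvd_sub_one_of_odd hp hp2 h1) _)
        exact_mod_cast this
    exact modular_case hn hself hUn (by omega) (fun h => by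
      by_contra hm
      exact hcase ⟨h, Or.inl (by omega)⟩) hb hbM _ hpc

end Cfsg.Agent.S3761
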