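import Cfsg.Statements.S3763
import Cfsg.Agent.H9.ExtraAut

set_option autoImplicit false
open Cfsg

namespace Cfsg.Agent.S3763

theorem not_le {E : Type*} [Group E] {k : ℕ}
    (h : ∃ A : Subgroup E, Cfsg.IsElementaryAbelian 2 A ∧ Nat.card A = 2 ^ (k + 1)) :
    ¬ Cfsg.PRankLE 2 k E := by
  obtain ⟨A, h1, h2⟩ := h
  intro h
  have := h A h1.1 h1.2
  rw [h2, Nat.pow_le_pow_iff_right one_lt_two] at this
  omega

/-- Let E be an extraspecial 2-group of order 2^(2n+1). Then the largest elementary abelian subgroups of E have order 2^n or 2^(n+1); and two extraspecial 2-groups of the same order whose largest elementary abelian subgroups have the same order are isomorphic. -/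
theorem result {E : Type*} [Group E] [Finite E] (hE : Cfsg.IsExtraspecial 2 E) (n : ℕ) (hn : Nat.card E = 2 ^ (2 * n + 1)) : ((Cfsg.PRankLE 2 n E ∧ ¬ Cfsg.PRankLE 2 (n - 1) E) ∨ (Cfsg.PRankLE 2 (n + 1) E ∧ ¬ Cfsg.PRankLE 2 n E)) ∧ ∀ (E' : Type*) [Group E'] [Finite E'], Cfsg.IsExtraspecial 2 E' → Nat.card E' = Nat.card E → (∀ k : ℕ, Cfsg.PRankLE 2 k E ↔ Cfsg.PRankLE 2 k E') → Nonempty (E ≃* E') := by
  obtain ⟨m, hm, h⟩ := H27.plus_or_minus_of_isExtraspecial hE
  obtain rfl : n = m + 1 := by
    rw [hn] at hm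
    have := Nat.pow_right_injective le_rfl hm
    omega
  constructor
  · rcases h with h | h
    · exact Or.inr ⟨fun A _ hA => H9.plusType_card_le h hA,
        not_le (H9.plusType_exists_elementary h)⟩
    · exact Or.inl ⟨fun A _ hA => H9.minusType_card_le h hA,
        not_le (H9.minusType_exists_elementary h)⟩
  · intro E' _ _ hE' hc hk
    rcases h with h | h <;> rcases H27.plus_or_minus_of_card hE' (hc.trans hm) with h' | h'
    · exact h.nonempty_equiv h'
    · exact absurd ((hk _).mpr fun A _ hA => H9.minusType_card_le h' hA)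
        (not_le (H9.plusType_exists_elementary h))
    · exact absurd ((hk _).mp fun A _ hA => H9.minusType_card_le h hA)
        (not_le (H9.plusType_exists_elementary h'))
    · exact h.nonempty_equiv h'

end Cfsg.Agent.S3763
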