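import Cfsg.Statements.S3765
import Cfsg.Agent.Base
import Cfsg.Agent.H22.HHSub

set_option autoImplicit false
open Cfsg

namespace Cfsg.Agent.S3765

/-- Let p, q, r be distinct primes and let X, Q, V be subgroups of a finite group with X of order r normalizing the q-group Q and acting faithfully on it (X ∩ C(Q) = 1), and V a nontrivial elementary abelian p-group normalized by X and Q on which XQ acts faithfully. If q = 2 and r has the form 2^n + 1, assume in addition that Q is abelian. Then C_V(X) ≠ 1. -/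
theorem result {G : Type*} [Group G] [Finite G] {p q r : ℕ} (hp : p.Prime) (hq : q.Prime) (hr : r.Prime) (hpq : p ≠ q) (hpr : p ≠ r) (hqr : q ≠ r) (X Q V : Subgroup G) (hX : Nat.card X = r) (hQ : IsPGroup q Q) (hXQ : X ≤ Subgroup.normalizer (Q : Set G)) (hXfaith : X ⊓ Subgroup.centralizer (Q : Set G) = ⊥) (hV : Cfsg.IsElementaryAbelian p V) (hV1 : V ≠ ⊥) (hXV : X ≤ Subgroup.normalizer (V : Set G)) (hQV : Q ≤ Subgroup.normalizer (V : Set G)) (hfaith : (X ⊔ Q) ⊓ Subgroup.centralizer (V : Set G) = ⊥) (hexc : q = 2 → (∃ n : ℕ, r = 2 ^ n + 1) → IsMulCommutative Q) : V ⊓ Subgroup.centralizer (X : Set G) ≠ ⊥ := by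
  intro hCV
  have hle : ∀ A B : Subgroup G, A ≤ X ⊔ Q → B ≤ X ⊔ Q →
      ⁅A, B⁆ ≤ Subgroup.centralizer (V : Set G) → A ≤ Subgroup.centralizer (B : Set G) := by
    intro A B hA hB h
    rw [← Subgroup.commutator_eq_bot_iff_le_centralizer, eq_bot_iff, ← hfaith]
    refine le_inf ?_ h
    rw [Subgroup.commutator_le]
    intro a ha b hb
    exact mul_mem (mul_mem (mul_mem (hA ha) (hB hb)) (inv_mem (hA ha))) (inv_mem (hB hb))
  obtain ⟨e1, ⟨m, -, e2⟩, e3⟩ := H22.hh_prime_fix_sub hp hq hr hpq hqr.symm X Q V hX hQ hXQ hV hXV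
    hQV hCV (by
      intro h
      have h1 := hle X Q le_sup_left le_sup_right h
      have h2 : X = ⊥ := by rw [← hXfaith]; exact (inf_eq_left.2 h1).symm
      rw [h2, Subgroup.card_bot] at hX
      exact hr.one_lt.ne hX)
  apply e3
  have := hexc e1 ⟨m, e2⟩
  have h3 : ⁅Q, Q⁆ = ⊥ := by
    rw [Subgroup.commutator_eq_bot_iff_le_centralizer]
    exact Subgroup.le_centralizer Q
  rw [h3]; exact bot_le

end Cfsg.Agent.S3765
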