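import Cfsg.Statements.S3766
import Cfsg.Agent.H98.Basic
import Cfsg.Agent.H32.Chief
import Cfsg.Agent.H2.Fitting
import Cfsg.Agent.H2.MinNormal

set_option autoImplicit false
open Cfsg

namespace Cfsg.Agent.S3766

theorem cent {G : Type*} [Group G] (F U V : Subgroup G) [F.Normal] [U.Normal] [V.Normal]
    [hF : Group.IsNilpotent F] (hVU : V < U)
    (hc : ∀ W : Subgroup G, W.Normal → V ≤ W → W ≤ U → W = V ∨ W = U) : ⁅U, F⁆ ≤ V := by
  rcases hc (⁅U, F⁆ ⊔ V) inferInstance le_sup_right
    (sup_le (Subgroup.commutator_le_left U F) hVU.le) with h | h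
  · exact le_sup_left.trans h.le
  · exfalso
    have key : ∀ n, U ≤ F.lowerCentralSeries n ⊔ V := by
      intro n
      induction n with
      | zero => exact h.ge.trans (sup_le_sup_right (Subgroup.commutator_le_right U F) V)
      | succ n ih =>
        refine h.ge.trans (sup_le ?_ le_sup_right)
        refine (Subgroup.commutator_mono ih le_rfl).trans ?_
        have hn : ∀ m, (F.lowerCentralSeries m).Normal := by
          intro m
          induction m with
          | zero => exact ‹F.Normal›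
          | succ m _ => rw [Subgroup.lowerCentralSeries_succ]; infer_instance
        have := hn (n + 1)
        refine H98.commutator_sup_left_le (Subgroup.le_normalizer_of_normal)
          Subgroup.le_normalizer_of_normal le_sup_left
          ((Subgroup.commutator_le_left V F).trans le_sup_right)
    obtain ⟨n, hn⟩ := (Subgroup.isNilpotent_iff_lowerCentralSeries F).1 hF
    have := key n
    rw [hn, bot_sup_eq] at this
    exact not_le_of_gt hVU this

/-- Let G be a finite solvable group and N a normal subgroup of G. Call a pair V < U of normal subgroups of G a chief factor of G when no normal subgroup of G lies strictly between them; an element g centralizes the chief factor U/V when u g u⁻¹ g⁻¹ ∈ V for all u ∈ U. Then an element of G lies in the Fitting subgroup F(N) if and only if it lies in N and centralizes every chief factor of G; and also if and only if it lies in N and centralizes every chief factor U/V of G with U ≤ F(N). -/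
theorem result {G : Type*} [Group G] [Finite G] (hG : Group.IsSolvable G) (N : Subgroup G) [N.Normal] (g : G) : (g ∈ (Cfsg.fittingSubgroup ↥N).map N.subtype ↔ g ∈ N ∧ ∀ U V : Subgroup G, (U.Normal ∧ V.Normal ∧ V < U ∧ ∀ W : Subgroup G, W.Normal → V ≤ W → W ≤ U → W = V ∨ W = U) → ∀ u ∈ U, u * g * u⁻¹ * g⁻¹ ∈ V) ∧ (g ∈ (Cfsg.fittingSubgroup ↥N).map N.subtype ↔ g ∈ N ∧ ∀ U V : Subgroup G, (U.Normal ∧ V.Normal ∧ V < U ∧ ∀ W : Subgroup G, W.Normal → V ≤ W → W ≤ U → W = V ∨ W = U) → U ≤ (Cfsg.fittingSubgroup ↥N).map N.subtype → ∀ u ∈ U, u * g * u⁻¹ * g⁻¹ ∈ V) := by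
  rw [H2.map_fitting_subtype_eq N]
  have := H2.fitting_normal G
  have := H2.fitting_isNilpotent G
  set F := Cfsg.fittingSubgroup G ⊓ N with hF
  have hFn : Group.IsNilpotent F := H2.isNilpotent_of_le (B := Cfsg.fittingSubgroup G) inf_le_left
  have h1 : g ∈ F → g ∈ N ∧ ∀ U V : Subgroup G, (U.Normal ∧ V.Normal ∧ V < U ∧
      ∀ W : Subgroup G, W.Normal → V ≤ W → W ≤ U → W = V ∨ W = U) →
      ∀ u ∈ U, u * g * u⁻¹ * g⁻¹ ∈ V := by
    intro hg
    refine ⟨hg.2, fun U V ⟨hU, hV, hVU, hc⟩ u hu => ?_⟩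
    exact cent F U V hVU hc (Subgroup.commutator_mem_commutator hu hg)
  have h2 : (g ∈ N ∧ ∀ U V : Subgroup G, (U.Normal ∧ V.Normal ∧ V < U ∧
      ∀ W : Subgroup G, W.Normal → V ≤ W → W ≤ U → W = V ∨ W = U) → U ≤ F →
      ∀ u ∈ U, u * g * u⁻¹ * g⁻¹ ∈ V) → g ∈ F := by
    let C : Subgroup G := N ⊓ ⨅ P : {P : Subgroup G × Subgroup G // (P.1.Normal ∧ P.2.Normal ∧
      P.2 < P.1 ∧ ∀ W : Subgroup G, W.Normal → P.2 ≤ W → W ≤ P.1 → W = P.2 ∨ W = P.1) ∧ P.1 ≤ F},
        H98.stab P.1.1 P.1.2
    have hCn : C.Normal := by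
      have : (⨅ P : {P : Subgroup G × Subgroup G // (P.1.Normal ∧ P.2.Normal ∧
        P.2 < P.1 ∧ ∀ W : Subgroup G, W.Normal → P.2 ≤ W → W ≤ P.1 → W = P.2 ∨ W = P.1) ∧ P.1 ≤ F},
        H98.stab P.1.1 P.1.2).Normal := by
        apply Subgroup.normal_iInf_normal
        rintro ⟨⟨U, V⟩, ⟨hU, hV, -⟩, -⟩
        exact H98.normal_of_top_le_normalizer (H98.le_normalizer_stab
          Subgroup.le_normalizer_of_normal Subgroup.le_normalizer_of_normal)
      infer_instance
    have hCF : C ≤ F := by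
      by_contra hC
      obtain ⟨M, hMn, hFM, hMC, hchief⟩ := H2.exists_chief_factor_above
        (A := F ⊓ C) (B := C) (lt_of_le_of_ne inf_le_right fun e => hC (e.ge.trans inf_le_left))
      have hMM : ⁅M, M⁆ ≤ F ⊓ C := H32.commutator_le_of_chief inferInstance hFM.le hchief
      have key : ∀ U : Subgroup G, U.Normal → U ≤ F → (∃ j, M.lowerCentralSeries j ≤ U) →
          ∃ j, M.lowerCentralSeries j = ⊥ := by
        intro U
        induction U using WellFoundedLT.induction with
        | ind U ih =>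
          rintro hU hUF ⟨j, hj⟩
          by_cases h0 : U = ⊥
          · exact ⟨j, le_bot_iff.1 (h0 ▸ hj)⟩
          · obtain ⟨V, hV, -, hVU, hc⟩ := H2.exists_chief_factor_below
              (A := (⊥ : Subgroup G)) (B := U) (bot_lt_iff_ne_bot.2 h0)
            refine ih V hVU hV (hVU.le.trans hUF) ⟨j + 1, ?_⟩
            rw [Subgroup.lowerCentralSeries_succ]
            refine (Subgroup.commutator_mono hj le_rfl).trans ?_
            refine (H98.le_stab_iff.1 (hMC.trans (inf_le_right.trans ?_))).2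
            exact iInf_le_of_le ⟨(U, V), ⟨hU, hV, hVU, hc⟩, hUF⟩ le_rfl
      have hMnil : Group.IsNilpotent M := (Subgroup.isNilpotent_iff_lowerCentralSeries M).2
        (key F inferInstance le_rfl ⟨1, hMM.trans inf_le_left⟩)
      exact not_le_of_gt hFM (le_inf (le_inf (H2.le_fitting M) (hMC.trans inf_le_left)) hMC)
    rintro ⟨hgN, hg⟩
    refine hCF (Subgroup.mem_inf.2 ⟨hgN, Subgroup.mem_iInf.2 ?_⟩)
    rintro ⟨⟨U, V⟩, hc, hUF⟩
    have := hc.2.1
    exact H98.mem_stab.2 ⟨Subgroup.le_normalizer_of_normal (Subgroup.mem_top g), hg U V hc hUF⟩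
  exact ⟨⟨h1, fun h => h2 ⟨h.1, fun U V hc _ => h.2 U V hc⟩⟩,
    ⟨fun h => ⟨(h1 h).1, fun U V hc _ => (h1 h).2 U V hc⟩, h2⟩⟩

end Cfsg.Agent.S3766
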