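import Cfsg.Statements.S3768
import Cfsg.Agent.Base
import Cfsg.Agent.H5.FrobStruct


set_option autoImplicit false
open Cfsg

namespace Cfsg.Agent.S3768


/-- Let G be a finite Frobenius group with Frobenius complement R and Frobenius kernel K (the identity together with the elements in no conjugate of R), and let N be a normal subgroup of G not containing K. Then G/N is a Frobenius group with Frobenius complement RN/N whose Frobenius kernel is the image of K. -/
theorem result {G : Type*} [Group G] [Finite G] (R : Subgroup G) (hR : Cfsg.IsFrobeniusComplement R) (N : Subgroup G) [N.Normal] (hKN : ¬ Cfsg.frobeniusKernel R ⊆ N) : Cfsg.IsFrobeniusComplement (R.map (QuotientGroup.mk' N)) ∧ Cfsg.frobeniusKernel (R.map (QuotientGroup.mk' N)) = QuotientGroup.mk' N '' Cfsg.frobeniusKernel R := by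
  set K := H5.frobKer hR with hK
  have hNK : N ≤ K := (H5.frobKer_le_or_le hR N).resolve_left hKN
  have hc := H5.frobKer_isComplement' hR
  have hsurj := QuotientGroup.mk'_surjective N
  have hn : (K.map (QuotientGroup.mk' N)).Normal := Subgroup.Normal.map inferInstance _ hsurj
  have hc' : Subgroup.IsComplement' (K.map (QuotientGroup.mk' N)) (R.map (QuotientGroup.mk' N)) := by
    apply Subgroup.isComplement'_of_disjoint_and_mul_eq_univ
    · rw [Subgroup.disjoint_def]
      rintro _ ⟨k, hk, rfl⟩ ⟨r, hr, hrk⟩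
      have h1 : r⁻¹ * k ∈ N := QuotientGroup.eq.1 hrk
      have h2 : r ∈ K := by simpa using K.mul_mem hk (K.inv_mem (hNK h1))
      rw [← hrk, Subgroup.disjoint_def.1 hc.disjoint h2 hr, map_one]
    · rw [Set.eq_univ_iff_forall]
      intro x
      obtain ⟨g, rfl⟩ := hsurj x
      obtain ⟨⟨k, r⟩, rfl⟩ := hc.2 g
      exact ⟨_, ⟨k, k.2, rfl⟩, _, ⟨r, r.2, rfl⟩, (map_mul _ _ _).symm⟩
  have hK' : K.map (QuotientGroup.mk' N) ≠ ⊥ := by
    rw [Ne, Subgroup.map_eq_bot_iff, QuotientGroup.ker_mk']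
    exact hKN
  have hR' : R.map (QuotientGroup.mk' N) ≠ ⊥ := by
    rw [Ne, Subgroup.map_eq_bot_iff, QuotientGroup.ker_mk']
    intro h
    exact hR.1 (hc.disjoint.symm.eq_bot_of_le (h.trans hNK))
  have hF : Cfsg.IsFrobeniusComplement (R.map (QuotientGroup.mk' N)) := by
    apply H5.isFrobeniusComplement_of_fpf hc' hK' hR'
    rintro _ ⟨h, hh, rfl⟩ hh1
    have hh1' : h ≠ 1 := by
      rintro rfl
      exact hh1 (map_one _)
    rw [H5.inf_centralizer_eq_bot_iff]
    rintro _ ⟨k, hk, rfl⟩ hcomm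
    have hfpf := H5.frobKer_inf_centralizer hR h hh hh1'
    have h1 : k * h * k⁻¹ * h⁻¹ ∈ N := by
      rw [← QuotientGroup.ker_mk' N, MonoidHom.mem_ker]
      simp only [map_mul, map_inv, hcomm]
      group
    obtain ⟨y, hy, hyk⟩ := H5.exists_commutator_eq_of_fpf (K := N) (x := h)
      (by rw [Subgroup.normalizer_eq_top]; trivial)
      (eq_bot_iff.2 (hfpf ▸ inf_le_inf_right _ hNK)) h1
    have h2 : y⁻¹ * k = 1 := by
      apply H5.eq_one_of_inf_centralizer_eq_bot hfpf (K.mul_mem (K.inv_mem (hNK hy)) hk)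
      calc y⁻¹ * k * h = y⁻¹ * (k * h * k⁻¹ * h⁻¹) * h * k := by group
        _ = h * (y⁻¹ * k) := by rw [← hyk]; group
    rw [← inv_mul_eq_one.1 h2]
    exact (QuotientGroup.eq_one_iff y).2 hy
  refine ⟨hF, ?_⟩
  have := H5.eq_frobKer_of_isComplement' hF hc'
  change ((H5.frobKer hF : Subgroup (G ⧸ N)) : Set (G ⧸ N)) = _
  rw [← this, Subgroup.coe_map]
  rfl

end Cfsg.Agent.S3768
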