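import Cfsg.Statements.S3771
import Cfsg.Agent.Base
import Cfsg.Agent.H9.Alperin

set_option autoImplicit false
open Cfsg

namespace Cfsg.Agent.S3771

/-- Let p be a prime and R a finite p-group of p-rank at most 2 (no elementary abelian subgroup of order p³) in which every element has order dividing p. Then R has order at most p³. -/
theorem result {R : Type*} [Group R] [Finite R] {p : ℕ} [Fact p.Prime] (hR : IsPGroup p R) (hrank : Cfsg.PRankLE p 2 R) (hexp : ∀ x : R, x ^ p = 1) : Nat.card R ≤ p ^ 3 := by
  have hp : p.Prime := Fact.out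
  have := hR.isNilpotent
  obtain ⟨A, hAn, hA, -, -, hC⟩ := H9.exists_scn_ge (A := (⊥ : Subgroup R)) (N := ⊤)
    inferInstance le_top
  rw [top_inf_eq] at hC
  have h1 := hrank A hA fun a _ => hexp a
  obtain ⟨a, ha⟩ := IsPGroup.iff_card.mp (hR.to_subgroup A)
  have h2 := H9.index_centralizer_le_pow hR a A ha
  have h3 : a ≤ 2 := (Nat.pow_le_pow_iff_right hp.one_lt).mp (ha ▸ h1)
  have h4 : a.choose 2 ≤ 1 := (Nat.choose_le_choose 2 h3).trans (by simp)
  rw [← (Subgroup.centralizer (A : Set R)).card_mul_index, pow_succ]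
  exact Nat.mul_le_mul ((Subgroup.card_le_of_le hC).trans h1)
    (h2.trans ((Nat.pow_le_pow_right hp.pos h4).trans (pow_one p).le))

end Cfsg.Agent.S3771
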