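import Cfsg.Statements.S3772
import Cfsg.Agent.H9.ExtraAut

set_option autoImplicit false
open Cfsg

namespace Cfsg.Agent.S3772

/-- the sign character of `ZMod 2` -/
def χ (a : ZMod 2) : ℤ := if a = 0 then 1 else -1

theorem χ_add (a b : ZMod 2) : χ (a + b) = χ a * χ b := by
  revert a b
  decide

theorem χ_sq (a : ZMod 2) : χ a * χ a = 1 := by
  revert a
  decide

theorem χ_ne {a : ZMod 2} (h : a ≠ 0) : χ a = -1 := if_neg h

theorem sum_χ {A : Type*} [AddCommGroup A] [Fintype A] (l : A → ZMod 2)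
    (hl : ∀ a b, l (a + b) = l a + l b) {a₀ : A} (h : l a₀ ≠ 0) : ∑ a, χ (l a) = 0 := by
  have h1 : ∑ a, χ (l a) = ∑ a, χ (l (a₀ + a)) :=
    (Equiv.sum_comp (Equiv.addLeft a₀) fun a => χ (l a)).symm
  simp only [hl, χ_add, χ_ne h, neg_one_mul, Finset.sum_neg_distrib] at h1
  omega

theorem sq_sum {V : Type*} [AddCommGroup V] [Module (ZMod 2) V] [Fintype V]
    (Q : V → ZMod 2) (B : V →ₗ[ZMod 2] V →ₗ[ZMod 2] ZMod 2)
    (h : ∀ u v, Q (u + v) = Q u + Q v + B u v) :
    (∑ v, χ (Q v)) = 0 ∨ ((∀ v ∈ LinearMap.ker B, Q v = 0) ∧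
      (∑ v, χ (Q v)) ^ 2 = Nat.card V * Nat.card (LinearMap.ker B)) := by
  classical
  by_cases hR : ∀ v ∈ LinearMap.ker B, Q v = 0
  · refine Or.inr ⟨hR, ?_⟩
    have h1 : ∀ u, χ (Q u) * ∑ v, χ (Q v) = ∑ w, χ (Q w) * χ (B w u) := fun u => by
      rw [← Equiv.sum_comp (Equiv.addRight u) fun a => χ (Q a), Finset.mul_sum]
      refine Finset.sum_congr rfl fun w _ => ?_
      rw [Equiv.coe_addRight, h, χ_add, χ_add]
      linear_combination (χ (Q w) * χ (B w u)) * χ_sq (Q u)
    rw [pow_two, Finset.sum_mul, Finset.sum_congr rfl fun u _ => h1 u, Finset.sum_comm]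
    have h2 : ∀ w, ∑ u, χ (Q w) * χ (B w u) =
        if w ∈ LinearMap.ker B then (Nat.card V : ℤ) else 0 := fun w => by
      rw [← Finset.mul_sum]
      split_ifs with hw
      · rw [hR w hw, LinearMap.mem_ker.mp hw]
        simp [χ]
      · obtain ⟨u, hu⟩ : ∃ u, B w u ≠ 0 := by
          by_contra h'
          push Not at h'
          exact hw (LinearMap.ext h')
        rw [sum_χ (B w) (map_add _) hu, mul_zero]
    rw [Finset.sum_congr rfl fun w _ => h2 w, ← Finset.sum_filter, Finset.sum_const,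
      nsmul_eq_mul, mul_comm, Nat.card_eq_fintype_card (α := LinearMap.ker B),
      Fintype.card_subtype]
  · left
    push Not at hR
    obtain ⟨r, hr, hQ⟩ := hR
    have h1 : ∑ a, χ (Q a) = ∑ a, χ (Q (r + a)) :=
      (Equiv.sum_comp (Equiv.addLeft r) fun a => χ (Q a)).symm
    simp only [h, LinearMap.mem_ker.mp hr, LinearMap.zero_apply, add_zero, χ_add, χ_ne hQ,
      neg_one_mul, Finset.sum_neg_distrib] at h1
    omega

theorem sum_eq {V : Type*} [Fintype V] (Q : V → ZMod 2) :
    ∑ v, χ (Q v) = 2 * (Nat.card {v // Q v = 0} : ℤ) - Nat.card V := by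
  classical
  have h1 : ∀ v, χ (Q v) = 2 * (if Q v = 0 then 1 else 0) - 1 := fun v => by
    unfold χ
    split_ifs <;> norm_num
  rw [Finset.sum_congr rfl fun v _ => h1 v, Finset.sum_sub_distrib, ← Finset.mul_sum,
    Finset.sum_boole, Nat.card_eq_fintype_card, Fintype.card_subtype, Nat.card_eq_fintype_card]
  simp

/-- Let G be a finite 2-group whose Frattini subgroup Φ(G) has order 2, with |G : Φ(G)| = 2^d, and let j be the number of elements x of G with x² = 1. Then j = 2^d, or j = 2^d + 2^(d−r) or j = 2^d − 2^(d−r) for some positive integer r with 2r ≤ d. Moreover if d = 2r and j is 2^d + 2^r or 2^d − 2^r, then G is extraspecial. -/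
theorem result {G : Type*} [Group G] [Finite G] (hG : IsPGroup 2 G) (hΦ : Nat.card (frattini G) = 2) (d : ℕ) (hd : (frattini G).index = 2 ^ d) : (Nat.card {x : G // x ^ 2 = 1} = 2 ^ d ∨ ∃ r : ℕ, 1 ≤ r ∧ 2 * r ≤ d ∧ (Nat.card {x : G // x ^ 2 = 1} = 2 ^ d + 2 ^ (d - r) ∨ Nat.card {x : G // x ^ 2 = 1} + 2 ^ (d - r) = 2 ^ d)) ∧ (∀ r : ℕ, d = 2 * r → (Nat.card {x : G // x ^ 2 = 1} = 2 ^ d + 2 ^ r ∨ Nat.card {x : G // x ^ 2 = 1} + 2 ^ r = 2 ^ d) → Cfsg.IsExtraspecial 2 G) := by
  obtain ⟨d', c, hZ⟩ := H27.exists_cform_of_card_frattini hG hΦ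
  have hV : Nat.card (Fin d' → ZMod 2) = 2 ^ d' := H27.card_fin_zmod 2 d'
  obtain rfl : d' = d := by
    rw [← hZ, c.index_Z, hV] at hd
    exact Nat.pow_right_injective le_rfl hd
  have h1 := sq_sum (c.P 2) (c.B 2) c.P_add_two
  have h2 := c.card_pow_eq_one 2
  rw [Nat.card_zmod] at h2
  rw [sum_eq, hV, ← Nat.cast_ofNat, ← Nat.cast_mul, ← h2] at h1
  set j := Nat.card {x : G // x ^ 2 = 1} with hj
  set k := Module.finrank (ZMod 2) (LinearMap.ker (c.B 2)) with hk
  rw [H27.card_eq_pow_finrank_zmod 2 (LinearMap.ker (c.B 2)), ← hk] at h1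
  have hkd : (∀ v ∈ LinearMap.ker (c.B 2), c.P 2 v = 0) → k < d' := fun h => by
    have h3 : LinearMap.ker (c.B 2) ≠ ⊤ := fun h4 => by
      have h5 : frattini G ≤ ⊥ := H9.frattini_le_of_forall (p := 2) (fun x y => by
        rw [Subgroup.mem_bot, ← c.ζ_B 2, LinearMap.ker_eq_top.mp h4]
        exact c.ζ_zero) fun x => by
          rw [Subgroup.mem_bot, ← c.P_eq_zero_iff]
          exact h _ (h4 ▸ Submodule.mem_top)
      rw [le_bot_iff.mp h5] at hΦ
      simp at hΦ
    simpa using Submodule.finrank_lt h3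
  constructor
  · rcases h1 with h1 | ⟨h0, h1⟩
    · left
      omega
    · right
      have h3 := hkd h0
      push_cast at h1
      rw [← pow_add] at h1
      obtain ⟨s, hs⟩ : Even (d' + k) := by
        by_contra h4
        obtain ⟨s, hs⟩ := Nat.not_even_iff_odd.mp h4
        have h5 : IsSquare (2 * 2 ^ s * 2 ^ s : ℤ) := ⟨_, by rw [← pow_two, h1, hs]; ring⟩
        have h6 : IsSquare (2 * 2 ^ s * 2 ^ s : ℕ) := by
          rw [← Int.isSquare_natCast_iff]
          exact_mod_cast h5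
        obtain ⟨t, ht⟩ := h6
        have h7 := congrArg (Nat.factorization · 2) ht
        have ht0 : t ≠ 0 := by
          rintro rfl
          simp at ht
        simp only [Nat.factorization_mul ht0 ht0] at h7
        rw [show 2 * 2 ^ s * 2 ^ s = 2 ^ (2 * s + 1) by ring, Nat.prime_two.factorization_pow] at h7
        simp at h7
        omega
      refine ⟨d' - s, by omega, by omega, ?_⟩
      rw [show d' - (d' - s) = s by omega]
      rw [hs, pow_add, ← pow_two, sq_eq_sq_iff_eq_or_eq_neg] at h1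
      rcases h1 with h1 | h1
      · left
        zify
        linear_combination h1
      · right
        zify
        linear_combination h1
  · intro r hr h
    have h3 : ((j : ℤ) - (2 ^ d' : ℕ)) ^ 2 = 2 ^ d' := by
      rw [hr, mul_comm 2 r, pow_mul (2 : ℤ), sq_eq_sq_iff_eq_or_eq_neg, mul_comm r 2, ← hr]
      rcases h with h | h
      · left
        rw [h]; push_cast; ring
      · right
        rw [← h]; push_cast; ring
    rcases h1 with h1 | ⟨h0, h1⟩
    · rw [h1] at h3
      exact absurd h3.symm (by positivity)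
    · have h4 := hkd h0
      rw [h3] at h1
      push_cast at h1
      rw [← pow_add] at h1
      have h5 : d' = d' + k := by
        have : (2 : ℕ) ^ d' = 2 ^ (d' + k) := by exact_mod_cast h1
        exact Nat.pow_right_injective le_rfl this
      have h6 : LinearMap.ker (c.B 2) = ⊥ := Submodule.finrank_eq_zero.mp (by omega)
      have : Nonempty (Fin d') := ⟨⟨0, by omega⟩⟩
      refine c.isExtraspecial (c.nondeg_of_center fun x hx => ?_)
      rw [c.mem_Z, ← Submodule.mem_bot (ZMod 2), ← h6]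
      exact LinearMap.ext ((c.mem_center_iff 2).mp hx)

end Cfsg.Agent.S3772
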