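import Cfsg.Agent.Base
import Cfsg.Statements.S3773
import Cfsg.Agent.H61.Sq3

set_option autoImplicit false
open Cfsg

namespace Cfsg.Agent.S3773



/-- Let G be a finite 2-group of nilpotency class at most 2 and exponent dividing 4 in which the elements x with x² = 1 form a subgroup N. Then |G| ≤ |N|³, and |G| < |N|³ unless G is special. -/
theorem result {G : Type*} [Group G] [Finite G] (hG : IsPGroup 2 G) (hcl : (⊤ : Subgroup G).lowerCentralSeries 2 = ⊥) (hexp : ∀ x : G, x ^ 4 = 1) (hN : ∀ x y : G, x ^ 2 = 1 → y ^ 2 = 1 → (x * y) ^ 2 = 1) : Nat.card G ≤ Nat.card {x : G // x ^ 2 = 1} ^ 3 ∧ (¬ Cfsg.IsSpecial 2 G → Nat.card G < Nat.card {x : G // x ^ 2 = 1} ^ 3) := by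
  let N : Subgroup G :=
    { carrier := {x | x ^ 2 = 1}
      one_mem' := one_pow 2
      mul_mem' := fun {x y} hx hy => hN x y hx hy
      inv_mem' := fun {x} hx => show x⁻¹ ^ 2 = 1 by rw [inv_pow, show x ^ 2 = 1 from hx, inv_one] }
  obtain ⟨h1, h2⟩ := H61.Sq.card_le_cube (N := N) hG (by
    rw [← Subgroup.centralizer_univ]
    exact Subgroup.commutator_eq_bot_iff_le_centralizer.1 hcl) hexp fun _ => Iff.rfl
  change Nat.card G ≤ Nat.card N ^ 3 ∧ (_ → Nat.card G < Nat.card N ^ 3)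
  rw [← N.card_mul_index, pow_succ']
  exact ⟨Nat.mul_le_mul_left _ h1, fun h => Nat.mul_lt_mul_of_pos_left (h2 h) Nat.card_pos⟩

end Cfsg.Agent.S3773
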