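import Cfsg.Agent.Base
import Cfsg.Statements.S3774


set_option autoImplicit false
open Cfsg

namespace Cfsg.Agent.S3774

theorem dvd_of_pow_sub_one {n k : ℕ} (h : 2 ^ n - 1 ∣ 2 ^ k - 1) : n ∣ k := by
  have h1 := Nat.pow_sub_one_gcd_pow_sub_one 2 n k
  rw [Nat.gcd_eq_left h] at h1
  have h2 : 2 ^ n = 2 ^ n.gcd k := by
    have := Nat.one_le_two_pow (n := n)
    have := Nat.one_le_two_pow (n := n.gcd k)
    omega
  exact Nat.pow_right_injective le_rfl h2 ▸ Nat.gcd_dvd_right n k

/-- Let G be a nontrivial finite 2-group whose automorphism group permutes the involutions of G transitively. Then every involution of G is central, so that the involutions together with 1 form the subgroup Ω₁(Z(G)), and if this subgroup has order q then |G| is a power of q. -/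
theorem result {G : Type*} [Group G] [Finite G] [Nontrivial G] (hG : IsPGroup 2 G) (htrans : ∀ x y : G, x ≠ 1 → x ^ 2 = 1 → y ≠ 1 → y ^ 2 = 1 → ∃ a : MulAut G, a x = y) : (∀ x : G, x ^ 2 = 1 → x ∈ Subgroup.center G) ∧ ∃ m : ℕ, Nat.card G = Nat.card {z : G // z ^ 2 = 1} ^ m := by
  classical
  have := Fintype.ofFinite G
  have hZ : ∀ x : G, x ^ 2 = 1 → x ∈ Subgroup.center G := by
    have := hG.center_nontrivial
    obtain ⟨k, k0, hk⟩ := (hG.to_subgroup (Subgroup.center G)).nontrivial_iff_card.mp this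
    obtain ⟨z, hz⟩ := exists_prime_orderOf_dvd_card' (G := Subgroup.center G) 2
      (hk ▸ dvd_pow_self 2 k0.ne')
    rw [← Subgroup.orderOf_coe, orderOf_eq_prime_iff] at hz
    intro x hx
    by_cases x1 : x = 1
    · exact x1 ▸ one_mem _
    obtain ⟨a, rfl⟩ := htrans z x hz.2 hz.1 x1 hx
    rw [Subgroup.mem_center_iff]
    intro g
    obtain ⟨g, rfl⟩ := a.surjective g
    rw [← map_mul, ← map_mul, Subgroup.mem_center_iff.mp z.2]
  refine ⟨hZ, ?_⟩
  let N : Subgroup G :=
    { carrier := {z | z ^ 2 = 1}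
      one_mem' := one_pow 2
      inv_mem' := fun {x} hx => by rw [Set.mem_ofPred_eq, inv_pow, hx, inv_one]
      mul_mem' := fun {x y} hx hy => by
        rw [Set.mem_ofPred_eq, Commute.mul_pow (Subgroup.mem_center_iff.mp (hZ y hy) x), hx, hy,
          mul_one] }
  obtain ⟨n, hn⟩ := (hG.to_subgroup N).exists_card_eq
  obtain ⟨k, hk⟩ := hG.exists_card_eq
  replace hn : Nat.card {z : G // z ^ 2 = 1} = 2 ^ n := hn
  let τ : G → G := fun x => x ^ (orderOf x / 2)
  have hτ : ∀ x : G, x ≠ 1 → τ x ≠ 1 ∧ τ x ^ 2 = 1 := fun x x1 => by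
    obtain ⟨j, hj⟩ := IsPGroup.iff_orderOf.mp hG x
    rcases j with _ | j
    · exact absurd (orderOf_eq_one_iff.mp hj) x1
    have e : orderOf x / 2 = 2 ^ j := by rw [hj, pow_succ]; simp
    refine ⟨pow_ne_one_of_lt_orderOf (by rw [e]; positivity) (by rw [e, hj, pow_succ]; simp), ?_⟩
    rw [← pow_mul, e, ← pow_succ, ← hj, pow_orderOf_eq_one]
  have hτa : ∀ (a : MulAut G) x, τ (a x) = a (τ x) := fun a x => by
    simp only [τ, map_pow, MulEquiv.orderOf_eq]
  obtain ⟨x0, hx0⟩ := exists_ne (1 : G)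
  have h1 := Finset.card_eq_sum_card_fiberwise (s := Finset.univ.erase (1 : G))
    (t := (Finset.univ.filter fun z : G => z ^ 2 = 1).erase 1) (f := τ) fun x hx => by
      simpa using (hτ x (by simpa using hx)).symm
  rw [Finset.sum_const_nat (m := ((Finset.univ.erase (1 : G)).filter fun x => τ x = τ x0).card)]
    at h1
  · rw [Finset.card_erase_of_mem (Finset.mem_univ _), Finset.card_erase_of_mem (by simp),
      Finset.card_univ, ← Nat.card_eq_fintype_card, hk, ← Fintype.card_subtype,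
      ← Nat.card_eq_fintype_card, hn] at h1
    obtain ⟨m, rfl⟩ := dvd_of_pow_sub_one ⟨_, h1⟩
    exact ⟨m, by rw [hk, hn, pow_mul]⟩
  · intro y hy
    obtain ⟨a, ha⟩ := htrans y (τ x0) (by simpa using Finset.ne_of_mem_erase hy)
      (by simpa using Finset.mem_of_mem_erase hy) (hτ x0 hx0).1 (hτ x0 hx0).2
    refine Finset.card_bijective a a.bijective fun x => ?_
    simp [← ha, hτa]

end Cfsg.Agent.S3774
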