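import Cfsg.Statements.S3775
import Cfsg.Agent.H48.Maschke

set_option autoImplicit false
open Cfsg

namespace Cfsg.Agent.S3775

open Subgroup

section
variable {A : Type*} [CommGroup A] {p : ℕ} {X : Subgroup (MulAut A)} {B C S U V : Subgroup A}

/-- invariant subgroups -/
def Iv (X : Subgroup (MulAut A)) (B : Subgroup A) : Prop := ∀ x ∈ X, ∀ b ∈ B, x b ∈ B

theorem iv_iff : (∀ x ∈ X, B.map x.toMonoidHom = B) ↔ Iv X B :=
  ⟨fun h x hx b hb => h x hx ▸ mem_map_of_mem x.toMonoidHom hb, fun h x hx => le_antisymm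
    (by rintro _ ⟨b, hb, rfl⟩; exact h x hx b hb)
    fun b hb => ⟨x⁻¹ b, h _ (inv_mem hx) b hb, MulAut.apply_inv_self A x b⟩⟩

/-- `{a | a ^ n ∈ C}` -/
abbrev Om (n : ℕ) (C : Subgroup A) : Subgroup A := C.comap (powMonoidHom n)
/-- `{a ^ n | a ∈ C}` -/
abbrev Mh (n : ℕ) (C : Subgroup A) : Subgroup A := C.map (powMonoidHom n)

theorem Iv.om (h : Iv X C) (n : ℕ) : Iv X (Om n C) := fun x hx b hb => by
  simpa using h x hx _ hb
theorem Iv.mh (h : Iv X C) (n : ℕ) : Iv X (Mh n C) := by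
  rintro x hx _ ⟨b, hb, rfl⟩
  exact ⟨x b, h x hx b hb, by simp⟩
theorem Iv.inf (h : Iv X B) (h' : Iv X C) : Iv X (B ⊓ C) := fun x hx b hb =>
  ⟨h x hx b hb.1, h' x hx b hb.2⟩
theorem Iv.sup (h : Iv X B) (h' : Iv X C) : Iv X (B ⊔ C) := fun x hx a ha => by
  obtain ⟨b, hb, c, hc, rfl⟩ := mem_sup.1 ha
  rw [map_mul]; exact mul_mem_sup (h x hx b hb) (h' x hx c hc)
theorem iv_bot : Iv X ⊥ := fun x _ b hb => by rw [mem_bot.1 hb, map_one]; exact one_mem _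
theorem iv_top : Iv X ⊤ := fun _ _ _ _ => mem_top _

variable [Finite A] [Fact p.Prime]

theorem msec (hX : (Nat.card X).Coprime p) (hS : Iv X S) (hU : Iv X U) (hV : Iv X V) (h1 : S ≤ U)
    (h2 : U ≤ V) (h3 : V ≤ Om p S) : ∃ W, Iv X W ∧ U ⊓ W = S ∧ U ⊔ W = V := by
  let G := A ⋊[X.subtype] X
  haveI : Finite G := Finite.of_equiv _ SemidirectProduct.equivProd.symm
  let i : A →* G := SemidirectProduct.inl
  let j : X →* G := SemidirectProduct.inr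
  have hi : Function.Injective i := SemidirectProduct.inl_injective
  have e : ∀ (x : X) a, j x * i a * (j x)⁻¹ = i (x.1 a) := fun x a => by
    rw [← map_inv]; exact (SemidirectProduct.inl_aut x a).symm
  have n : ∀ {D}, Iv X D → j.range ≤ normalizer (D.map i : Set G) := by
    rintro D hD _ ⟨x, rfl⟩
    refine mem_normalizer_fintype ?_
    rintro _ ⟨a, ha, rfl⟩
    exact ⟨_, hD _ x.2 a ha, (e x a).symm⟩
  obtain ⟨W, -, k2, k3, k4, k5⟩ := H48.maschke_section (p := p) (A := j.range) (map_mono h1)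
    (map_mono h2) (by
      rw [← Subgroup.map_commutator]
      exact map_mono (commutator_le.2 fun a _ b _ => by
        rw [commutatorElement_eq_one_iff_mul_comm.2 (mul_comm a b)]; exact one_mem _))
    (by rintro _ ⟨v, hv, rfl⟩; exact ⟨v ^ p, h3 hv, map_pow _ _ _⟩) (n hS) (n hU) (n hV)
    (hX.coprime_dvd_left (card_range_dvd j))
  have k6 : (W.comap i).map i = W := map_comap_eq_self (k2.trans (map_le_range _ _))
  refine ⟨W.comap i, fun x hx b hb => ?_, map_injective hi ?_, map_injective hi ?_⟩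
  · rw [mem_comap, ← e ⟨x, hx⟩]
    exact (mem_normalizer_iff.1 (k3 ⟨⟨x, hx⟩, rfl⟩) _).1 hb
  · rw [map_inf _ _ _ hi, k6, k4]
  · rw [Subgroup.map_sup, k6, k5]

theorem exists_om (hA : IsPGroup p A) {a : A} (h : a ∉ C) : ∃ k, a ^ p ^ k ∉ C ∧
    (a ^ p ^ k) ^ p ∈ C := by
  classical
  have : ∃ k, a ^ p ^ k ∈ C := let ⟨k, e⟩ := hA a; ⟨k, e ▸ one_mem _⟩
  obtain ⟨k, e⟩ := Nat.exists_eq_succ_of_ne_zero (n := Nat.find this) (by simpa using h)
  exact ⟨k, Nat.find_min this (by omega), by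
    rw [← pow_mul, ← pow_succ, ← Nat.succ_eq_add_one, ← e]; exact Nat.find_spec this⟩

theorem eq_om (hA : IsPGroup p A) (hC : Iv X C)
    (h : ∀ D, Iv X D → C ≤ D → D ≤ Om p C → D = C ∨ D = Om p C) (hB : Iv X B) (hl : C ≤ B) :
    ∃ i, B = Om (p ^ i) C := by
  classical
  have : ∃ i, B ≤ Om (p ^ i) C := by
    obtain ⟨n, hn⟩ := hA.exists_card_eq
    exact ⟨n, fun b _ => by simp [← hn]⟩
  refine ⟨Nat.find this, le_antisymm (Nat.find_spec this) ?_⟩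
  have key : ∀ j ≤ Nat.find this, Om (p ^ j) C ≤ B := fun j => by
    induction j with
    | zero => exact fun _ a ha => hl (by simpa using ha)
    | succ j ih =>
      intro hj a ha
      obtain ⟨b, hb, n⟩ := SetLike.not_le_iff_exists.1 (Nat.find_min this hj)
      obtain ⟨k, k1, k2⟩ := exists_om hA (a := b ^ p ^ j) n
      rcases h _ (((hB.mh (p ^ j)).sup hC).inf (hC.om p)) (le_inf le_sup_right fun c hc =>
        pow_mem hc p) inf_le_right with e | e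
      · exact absurd (e.le ⟨mem_sup_left (pow_mem (mem_map_of_mem _ hb) _), k2⟩) k1
      · obtain ⟨_, ⟨d, hd, rfl⟩, c, hc, e⟩ := mem_sup.1 (e.ge (show a ^ p ^ j ∈ Om p C by
          simpa [pow_succ, pow_mul] using ha)).1
        refine (mul_mem_cancel_left (inv_mem hd)).1 (ih (by omega) ?_)
        rw [mem_comap, map_mul, map_inv, powMonoidHom_apply (p ^ j) a, ← e, inv_mul_cancel_left]
        exact hc
  exact key _ le_rfl

theorem irr (hA : IsPGroup p A) (hX : (Nat.card X).Coprime p)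
    (h : ∀ B C : Subgroup A, Iv X B → Iv X C → B ⊓ C = ⊥ → B ⊔ C = ⊤ → B = ⊥ ∨ C = ⊥) :
    ∀ D, Iv X D → ⊥ ≤ D → D ≤ Om p ⊥ → D = ⊥ ∨ D = Om p ⊥ := by
  classical
  have : ∃ i, ∀ a : A, a ^ p ^ i = 1 := by
    obtain ⟨n, hn⟩ := hA.exists_card_eq
    exact ⟨n, fun b => by simp [← hn]⟩
  by_cases h0 : Nat.find this = 0
  · exact fun D _ _ _ => .inl (eq_bot_iff.2 fun a _ => by simpa [h0] using Nat.find_spec this a)
  obtain ⟨f, hf⟩ := Nat.exists_eq_succ_of_ne_zero h0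
  have ex : ∀ a : A, a ^ p ^ (f + 1) = 1 := by
    rw [← Nat.succ_eq_add_one, ← hf]; exact Nat.find_spec this
  obtain ⟨a, ha⟩ := not_forall.1 (Nat.find_min this (m := f) (by omega))
  obtain ⟨B, -, ⟨iB, b, hb, nb⟩, mB⟩ := Finite.exists_le_minimal
    (p := fun B => Iv X B ∧ ∃ b ∈ B, b ^ p ^ f ≠ 1) (a := ⊤) ⟨iv_top, a, mem_top a, ha⟩
  have h1 : B ⊓ Om (p ^ f) ⊥ ≤ Mh p B ⊓ Om (p ^ f) ⊥ := by
    obtain ⟨W, iW, k1, k2⟩ := msec hX ((iB.mh p).inf (iv_bot.om (p ^ f))) (iB.inf (iv_bot.om _)) iB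
      (inf_le_inf_right _ (by rintro _ ⟨c, hc, rfl⟩; exact pow_mem hc p)) inf_le_left
      fun c hc => ⟨mem_map_of_mem _ hc, by simpa [← pow_mul, ← pow_succ'] using ex c⟩
    obtain ⟨u, hu, w, hw, rfl⟩ := mem_sup.1 (k2.ge hb)
    rw [← k1]
    exact le_inf le_rfl (inf_le_left.trans (mB ⟨iW, w, hw, by
      rwa [mul_pow, show u ^ p ^ f = 1 from hu.2, one_mul] at nb⟩ (k2 ▸ le_sup_right)))
  have h2 : ∀ j ≤ f, B ⊓ Om p ⊥ ≤ Mh (p ^ j) B := fun j => by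
    induction j with
    | zero => exact fun _ c hc => ⟨c, hc.1, by simp⟩
    | succ j ih =>
      intro hj c hc
      obtain ⟨d, hd, rfl⟩ := ih (by omega) hc
      obtain ⟨g, rfl⟩ := Nat.exists_eq_add_of_le hj
      obtain ⟨⟨u, hu, rfl⟩, -⟩ := h1 ⟨hd, show d ^ _ = 1 by
        rw [pow_add, pow_succ, pow_mul, pow_mul, show (d ^ p ^ j) ^ p = 1 from hc.2, one_pow]⟩
      exact ⟨u, hu, by simp [pow_succ', pow_mul]⟩
  obtain ⟨C, -, ⟨iC, dC⟩, mC⟩ := Finite.exists_le_maximal (p := fun C => Iv X C ∧ B ⊓ C = ⊥)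
    (a := ⊥) ⟨iv_bot, inf_bot_eq _⟩
  have h3 : ∀ D, Iv X D → C ≤ D → D ≤ Om p C → D = C ∨ b ^ p ^ f ∈ D := fun D iD l1 l2 => by
    refine or_iff_not_imp_left.2 fun n => ?_
    obtain ⟨⟨c, hc⟩, c1⟩ := ne_bot_iff_exists_ne_one.1 fun e => n (le_antisymm (mC ⟨iD, e⟩ l1) l1)
    obtain ⟨d, hd, rfl⟩ := h2 f le_rfl ⟨hc.1, dC.le ⟨pow_mem hc.1 p, l2 hc.2⟩⟩
    exact (mB ⟨iB.inf (iD.om (p ^ f)), d, ⟨hd, hc.2⟩, fun e => c1 (Subtype.ext e)⟩ inf_le_left hb).2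
  have h4 : ∀ D, Iv X D → C ≤ D → D ≤ Om p C → D = C ∨ D = Om p C := fun D iD l1 l2 => by
    obtain ⟨W, iW, k1, k2⟩ := msec hX iC iD (iC.om p) l1 l2 le_rfl
    refine (h3 D iD l1 l2).imp_right fun m => ?_
    rcases h3 W iW (k1 ▸ inf_le_right) (k2 ▸ le_sup_right) with e | e
    · rw [← k2, e, sup_eq_left.2 l1]
    · exact absurd (dC.le ⟨pow_mem hb _, k1.le ⟨m, e⟩⟩) nb
  obtain ⟨i, e⟩ := eq_om hA iC h4 (iB.sup iC) le_sup_right
  have fi : f < i := not_le.1 fun l => nb (by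
    obtain ⟨g, rfl⟩ := Nat.exists_eq_add_of_le l
    rw [pow_add, pow_mul, show b ^ p ^ i = 1 from dC.le ⟨pow_mem hb _, e.le (mem_sup_left hb)⟩,
      one_pow])
  obtain ⟨g, rfl⟩ := Nat.exists_eq_add_of_le (Nat.succ_le_of_lt fi)
  rcases h B C iB iC dC (e.trans (eq_top_iff.2 fun c _ => by
    rw [mem_comap, powMonoidHom_apply, pow_add, pow_mul, ex, one_pow]; exact one_mem _)) with k | k
  · exact absurd (by rw [mem_bot.1 (k.le hb), one_pow]) nb
  · exact k ▸ h4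

end

/-- Let A be a finite abelian p-group and X a group of automorphisms of A of order prime to p. Call a subgroup of A invariant when every element of X maps it onto itself. Then the following are equivalent: (i) A is not the direct product of two nontrivial invariant subgroups; (ii) every invariant subgroup of A is one of the subgroups Ω_i(A) = {a : a^(p^i) = 1}; (iii) the subgroup Ω₁(A) of elements of order dividing p has no invariant subgroups other than 1 and itself. -/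
theorem result {A : Type*} [CommGroup A] [Finite A] {p : ℕ} [Fact p.Prime] (hA : IsPGroup p A) (X : Subgroup (MulAut A)) (hX : (Nat.card X).Coprime p) : ((¬ ∃ B C : Subgroup A, B ≠ ⊥ ∧ C ≠ ⊥ ∧ (∀ x ∈ X, B.map x.toMonoidHom = B) ∧ (∀ x ∈ X, C.map x.toMonoidHom = C) ∧ B ⊓ C = ⊥ ∧ B ⊔ C = ⊤) ↔ (∀ B : Subgroup A, (∀ x ∈ X, B.map x.toMonoidHom = B) → ∃ i : ℕ, ∀ a : A, a ∈ B ↔ a ^ p ^ i = 1)) ∧ ((∀ B : Subgroup A, (∀ x ∈ X, B.map x.toMonoidHom = B) → ∃ i : ℕ, ∀ a : A, a ∈ B ↔ a ^ p ^ i = 1) ↔ (∀ B : Subgroup A, (∀ x ∈ X, B.map x.toMonoidHom = B) → (∀ b ∈ B, b ^ p = 1) → B = ⊥ ∨ ∀ a : A, a ∈ B ↔ a ^ p = 1)) := by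
  simp only [iv_iff]
  have k : (∀ D, Iv X D → ⊥ ≤ D → D ≤ Om p ⊥ → D = ⊥ ∨ D = Om p ⊥) →
      ∀ B : Subgroup A, Iv X B → ∃ i : ℕ, ∀ a : A, a ∈ B ↔ a ^ p ^ i = 1 := fun h B hB => by
    obtain ⟨i, rfl⟩ := eq_om hA iv_bot h hB bot_le
    exact ⟨i, fun a => Iff.rfl⟩
  refine ⟨⟨fun h => k (irr hA hX fun B C h1 h2 h3 h4 => by
    by_contra! n
    exact h ⟨B, C, n.1, n.2, h1, h2, h3, h4⟩), ?_⟩, fun h B hB l => ?_, fun h => k fun D h1 _ h2 =>
      (h D h1 h2).imp_right fun e => Subgroup.ext e⟩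
  · rintro h ⟨B, C, n1, n2, h1, h2, h3, -⟩
    obtain ⟨i, hi⟩ := h B h1
    obtain ⟨j, hj⟩ := h C h2
    rcases le_total i j with l | l <;> obtain ⟨g, rfl⟩ := Nat.exists_eq_add_of_le l
    · exact n1 (eq_bot_iff.2 fun a ha => h3.le ⟨ha, (hj a).2 (by
        rw [pow_add, pow_mul, (hi a).1 ha, one_pow])⟩)
    · exact n2 (eq_bot_iff.2 fun a ha => h3.le ⟨(hi a).2 (by
        rw [pow_add, pow_mul, (hj a).1 ha, one_pow]), ha⟩)
  · obtain ⟨i, hi⟩ := h B hB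
    rcases i with _ | i
    · exact .inl (eq_bot_iff.2 fun a ha => by simpa using (hi a).1 ha)
    · exact .inr fun a => ⟨l a, fun e => (hi a).2 (by rw [pow_succ', pow_mul, e, one_pow])⟩

end Cfsg.Agent.S3775
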