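import Cfsg.Statements.S3778
import Cfsg.Agent.Base
import Cfsg.Agent.H3.Frattini

set_option autoImplicit false
open Cfsg

namespace Cfsg.Agent.S3778


open Subgroup
open scoped commutatorElement

section
variable {G : Type*} [Group G]

abbrev γ (G : Type*) [Group G] (i : ℕ) : Subgroup G := (⊤ : Subgroup G).lowerCentralSeries i

def D (G : Type*) [Group G] (i : ℕ) : Subgroup G where
  carrier := {x | ∀ y ∈ γ G i, ⁅y, x⁆ ∈ γ G (i + 2)}
  one_mem' := fun y _ => by simp
  mul_mem' := fun {a b} ha hb y hy => by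
    have e : ⁅y, a * b⁆ = ⁅y, a⁆ * (a * ⁅y, b⁆ * a⁻¹) := by
      simp only [commutatorElement_def]; group
    rw [e]
    exact mul_mem (ha y hy) (Normal.conj_mem inferInstance _ (hb y hy) a)
  inv_mem' := fun {a} ha y hy => by
    have e : ⁅y, a⁻¹⁆ = a⁻¹ * ⁅y, a⁆⁻¹ * a⁻¹⁻¹ := by
      simp only [commutatorElement_def]; group
    rw [e]
    exact Normal.conj_mem inferInstance _ (inv_mem (ha y hy)) _

theorem le_of_stable {i : ℕ} (h : γ G i ≤ γ G (i + 1)) (k : ℕ) : γ G i ≤ γ G (i + k) := by
  induction k with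
  | zero => exact le_rfl
  | succ k ih => exact h.trans (commutator_mono ih le_rfl)

variable [Finite G] {p : ℕ} [hp : Fact p.Prime]

theorem le_of_ne_one (hG : IsPGroup p G) {H : Subgroup G} (h : H ≠ ⊤) : p ≤ H.index := by
  obtain ⟨n, hn⟩ := hG.index H
  rcases n with _ | n
  · exact absurd (index_eq_one.1 hn) h
  · rw [hn]
    exact Nat.le_self_pow (by omega) p

open Classical in
theorem pow_le (hG : IsPGroup p G) (x : G) (k : ℕ) :
    p ^ ((Finset.range k).filter fun i => x ∉ D G i).card ≤
      (centralizer {x} ⊔ γ G k).index := by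
  induction k with
  | zero => simp
  | succ k ih =>
    have h1 : centralizer {x} ⊔ γ G (k + 1) ≤ centralizer {x} ⊔ γ G k :=
      sup_le_sup_left (Subgroup.lowerCentralSeries_antitone _ k.le_succ) _
    rw [← relIndex_mul_index h1, Finset.range_add_one, Finset.filter_insert]
    split_ifs with h
    · exact ih.trans (Nat.le_mul_of_pos_left _ (Nat.pos_of_ne_zero index_ne_zero_of_finite))
    · rw [Finset.card_insert_of_notMem (by simp), pow_succ']
      refine Nat.mul_le_mul (le_of_ne_one (hG.to_subgroup _) fun e => h fun y hy => ?_) ih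
      obtain ⟨c, hc, n, hn, rfl⟩ := H3.mem_sup_normal_left.1
        (sup_comm (centralizer {x}) _ ▸ subgroupOf_eq_top.1 e (mem_sup_right hy))
      have e : ⁅c * n, x⁆ = ⁅c, x⁆ := by
        rw [commutatorElement_def, commutatorElement_def, mul_assoc c,
          mem_centralizer_singleton_iff.1 hn]
        group
      rw [e]
      exact commutator_mem_commutator hc (mem_top x)

end

/-- If G is a finite p-group in which every conjugacy class has at most p^b elements (every element has centralizer of index at most p^b), then G is abelian when b = 0, and when b ≥ 1 its nilpotency class c satisfies (c − 1)(p − 1) < bp, that is c < bp/(p − 1) + 1, and hence c ≤ 2b. -/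
theorem result {G : Type*} [Group G] [Finite G] {p : ℕ} [Fact p.Prime] (hG : IsPGroup p G) (b : ℕ) (hb : ∀ x : G, (Subgroup.centralizer ({x} : Set G)).index ≤ p ^ b) : ∃ c : ℕ, (⊤ : Subgroup G).lowerCentralSeries c = ⊥ ∧ (b ≠ 0 → (c - 1) * (p - 1) < b * p ∧ c ≤ 2 * b) ∧ (b = 0 → c ≤ 1) := by
  classical
  open Subgroup in
  have hp : p.Prime := Fact.out
  by_cases h0 : b = 0
  · refine ⟨1, ?_, fun h => absurd h0 h, fun _ => le_rfl⟩
    rw [top_lowerCentralSeries_one, eq_bot_iff, _root_.commutator, commutator_le]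
    intro x _ y _
    have h1 := hb y
    rw [h0, pow_zero] at h1
    have h2 : centralizer {y} = ⊤ := index_eq_one.1
      (le_antisymm h1 (Nat.pos_of_ne_zero index_ne_zero_of_finite))
    exact commutatorElement_eq_one_iff_mul_comm.2
      (mem_centralizer_singleton_iff.1 (h2.ge (mem_top x)))
  have := hG.isNilpotent
  have := Fintype.ofFinite G
  obtain ⟨c, hc⟩ : ∃ c, c = Group.nilpotencyClass G := ⟨_, rfl⟩
  have h1 : ∀ i ∈ Finset.range (c - 1),
      (p - 1) * Fintype.card G ≤ p * (Finset.univ.filter fun x => x ∉ D G i).card := by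
    intro i hi
    have h2 : D G i ≠ ⊤ := fun e => by
      have h3 : γ G (i + 1) ≤ γ G (i + 1 + 1) :=
        commutator_le.2 fun y hy x _ => e.ge (mem_top x) y hy
      have h4 := le_of_stable h3 c
      rw [show γ G (i + 1 + c) = ⊥ from
        Subgroup.lowerCentralSeries_eq_bot_iff_nilpotencyClass_le.2 (by omega),
        le_bot_iff, Subgroup.lowerCentralSeries_eq_bot_iff_nilpotencyClass_le] at h4
      rw [Finset.mem_range] at hi
      omega
    have h3 := le_of_ne_one hG h2
    have h4 := (D G i).card_mul_index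
    have h5 := Finset.card_filter_add_card_filter_not (s := Finset.univ) fun x => x ∈ D G i
    rw [Finset.card_univ, ← Fintype.card_subtype, ← Nat.card_eq_fintype_card] at h5
    rw [Nat.card_eq_fintype_card (α := G)] at h4
    obtain ⟨q, rfl⟩ : ∃ q, p = q + 1 := ⟨p - 1, by have := hp.pos; omega⟩
    rw [Nat.add_sub_cancel]
    have h6 := Nat.mul_le_mul_left (Nat.card (D G i)) h3
    nlinarith
  have h2 : ∀ x : G, ((Finset.range (c - 1)).filter fun i => x ∉ D G i).card ≤ b := fun x =>
    (Nat.pow_le_pow_iff_right hp.one_lt).1 ((pow_le hG x _).trans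
      ((Nat.le_of_dvd (Nat.pos_of_ne_zero index_ne_zero_of_finite)
        (index_dvd_of_le le_sup_left)).trans (hb x)))
  have h3 : ∑ x : G, ((Finset.range (c - 1)).filter fun i => x ∉ D G i).card <
      ∑ _x : G, b := Finset.sum_lt_sum (fun x _ => h2 x) ⟨1, Finset.mem_univ _, by
        rw [Finset.filter_false_of_mem fun i _ => not_not.2 (one_mem _)]
        exact Nat.pos_of_ne_zero h0⟩
  have h4 := Finset.sum_le_sum h1
  simp only [Finset.card_filter] at h3 h4
  rw [Finset.sum_comm, Finset.sum_const, Finset.card_univ, smul_eq_mul] at h3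
  rw [Finset.sum_const, ← Finset.mul_sum, Finset.card_range, smul_eq_mul] at h4
  have h5 : (c - 1) * (p - 1) < b * p := by
    refine Nat.lt_of_mul_lt_mul_right (a := Fintype.card G) ?_
    have := Nat.mul_lt_mul_of_pos_left h3 hp.pos
    nlinarith
  refine ⟨c, hc ▸ Subgroup.lowerCentralSeries_nilpotencyClass, fun _ => ⟨h5, ?_⟩, fun h => absurd h h0⟩
  by_contra h6
  have h7 : 2 * b ≤ c - 1 := by omega
  have h8 := Nat.mul_le_mul_right (p - 1) h7
  obtain ⟨q, rfl⟩ : ∃ q, p = q + 2 := ⟨p - 2, by have := hp.two_le; omega⟩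
  rw [show q + 2 - 1 = q + 1 from rfl] at h5 h8
  nlinarith

end Cfsg.Agent.S3778
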