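import Cfsg.Statements.S3785
import Cfsg.Agent.H48.Rank2Solv
import Cfsg.Agent.H9.Critical
import Cfsg.Agent.H98.Core

set_option autoImplicit false
open Cfsg

namespace Cfsg.Agent.S3785

/-- Let G be a finite solvable group whose Fitting subgroup F(G) has odd order. If an element g of G commutes with every element of prime order of F(G), then g ∈ F(G). -/
theorem result {G : Type*} [Group G] [Finite G] (hG : Group.IsSolvable G) (hodd : Odd (Nat.card (Cfsg.fittingSubgroup G))) (g : G) (hg : ∀ x ∈ Cfsg.fittingSubgroup G, (orderOf x).Prime → g * x = x * g) : g ∈ Cfsg.fittingSubgroup G := by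
  haveI := hG
  haveI : (Cfsg.fittingSubgroup G).Normal := H2.fitting_normal G
  let N := Subgroup.centralizer {x | x ∈ Cfsg.fittingSubgroup G ∧ (orderOf x).Prime}
  haveI : N.Normal := ⟨fun n hn c x hx => by
    have := hn (c⁻¹ * x * c) ⟨(inferInstance : (Cfsg.fittingSubgroup G).Normal).conj_mem' _ hx.1 c, by
      have e := (MulAut.conj c⁻¹).orderOf_eq x
      rw [MulAut.conj_apply, inv_inv] at e
      rw [e]; exact hx.2⟩
    calc x * (c * n * c⁻¹) = c * (c⁻¹ * x * c * n) * c⁻¹ := by group
      _ = _ := by rw [this]; group⟩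
  refine H48.le_fitting_of_forall_pow (N := N) (fun q hq n hn => ?_) fun x hx => (hg x hx.1 hx.2).symm
  haveI := Fact.mk hq
  have l : Cfsg.pCore q G ≤ Cfsg.fittingSubgroup G :=
    le_sSup ⟨inferInstance, (H98.isPGroup_pCore q G).isNilpotent⟩
  by_cases h2 : q = 2
  · subst h2
    obtain ⟨m, hm⟩ := (H98.isPGroup_pCore 2 G).exists_card_eq
    have := hodd.of_dvd_nat (Subgroup.card_dvd_of_le l)
    rw [hm] at this
    rcases m with _ | m
    · refine ⟨0, fun x hx => ?_⟩
      rw [Subgroup.mem_bot.1 ((Subgroup.eq_bot_of_card_eq _ hm).le hx), one_mul, mul_one]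
    · exact absurd this (by simp [pow_succ])
  obtain ⟨k, hk⟩ := H98.exists_pow_coprime (p := q) (isOfFinOrder_of_finite n)
  obtain ⟨H, -, h1, -, -, h4⟩ := H9.exists_characteristic_exponent_p_faithful h2
    (H98.isPGroup_pCore q G)
  have := h4 (MulAut.conjNormal (n ^ q ^ k)) (hk.coprime_dvd_left (orderOf_map_dvd _ _))
    fun x hx => Subtype.ext (by
      rw [MulAut.conjNormal_apply, mul_inv_eq_iff_eq_mul]
      by_cases x1 : (x : G) = 1
      · rw [x1, one_mul, mul_one]
      · exact (pow_mem hn _ _ ⟨l x.2, by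
          rwa [orderOf_eq_prime (congrArg Subtype.val (h1 x hx)) x1]⟩).symm)
  refine ⟨k, fun x hx => ?_⟩
  have e := congrArg Subtype.val (DFunLike.congr_fun this ⟨x, hx⟩)
  rw [MulAut.conjNormal_apply, mul_inv_eq_iff_eq_mul] at e
  exact e.symm

end Cfsg.Agent.S3785
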