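import Cfsg.Statements.S3787
import Cfsg.Agent.H18.HHGroup
import Cfsg.Agent.H94.Involves
import Cfsg.Agent.H18.Misc

set_option autoImplicit false
open Cfsg

namespace Cfsg.Agent.S3787

open Subgroup Module Polynomial

theorem finrank_ker_pow_le {K E : Type*} [Field K] [AddCommGroup E] [Module K E]
    [FiniteDimensional K E] (δ : Module.End K E) (k : ℕ) :
    finrank K (LinearMap.ker (δ ^ k)) ≤ k * finrank K (LinearMap.ker δ) := by
  induction k with
  | zero => simp [Module.End.one_eq_id]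
  | succ k ih =>
    have h1 := LinearMap.finrank_range_add_finrank_ker (δ.domRestrict (LinearMap.ker (δ ^ (k + 1))))
    have h2 : finrank K (LinearMap.range (δ.domRestrict (LinearMap.ker (δ ^ (k + 1))))) ≤
        finrank K (LinearMap.ker (δ ^ k)) := Submodule.finrank_mono (by
      rintro _ ⟨⟨v, hv⟩, rfl⟩
      rwa [pow_succ] at hv)
    have h3 : finrank K (LinearMap.ker (δ.domRestrict (LinearMap.ker (δ ^ (k + 1))))) ≤
        finrank K (LinearMap.ker δ) := by
      rw [← Submodule.finrank_map_subtype_eq]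
      exact Submodule.finrank_mono (by rintro _ ⟨v, hv, rfl⟩; exact hv)
    rw [add_mul, one_mul]
    omega

theorem finrank_eq {p : ℕ} [hp : Fact p.Prime] {E : Type*} [AddCommGroup E] [Module (ZMod p) E]
    [FiniteDimensional (ZMod p) E] (α : Module.End (ZMod p) E) (h : α ^ p = 1)
    (h1 : ∑ i ∈ Finset.range p, α ^ i ≠ 0) (h2 : finrank (ZMod p) (LinearMap.ker (α - 1)) ≤ 1) :
    finrank (ZMod p) E = p := by
  have e1 : ((X - 1 : (ZMod p)[X])) ^ p = X ^ p - 1 := by rw [sub_pow_char, one_pow]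
  have e2 : ∑ i ∈ Finset.range p, (X : (ZMod p)[X]) ^ i = (X - 1) ^ (p - 1) := by
    apply mul_right_cancel₀ (X_sub_C_ne_zero (1 : ZMod p))
    rw [map_one, geom_sum_mul, ← pow_succ, Nat.sub_add_cancel hp.out.pos, e1]
  have e3 : (α - 1) ^ p = 0 := by simpa [h] using congrArg (aeval α) e1
  have e4 : (α - 1) ^ (p - 1) ≠ 0 := fun e => h1 (by simpa [e] using congrArg (aeval α) e2)
  apply le_antisymm
  · have := finrank_ker_pow_le (α - 1) p
    rw [e3, LinearMap.ker_zero, finrank_top] at this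
    exact this.trans (by nlinarith)
  · by_contra hlt
    have := LinearMap.aeval_self_charpoly (α - 1)
    rw [IsNilpotent.charpoly_eq_X_pow_finrank ⟨p, e3⟩, map_pow, aeval_X] at this
    exact e4 (pow_eq_zero_of_le (by omega) this)

/-- The group `C_p ≀ C_p`. -/
def IsWr (p : ℕ) (W : Type) [Group W] : Prop :=
  ∃ (B : Subgroup W) (t : W), B.Normal ∧ IsMulCommutative B ∧ (∀ b ∈ B, b ^ p = 1) ∧
    Nat.card B = p ^ p ∧ orderOf t = p ∧ t ∉ B ∧ Nat.card W = p ^ (p + 1) ∧
    Nat.card ↥(B ⊓ Subgroup.centralizer ({t} : Set W)) = p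

theorem base {p : ℕ} [hp : Fact p.Prime] {Y : Type} [Group Y] [Finite Y] (B : Subgroup Y)
    [B.Normal] (hB : IsElementaryAbelian p B) {x v : Y} (hx : x ∉ B) (hxp : x ^ p ∈ B)
    (htop : B ⊔ zpowers x = ⊤) (hv : v ∈ B) (hw : (v * x) ^ p * (x ^ p)⁻¹ ≠ 1)
    (hC : B ⊓ centralizer {x} ≤ zpowers ((v * x) ^ p * (x ^ p)⁻¹)) : IsWr p Y := by
  haveI := H22.isEA_of_isElementaryAbelian hB
  let ρ := H22.eaRep p (MulAut.conjNormal : Y →* MulAut B)
  have key : ∀ (u : B) (m : ℕ), ∃ w : B, (w : Y) = (u * x) ^ m * (x ^ m)⁻¹ ∧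
      H22.toEA p w = (∑ i ∈ Finset.range m, ρ x ^ i) (H22.toEA p u) := by
    intro u m
    induction m with
    | zero => exact ⟨1, by simp, by simp [H22.toEA_one]⟩
    | succ m ih =>
      obtain ⟨w, hw1, hw2⟩ := ih
      refine ⟨w * MulAut.conjNormal (x ^ m) u, ?_, ?_⟩
      · rw [Subgroup.coe_mul, hw1, MulAut.conjNormal_apply, pow_succ, pow_succ]; group
      · rw [H22.toEA_mul, hw2, Finset.sum_range_succ, LinearMap.add_apply, ← map_pow,
          H22.eaRep_apply]
  obtain ⟨w, hw1, hw2⟩ := key ⟨v, hv⟩ p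
  rw [← hw1] at hw hC
  have hwo : orderOf (w : Y) = p := orderOf_eq_prime (hB.2 _ w.2) hw
  have hxx : x ^ p ∈ B ⊓ centralizer {x} :=
    ⟨hxp, mem_centralizer_singleton_iff.2 ((Commute.refl x).pow_left p)⟩
  have hcomm : ∀ a ∈ B, ∀ b ∈ B, a * b = b * a := fun a ha b hb =>
    congrArg Subtype.val (hB.1.is_comm.comm ⟨a, ha⟩ ⟨b, hb⟩)
  have hρ : ρ x ^ p = 1 := by
    rw [← map_pow, H22.eaRep_eq_one_iff]
    ext b
    rw [MulAut.conjNormal_apply, hcomm _ hxp _ b.2]; simp
  have hwC : (w : Y) ∈ B ⊓ centralizer {x} := by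
    refine ⟨w.2, mem_centralizer_singleton_iff.2 ?_⟩
    have h1 : ρ x (H22.toEA p w) = H22.toEA p w := by
      rw [hw2, ← Module.End.mul_apply, ← sub_eq_zero, ← LinearMap.sub_apply, ← sub_one_mul,
        mul_geom_sum, hρ, sub_self, LinearMap.zero_apply]
    have h2 := congrArg Subtype.val ((H22.toEA p).injective h1)
    rw [MulAut.conjNormal_apply, mul_inv_eq_iff_eq_mul] at h2
    exact h2.symm
  have hCe : B ⊓ centralizer {x} = zpowers (w : Y) := le_antisymm hC (zpowers_le.2 hwC)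
  have hcard : Nat.card B = p ^ p := by
    have h1 := H22.card_fixed_eq_pow (p := p) (MulAut.conjNormal : Y →* MulAut B) {x}
    have h2 : Nat.card {v : B // ∀ s ∈ ({x} : Set Y), MulAut.conjNormal s v = v} = p ^ 1 := by
      rw [pow_one, ← hwo, ← Nat.card_zpowers, ← hCe]
      refine Nat.card_congr ⟨fun u => ⟨u.1, u.1.2, mem_centralizer_singleton_iff.2 ?_⟩,
        fun u => ⟨⟨u.1, u.2.1⟩, ?_⟩, fun _ => rfl, fun _ => rfl⟩
      · have := congrArg Subtype.val (u.2 x rfl)
        rw [MulAut.conjNormal_apply, mul_inv_eq_iff_eq_mul] at this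
        exact this.symm
      · rintro _ rfl
        exact Subtype.ext (by
          rw [MulAut.conjNormal_apply, ← mem_centralizer_singleton_iff.1 u.2.2]; simp)
    have h3 := Nat.pow_right_injective hp.out.two_le (h1.symm.trans h2)
    have h4 := finrank_eq (ρ x) hρ (fun e => hw (by
      rw [e] at hw2
      exact congrArg Subtype.val ((H22.toEA p).injective hw2))) (by
      rw [← h3]
      refine Submodule.finrank_mono fun u hu => ?_
      rintro _ rfl
      exact sub_eq_zero.1 hu)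
    have := Module.natCard_eq_pow_finrank (K := ZMod p) (V := H22.EA p B)
    rwa [Nat.card_zmod, h4] at this
  obtain ⟨j, hj⟩ := (mem_powers_iff_mem_zpowers.2 (hC (inv_mem hxx)))
  obtain ⟨w', hw1', hw2'⟩ := key (⟨v, hv⟩ ^ j) p
  rw [H22.toEA_pow, map_nsmul, ← hw2, ← H22.toEA_pow] at hw2'
  rw [(H22.toEA p).injective hw2', Subgroup.coe_pow, show (w : Y) ^ j = _ from hj,
    eq_comm, mul_eq_right, Subgroup.coe_pow] at hw1'
  have ht : v ^ j * x ∉ B := fun h => hx ((B.mul_mem_cancel_left (pow_mem hv j)).1 h)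
  refine ⟨B, v ^ j * x, inferInstance, hB.1, hB.2, hcard,
    orderOf_eq_prime hw1' (fun e => ht (e ▸ one_mem _)), ht, ?_, ?_⟩
  · rw [← B.card_mul_index, hcard, ← relIndex_top_right, ← htop,
      H3.relIndex_sup_zpowers_eq_prime hx hxp, pow_succ]
  · rw [← hwo, ← Nat.card_zpowers, ← hCe]
    congr 3
    ext b
    simp only [mem_inf, mem_centralizer_singleton_iff]
    refine and_congr_right fun hb => ?_
    rw [← mul_assoc, hcomm _ hb _ (pow_mem hv j), mul_assoc, mul_assoc, mul_right_inj]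

theorem wr {p : ℕ} [hp : Fact p.Prime] (n : ℕ) : ∀ (Y : Type) [Group Y] [Finite Y],
    Nat.card Y ≤ n → ∀ (B : Subgroup Y) [B.Normal], IsElementaryAbelian p B → ∀ x v : Y, x ∉ B →
    x ^ p ∈ B → B ⊔ zpowers x = ⊤ → v ∈ B → (v * x) ^ p * (x ^ p)⁻¹ ≠ 1 →
    ∃ (W : Type) (_ : Group W) (_ : Finite W), IsWr p W ∧ Involves W Y := by
  induction n with
  | zero => intro Y _ _ h; exact absurd h (not_le.2 Nat.card_pos)
  | succ n ih =>
  intro Y _ _ hn B _ hB x v hx hxp htop hv hw
  by_cases hC : B ⊓ centralizer {x} ≤ zpowers ((v * x) ^ p * (x ^ p)⁻¹)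
  · exact ⟨Y, inferInstance, inferInstance, base B hB hx hxp htop hv hw hC, H94.involves_refl Y⟩
  obtain ⟨c, hc, hcw⟩ := SetLike.not_le_iff_exists.1 hC
  have hc1 : c ≠ 1 := fun e => hcw (e ▸ one_mem _)
  have hcen : c ∈ center Y := H18.mem_center_of_sup htop
    (le_centralizer_iff_isMulCommutative.2 hB.1 hc.1)
    (H18.mem_centralizer_zpowers_iff.2 (mem_centralizer_singleton_iff.1 hc.2))
  haveI : (zpowers c).Normal := H18.normal_of_le_center (zpowers_le.2 hcen)
  let f := QuotientGroup.mk' (zpowers c)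
  have hf : Function.Surjective f := QuotientGroup.mk'_surjective _
  have hk : f.ker ≤ B := by rw [QuotientGroup.ker_mk']; exact zpowers_le.2 hc.1
  haveI := hB.1
  haveI : (B.map f).Normal := Normal.map inferInstance f hf
  obtain ⟨W, _, _, h1, h2⟩ := ih (Y ⧸ zpowers c) (Nat.le_of_lt_succ ((H18.card_quotient_lt
    (by simpa using hc1)).trans_le hn)) (B.map f) ⟨inferInstance, by
      rintro _ ⟨b, hb, rfl⟩; rw [← map_pow, hB.2 b hb, map_one]⟩ (f x) (f v)
    (fun h => hx (by rwa [← mem_comap, comap_map_eq_self hk] at h))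
    (map_pow f x p ▸ mem_map_of_mem f hxp)
    (by rw [← MonoidHom.map_zpowers, ← Subgroup.map_sup, htop, map_top_of_surjective f hf])
    (mem_map_of_mem f hv) (by
      rw [← map_mul, ← map_pow, ← map_pow, ← map_inv, ← map_mul]
      intro e
      have h3 := (QuotientGroup.eq_one_iff _).1 e
      have h4 : (Nat.card (zpowers c)).Prime := by
        rw [Nat.card_zpowers, orderOf_eq_prime (hB.2 c hc.1) hc1]; exact hp.out
      exact hcw ((H18.zpowers_eq_of_card_prime h4 h3 hw).ge (mem_zpowers c)))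
  exact ⟨W, inferInstance, inferInstance, h1, H94.involves_trans h2 (H94.involves_quotient _)⟩

/-- Let G be a finite p-soluble group, p an odd prime not of the form 2^k + 1, and suppose the wreath product C_p ≀ C_p (of order p^(p+1)) is not involved in a Sylow p-subgroup of G: no section of a Sylow p-subgroup is isomorphic to it. Then G has p-length at most 1. -/
theorem result {G : Type*} [Group G] [Finite G] {p : ℕ} [Fact p.Prime] (hp2 : p ≠ 2) (hnf : (¬ ∃ k : ℕ, p = 2 ^ k + 1)) (hG : Cfsg.IsPSolvable p G) (P : Sylow p G) (hwr : ∀ (W : Type) [Group W] [Finite W], (∃ (B : Subgroup W) (t : W), B.Normal ∧ IsMulCommutative B ∧ (∀ b ∈ B, b ^ p = 1) ∧ Nat.card B = p ^ p ∧ orderOf t = p ∧ t ∉ B ∧ Nat.card W = p ^ (p + 1) ∧ Nat.card ↥(B ⊓ Subgroup.centralizer ({t} : Set W)) = p) → ¬ Cfsg.Involves W ↥(P : Subgroup G)) : Cfsg.PLengthLE p 1 G := by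
  have hp : p.Prime := Fact.out
  let e : Shrink.{0} G ≃* G := Shrink.mulEquiv
  haveI : Finite (Shrink.{0} G) := Finite.of_equiv _ e.symm.toEquiv
  refine H18.pLengthLE_of_surjective (H18.pLengthLE_of_step' (fun k X _ =>
    (∀ (W : Type) [Group W] [Finite W], IsWr p W → ¬ Involves W X) ∧
      (k = 0 → (Nat.card X).Coprime p)) ?_ (fun X _ _ _ h => h.2 rfl) ?_ 1 (Shrink.{0} G)
    (H18.isPSolvable_of_injective hG e.toMonoidHom e.injective) ⟨fun W _ _ hW h => ?_, by simp⟩)
    e.toMonoidHom e.surjective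
  · rintro k X Y _ _ _ f hf ⟨h1, h2⟩
    exact ⟨fun W _ _ hW h => h1 W hW (H94.involves_trans h (H94.involves_of_surjective f hf)),
      fun h => (h2 h).coprime_dvd_left (card_dvd_of_surjective f hf)⟩
  · rintro k X _ _ hX hV hC ⟨h1, -⟩
    refine ⟨fun W _ _ hW h => h1 W hW (H94.involves_trans h (H94.involves_quotient _)), fun _ => ?_⟩
    rw [Nat.coprime_comm, hp.coprime_iff_not_dvd]
    intro hd
    obtain ⟨y, hy⟩ := exists_prime_orderOf_dvd_card' p hd
    obtain ⟨x, rfl⟩ := QuotientGroup.mk_surjective y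
    have hx : x ∉ pCore p X := fun h => by
      rw [(QuotientGroup.eq_one_iff x).2 h, orderOf_one] at hy
      exact hp.one_lt.ne hy
    have hxp : x ^ p ∈ pCore p X := by
      rw [← QuotientGroup.eq_one_iff, QuotientGroup.mk_pow]
      exact orderOf_dvd_iff_pow_eq_one.1 hy.dvd
    obtain ⟨v, hv, hw⟩ : ∃ v ∈ pCore p X, (v * x) ^ p * (x ^ p)⁻¹ ≠ 1 := by
      by_contra hc
      push Not at hc
      obtain ⟨q, k, l, m, hq, -, h2, h3, h4, -⟩ := H18.hh_norm hX hV hC (x := x) (n := 0)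
        (by simpa using hx) (by simpa using hxp) fun v hv => by
          simpa [mul_inv_eq_one] using hc v hv
      obtain rfl : l = 0 := by omega
      rw [zero_add, pow_one] at h4
      refine hnf ⟨m, ?_⟩
      rwa [(hq.eq_two_or_odd').resolve_right fun h => ?_] at h4
      have := hp.odd_of_ne_two hp2
      rw [h4] at this
      exact (Nat.not_even_iff_odd.2 this) (h.pow.add_one)
    let T := pCore p X ⊔ zpowers x
    have hxT : x ∈ T := mem_sup_right (mem_zpowers x)
    haveI := hV.1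
    obtain ⟨W, _, _, h2, h3⟩ := wr _ T le_rfl ((pCore p X).subgroupOf T)
      ⟨inferInstance, fun a ha => Subtype.ext (hV.2 a ha)⟩ ⟨x, hxT⟩ ⟨v, mem_sup_left hv⟩ hx hxp
      (by
        apply map_injective T.subtype_injective
        rw [Subgroup.map_sup, MonoidHom.map_zpowers, subgroupOf_map_subtype, inf_eq_left.2 le_sup_left,
          ← MonoidHom.range_eq_map, range_subtype]
        rfl) hv (fun h => hw (congrArg Subtype.val h))
    exact h1 W h2 (H94.involves_trans h3 (H94.involves_subgroup T))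
  · have hW' := hW
    obtain ⟨-, -, -, -, -, -, -, -, hc, -⟩ := hW'
    exact hwr W hW (H94.involves_sylow (IsPGroup.of_card hc)
      ((H94.involves_congr_right e).1 h) P)

end Cfsg.Agent.S3787
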