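import Cfsg.Statements.S3790
import Cfsg.Agent.H18.PLength

set_option autoImplicit false
open Cfsg

namespace Cfsg.Agent.S3790

universe u
open Subgroup

theorem aux (p : ℕ) [hp : Fact p.Prime] (l : ℕ → ℕ) (s : Finset ℕ) : (∀ q ∈ s, q.Prime ∧ q ≠ p) →
    ∀ (G : Type u) [Group G] [Finite G], Group.IsSolvable G →
    (∀ q : ℕ, q.Prime → q ∣ Nat.card G → q ≠ p → q ∈ s) →
    (∀ q ∈ s, PLengthLE q (l q) G) → PLengthLE p (∏ q ∈ s, (1 + l q)) G := by
  classical
  induction s using Finset.induction_on with
  | empty =>
    intro _ G _ _ _ hc _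
    refine H18.pLengthLE_one_of_isPGroup (IsPGroup.iff_card.2
      ⟨_, Nat.eq_prime_pow_of_unique_prime_dvd Nat.card_pos.ne' fun {d} hd hdd => ?_⟩)
    by_contra h
    simpa using hc d hd hdd h
  | insert q s hqs ih =>
    intro hs
    obtain ⟨hq, hqp⟩ := hs q (Finset.mem_insert_self _ _)
    haveI := Fact.mk hq
    have base : ∀ (G : Type u) [Group G] [Finite G], Group.IsSolvable G →
        (∀ r : ℕ, r.Prime → r ∣ Nat.card G → r ≠ p → r ∈ insert q s) →
        (∀ r ∈ s, PLengthLE r (l r) G) → (Nat.card G).Coprime q →
        PLengthLE p (∏ q ∈ s, (1 + l q)) G := fun G _ _ hG hc hl h0 =>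
      ih (fun r hr => hs r (Finset.mem_insert_of_mem hr)) G hG (fun r hr hd hrp =>
        (Finset.mem_insert.1 (hc r hr hd hrp)).resolve_left (by
          rintro rfl
          exact (hr.coprime_iff_not_dvd.1 h0.symm) hd)) hl
    have key : ∀ (k : ℕ) (G : Type u) [Group G] [Finite G], Group.IsSolvable G →
        (∀ r : ℕ, r.Prime → r ∣ Nat.card G → r ≠ p → r ∈ insert q s) →
        (∀ r ∈ s, PLengthLE r (l r) G) → PLengthLE q k G →
        PLengthLE p ((1 + k) * ∏ q ∈ s, (1 + l q)) G := by
      intro k
      induction k with
      | zero =>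
        intro G _ _ hG hc hl h0
        simpa using base G hG hc hl (H18.pLengthLE_zero_iff.1 h0)
      | succ k ihk =>
        intro G _ _ hG hc hl h0
        have h1 := ihk (G ⧸ pPrimePCore q G) inferInstance
          (fun r hr hd => hc r hr (hd.trans (card_quotient_dvd_card _))) (fun r hr => by
            haveI := Fact.mk (hs r (Finset.mem_insert_of_mem hr)).1
            exact H18.pLengthLE_quotient (hl r hr) _) (H18.pLengthLE_succ_iff.1 h0)
        have h2 : PLengthLE p (∏ q ∈ s, (1 + l q)) (pPrimePCore q G) := by
          let K := (pPrimeCore q G).subgroupOf (pPrimePCore q G)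
          refine H18.pLengthLE_of_index_coprime K ?_ (base K inferInstance
            (fun r hr hd => hc r hr (hd.trans ((card_subgroup_dvd_card _).trans
              (card_subgroup_dvd_card _)))) (fun r hr => by
            haveI := Fact.mk (hs r (Finset.mem_insert_of_mem hr)).1
            exact H18.pLengthLE_subgroup (H18.pLengthLE_subgroup (hl r hr) _) _)
            ((H2.coprime_card_pPrimeCore q G).coprime_dvd_left (H2.card_subgroupOf_dvd _ _)))
          obtain ⟨m, hm⟩ := (H2.pCore_isPGroup q (G ⧸ pPrimeCore q G)).exists_card_eq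
          have : K.index = q ^ m := by
            rw [← hm, ← map_comap_eq_self_of_surjective (QuotientGroup.mk'_surjective _) (pCore q _),
              ← relIndex_ker, QuotientGroup.ker_mk']
            rfl
          rw [this]
          exact ((Nat.coprime_primes hq hp.out).2 hqp).pow_left _
        have := H18.pLengthLE_add_of_normal _ h2 h1
        rwa [show ∀ a, a + (1 + k) * a = (1 + (k + 1)) * a from fun a => by ring] at this
    intro G _ _ hG hc hl
    rw [Finset.prod_insert hqs]
    exact key _ G hG hc (fun r hr => hl r (Finset.mem_insert_of_mem hr))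
      (hl q (Finset.mem_insert_self _ _))

/-- Let G be a finite solvable group and p a prime. Suppose p₁, …, p_r are distinct primes, all different from p, that include every prime dividing the order of G other than p, and that G has p_i-length at most l_i for each i. Then G has p-length at most the product of the numbers 1 + l_i. -/
theorem result {G : Type*} [Group G] [Finite G] (hG : Group.IsSolvable G) (p : ℕ) [Fact p.Prime] (r : ℕ) (q : Fin r → ℕ) (hq : ∀ i, (q i).Prime ∧ q i ≠ p) (hinj : Function.Injective q) (hcover : ∀ s : ℕ, s.Prime → s ∣ Nat.card G → s ≠ p → ∃ i, q i = s) (l : Fin r → ℕ) (hl : ∀ i, Cfsg.PLengthLE (q i) (l i) G) : Cfsg.PLengthLE p (Finset.univ.prod fun i => 1 + l i) G := by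
  classical
  let l' : ℕ → ℕ := Function.extend q l 0
  have hl' : ∀ i, l' (q i) = l i := fun i => hinj.extend_apply _ _ i
  have := aux p l' (Finset.univ.image q) (by simpa using hq) G hG
    (fun s h1 h2 h3 => by simpa using hcover s h1 h2 h3) (by
      simp only [Finset.mem_image, Finset.mem_univ, true_and]
      rintro _ ⟨i, rfl⟩
      rw [hl']; exact hl i)
  rwa [Finset.prod_image (fun a _ b _ h => hinj h), Finset.prod_congr rfl fun i _ => by
    rw [hl']] at this

end Cfsg.Agent.S3790
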