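import Cfsg.Statements.S3791
import Cfsg.Agent.H18.PLength
import Cfsg.Agent.H4.HallBasic
import Cfsg.Agent.H2.MinNormal

set_option autoImplicit false
open Cfsg

namespace Cfsg.Agent.S3791

universe u
open Subgroup

theorem aux (d : ℕ → ℕ) : ∀ (n : ℕ) (G : Type u) [Group G] [Finite G], Nat.card G ≤ n →
    Group.IsSolvable G → ∀ (s : Finset ℕ) (l : ℕ → ℕ), (∀ q ∈ s, q.Prime) →
    (∀ q : ℕ, q.Prime → q ∣ Nat.card G → q ∈ s) →
    (∀ q ∈ s, ∀ P : Subgroup G, IsPGroup q P → derivedSeries P (d q) = ⊥) →
    (∀ q ∈ s, PLengthLE q (l q) G) → derivedSeries G (∑ q ∈ s, d q * l q) = ⊥ := by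
  intro n
  induction n with
  | zero => intro G _ _ h; exact absurd h (not_le.2 Nat.card_pos)
  | succ n ih =>
  intro G _ _ hn hG s l hs hc hd hl
  have hquot : ∀ (N : Subgroup G) [N.Normal], N ≠ ⊥ → ∀ l' : ℕ → ℕ,
      (∀ q ∈ s, PLengthLE q (l' q) (G ⧸ N)) → derivedSeries G (∑ q ∈ s, d q * l' q) ≤ N := by
    intro N _ hN l' hl'
    have := ih (G ⧸ N) (Nat.le_of_lt_succ ((H4.card_quotient_lt N hN).trans_le hn)) inferInstance s l'
      hs (fun q hq h => hc q hq (h.trans (card_quotient_dvd_card N))) (fun q hq P hP => by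
        haveI := Fact.mk (hs q hq)
        obtain ⟨Q, hQ, rfl⟩ := H10.exists_isPGroup_map_eq _ (QuotientGroup.mk'_surjective N) hP
        rw [← map_derivedSeries_eq (((QuotientGroup.mk' N).subgroupMap_surjective Q)), hd q hq Q hQ,
          Subgroup.map_bot]) hl'
    rwa [← map_derivedSeries_eq (QuotientGroup.mk'_surjective N), Subgroup.map_eq_bot_iff,
      QuotientGroup.ker_mk'] at this
  have hq0 : ∀ (N : Subgroup G) [N.Normal], N ≠ ⊥ → derivedSeries G (∑ q ∈ s, d q * l q) ≤ N :=
    fun N _ hN => hquot N hN l fun q hq => by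
      haveI := Fact.mk (hs q hq)
      exact H18.pLengthLE_quotient (hl q hq) N
  rcases subsingleton_or_nontrivial G with h0 | h0
  · exact Subsingleton.elim _ _
  obtain ⟨p, hp, hne⟩ := H2.exists_pCore_ne_bot G
  haveI := Fact.mk hp
  by_cases h1 : pPrimeCore p G = ⊥
  swap
  · exact eq_bot_iff.2 ((le_inf (hq0 _ hne) (hq0 _ h1)).trans
      (H2.disjoint_pCore_pPrimeCore p G).le_bot)
  have hpd : p ∣ Nat.card G := by
    by_contra h
    exact hne (H2.pCore_eq_bot_of_not_dvd h)
  have hps := hc p hp hpd
  obtain ⟨k, hk⟩ : ∃ k, l p = k + 1 := Nat.exists_eq_succ_of_ne_zero fun e => by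
    have := hl p hps
    rw [e, H18.pLengthLE_zero_iff, Nat.coprime_comm, hp.coprime_iff_not_dvd] at this
    exact this hpd
  have h2 := hquot _ hne (Function.update l p k) fun q hq => by
    haveI := Fact.mk (hs q hq)
    by_cases e : q = p
    · subst e
      have := hl q hq
      rw [hk, H18.pLengthLE_succ_iff] at this
      rw [Function.update_self]
      exact H18.pLengthLE_of_surjective this
        (QuotientGroup.quotientMulEquivOfEq (H18.pPrimePCore_eq_pCore h1)).toMonoidHom
        (MulEquiv.surjective _)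
    · rw [Function.update_of_ne e]
      exact H18.pLengthLE_quotient (hl q hq) _
  have h3 : ∑ q ∈ s, d q * l q = ∑ q ∈ s, d q * Function.update l p k q + d p := by
    rw [← Finset.add_sum_erase s _ hps, ← Finset.add_sum_erase s _ hps, Function.update_self, hk,
      Finset.sum_congr (g := fun q => d q * Function.update l p k q) rfl fun q hq => by
        rw [Function.update_of_ne (Finset.ne_of_mem_erase hq)]]
    ring
  have h4 : ∀ (m j : ℕ) (K : Subgroup G), derivedSeries G m ≤ K →
      derivedSeries G (m + j) ≤ (derivedSeries K j).map K.subtype := by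
    intro m j K hK
    induction j with
    | zero => rwa [derivedSeries_zero, ← MonoidHom.range_eq_map, range_subtype]
    | succ j ihj =>
      rw [← add_assoc, derivedSeries_succ, derivedSeries_succ, map_commutator]
      exact commutator_mono ihj ihj
  rw [h3, eq_bot_iff]
  refine (h4 _ _ _ h2).trans ?_
  rw [hd p hps _ (H2.pCore_isPGroup p G), Subgroup.map_bot]

/-- The Hall–Higman bound on derived length: let G be a finite solvable group, let p₁, …, p_r be distinct primes that include every prime dividing the order of G, and suppose that for each i the Sylow p_i-subgroups of G have derived length at most d_i and G has p_i-length at most l_i. Then G has derived length at most Σ d_i l_i. -/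
theorem result {G : Type*} [Group G] [Finite G] (hG : Group.IsSolvable G) (r : ℕ) (q : Fin r → ℕ) (hq : ∀ i, (q i).Prime) (hinj : Function.Injective q) (hcover : ∀ s : ℕ, s.Prime → s ∣ Nat.card G → ∃ i, q i = s) (d l : Fin r → ℕ) (hd : ∀ i, ∀ P : Subgroup G, (haveI := Fact.mk (hq i); ∃ S : Sylow (q i) G, (S : Subgroup G) = P) → derivedSeries ↥P (d i) = ⊥) (hl : ∀ i, Cfsg.PLengthLE (q i) (l i) G) : derivedSeries G (Finset.univ.sum fun i => d i * l i) = ⊥ := by
  classical
  let d' : ℕ → ℕ := Function.extend q d 0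
  let l' : ℕ → ℕ := Function.extend q l 0
  have hd' : ∀ i, d' (q i) = d i := fun i => hinj.extend_apply _ _ i
  have hl' : ∀ i, l' (q i) = l i := fun i => hinj.extend_apply _ _ i
  have := aux d' _ G le_rfl hG (Finset.univ.image q) l' (by simpa using hq)
    (fun s h1 h2 => by simpa using hcover s h1 h2) (by
      simp only [Finset.mem_image, Finset.mem_univ, true_and]
      rintro _ ⟨i, rfl⟩ P hP
      haveI := Fact.mk (hq i)
      obtain ⟨S, hS⟩ := hP.exists_le_sylow
      have h1 := map_derivedSeries_le_derivedSeries (Subgroup.inclusion hS) (d i)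
      rw [hd i S ⟨S, rfl⟩, le_bot_iff, map_eq_bot_iff_of_injective _ (inclusion_injective hS)] at h1
      rwa [hd']) (by
      simp only [Finset.mem_image, Finset.mem_univ, true_and]
      rintro _ ⟨i, rfl⟩
      rw [hl']; exact hl i)
  rwa [Finset.sum_image (fun a _ b _ h => hinj h), Finset.sum_congr rfl fun i _ => by
    rw [hd', hl']] at this

end Cfsg.Agent.S3791
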