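import Cfsg.Statements.S3794
import Cfsg.Agent.Base
import Cfsg.Agent.H22.FpfFit

set_option autoImplicit false
open Cfsg

namespace Cfsg.Agent.S3794

/-- Let G be a finite solvable group with an automorphism σ satisfying σ⁴ = 1 and fixing only the identity. Then the derived subgroup G' is nilpotent. -/
theorem result {G : Type*} [Group G] [Finite G] (hG : Group.IsSolvable G) (σ : MulAut G) (hσ : σ ^ 4 = 1) (hfpf : ∀ g : G, σ g = g → g = 1) : Group.IsNilpotent (commutator G) := by
  obtain ⟨τ, h1, h2⟩ := H22.exists_quotient_aut (Cfsg.fittingSubgroup G) σ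
    fun x hx => (H2.mem_fitting_mulEquiv σ).2 hx
  have h3 : Function.Involutive τ := by
    intro g
    obtain ⟨g, rfl⟩ := QuotientGroup.mk_surjective g
    have h4 := h1 (2 ^ 1) g
    rw [← QuotientGroup.eq.2 (H22.inv_mul_mem_fitting_of_fpf (p := 2) hG σ 1 hσ (Or.inr le_rfl)
      hfpf g)] at h4
    exact h4
  have h5 : MonoidHom.FixedPointFree τ := h2 hfpf
  apply H2.isNilpotent_of_le_fitting
  rw [_root_.commutator_def, Subgroup.commutator_le]
  intro a _ b _
  rw [← QuotientGroup.eq_one_iff]
  change QuotientGroup.mk' _ _ = 1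
  rw [map_commutatorElement, commutatorElement_eq_one_iff_commute]
  exact h5.commute_all_of_involutive h3 _ _

end Cfsg.Agent.S3794
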