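import Cfsg.Statements.S3799
import Cfsg.Agent.H9.HeisStd
import Cfsg.Agent.H78.XSMap

set_option autoImplicit false
open Cfsg

namespace Cfsg.Agent.S3799

/-- For every odd prime p and every n ≥ 1 there is an extraspecial p-group of order p^(1+2n) and exponent p; concretely, the general linear group of degree n + 2 over the field with p elements contains such a subgroup. -/
theorem result (p : ℕ) [Fact p.Prime] (hp : p ≠ 2) (n : ℕ) (hn : 1 ≤ n) : ∃ E : Subgroup (Matrix.GeneralLinearGroup (Fin (n + 2)) (ZMod p)), Cfsg.IsExtraspecial p ↥E ∧ Nat.card E = p ^ (1 + 2 * n) ∧ ∀ x ∈ E, x ^ p = 1 := by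
  classical
  have : Nonempty (Fin n) := ⟨⟨0, hn⟩⟩
  let M := ZMod p × (Fin n → ZMod p) × ZMod p
  let f : H27.Heis (H9.heisβ p (Fin n)) → M →ₗ[ZMod p] M := fun h =>
    { toFun := fun m => (m.1 + h.v.1 ⬝ᵥ m.2.1 + h.w * m.2.2, m.2.1 + m.2.2 • h.v.2, m.2.2)
      map_add' := fun a b => by
        ext
        · simp [M]; ring
        · simp [M]; ring
        · simp [M]
      map_smul' := fun a b => by
        ext
        · simp [M]; ring
        · simp [M]; ring
        · simp [M] }
  let F : H27.Heis (H9.heisβ p (Fin n)) →* (M →ₗ[ZMod p] M) :=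
    { toFun := f
      map_one' := by
        refine LinearMap.ext fun m => ?_
        simp [f, H27.Heis.one_v, H27.Heis.one_w]
      map_mul' := fun a b => by
        refine LinearMap.ext fun m => ?_
        ext
        · simp [f, H27.Heis.mul_v, H27.Heis.mul_w, H9.heisβ_apply]; ring
        · simp [f, H27.Heis.mul_v]; ring
        · simp [f] }
  have hF : Function.Injective F := by
    rw [injective_iff_map_eq_one]
    intro h hh
    have h1 := LinearMap.congr_fun hh ((0, 0, 1) : M)
    simp only [F, f, MonoidHom.coe_mk, OneHom.coe_mk, LinearMap.coe_mk, AddHom.coe_mk,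
      Module.End.one_apply, dotProduct_zero, add_zero, zero_add, mul_one, one_smul] at h1
    ext i
    · exact congrArg Prod.fst h1
    · have h2 := LinearMap.congr_fun hh ((0, Pi.single i 1, 0) : M)
      simpa [F, f, H27.Heis.one_v] using congrArg Prod.fst h2
    · exact congrFun (congrArg (fun m : M => m.2.1) h1) i
  let b : Module.Basis (Fin (n + 2)) (ZMod p) M := Module.finBasisOfFinrankEq _ _ (by
    simp [M]; ring)
  let F' := ((LinearMap.toMatrixAlgEquiv b).toRingEquiv.toMonoidHom.comp F).toHomUnits
  have hF' : Function.Injective F' := fun x y h =>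
    hF ((LinearMap.toMatrixAlgEquiv b).injective (congrArg Units.val h))
  refine ⟨F'.range, H78.isExtraspecial_of_equiv (MonoidHom.ofInjective hF')
    (H9.heis_isExtraspecial p _), ?_, ?_⟩
  · rw [← Nat.card_congr (MonoidHom.ofInjective hF').toEquiv, H9.heis_card, Fintype.card_fin]
  · rintro _ ⟨x, rfl⟩
    rw [← map_pow, H9.heis_pow_eq_one p _ hp, map_one]

end Cfsg.Agent.S3799
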