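import Cfsg.Agent.Base
import Cfsg.Agent.H21.Multiplier
import Cfsg.Agent.H21.BiExt
import Cfsg.Agent.S3979
import Cfsg.Statements.S3950
-- import your own Cfsg.Agent.* helpers here

set_option autoImplicit false
open Cfsg
open scoped commutatorElement

namespace Cfsg.Agent.S3950

/-- A finite abelian group has trivial Schur multiplier if and only if it is cyclic. -/
theorem result {G : Type*} [CommGroup G] [Finite G] : Cfsg.HasCyclicSchurMultiplier G 1 ↔ IsCyclic G := by
  refine ⟨fun h => ?_, fun h => Cfsg.Agent.S3979.result⟩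
  classical
  obtain ⟨ι, _, n, hn, ⟨e⟩⟩ := CommGroup.equiv_prod_multiplicative_zmod_of_finite G
  have hcop : Pairwise (Function.onFun Nat.Coprime n) := by
    intro i j hij
    let d := Nat.gcd (n i) (n j)
    let f : G →* Multiplicative (ZMod d) := ((AddMonoidHom.toMultiplicative
      (ZMod.castHom (Nat.gcd_dvd_left (n i) (n j)) (ZMod d)).toAddMonoidHom).comp
      (Pi.evalMonoidHom (fun i => Multiplicative (ZMod (n i))) i)).comp e.toMonoidHom
    let g : G →* Multiplicative (ZMod d) := ((AddMonoidHom.toMultiplicative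
      (ZMod.castHom (Nat.gcd_dvd_right (n i) (n j)) (ZMod d)).toAddMonoidHom).comp
      (Pi.evalMonoidHom (fun i => Multiplicative (ZMod (n i))) j)).comp e.toMonoidHom
    let β : G →* G →* Multiplicative (ZMod d) := MonoidHom.mk'
      (fun x => MonoidHom.mk' (fun y => Multiplicative.ofAdd ((f x).toAdd * (g y).toAdd))
        (fun y y' => by simp [mul_add]))
      (fun x x' => by ext y; simp [add_mul])
    have hb := H21.ker_inf_commutator_eq_bot h _ (H21.isCentralExt_biExtProj β)
    let x : G := e.symm (Pi.mulSingle i (Multiplicative.ofAdd 1))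
    let y : G := e.symm (Pi.mulSingle j (Multiplicative.ofAdd 1))
    have h1 : ⁅(⟨x, 1⟩ : H21.BiExt β), (⟨y, 1⟩ : H21.BiExt β)⁆ ∈
        (H21.biExtProj β).ker ⊓ commutator _ := by
      refine ⟨?_, Subgroup.commutator_mem_commutator (Subgroup.mem_top _) (Subgroup.mem_top _)⟩
      change H21.biExtProj β _ = 1
      rw [map_commutatorElement]
      exact (Commute.all _ _).commutator_eq
    rw [hb, Subgroup.mem_bot, H21.biExt_commutator] at h1
    have h2 := congrArg (fun a => (H21.BiExt.snd a).toAdd) h1
    have hfx : (f x).toAdd = 1 := by simp [f, x, ZMod.cast_one (Nat.gcd_dvd_left (n i) (n j)), d]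
    have hgy : (g y).toAdd = 1 := by simp [g, y, ZMod.cast_one (Nat.gcd_dvd_right (n i) (n j)), d]
    have hfy : (f y).toAdd = 0 := by simp [f, y, hij]
    have h3 : (1 : ZMod d) = 0 := by simpa [β, hfx, hgy, hfy] using h2
    exact Nat.dvd_one.mp ((ZMod.natCast_eq_zero_iff 1 d).mp (by exact_mod_cast h3))
  exact isCyclic_of_surjective
    (((AddEquiv.toMultiplicative (ZMod.prodEquivPi n hcop).toAddEquiv).trans
      (MulEquiv.piMultiplicative _)).trans e.symm) (MulEquiv.surjective _)

end Cfsg.Agent.S3950
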