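import Cfsg.Agent.Base
import Cfsg.Agent.H21.MetacyclicMult
import Cfsg.Statements.S3951
-- import your own Cfsg.Agent.* helpers here

set_option autoImplicit false
open Cfsg

namespace Cfsg.Agent.S3951

/-- For positive integers `m` and `n` with `n` dividing `m`, the Schur multiplier of the abelian group `ZMod m × ZMod n` (written multiplicatively) is cyclic of order `n`. In particular the elementary abelian group of order `p ^ 2` has multiplier of order `p`. -/
theorem result (m n : ℕ) [NeZero m] [NeZero n] (hnm : n ∣ m) : Cfsg.HasCyclicSchurMultiplier (Multiplicative (ZMod m × ZMod n)) n := by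
  refine H21.metacyclic_multiplier (Multiplicative.ofAdd (1, 0)) (Multiplicative.ofAdd (0, 1)) m n
    1 0 _ ?_ (NeZero.pos m) (NeZero.pos n) one_pos ?_ (by simp) ?_ (by simp) ?_
  · rw [orderOf_ofAdd_eq_addOrderOf, Prod.addOrderOf]
    simp [ZMod.addOrderOf_one]
  · rw [eq_top_iff]
    intro g _
    have : g = Multiplicative.ofAdd (1, 0) ^ g.toAdd.1.val *
        Multiplicative.ofAdd (0, 1) ^ g.toAdd.2.val := by
      apply Multiplicative.toAdd.injective
      simp
    rw [this]
    exact mul_mem (pow_mem (Subgroup.subset_closure (by simp)) _)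
      (pow_mem (Subgroup.subset_closure (by simp)) _)
  · apply Multiplicative.toAdd.injective
    simp
  · simp [Nat.div_self (NeZero.pos m), Nat.gcd_eq_right hnm]

end Cfsg.Agent.S3951
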