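import Cfsg.Agent.Base
import Cfsg.Agent.H21.MultTransfer
import Cfsg.Statements.S3952
-- import your own Cfsg.Agent.* helpers here

set_option autoImplicit false
open Cfsg

namespace Cfsg.Agent.S3952

open Subgroup in
theorem orderOf_sq_le_index_center.{u} (p : ℕ) [hp : Fact p.Prime] (n : ℕ) :
    ∀ (Γ : Type u) [Group Γ] [Finite Γ], IsPGroup p Γ → Nat.card Γ = n →
      ∀ a ∈ center Γ, a ∈ commutator Γ → orderOf a ^ 2 ≤ (center Γ).index := by
  induction n using Nat.strong_induction_on with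
  | _ n ih =>
  intro Γ _ _ hΓ hn a ha ha'
  by_cases ha1 : a = 1
  · rw [ha1, orderOf_one, one_pow]
    exact Nat.pos_of_ne_zero FiniteIndex.index_ne_zero
  by_cases hc : ∃ c ∈ center Γ, c ^ p = 1 ∧ c ∉ zpowers a
  · obtain ⟨c, hc, hcp, hca⟩ := hc
    have hc1 : c ≠ 1 := by rintro rfl; exact hca (one_mem _)
    have hoc : orderOf c = p := orderOf_eq_prime hcp hc1
    have hN : (zpowers c).Normal := H21.normal_of_le_center (by rwa [zpowers_le])
    have hcard : Nat.card (zpowers c) = p := by rw [Nat.card_zpowers, hoc]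
    have hlt : Nat.card (Γ ⧸ zpowers c) < n := by
      rw [← hn, card_eq_card_quotient_mul_card_subgroup (zpowers c), hcard]
      exact lt_mul_of_one_lt_right Nat.card_pos hp.out.one_lt
    have hle : center Γ ≤ (center (Γ ⧸ zpowers c)).comap (QuotientGroup.mk' _) := by
      intro x hx
      rw [mem_comap, mem_center_iff]
      intro y
      obtain ⟨y, rfl⟩ := QuotientGroup.mk'_surjective _ y
      rw [← map_mul, ← map_mul, mem_center_iff.mp hx y]
    have h1 := ih _ hlt (Γ ⧸ zpowers c) (hΓ.to_quotient _) rfl (QuotientGroup.mk' _ a) (hle ha)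
      (H21.map_mem_commutator _ ha')
    have h2 : orderOf (QuotientGroup.mk' (zpowers c) a) = orderOf a := by
      rw [orderOf_eq_orderOf_iff]
      intro j
      refine ⟨fun h => ?_, fun h => by rw [← map_pow, h, map_one]⟩
      rw [← map_pow, QuotientGroup.mk'_apply, QuotientGroup.eq_one_iff] at h
      by_contra hj
      have : Fact (Nat.card (zpowers c)).Prime := ⟨hcard ▸ hp.out⟩
      have h3 := (zpowers_eq_top_of_prime_card (G := zpowers c) rfl
        (g := ⟨a ^ j, h⟩) (fun e => hj (congrArg Subtype.val e)))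
      have h4 : (⟨c, mem_zpowers c⟩ : zpowers c) ∈ zpowers (⟨a ^ j, h⟩ : zpowers c) :=
        h3 ▸ mem_top _
      obtain ⟨i, hi⟩ := h4
      have h5 : (a ^ j) ^ i = c := congrArg Subtype.val hi
      exact hca (h5 ▸ zpow_mem (npow_mem_zpowers a j) i)
    rw [h2] at h1
    refine h1.trans ?_
    rw [← index_comap_of_surjective _ (QuotientGroup.mk'_surjective (zpowers c))]
    exact Nat.le_of_dvd (Nat.pos_of_ne_zero FiniteIndex.index_ne_zero) (index_dvd_of_le hle)
  push Not at hc
  have hnt : Nontrivial (Γ ⧸ center Γ) := by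
    rw [QuotientGroup.nontrivial_iff]
    intro h
    rw [← commutator_eq_bot_iff_center_eq_top] at h
    rw [h] at ha'
    exact ha1 ha'
  have hnt2 := (hΓ.to_quotient (center Γ)).center_nontrivial
  obtain ⟨k, hk0, hk⟩ := (IsPGroup.nontrivial_iff_card
    ((hΓ.to_quotient (center Γ)).to_subgroup (center _))).mp hnt2
  obtain ⟨w, hw⟩ := exists_prime_orderOf_dvd_card' (G := center (Γ ⧸ center Γ)) p
    (hk ▸ dvd_pow_self p hk0.ne')
  obtain ⟨z, hz⟩ := QuotientGroup.mk'_surjective (center Γ) w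
  have hzp : z ^ p ∈ center Γ := by
    rw [← QuotientGroup.eq_one_iff, ← QuotientGroup.mk'_apply, map_pow, hz, ← coe_pow, ← hw,
      pow_orderOf_eq_one, coe_one]
  have hzZ : z ∉ center Γ := by
    intro h
    rw [← QuotientGroup.eq_one_iff, ← QuotientGroup.mk'_apply, hz] at h
    rw [show w = 1 from Subtype.ext h, orderOf_one] at hw
    exact hp.out.one_lt.ne hw
  let f := (Subgroup.subtype _).comp (H21.liftDiff (QuotientGroup.mk' (center Γ))
    (by rw [QuotientGroup.ker_mk']) (MulAut.conj z).toMonoidHom (MonoidHom.id Γ) (fun x => by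
      have := mem_center_iff.mp w.2 (QuotientGroup.mk' (center Γ) x)
      simp only [MulEquiv.toMonoidHom_eq_coe, MonoidHom.coe_coe, MulAut.conj_apply, map_mul,
        map_inv, hz, MonoidHom.id_apply]
      rw [← this, mul_inv_cancel_right]))
  have hf : ∀ x, f x = z * x * z⁻¹ * x⁻¹ := fun x => rfl
  have hfc : ∀ x, f x ∈ center Γ := fun x => (QuotientGroup.ker_mk' _).le (Subtype.prop _)
  have hfp : ∀ x, f x ^ p = 1 := fun x => by
    have h1 : ∀ j : ℕ, z ^ j * x * (z ^ j)⁻¹ = f x ^ j * x := by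
      intro j
      induction j with
      | zero => simp
      | succ j ihj =>
        calc z ^ (j + 1) * x * (z ^ (j + 1))⁻¹ = z * (z ^ j * x * (z ^ j)⁻¹) * z⁻¹ := by group
          _ = z * f x ^ j * x * z⁻¹ := by rw [ihj]; group
          _ = f x ^ j * (z * x * z⁻¹ * x⁻¹) * x := by
            rw [mem_center_iff.mp (pow_mem (hfc x) j) z]; group
          _ = _ := by rw [← hf, pow_succ]
    have h2 := h1 p
    rw [← mem_center_iff.mp hzp x, mul_inv_cancel_right] at h2
    exact mul_eq_right.mp h2.symm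
  have hle : f.range ≤ zpowers a := by
    rintro _ ⟨x, rfl⟩
    exact hc _ (hfc x) (hfp x)
  have hcyc : IsCyclic f.range := isCyclic_of_le hle
  have hidx : f.ker.index = p := by
    refine ((Nat.dvd_prime hp.out).mp ?_).resolve_left (fun h => hzZ ?_)
    · rw [index_ker, ← IsCyclic.exponent_eq_card]
      apply Monoid.exponent_dvd_of_forall_pow_eq_one
      rintro ⟨_, x, rfl⟩
      exact Subtype.ext (hfp x)
    · rw [index_eq_one] at h
      rw [mem_center_iff]
      intro x
      have h1 : f x = 1 := (h ▸ mem_top x : x ∈ f.ker)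
      rw [hf, mul_inv_eq_one, mul_inv_eq_iff_eq_mul] at h1
      exact h1.symm
  have hZH : center Γ ≤ f.ker := fun x hx => by
    rw [MonoidHom.mem_ker, hf, mem_center_iff.mp hx z]; group
  have h1 := H21.pow_index_mem_commutator f.ker ha ha'
  rw [hidx, ← map_subtype_commutator] at h1
  obtain ⟨b, hb, hba⟩ := h1
  have hba' : (b : Γ) = a ^ p := hba
  have hsub : (center Γ).subgroupOf f.ker ≤ center f.ker := fun x hx =>
    mem_center_iff.mpr fun y => Subtype.ext (mem_center_iff.mp hx y.1)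
  have hlt : Nat.card f.ker < n := by
    rw [← hn, ← f.ker.card_mul_index, hidx]
    exact lt_mul_of_one_lt_right Nat.card_pos hp.out.one_lt
  have h2 := ih _ hlt f.ker (hΓ.to_subgroup _) rfl b
    (hsub (by rw [mem_subgroupOf, hba']; exact pow_mem ha p)) hb
  have h3 : orderOf a ≤ p * orderOf b := orderOf_le_of_pow_eq_one
    (Nat.mul_pos hp.out.pos (orderOf_pos b)) (by
      rw [pow_mul, ← hba', ← coe_pow, pow_orderOf_eq_one, coe_one])
  have h4 : p ≤ ((center Γ).subgroupOf f.ker).relIndex (center f.ker) := by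
    obtain ⟨j, hj⟩ := ((hΓ.to_subgroup f.ker).to_subgroup (center f.ker)).index
      (((center Γ).subgroupOf f.ker).subgroupOf (center f.ker))
    rw [relIndex, hj]
    refine Nat.le_self_pow (fun h => hzZ ?_) p
    rw [h, pow_zero, index_eq_one] at hj
    have hzH : z ∈ f.ker := by rw [MonoidHom.mem_ker, hf]; group
    have hzc : (⟨z, hzH⟩ : f.ker) ∈ center f.ker := mem_center_iff.mpr fun y => Subtype.ext (by
      have h1 : f y = 1 := y.2
      rw [hf, mul_inv_eq_one, mul_inv_eq_iff_eq_mul] at h1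
      exact h1.symm)
    exact (hj ▸ mem_top (⟨⟨z, hzH⟩, hzc⟩ : center f.ker) :
      _ ∈ ((center Γ).subgroupOf f.ker).subgroupOf (center f.ker))
  rw [← relIndex_mul_index hZH, hidx, relIndex, ← relIndex_mul_index hsub]
  calc orderOf a ^ 2 ≤ (p * orderOf b) ^ 2 := Nat.pow_le_pow_left h3 2
    _ = p * orderOf b ^ 2 * p := by ring
    _ ≤ _ := Nat.mul_le_mul_right p (Nat.mul_le_mul h4 h2)

/-- If `A` is the Schur multiplier of the finite group `Q`, then the square of the exponent of `A` divides the order of `Q`. -/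
theorem result {Q : Type*} [Group Q] [Finite Q] {A : Type*} [CommGroup A] (hA : Cfsg.HasSchurMultiplier Q A) : Monoid.exponent A ^ 2 ∣ Nat.card Q := by
  have := H21.multiplier_finite hA
  obtain ⟨Γ, _, _, σ, hσ, ⟨e⟩⟩ := hA.1
  have he0 : Monoid.exponent A ≠ 0 := Monoid.exponent_ne_zero_of_finite
  rw [← Nat.factorization_prime_le_iff_dvd (pow_ne_zero 2 he0) Nat.card_pos.ne']
  intro p hp
  have : Fact p.Prime := ⟨hp⟩
  obtain ⟨a, ha⟩ := Nat.Prime.exists_orderOf_eq_pow_factorization_exponent (G := A) hp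
  rw [← hp.pow_dvd_iff_le_factorization Nat.card_pos.ne', Nat.factorization_pow,
    Finsupp.smul_apply, smul_eq_mul, mul_comm, pow_mul, ← ha]
  obtain ⟨z, rfl⟩ := e.surjective a
  rw [e.orderOf_eq, ← Subgroup.orderOf_coe] at ha ⊢
  obtain ⟨P⟩ := (Sylow.nonempty : Nonempty (Sylow p Γ))
  have hzc := hσ.2.1 z.2
  have h1 := H21.pow_index_mem_commutator (P : Subgroup Γ) hzc (hσ.2.2 z.2)
  have h2 : (z : Γ) ∈ ⁅(P : Subgroup Γ), (P : Subgroup Γ)⁆ := by
    have h3 : (z : Γ) ∈ Subgroup.zpowers ((z : Γ) ^ (P : Subgroup Γ).index) := by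
      rw [mem_zpowers_pow_iff, ha]
      exact Nat.Coprime.pow_right _ ((hp.coprime_iff_not_dvd.mpr P.not_dvd_index).symm)
    exact Subgroup.zpowers_le.mpr h1 h3
  rw [← Subgroup.map_subtype_commutator] at h2
  obtain ⟨b, hb, hbz⟩ := h2
  have hbz' : (b : Γ) = z := hbz
  have hsub : (σ.comp (P : Subgroup Γ).subtype).ker ≤ Subgroup.center (P : Subgroup Γ) :=
    fun x hx => Subgroup.mem_center_iff.mpr fun y =>
      Subtype.ext (Subgroup.mem_center_iff.mp (hσ.2.1 hx) y.1)
  have h4 := orderOf_sq_le_index_center p _ (P : Subgroup Γ) P.isPGroup' rfl b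
    (hsub (by change σ b = 1; rw [hbz']; exact z.2)) hb
  rw [← Subgroup.orderOf_coe, hbz'] at h4
  obtain ⟨j, hj⟩ := P.isPGroup'.index (Subgroup.center _)
  refine dvd_trans ?_ ((Subgroup.index_dvd_of_le hsub).trans ?_)
  · rw [hj, ha, ← pow_mul] at h4 ⊢
    exact pow_dvd_pow p ((Nat.pow_le_pow_iff_right hp.one_lt).mp h4)
  · rw [Subgroup.index_ker]
    exact Subgroup.card_subgroup_dvd_card _

end Cfsg.Agent.S3952
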