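import Cfsg.Agent.Base
import Cfsg.Agent.H21.MultTransfer
import Cfsg.Statements.S3953
-- import your own Cfsg.Agent.* helpers here

set_option autoImplicit false
open Cfsg

namespace Cfsg.Agent.S3953

/-- Let `P` be a Sylow `p`-subgroup of the finite group `G`, let `A` be the Schur multiplier of `G` and `B` that of `P`. Then the `p`-primary component of `A` is isomorphic to a direct factor of `B`: there are subgroups `C` and `D` of `B` meeting trivially and generating `B`, with `C` isomorphic to the `p`-primary component of `A`. -/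
theorem result {G : Type*} [Group G] [Finite G] (p : ℕ) [Fact p.Prime] (P : Sylow p G) {A B : Type*} [CommGroup A] [CommGroup B] (hA : Cfsg.HasSchurMultiplier G A) (hB : Cfsg.HasSchurMultiplier P B) : ∃ C D : Subgroup B, C ⊓ D = ⊥ ∧ C ⊔ D = ⊤ ∧ Nonempty (CommGroup.primaryComponent A p ≃* C) := by
  have := H21.multiplier_finite hA
  have := H21.multiplier_finite hB
  obtain ⟨i, t, h⟩ := H21.exists_multiplier_transfer (P : Subgroup G) hA hB
  obtain ⟨k, hk⟩ := IsPGroup.iff_card.mp P.isPGroup'
  have hBp : ∀ b : B, b ^ p ^ k = 1 := fun b => hk ▸ H21.multiplier_pow_card hB b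
  let Ap := CommGroup.primaryComponent A p
  have hAp : IsPGroup p Ap := CommGroup.primaryComponent.isPGroup
  have hbij : Function.Bijective (fun a : Ap => a ^ (P : Subgroup G).index) :=
    (hAp.powEquiv' P.not_dvd_index).bijective
  have hi : ∀ b, i b ∈ Ap := fun b => ⟨k, by rw [← map_pow, hBp, map_one]⟩
  let t' := t.comp Ap.subtype
  have key : ∀ a : Ap, i (t' a) = 1 → a = 1 := fun a ha => hbij.1 (by
    apply Subtype.ext
    simpa [t', h] using ha)
  refine ⟨t'.range, i.ker, ?_, ?_, ⟨MonoidHom.ofInjective ?_⟩⟩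
  · rw [eq_bot_iff]
    rintro _ ⟨⟨a, rfl⟩, ha⟩
    rw [key a ha, map_one]
    exact Subgroup.one_mem _
  · rw [eq_top_iff]
    intro b _
    obtain ⟨a, ha⟩ := hbij.2 ⟨i b, hi b⟩
    have h1 : (a : A) ^ (P : Subgroup G).index = i b := congrArg Subtype.val ha
    rw [← mul_inv_cancel_left (t' a) b]
    refine Subgroup.mul_mem_sup ⟨a, rfl⟩ ?_
    simp [MonoidHom.mem_ker, t', h, h1]
  · rw [injective_iff_map_eq_one]
    intro a ha
    exact key a (by rw [ha, map_one])

end Cfsg.Agent.S3953
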