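import Cfsg.Agent.Base
import Cfsg.Agent.H21.Multiplier
import Cfsg.Statements.S3958
-- import your own Cfsg.Agent.* helpers here

set_option autoImplicit false
universe u v
open Cfsg

namespace Cfsg.Agent.S3958

/-- Let `σ : Γ →* Q` be a finite stem extension of the finite group `Q` with `Γ` of trivial Schur multiplier. Then `σ` is a Schur covering group of `Q`: for every finite stem extension `τ : Δ →* Q` with `Δ` in the same universe as `Q`, the kernel of `τ` is a homomorphic image of the kernel of `σ`. -/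
theorem result {Q : Type u} [Group Q] [Finite Q] {Γ : Type v} [Group Γ] [Finite Γ] (σ : Γ →* Q) (hσ : Cfsg.IsStemExtension σ) (hΓ : Cfsg.HasCyclicSchurMultiplier Γ 1) (Δ : Type u) [Group Δ] [Finite Δ] (τ : Δ →* Q) (hτ : Cfsg.IsStemExtension τ) : ∃ π : σ.ker →* τ.ker, Function.Surjective π := by
  have hρ := H21.isCentralExt_freeExtProj _ (H21.canPres_surjective Q)
  obtain ⟨e⟩ := H21.cover_of_injective σ hσ (fun φ hφ x hx h1 => by
    have hE := H21.ker_inf_commutator_eq_bot hΓ _ (H21.isCentralExt_pullbackFst σ _ hρ)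
    let ψ := H21.toPullback σ (H21.freeExtProj (H21.canPres Q)) φ (MonoidHom.id _) hφ
    have h2 : ψ x ∈ (H21.pullbackFst σ (H21.freeExtProj (H21.canPres Q))).ker ⊓ commutator _ :=
      ⟨h1, H21.map_mem_commutator ψ hx.2⟩
    rw [hE, Subgroup.mem_bot] at h2
    have h3 := congrArg (H21.pullbackSnd σ _) h2
    rw [map_one] at h3
    exact h3)
  obtain ⟨θ, hθ⟩ := (H21.hasSchurMultiplier_can Q).2 Δ τ hτ
  exact ⟨θ.comp e.toMonoidHom, hθ.comp e.surjective⟩

end Cfsg.Agent.S3958
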