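import Cfsg.Agent.Base
import Cfsg.Agent.H21.Multiplier
import Cfsg.Statements.S3960
-- import your own Cfsg.Agent.* helpers here

set_option autoImplicit false
universe u
open Cfsg

namespace Cfsg.Agent.S3960

/-- A finite perfect group `Q` has a universal central extension: a finite perfect group `G` in the universe of `Q` and a surjective homomorphism `π : G →* Q` with central kernel such that for every group `X` in that universe and every surjective homomorphism `ξ : X →* Q` with central kernel there is exactly one homomorphism `η : G →* X` with `ξ ∘ η = π`. -/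
theorem result {Q : Type u} [Group Q] [Finite Q] (hQ : Group.IsPerfect Q) : ∃ (G : Type u) (_ : Group G) (_ : Finite G) (π : G →* Q), Group.IsPerfect G ∧ Function.Surjective π ∧ π.ker ≤ Subgroup.center G ∧ ∀ (X : Type u) [Group X] (ξ : X →* Q), Function.Surjective ξ → ξ.ker ≤ Subgroup.center X → ∃! η : G →* X, ξ.comp η = π := by
  let ρ := H21.freeExtProj (H21.canPres Q)
  have hρ : H21.IsCentralExt ρ := H21.isCentralExt_freeExtProj _ (H21.canPres_surjective Q)
  let U := H21.FreeExt (H21.canPres Q)
  have hfin : Finite (commutator U) := H21.finite_commutator_of_central ρ hρ.2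
  have hs : ∀ q, ∃ x ∈ commutator U, ρ x = q := fun q => by
    have : q ∈ (commutator U).map ρ := by
      rw [H21.map_commutator_of_surjective ρ hρ.1]; exact Group.IsPerfect.mem_commutator
    exact this
  have hperf : Group.IsPerfect (commutator U) := by
    rw [Subgroup.isPerfect_iff, ← Subgroup.map_subtype_commutator]
    exact H21.map_commutator_of_lift ρ hρ.2 _ (fun d => by
      obtain ⟨x, hx, e⟩ := hs (ρ d)
      exact ⟨⟨x, hx⟩, e⟩)
  refine ⟨commutator U, inferInstance, hfin, ρ.comp (commutator U).subtype, hperf, fun q => ?_,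
    fun x hx => ?_, fun X _ ξ h1 h2 => ?_⟩
  · obtain ⟨x, hx, e⟩ := hs q
    exact ⟨⟨x, hx⟩, e⟩
  · rw [Subgroup.mem_center_iff]
    intro y
    exact Subtype.ext (Subgroup.mem_center_iff.mp (hρ.2 hx) y.1)
  · obtain ⟨φ, hφ⟩ := H21.exists_freeExt_lift (H21.canPres Q) (MonoidHom.id Q) ξ ⟨h1, h2⟩
    refine ⟨φ.comp (commutator U).subtype, MonoidHom.ext fun x => hφ x.1, fun η hη => ?_⟩
    ext x
    refine H21.eq_on_commutator ξ h2 _ _ (fun y => ?_) Group.IsPerfect.mem_commutator
    exact (DFunLike.congr_fun hη y).trans (hφ y.1).symm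

end Cfsg.Agent.S3960
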