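import Cfsg.Agent.Base
import Cfsg.Agent.H21.Multiplier
import Cfsg.Agent.S3962
import Cfsg.Statements.S3961
-- import your own Cfsg.Agent.* helpers here

set_option autoImplicit false
universe u v
open Cfsg

namespace Cfsg.Agent.S3961

/-- Let `π : G →* Q` be a surjective homomorphism with central kernel from a finite perfect group `G` (a perfect cover of `Q`). Then `π` is universal, in the sense that every surjective homomorphism `ξ : X →* Q` with central kernel from a group `X` in the universe of `G` admits a homomorphism `η : G →* X` with `ξ ∘ η = π`, if and only if `G` has trivial Schur multiplier. -/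
theorem result {G : Type u} {Q : Type v} [Group G] [Group Q] [Finite G] (hG : Group.IsPerfect G) (π : G →* Q) (hπ : Function.Surjective π) (hker : π.ker ≤ Subgroup.center G) : (∀ (X : Type u) [Group X] (ξ : X →* Q), Function.Surjective ξ → ξ.ker ≤ Subgroup.center X → ∃ η : G →* X, ξ.comp η = π) ↔ Cfsg.HasCyclicSchurMultiplier G 1 := by
  constructor
  · intro h
    refine H21.trivialMultiplier_of_forall (fun Γ _ _ σ hσ => ?_)
    have hΓ : Group.IsPerfect Γ := by
      rw [Group.isPerfect_def]
      refine H21.eq_top_of_map_stem σ hσ _ (fun d => ?_)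
      have : σ d ∈ (commutator Γ).map σ := by
        rw [H21.map_commutator_of_surjective σ hσ.1]; exact Group.IsPerfect.mem_commutator
      exact this
    obtain ⟨η, hη⟩ := h Γ (π.comp σ) (hπ.comp hσ.1) (fun x hx =>
      Cfsg.Agent.S3962.comap_center_le hΓ σ hσ.2.1 (hker hx))
    have h1 : ∀ g, σ (η g) = g := fun g =>
      H21.eq_on_commutator π hker (σ.comp η) (MonoidHom.id G)
        (fun y => DFunLike.congr_fun hη y) Group.IsPerfect.mem_commutator
    have h2 := H21.surjective_of_lift_stem σ hσ η (fun d => ⟨σ d, h1 _⟩)
    rw [eq_bot_iff]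
    intro x hx
    obtain ⟨g, rfl⟩ := h2 x
    have h3 : g = 1 := (h1 g).symm.trans hx
    rw [h3, map_one]
    exact Subgroup.one_mem _
  · intro h X _ ξ h1 h2
    have hE := H21.isCentralExt_pullbackFst π ξ ⟨h1, h2⟩
    have hb := H21.ker_inf_commutator_eq_bot h _ hE
    let f := (H21.pullbackFst π ξ).comp (commutator (H21.pullback π ξ)).subtype
    have hf : Function.Bijective f := by
      constructor
      · rw [injective_iff_map_eq_one]
        intro x hx
        have : (x : H21.pullback π ξ) ∈ (H21.pullbackFst π ξ).ker ⊓ commutator _ := ⟨hx, x.2⟩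
        rw [hb, Subgroup.mem_bot] at this
        exact Subtype.ext this
      · intro g
        have : g ∈ (commutator _).map (H21.pullbackFst π ξ) := by
          rw [H21.map_commutator_of_surjective _ hE.1]; exact Group.IsPerfect.mem_commutator
        obtain ⟨x, hx, e⟩ := this
        exact ⟨⟨x, hx⟩, e⟩
    let e := MulEquiv.ofBijective f hf
    refine ⟨((H21.pullbackSnd π ξ).comp (commutator (H21.pullback π ξ)).subtype).comp
      e.symm.toMonoidHom, MonoidHom.ext fun g => ?_⟩
    have h3 : f (e.symm g) = g := e.apply_symm_apply g
    exact (H21.pullback_comm π ξ (e.symm g).1).symm.trans (congrArg π h3)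

end Cfsg.Agent.S3961
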