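import Cfsg.Agent.Base
import Cfsg.Agent.H21.CentralExt
import Cfsg.Statements.S3966
-- import your own Cfsg.Agent.* helpers here

set_option autoImplicit false
open Cfsg

namespace Cfsg.Agent.S3966

/-- For even `n ≥ 2` the dicyclic group of order `4 n` is a stem extension of the dihedral group of order `2 n` with kernel of order `2`: there is a surjective homomorphism `QuaternionGroup n →* DihedralGroup n` whose kernel is central, lies in the commutator subgroup and has two elements. Together with the order of the multiplier this exhibits the dicyclic group as a Schur covering group of the dihedral group. -/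
theorem result (n : ℕ) [NeZero n] (hn : Even n) : ∃ σ : QuaternionGroup n →* DihedralGroup n, Cfsg.IsStemExtension σ ∧ Nat.card σ.ker = 2 := by
  let c : ZMod (2 * n) →+* ZMod n := ZMod.castHom (Dvd.intro_left 2 rfl) (ZMod n)
  let f : QuaternionGroup n → DihedralGroup n := fun g => match g with
    | .a i => .r (c i)
    | .xa i => .sr (c i)
  let σ : QuaternionGroup n →* DihedralGroup n := MonoidHom.mk' f (by
    rintro (i | i) (j | j) <;> simp [f])
  have hc : Function.Surjective c := ZMod.castHom_surjective _
  have hs : Function.Surjective σ := by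
    rintro (i | i)
    · obtain ⟨j, rfl⟩ := hc i
      exact ⟨.a j, rfl⟩
    · obtain ⟨j, rfl⟩ := hc i
      exact ⟨.xa j, rfl⟩
  have hn0 := NeZero.pos n
  have hcard : Nat.card σ.ker = 2 := by
    have := H21.card_eq_card_ker_mul σ hs
    rw [DihedralGroup.nat_card, Nat.card_eq_fintype_card, QuaternionGroup.card] at this
    refine Nat.eq_of_mul_eq_mul_right (by omega : 0 < 2 * n) ?_
    omega
  have ho : orderOf (QuaternionGroup.a n : QuaternionGroup n) = 2 := by
    rw [← QuaternionGroup.xa_sq 0, orderOf_pow, QuaternionGroup.orderOf_xa]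
    norm_num
  have hker : Subgroup.zpowers (QuaternionGroup.a n : QuaternionGroup n) = σ.ker := by
    refine Subgroup.eq_of_le_of_card_ge ?_ (by rw [hcard, Nat.card_zpowers, ho])
    rw [Subgroup.zpowers_le, MonoidHom.mem_ker]
    change DihedralGroup.r (c n) = 1
    simp
  have h2 : (2 * n : ZMod (2 * n)) = 0 := by exact_mod_cast ZMod.natCast_self (2 * n)
  refine ⟨σ, ⟨hs, ?_, ?_⟩, hcard⟩
  · rw [← hker, Subgroup.zpowers_le, Subgroup.mem_center_iff]
    rintro (i | i)
    · simp [add_comm]
    · simp only [QuaternionGroup.xa_mul_a, QuaternionGroup.a_mul_xa]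
      congr 1
      linear_combination h2
  · rw [← hker, Subgroup.zpowers_le]
    obtain ⟨k, hk⟩ := hn
    have : (QuaternionGroup.a n : QuaternionGroup n) * (QuaternionGroup.xa 0 * QuaternionGroup.a k)
        = QuaternionGroup.a k * QuaternionGroup.xa 0 := by
      simp only [QuaternionGroup.xa_mul_a, QuaternionGroup.a_mul_xa]
      congr 1
      have h3 : (n : ZMod (2 * n)) = k + k := by exact_mod_cast congrArg Nat.cast hk
      linear_combination (-1) * h3
    rw [← eq_mul_inv_iff_mul_eq, mul_inv_rev, ← mul_assoc] at this
    rw [this]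
    exact Subgroup.commutator_mem_commutator (Subgroup.mem_top _) (Subgroup.mem_top _)

end Cfsg.Agent.S3966
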