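import Cfsg.Agent.Base
import Cfsg.Agent.H21.MetacyclicMult
import Cfsg.Statements.S3967
-- import your own Cfsg.Agent.* helpers here

set_option autoImplicit false
open Cfsg

namespace Cfsg.Agent.S3967

/-- Let `m, n ≥ 1`, `r ≥ 1` with `r ^ n ≡ 1 (mod m)`, and `l` a natural number; put `d = gcd(m, r - 1)`, `t = m l / d` and `h = d · gcd(m, 1 + r + ⋯ + r^(n-1)) / m`. The group presented by generators `a, b` and relations `a ^ m = 1`, `b ^ n = a ^ t`, `b a b⁻¹ = a ^ r` (a metacyclic group of order `m n`) has Schur multiplier cyclic of order `gcd(l, h)`. -/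
theorem result (m n r l : ℕ) (hm : 0 < m) (hn : 0 < n) (hr : 0 < r) (hrn : r ^ n ≡ 1 [MOD m]) : Cfsg.HasCyclicSchurMultiplier (PresentedGroup ({FreeGroup.of true ^ m, (FreeGroup.of false) ^ n * (FreeGroup.of true ^ (m * l / Nat.gcd m (r - 1)))⁻¹, FreeGroup.of false * FreeGroup.of true * (FreeGroup.of false)⁻¹ * (FreeGroup.of true ^ r)⁻¹} : Set (FreeGroup Bool))) (Nat.gcd l (Nat.gcd m (r - 1) * Nat.gcd m (∑ i ∈ Finset.range n, r ^ i) / m)) := by
  obtain ⟨r, rfl⟩ : ∃ r', r = r' + 1 := ⟨r - 1, by omega⟩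
  obtain ⟨e, ρ, hcop, hme, hrρ⟩ := Nat.exists_coprime m r
  have hd0 : 0 < Nat.gcd m r := Nat.gcd_pos_of_pos_left _ hm
  have he : m / Nat.gcd m r = e := Nat.div_eq_of_eq_mul_left hd0 hme
  have htl : m * l / Nat.gcd m (r + 1 - 1) = e * l :=
    Nat.div_eq_of_eq_mul_left hd0 (by rw [Nat.add_sub_cancel, mul_right_comm, ← hme])
  rw [htl]
  have ht : e * l * (r + 1) ≡ e * l [MOD m] := by
    rw [mul_add, mul_one]
    refine Nat.ModEq.trans (Nat.ModEq.add_right _ (Nat.modEq_zero_iff_dvd.mpr ⟨l * ρ, ?_⟩))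
      (by rw [zero_add])
    calc e * l * r = e * l * (ρ * Nat.gcd m r) := by rw [← hrρ]
      _ = e * Nat.gcd m r * (l * ρ) := by ring
      _ = _ := by rw [← hme]
  obtain ⟨-, p2, p3⟩ := H21.metaRels_relations m n (r + 1) (e * l)
  refine H21.metacyclic_multiplier (G := PresentedGroup (H21.metaRels m n (r + 1) (e * l)))
    (PresentedGroup.of true) (PresentedGroup.of false) m n (r + 1) (e * l) _
    (H21.metaRels_orderOf m n _ _ hm hn hrn ht) hm hn hr (H21.metaRels_closure _ _ _ _)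
    (H21.metaRels_card m n _ _ hm hn hrn ht) p2 p3 ?_
  rw [Nat.add_sub_cancel, he]
  have hs : e ∣ ∑ i ∈ Finset.range n, (r + 1) ^ i := by
    rw [← geom_sum_mul_add r n] at hrn
    have h1 : m ∣ (∑ i ∈ Finset.range n, (r + 1) ^ i) * r :=
      Nat.modEq_zero_iff_dvd.mp (Nat.ModEq.add_right_cancel' 1 (by rwa [zero_add]))
    have h2 : e * Nat.gcd m r ∣ (∑ i ∈ Finset.range n, (r + 1) ^ i) * ρ * Nat.gcd m r := by
      rwa [← hme, mul_assoc, ← hrρ]
    exact hcop.dvd_of_dvd_mul_right (Nat.dvd_of_mul_dvd_mul_right hd0 h2)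
  obtain ⟨h, hh⟩ := Nat.dvd_gcd (Dvd.intro _ hme.symm) hs
  have h3 : Nat.gcd m r * Nat.gcd m (∑ i ∈ Finset.range n, (r + 1) ^ i) / m = h :=
    Nat.div_eq_of_eq_mul_left hm (by
      rw [hh, ← mul_assoc, mul_comm _ e, ← hme, mul_comm])
  rw [h3, hh, Nat.gcd_mul_left, Nat.gcd_comm]

end Cfsg.Agent.S3967
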