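import Cfsg.Statements.S3970
import Cfsg.Agent.H8.AutRank

set_option autoImplicit false
open Cfsg

namespace Cfsg.Agent.S3970

/-- Let `G` be a finite group such that for every prime `p` dividing its order, other than the largest such prime, the Sylow `p`-subgroups are abelian and generated by at most two elements, and suppose `12` does not divide the order of `G`. Then `G` is solvable. In particular a group of cube-free order not divisible by `12` is solvable. -/
theorem result {G : Type*} [Group G] [Finite G] (h : ∀ p : ℕ, p.Prime → p ∣ Nat.card G → (∃ q : ℕ, q.Prime ∧ q ∣ Nat.card G ∧ p < q) → ∀ P : Sylow p G, IsMulCommutative (P : Subgroup G) ∧ Group.rank (P : Subgroup G) ≤ 2) (h12 : ¬ 12 ∣ Nat.card G) : Group.IsSolvable G := by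
  induction hn : Nat.card G using Nat.strong_induction_on generalizing G with
  | _ n ih =>
  subst hn
  by_cases h1 : Nat.card G = 1
  · have : Subsingleton G := (Nat.card_eq_one_iff_unique.mp h1).1
    infer_instance
  obtain ⟨p, hpdef⟩ : ∃ p, p = (Nat.card G).minFac := ⟨_, rfl⟩
  have hp : p.Prime := hpdef ▸ Nat.minFac_prime h1
  have hpd : p ∣ Nat.card G := hpdef ▸ Nat.minFac_dvd _
  have hmin : ∀ q, q.Prime → q ∣ Nat.card G → p ≤ q := fun q hq hd =>
    hpdef ▸ Nat.minFac_le_of_dvd hq.two_le hd
  have := Fact.mk hp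
  by_cases hex : ∃ q : ℕ, q.Prime ∧ q ∣ Nat.card G ∧ p < q
  swap
  · have hG : IsPGroup p G := by
      rw [IsPGroup.iff_card]
      refine ⟨_, Nat.eq_prime_pow_of_unique_prime_dvd Nat.card_pos.ne' fun {q} hq hd => ?_⟩
      by_contra hne
      exact hex ⟨q, hq, hd, lt_of_le_of_ne (hmin q hq hd) (Ne.symm hne)⟩
    have := hG.isNilpotent
    infer_instance
  let P : Sylow p G := default
  obtain ⟨hab, hr⟩ := h p hp hpd hex P
  obtain ⟨a, ha⟩ := IsPGroup.iff_card.mp P.isPGroup'
  have key : ∀ q : ℕ, q.Prime → q ∣ Nat.card G → ∀ i, 1 ≤ i → i ≤ 2 → q ∣ p ^ i - 1 →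
      p = 2 ∧ q = 3 ∧ i = 2 := by
    intro q hq hd i h2 h3 h4
    have h5 := hmin q hq hd
    have h6 := hp.two_le
    have h7 : ¬ q ∣ p - 1 := fun h => by
      have := Nat.le_of_dvd (by omega) h
      omega
    have : i = 1 ∨ i = 2 := by omega
    rcases this with rfl | rfl
    · exact absurd (by simpa using h4) h7
    · have h8 : p ^ 2 - 1 = (p + 1) * (p - 1) := by simpa using Nat.sq_sub_sq p 1
      rw [h8] at h4
      have h9 := (hq.dvd_mul.mp h4).resolve_right h7
      have h10 := Nat.le_of_dvd (by omega) h9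
      have h11 : q ≠ p := by
        rintro rfl
        exact hq.not_dvd_one ((Nat.dvd_add_right dvd_rfl).mp h9)
      have h12 : q = p + 1 := by omega
      rcases hp.eq_two_or_odd' with rfl | hodd
      · exact ⟨rfl, h12, rfl⟩
      · rcases hq.eq_two_or_odd' with rfl | hodd'
        · omega
        · exact absurd (h12 ▸ hodd.add_one) (Nat.not_even_iff_odd.mpr hodd')
  have hNC : Subgroup.normalizer (P : Set G) ≤ Subgroup.centralizer (P : Set G) := by
    by_cases ha2 : a ≤ 1
    · apply H8.normalizer_le_centralizer_of_primes P hab ha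
      intro q hq hd i h2 h3 h4
      have := key q hq hd i h2 (by omega) h4
      omega
    · apply H8.normalizer_le_centralizer_of_rank P hab
      intro q hq hd i h2 h3 h4
      obtain ⟨rfl, rfl, rfl⟩ := key q hq hd i h2 (by omega) h4
      apply h12
      have h5 : 2 ^ 2 ∣ Nat.card G :=
        (pow_dvd_pow 2 (by omega : 2 ≤ a)).trans (ha ▸ Subgroup.card_subgroup_dvd_card _)
      exact Nat.Coprime.mul_dvd_of_dvd_of_dvd (by norm_num : Nat.Coprime 3 4) hd h5
  obtain ⟨N, hN, hN1, hN2⟩ :=
    H7.hasNPC_iff_exists.mp (H8.hasNPC_of_normalizer_le_centralizer P hNC)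
  have hlt : Nat.card N < Nat.card G := by
    refine lt_of_le_of_ne (Subgroup.card_le_card_group N) fun he => hN1 (he ▸ hpd)
  have hsol : Group.IsSolvable N := by
    refine ih _ hlt ?_ (fun h' => h12 (h'.trans (Subgroup.card_subgroup_dvd_card N))) rfl
    rintro r hr hrd ⟨q, hq, hqd, hrq⟩ R
    have := Fact.mk hr
    have hrp : r ≠ p := by
      rintro rfl
      exact hN1 hrd
    obtain ⟨k, hk⟩ := H7.isPGroup_quotient_iff_index.mp hN2
    have h3 : ¬ r ∣ ((R : Subgroup N).map N.subtype).index := by
      rw [Subgroup.index_map_subtype, hr.dvd_mul, hk]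
      rintro (h4 | h4)
      · exact R.not_dvd_index h4
      · exact hrp ((Nat.prime_dvd_prime_iff_eq hr hp).mp (hr.dvd_of_dvd_pow h4))
    let R' : Sylow r G := (R.isPGroup'.map N.subtype).toSylow h3
    obtain ⟨h4, h5⟩ := h r hr (hrd.trans (Subgroup.card_subgroup_dvd_card N))
      ⟨q, hq, hqd.trans (Subgroup.card_subgroup_dvd_card N), hrq⟩ R'
    let e : (R : Subgroup N) ≃* (R' : Subgroup G) :=
      (R : Subgroup N).equivMapOfInjective N.subtype N.subtype_injective
    refine ⟨⟨⟨fun x y => e.injective ?_⟩⟩, (Group.rank_congr e).trans_le h5⟩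
    rw [map_mul, map_mul]
    exact h4.is_comm.comm _ _
  have := hN2.isNilpotent
  exact Group.isSolvable_of_ker_le_range N.subtype (QuotientGroup.mk' N) (by simp)

end Cfsg.Agent.S3970
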