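import Cfsg.Statements.S3971
import Cfsg.Agent.H8.AutRank
import Cfsg.Agent.H8.SylowInf

set_option autoImplicit false
open Cfsg

namespace Cfsg.Agent.S3971

/-- Let `G` be a finite group of order `2 ^ a * n` with `n` odd and not divisible by `3`, and suppose `G` has an element of order `2 ^ (a - 1)` (so a Sylow `2`-subgroup has a cyclic subgroup of index at most `2`). Then `G` has a normal subgroup of order `n`. -/
theorem result {G : Type*} [Group G] [Finite G] (a n : ℕ) (hG : Nat.card G = 2 ^ a * n) (hn : Odd n) (h3 : ¬ 3 ∣ n) (hx : ∃ x : G, orderOf x = 2 ^ (a - 1)) : ∃ N : Subgroup G, N.Normal ∧ Nat.card N = n := by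
  obtain ⟨x, hx⟩ := hx
  have hxp : IsPGroup 2 (Subgroup.zpowers x) := IsPGroup.of_card (n := a - 1) (by simp [hx])
  obtain ⟨P, hP⟩ := hxp.exists_le_sylow
  have hn2 : ¬ 2 ∣ n := hn.not_two_dvd_nat
  have hPc : Nat.card P = 2 ^ a := by
    rw [P.card_eq_multiplicity, hG, Nat.factorization_mul (by positivity) hn.pos.ne']
    simp [Nat.prime_two.factorization_self, Nat.factorization_eq_zero_of_not_dvd hn2]
  let A : Subgroup P := (Subgroup.zpowers x).subgroupOf P
  have hA : Nat.card A = 2 ^ (a - 1) := by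
    rw [Nat.card_congr (Subgroup.subgroupOfEquivOfLe hP).toEquiv, Nat.card_zpowers, hx]
  have hAi : A.index ∣ 2 := by
    have h1 := A.card_mul_index
    rw [hA, hPc] at h1
    rcases Nat.eq_zero_or_pos a with rfl | ha
    · simp at h1
      simp [h1]
    · have : 2 ^ a = 2 ^ (a - 1) * 2 := by rw [← pow_succ]; congr 1; omega
      rw [this] at h1
      rw [Nat.eq_of_mul_eq_mul_left (by positivity) h1]
  have hAn : A.Normal := by
    rcases (Nat.dvd_prime Nat.prime_two).mp hAi with h | h
    · rw [Subgroup.index_eq_one.mp h]; infer_instance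
    · exact Subgroup.normal_of_index_eq_two h
  have hmc : Cfsg.IsMetacyclic P := by
    refine ⟨A, hAn, isCyclic_of_injective (Subgroup.subgroupOfEquivOfLe hP).toMonoidHom
      (Subgroup.subgroupOfEquivOfLe hP).injective, ?_⟩
    exact isCyclic_of_card_dvd_prime (p := 2) hAi
  have h := H8.hasNPC_of_isMetacyclic P hmc (by
    rw [hG]
    refine Nat.Coprime.mul_left (Nat.Coprime.pow_left _ (by norm_num)) ?_
    exact ((Nat.prime_three.coprime_iff_not_dvd).mpr h3).symm)
  obtain ⟨N, hN, hc⟩ := (H7.hasNPC_iff_sylow P).mp h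
  refine ⟨N, hN, ?_⟩
  have h1 := hc.card_mul_card
  rw [hPc, hG, mul_comm] at h1
  exact Nat.eq_of_mul_eq_mul_left (by positivity) h1

end Cfsg.Agent.S3971
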