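import Cfsg.Statements.S3972
import Cfsg.Agent.H30.SRing

set_option autoImplicit false
open Cfsg

namespace Cfsg.Agent.S3972

theorem mem_of_ne_one {G : Type*} [Group G] [Finite G] {p m : ℕ} (hp : p.Prime) (hm : 1 ≤ m) (g : G)
    (hg : orderOf g = p ^ m) (M : Subgroup G) {c : G} (hc : c ∈ Subgroup.zpowers g) (hc1 : c ≠ 1)
    (hcM : c ∈ M) : g ^ (p ^ (m - 1)) ∈ M := by
  obtain ⟨k, rfl⟩ := (mem_powers_iff_mem_zpowers.2 hc : ∃ k : ℕ, g ^ k = c)
  have h1 : ¬ p ^ m ∣ k := by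
    rw [← hg, orderOf_dvd_iff_pow_eq_one]
    exact hc1
  have h2 : Nat.gcd k (p ^ m) ∣ p ^ (m - 1) := by
    obtain ⟨j, hj, e⟩ := (Nat.dvd_prime_pow hp).1 (Nat.gcd_dvd_right k (p ^ m))
    have : j ≠ m := by
      rintro rfl
      exact h1 (e ▸ Nat.gcd_dvd_left k _)
    rw [e]
    exact pow_dvd_pow p (by omega)
  obtain ⟨t, ht⟩ := h2
  have h3 : g ^ Nat.gcd k (p ^ m) ∈ M := by
    have := Nat.gcd_eq_gcd_ab k (p ^ m)
    rw [← zpow_natCast, this, zpow_add, zpow_mul, zpow_mul, zpow_natCast, zpow_natCast, ← hg,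
      pow_orderOf_eq_one, one_zpow, mul_one]
    exact M.zpow_mem hcM _
  rw [ht, pow_mul]
  exact M.pow_mem h3 _


/-- Let `p` be a prime, `m ≥ 2`, and `G` a transitive but not doubly transitive permutation group on `p ^ m` points containing a permutation of order `p ^ m` (necessarily a full cycle). Then `G` is imprimitive, and the normal closure in `G` of the `p ^ (m - 1)`-th power of that permutation is an intransitive normal subgroup. -/
theorem result {Ω : Type*} [Fintype Ω] [DecidableEq Ω] (p m : ℕ) (hp : p.Prime) (hm : 2 ≤ m) (hΩ : Fintype.card Ω = p ^ m) (G : Subgroup (Equiv.Perm Ω)) (htr : MulAction.IsPretransitive G Ω) (h2 : ¬ MulAction.IsMultiplyPretransitive G Ω 2) (g : G) (hg : orderOf g = p ^ m) : ¬ MulAction.IsPreprimitive G Ω ∧ ¬ MulAction.IsPretransitive (Subgroup.normalClosure ({g ^ (p ^ (m - 1))} : Set G)) Ω := by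
  have hu1 : g ^ (p ^ (m - 1)) ≠ 1 := by
    intro h
    have := orderOf_dvd_of_pow_eq_one h
    rw [hg, Nat.pow_dvd_pow_iff_le_right hp.one_lt] at this
    omega
  obtain ⟨a, ha⟩ : ∃ a : Ω, g ^ (p ^ (m - 1)) • a ≠ a := by
    by_contra hc
    push Not at hc
    exact hu1 (Subtype.ext (Equiv.ext hc))
  have hst : MulAction.stabilizer (Subgroup.zpowers g) a = ⊥ := by
    rw [eq_bot_iff]
    intro c hc
    by_contra h1
    refine ha (mem_of_ne_one hp (by omega) g hg (MulAction.stabilizer G a) c.2 ?_ hc)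
    intro e
    exact h1 (Subgroup.mem_bot.2 (Subtype.ext e))
  have hinj : Function.Injective fun c : Subgroup.zpowers g => c • a := by
    intro x y hxy
    have : y⁻¹ * x ∈ MulAction.stabilizer (Subgroup.zpowers g) a := by
      rw [MulAction.mem_stabilizer_iff, mul_smul, inv_smul_eq_iff]
      exact hxy
    rw [hst, Subgroup.mem_bot] at this
    exact (inv_mul_eq_one.1 this).symm
  have hsurj : Function.Surjective fun c : Subgroup.zpowers g => c • a := by
    refine ((Nat.bijective_iff_injective_and_card _).2 ⟨hinj, ?_⟩).2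
    rw [Nat.card_zpowers, hg, Nat.card_eq_fintype_card, hΩ]
  have hCtr : MulAction.IsPretransitive (Subgroup.zpowers g) Ω := by
    refine ⟨fun x y => ?_⟩
    obtain ⟨c, rfl⟩ := hsurj x
    obtain ⟨d, rfl⟩ := hsurj y
    exact ⟨d * c⁻¹, by simp [mul_smul]⟩
  have hnp : ¬ MulAction.IsPreprimitive G Ω := by
    intro hprim
    refine h2 (H30.SR.two_trans_cyclic hprim (Subgroup.zpowers g) a hCtr hst ?_ ?_)
    · rw [Nat.card_eq_fintype_card, hΩ]
      exact Nat.one_lt_pow (by omega) hp.one_lt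
    · rw [Nat.card_eq_fintype_card, hΩ]
      intro h
      have := h.eq_one_of_pow
      omega
  refine ⟨hnp, fun hN => ?_⟩
  haveI : Nontrivial Ω := ⟨⟨_, _, ha⟩⟩
  rw [← MulAction.isCoatom_stabilizer_iff_preprimitive G a] at hnp
  have hne : MulAction.stabilizer G a ≠ ⊤ := by
    intro h
    exact ha (h ▸ Subgroup.mem_top (g ^ (p ^ (m - 1))) : _ ∈ MulAction.stabilizer G a)
  obtain ⟨M, hM1, hM2⟩ : ∃ M : Subgroup G, MulAction.stabilizer G a < M ∧ M ≠ ⊤ := by
    by_contra hc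
    push Not at hc
    exact hnp ⟨hne, hc⟩
  have hdec : ∀ x : G, ∃ c ∈ Subgroup.zpowers g, c⁻¹ * x ∈ MulAction.stabilizer G a := by
    intro x
    obtain ⟨c, hc⟩ := hsurj (x • a)
    refine ⟨c, c.2, ?_⟩
    rw [MulAction.mem_stabilizer_iff, mul_smul, inv_smul_eq_iff]
    exact hc.symm
  have huM : g ^ (p ^ (m - 1)) ∈ M := by
    obtain ⟨x, hx, hx'⟩ := SetLike.exists_of_lt hM1
    obtain ⟨c, hc, h1⟩ := hdec x
    refine mem_of_ne_one hp (by omega) g hg M hc ?_ ?_
    · rintro rfl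
      exact hx' (by simpa using h1)
    · have := M.mul_mem hx (M.inv_mem (hM1.le h1))
      simpa using this
  have hle : Subgroup.normalClosure ({g ^ (p ^ (m - 1))} : Set G) ≤ M := by
    refine le_trans (Subgroup.normalClosure_le_normal ?_) (Subgroup.normalCore_le M)
    rintro _ rfl
    intro x
    obtain ⟨c, ⟨k, rfl⟩, h1⟩ := hdec x⁻¹
    have h3 := hM1.le h1
    have h4 : x * g ^ (p ^ (m - 1)) * x⁻¹ =
        ((g ^ k)⁻¹ * x⁻¹)⁻¹ * g ^ (p ^ (m - 1)) * ((g ^ k)⁻¹ * x⁻¹) := by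
      have : Commute (g ^ k) (g ^ (p ^ (m - 1))) :=
        ((Commute.refl g).pow_right _).zpow_left _
      rw [mul_inv_rev, inv_inv, inv_inv, mul_assoc x (g ^ k), this.eq]
      group
    rw [h4]
    exact M.mul_mem (M.mul_mem (M.inv_mem h3) huM) h3
  apply hM2
  rw [eq_top_iff]
  intro x _
  obtain ⟨y, hy⟩ := hN.exists_smul_eq a (x • a)
  have h5 : (y : G)⁻¹ * x ∈ MulAction.stabilizer G a := by
    rw [MulAction.mem_stabilizer_iff, mul_smul, inv_smul_eq_iff]
    exact hy.symm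
  have := M.mul_mem (hle y.2) (hM1.le h5)
  simpa using this

end Cfsg.Agent.S3972
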