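import Cfsg.Agent.Base
import Cfsg.Agent.H21.Multiplier
import Cfsg.Statements.S3973
-- import your own Cfsg.Agent.* helpers here

set_option autoImplicit false
open Cfsg

namespace Cfsg.Agent.S3973

theorem rank_le_finrank {L A : Type*} [AddCommGroup L] [Module.Free ℤ L] [Module.Finite ℤ L]
    [Group A] [Group.FG A] (f : Multiplicative L →* A) (hf : Function.Surjective f) :
    Group.rank A ≤ Module.finrank ℤ L := by
  classical
  let b := Module.finBasis ℤ L
  have h : Subgroup.closure
      ((Finset.univ.image fun i => f (Multiplicative.ofAdd (b i)) : Finset A) : Set A) = ⊤ := by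
    rw [eq_top_iff]
    intro a _
    obtain ⟨x, rfl⟩ := hf a
    have hx : x.toAdd ∈ Submodule.span ℤ (Set.range b) := by rw [b.span_eq]; trivial
    change f (Multiplicative.ofAdd x.toAdd) ∈ _
    generalize x.toAdd = x at hx
    induction hx using Submodule.span_induction with
    | mem y hy =>
      obtain ⟨i, rfl⟩ := hy
      exact Subgroup.subset_closure (by simp)
    | zero => simp
    | add y z _ _ hy hz => rw [ofAdd_add, map_mul]; exact mul_mem hy hz
    | smul c y _ hy => rw [ofAdd_zsmul, map_zpow]; exact zpow_mem hy c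
  refine (Group.rank_le h).trans (Finset.card_image_le.trans ?_)
  simp

/-- If a finite group is presented by `n` generators and a finite set of `r` relators, then its Schur multiplier can be generated by `r - n` elements. In particular a finite group with a presentation having as many relators as generators has trivial Schur multiplier. -/
theorem result (n : ℕ) (rels : Finset (FreeGroup (Fin n))) [Finite (PresentedGroup (rels : Set (FreeGroup (Fin n))))] {A : Type*} [CommGroup A] [Finite A] (hA : Cfsg.HasSchurMultiplier (PresentedGroup (rels : Set (FreeGroup (Fin n)))) A) : Group.rank A ≤ rels.card - n := by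
  classical
  let π := PresentedGroup.mk (rels : Set (FreeGroup (Fin n)))
  obtain ⟨e⟩ := H21.multiplier_unique
    (H21.hasSchurMultiplier_hopf π (PresentedGroup.mk_surjective _)) hA
  let K := (H21.freeExtProj π).ker
  have hK := H21.freeExtProj_ker_le_center π
  let _ : CommGroup K := { (inferInstance : Group K) with
    mul_comm := fun a b => Subtype.ext (Subgroup.mem_center_iff.mp (hK b.2) a.1) }
  let κ : rels → Additive K := fun r =>
    Additive.ofMul ⟨H21.freeExtMk π r, PresentedGroup.one_of_mem r.2⟩
  let g : (rels → ℤ) →ₗ[ℤ] Additive K := Fintype.linearCombination ℤ κ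
  have hg : Function.Surjective g := by
    let T : Subgroup (H21.FreeExt π) :=
      (AddSubgroup.toSubgroup' (LinearMap.range g).toAddSubgroup).map K.subtype
    have hT : T.Normal := H21.normal_of_le_center ((Subgroup.map_subtype_le _).trans hK)
    have h1 : Subgroup.normalClosure (rels : Set (FreeGroup (Fin n))) ≤
        T.comap (H21.freeExtMk π) := Subgroup.normalClosure_le_normal (fun r hr =>
      ⟨(κ ⟨r, hr⟩).toMul, ⟨Pi.single ⟨r, hr⟩ 1, by simp [g]; rfl⟩, rfl⟩)
    rintro ⟨x, hx⟩
    obtain ⟨r, rfl⟩ := H21.freeExtMk_surjective π x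
    obtain ⟨y, ⟨v, hv⟩, hy⟩ := h1 (PresentedGroup.mk_eq_one_iff.mp hx)
    exact ⟨v, hv.trans (Subtype.ext hy)⟩
  let w : H21.FreeExt π →* Abelianization (FreeGroup (Fin n)) :=
    H21.freeExtLift π Abelianization.of (fun _ _ _ => Commute.all _ _)
  have hw : ∀ x, w x = 1 ↔ x ∈ commutator _ := fun x => by
    refine ⟨fun h => ?_, fun h => Abelianization.commutator_subset_ker w h⟩
    obtain ⟨y, rfl⟩ := H21.freeExtMk_surjective π x
    apply H21.map_mem_commutator
    rw [← Abelianization.ker_of]
    exact h
  let w' : Additive K →ₗ[ℤ] FreeAbelianGroup (Fin n) :=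
    (MonoidHom.toAdditive (w.comp K.subtype)).toIntLinearMap
  let h := w'.comp g
  have hr : n ≤ Module.finrank ℤ (LinearMap.range h) := by
    let N := Nat.card (PresentedGroup (rels : Set (FreeGroup (Fin n))))
    have hN : (N : ℤ) ≠ 0 := by exact_mod_cast Nat.card_pos.ne'
    have h1 : ∀ x : FreeAbelianGroup (Fin n), (N : ℤ) • x ∈ LinearMap.range h := fun x => by
      obtain ⟨y, hy⟩ := QuotientGroup.mk_surjective (s := commutator (FreeGroup (Fin n))) x.toMul
      obtain ⟨v, hv⟩ := hg (Additive.ofMul ⟨H21.freeExtMk π (y ^ N), by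
        change π (y ^ N) = 1
        rw [map_pow, pow_card_eq_one']⟩)
      refine ⟨v, ?_⟩
      rw [LinearMap.comp_apply, hv, natCast_zsmul]
      change Additive.ofMul (Abelianization.of (y ^ N)) = _
      rw [map_pow, ofMul_pow]
      exact congrArg (fun t => N • Additive.ofMul t) hy
    have h2 := LinearMap.finrank_le_finrank_of_injective
      (f := (LinearMap.lsmul ℤ (FreeAbelianGroup (Fin n)) N).codRestrict _ h1) (fun x y hxy =>
        smul_right_injective _ hN (congrArg Subtype.val hxy))
    rwa [Module.finrank_eq_card_basis (FreeAbelianGroup.basis (Fin n)), Fintype.card_fin] at h2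
  have hrn := (LinearMap.ker h).finrank_quotient_add_finrank
  rw [h.quotKerEquivRange.finrank_eq, Module.finrank_fintype_fun_eq_card, Fintype.card_coe] at hrn
  let f : Multiplicative (LinearMap.ker h) →* H21.hopf π :=
    (K.subtype.comp (AddMonoidHom.toMultiplicativeLeft
      (g.comp (LinearMap.ker h).subtype).toAddMonoidHom)).codRestrict _
      (fun v => ⟨Subtype.prop _, (hw _).mp v.toAdd.2⟩)
  have hf : Function.Surjective f := by
    rintro ⟨x, hx⟩
    obtain ⟨v, hv⟩ := hg (Additive.ofMul ⟨x, hx.1⟩)
    refine ⟨Multiplicative.ofAdd ⟨v, ?_⟩, Subtype.ext ?_⟩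
    · rw [LinearMap.mem_ker, LinearMap.comp_apply, hv]
      exact (hw x).mpr hx.2
    · exact congrArg (fun t : Additive K => (t.toMul : H21.FreeExt π)) hv
  have := rank_le_finrank (e.toMonoidHom.comp f) (e.surjective.comp hf)
  omega

end Cfsg.Agent.S3973
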