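import Cfsg.Agent.Base
import Cfsg.Agent.H21.ProjRep
import Cfsg.Statements.S3974
-- import your own Cfsg.Agent.* helpers here

set_option autoImplicit false
universe u v
open Cfsg

namespace Cfsg.Agent.S3974

theorem exists_extension_coprime {M N D : Type*} [Group M] [CommGroup N] [CommGroup D] [Finite D]
    (f : M →* N) (hf : Function.Injective f) (n : ℕ) (hn : ∀ x, x ^ n ∈ f.range)
    (hD : (Nat.card D).Coprime n) (g : M →* D) : ∃ h : N →* D, ∀ x, h (f x) = g x := by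
  let e : D ≃* D := MulEquiv.ofBijective (powMonoidHom n) (powCoprime hD).bijective
  let e' := MonoidHom.ofInjective hf
  refine ⟨(e.symm.toMonoidHom.comp (g.comp e'.symm.toMonoidHom)).comp
    ((powMonoidHom n).codRestrict _ hn), fun x => ?_⟩
  have h1 : ((powMonoidHom n).codRestrict _ hn) (f x) = e' (x ^ n) := Subtype.ext (by
    simp [e', MonoidHom.ofInjective_apply]; rfl)
  simp only [MonoidHom.comp_apply, h1, MulEquiv.toMonoidHom_eq_coe, MonoidHom.coe_coe,
    MulEquiv.symm_apply_apply, map_pow]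
  rw [← map_pow, MulEquiv.symm_apply_eq]
  rfl

open Subgroup H21 in
theorem unique_of_coprime {Q : Type u} [Group Q] [Finite Q] {A : Type v} [CommGroup A]
    (hA : HasSchurMultiplier Q A) (hcop : Nat.Coprime (Nat.card (Abelianization Q)) (Nat.card A))
    {Γ₁ Γ₂ : Type*} [Group Γ₁] [Group Γ₂] (σ₁ : Γ₁ →* Q) (σ₂ : Γ₂ →* Q)
    (h₁ : IsStemExtension σ₁) (h₂ : IsStemExtension σ₂) (k₁ : Nat.card σ₁.ker = Nat.card A)
    (k₂ : Nat.card σ₂.ker = Nat.card A) : ∃ e : Γ₁ ≃* Γ₂, σ₂.comp e.toMonoidHom = σ₁ := by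
  have := finite_of_stem σ₁ h₁
  have := finite_of_stem σ₂ h₂
  let π := canPres Q
  have hρ := isCentralExt_freeExtProj π (canPres_surjective Q)
  obtain ⟨ψ, hψ⟩ := exists_freeExt_lift π (MonoidHom.id Q) σ₁ (isCentralExt_of_stem h₁)
  obtain ⟨φ, hφ⟩ := exists_freeExt_lift π (MonoidHom.id Q) σ₂ (isCentralExt_of_stem h₂)
  have hψs : Function.Surjective ψ := surjective_of_lift_stem σ₁ h₁ ψ (fun d => by
    obtain ⟨x, hx⟩ := hρ.1 (σ₁ d)
    exact ⟨x, (hψ x).trans hx⟩)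
  have hker : ∀ s, ψ s = 1 → freeExtProj π s = 1 := fun s hs => by
    have := hψ s
    rw [hs, map_one] at this
    exact this.symm
  have hf : Function.Injective (Abelianization.of.comp ψ.ker.subtype) := by
    rw [injective_iff_map_eq_one]
    intro x hx
    have h1 : (x : FreeExt π) ∈ commutator _ := by
      rw [← Abelianization.ker_of]; exact hx
    exact Subtype.ext (eq_one_of_cover hA σ₁ h₁ k₁ _ hρ ψ hψ ⟨hker x x.2, h1⟩ x.2)
  let _ : CommGroup σ₂.ker := { (inferInstance : Group σ₂.ker) with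
    mul_comm := fun a b => Subtype.ext (mem_center_iff.mp (h₂.2.1 b.2) a.1) }
  let g : ψ.ker →* σ₂.ker := (φ.comp ψ.ker.subtype).codRestrict _ (fun s => by
    rw [MonoidHom.mem_ker, MonoidHom.comp_apply, hφ, coe_subtype, hker s.1 s.2, map_one])
  obtain ⟨μ', hμ⟩ := exists_extension_coprime _ hf (Nat.card (Abelianization Q)) (fun x => by
    obtain ⟨x, rfl⟩ := QuotientGroup.mk_surjective (s := commutator (FreeExt π)) x
    have h3 : σ₁ (ψ (x ^ Nat.card (Abelianization Q))) ∈ commutator Q := by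
      rw [← Abelianization.ker_of, MonoidHom.mem_ker, map_pow, map_pow, map_pow, pow_card_eq_one']
    rw [← map_commutator_of_surjective σ₁ h₁.1] at h3
    obtain ⟨c, hc, e⟩ := h3
    have h4 : ψ (x ^ Nat.card (Abelianization Q)) ∈ commutator Γ₁ := by
      have h5 : c⁻¹ * ψ (x ^ Nat.card (Abelianization Q)) ∈ σ₁.ker := by
        rw [MonoidHom.mem_ker, map_mul, map_inv, e, inv_mul_cancel]
      simpa using mul_mem hc (h₁.2.2 h5)
    rw [← map_commutator_of_surjective ψ hψs] at h4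
    obtain ⟨y, hy, e'⟩ := h4
    refine ⟨⟨y⁻¹ * x ^ Nat.card (Abelianization Q), by
      rw [MonoidHom.mem_ker, map_mul, map_inv, e', inv_mul_cancel]⟩, ?_⟩
    change Abelianization.of (y⁻¹ * x ^ Nat.card (Abelianization Q)) = Abelianization.of x ^ _
    rw [map_mul, map_inv, Abelianization.commutator_subset_ker _ hy, map_pow]
    simp) (k₂ ▸ hcop.symm) g
  let μ := μ'.comp Abelianization.of
  obtain ⟨η, hη⟩ := exists_descend ψ hψs φ (σ₂.ker.subtype.comp μ⁻¹)
    (fun x => h₂.2.1 (μ⁻¹ x).2) (fun s hs => by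
      have h1 : (μ s : Γ₂) = φ s := congrArg Subtype.val (hμ ⟨s, hs⟩)
      simp [h1])
  have hη' : ∀ y, σ₂ (η y) = σ₁ y := fun y => by
    obtain ⟨x, rfl⟩ := hψs y
    have h2 : σ₂ (μ x) = 1 := (μ x).2
    simp [hη, hφ, hψ, h2]
  have hs := surjective_of_lift_stem σ₂ h₂ η (fun d => by
    obtain ⟨x, hx⟩ := h₁.1 (σ₂ d)
    exact ⟨x, (hη' x).trans hx⟩)
  refine ⟨MulEquiv.ofBijective η ((Nat.bijective_iff_surjective_and_card _).mpr ⟨hs, ?_⟩),
    MonoidHom.ext hη'⟩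
  rw [card_eq_card_ker_mul σ₁ h₁.1, card_eq_card_ker_mul σ₂ h₂.1, k₁, k₂]

/-- Let `Q` be a finite group with Schur multiplier `A`. Any two Schur covering groups of `Q` (finite stem extensions `σ₁ : Γ₁ →* Q`, `σ₂ : Γ₂ →* Q` with kernels isomorphic to `A`, `Γ₁, Γ₂` in the universe of `Q`) are isomorphic over `Q` — there is a group isomorphism `e : Γ₁ ≃* Γ₂` with `σ₂ ∘ e = σ₁` — if and only if the order of the commutator quotient of `Q` is coprime to the order of `A`. In particular a finite perfect group has a unique Schur covering group up to isomorphism over it. -/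
theorem result {Q : Type u} [Group Q] [Finite Q] {A : Type v} [CommGroup A] (hA : Cfsg.HasSchurMultiplier Q A) : (∀ (Γ₁ Γ₂ : Type u) [Group Γ₁] [Finite Γ₁] [Group Γ₂] [Finite Γ₂] (σ₁ : Γ₁ →* Q) (σ₂ : Γ₂ →* Q), Cfsg.IsStemExtension σ₁ → Cfsg.IsStemExtension σ₂ → Nonempty (σ₁.ker ≃* A) → Nonempty (σ₂.ker ≃* A) → ∃ e : Γ₁ ≃* Γ₂, σ₂.comp e.toMonoidHom = σ₁) ↔ Nat.Coprime (Nat.card (Abelianization Q)) (Nat.card A) := by
  refine ⟨fun h => ?_, fun h Γ₁ Γ₂ _ _ _ _ σ₁ σ₂ h₁ h₂ ⟨e₁⟩ ⟨e₂⟩ => unique_of_coprime hA h σ₁ σ₂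
    h₁ h₂ (Nat.card_congr e₁.toEquiv) (Nat.card_congr e₂.toEquiv)⟩
  by_contra hcop
  obtain ⟨p, hp, hp1, hp2⟩ := Nat.Prime.not_coprime_iff_dvd.mp hcop
  have : Fact p.Prime := ⟨hp⟩
  obtain ⟨Γ, _, _, σ, hσ, ⟨eA⟩⟩ := hA.1
  let _ : CommGroup σ.ker := { (inferInstance : Group σ.ker) with
    mul_comm := fun a b => Subtype.ext (Subgroup.mem_center_iff.mp (hσ.2.1 b.2) a.1) }
  obtain ⟨a, ha⟩ : ∃ a : σ.ker, a ∉ (powMonoidHom p : σ.ker →* σ.ker).range := by
    by_contra hc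
    push Not at hc
    have h1 := Finite.injective_iff_surjective.mpr
      (hc : Function.Surjective (powMonoidHom p : σ.ker →* σ.ker))
    obtain ⟨b, hb⟩ := exists_prime_orderOf_dvd_card' (G := σ.ker) p
      (by rwa [Nat.card_congr eA.toEquiv])
    have h2 := (injective_iff_map_eq_one _).mp h1 b (by
      rw [powMonoidHom_apply, ← hb, pow_orderOf_eq_one])
    rw [h2, orderOf_one] at hb
    exact hp.one_lt.ne hb
  obtain ⟨g, hg⟩ := exists_prime_orderOf_dvd_card' (G := Abelianization Q) p hp1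
  obtain ⟨ι, _, n, hn, ⟨e⟩⟩ :=
    CommGroup.equiv_prod_multiplicative_zmod_of_finite (Abelianization Q)
  obtain ⟨i, hi⟩ : ∃ i, e g i ≠ 1 := by
    by_contra hc
    push Not at hc
    rw [e.map_eq_one_iff.mp (funext hc), orderOf_one] at hg
    exact hp.one_lt.ne hg
  let N := n i
  let χ : Γ →* Multiplicative (ZMod N) :=
    (((Pi.evalMonoidHom _ i).comp e.toMonoidHom).comp Abelianization.of).comp σ
  let c : Multiplicative ℤ →* Multiplicative (ZMod N) :=
    AddMonoidHom.toMultiplicative (Int.castAddHom (ZMod N))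
  have hc : H21.IsCentralExt c := by
    refine ⟨fun x => ?_, fun x _ => Subgroup.mem_center_iff.mpr fun y => mul_comm _ _⟩
    obtain ⟨z, hz⟩ := ZMod.intCast_surjective x.toAdd
    exact ⟨Multiplicative.ofAdd z, congrArg Multiplicative.ofAdd hz⟩
  have hck : ∀ z, c z = 1 ↔ (N : ℤ) ∣ z.toAdd := fun z =>
    ZMod.intCast_zmod_eq_zero_iff_dvd z.toAdd N
  let E := H21.pullback χ c
  let f := H21.pullbackFst χ c
  let s := H21.pullbackSnd χ c
  have hf := H21.isCentralExt_pullbackFst χ c hc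
  have hEc : ∀ x : E, x ∈ commutator E ↔ f x ∈ commutator Γ ∧ s x = 1 := fun x => by
    refine ⟨fun hx => ⟨H21.map_mem_commutator f hx, Abelianization.commutator_subset_ker s hx⟩,
      fun ⟨h1, h2⟩ => ?_⟩
    rw [← H21.map_commutator_of_surjective f hf.1] at h1
    obtain ⟨y, hy, e⟩ := h1
    have h3 : s y = 1 := Abelianization.commutator_subset_ker s hy
    rwa [show x = y from Subtype.ext (Prod.ext e.symm (h2.trans h3.symm))]
  have hχ : ∀ k ∈ σ.ker, χ k = 1 := fun k hk => by simp [χ, MonoidHom.mem_ker.mp hk]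
  let ε : E := ⟨((a : Γ)⁻¹, Multiplicative.ofAdd (N : ℤ)), by
    rw [H21.mem_pullback, hχ _ (inv_mem a.2)]
    exact ((hck (Multiplicative.ofAdd (N : ℤ))).mpr dvd_rfl).symm⟩
  have hfε : f ε = (a : Γ)⁻¹ := rfl
  have hsε : s ε = Multiplicative.ofAdd (N : ℤ) := rfl
  have hρ : H21.IsCentralExt (σ.comp f) := ⟨hσ.1.comp hf.1, fun x hx =>
    Subgroup.mem_center_iff.mpr fun y => Subtype.ext (Prod.ext
      (Subgroup.mem_center_iff.mp (hσ.2.1 hx) y.1.1) (mul_comm _ _))⟩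
  have hS : Subgroup.zpowers ε ≤ (σ.comp f).ker := by
    rw [Subgroup.zpowers_le]; exact (inv_mem a.2 : (a : Γ)⁻¹ ∈ σ.ker)
  have hN : (Subgroup.zpowers ε).Normal := H21.normal_of_le_center (hS.trans hρ.2)
  have hN0 : (N : ℤ) ≠ 0 := by have := hn i; omega
  obtain ⟨hst, ⟨e₂⟩⟩ := H21.stem_quotient_of_complement (σ.comp f) hρ _ hS (by
      rw [eq_bot_iff]
      rintro _ ⟨⟨j, rfl⟩, hj⟩
      have h1 := congrArg Multiplicative.toAdd ((hEc _).mp hj).2
      simp only [map_zpow, hsε] at h1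
      have h2 : j = 0 := by
        have hN1 : N ≠ 0 := by exact_mod_cast hN0
        simpa [hN1] using h1
      simp [h2])
    (fun x hx => by
      obtain ⟨j, hj⟩ := (hck (s x)).mp ((H21.pullback_comm χ c x).symm.trans (hχ _ hx))
      refine ⟨ε ^ j, ⟨j, rfl⟩, (hEc _).mpr ⟨hσ.2.2 ?_, ?_⟩⟩
      · exact (σ.comp f).ker.mul_mem ((σ.comp f).ker.inv_mem (hS ⟨j, rfl⟩)) hx
      · apply Multiplicative.toAdd.injective
        simp [hsε, hj, mul_comm])
  have e₃ : ((σ.comp f).ker ⊓ commutator E : Subgroup E) ≃* σ.ker :=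
    (MulEquiv.ofBijective _ ⟨by
      rw [injective_iff_map_eq_one]
      intro x hx
      exact Subtype.ext (Subtype.ext (Prod.ext (congrArg Subtype.val hx) ((hEc _).mp x.2.2).2)),
      H21.kerCommMap_surjective (σ.comp f) hρ.1 σ hσ.2.1 f (fun _ => rfl)⟩).trans
      (H21.stemKerEquiv σ hσ)
  have := H21.finite_of_stem _ hst
  obtain ⟨θ, hθ⟩ := h _ Γ _ σ hst hσ ⟨e₂.symm.trans (e₃.trans eA)⟩ ⟨eA⟩
  let μ := H21.liftDiff σ hσ.2.1 (θ.toMonoidHom.comp (QuotientGroup.mk' _)) f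
    (fun x => DFunLike.congr_fun hθ (QuotientGroup.mk' _ x))
  have hμ : μ ε = a := Subtype.ext (by
    have : QuotientGroup.mk' (Subgroup.zpowers ε) ε = 1 :=
      (QuotientGroup.eq_one_iff _).mpr (Subgroup.mem_zpowers ε)
    change θ.toMonoidHom (QuotientGroup.mk' _ ε) * (f ε)⁻¹ = _
    rw [this, map_one, hfε]
    simp)
  obtain ⟨q, rfl⟩ := QuotientGroup.mk_surjective (s := commutator Q) g
  obtain ⟨x, rfl⟩ := hσ.1 q
  obtain ⟨y, rfl⟩ := hf.1 x
  have hgp : Abelianization.of (σ (f y)) ^ p = 1 := by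
    rw [← hg]; exact pow_orderOf_eq_one _
  have h1 : c (s y ^ p) = 1 := by
    rw [map_pow, ← H21.pullback_comm χ c y]
    change (((Pi.evalMonoidHom _ i).comp e.toMonoidHom) (Abelianization.of (σ (f y)))) ^ p = 1
    rw [← map_pow, hgp, map_one]
  obtain ⟨j, hj⟩ := (hck _).mp h1
  have hpj : ¬ (p : ℤ) ∣ j := by
    rintro ⟨k, rfl⟩
    apply hi
    change χ (f y) = 1
    rw [H21.pullback_comm χ c y, hck]
    refine ⟨k, mul_left_cancel₀ (by exact_mod_cast hp.ne_zero : (p : ℤ) ≠ 0) ?_⟩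
    rw [toAdd_pow, nsmul_eq_mul] at hj
    rw [hj]; ring
  have h2 : y ^ p * (ε ^ j)⁻¹ ∈ commutator E := by
    refine (hEc _).mpr ⟨?_, ?_⟩
    · rw [map_mul, map_inv]
      refine mul_mem ?_ (inv_mem (hσ.2.2 (hS ⟨j, rfl⟩)))
      have h3 : σ (f (y ^ p)) ∈ commutator Q := by
        rw [← Abelianization.ker_of, MonoidHom.mem_ker, map_pow, map_pow, map_pow, hgp]
      rw [← H21.map_commutator_of_surjective σ hσ.1] at h3
      obtain ⟨c, hc, e⟩ := h3
      have h5 : c⁻¹ * f (y ^ p) ∈ σ.ker := by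
        rw [MonoidHom.mem_ker, map_mul, map_inv, e, inv_mul_cancel]
      simpa using mul_mem hc (hσ.2.2 h5)
    · apply Multiplicative.toAdd.injective
      rw [map_mul, map_inv, map_pow, toAdd_mul, hj]
      simp [hsε, mul_comm]
  have h3 : μ (y ^ p * (ε ^ j)⁻¹) = 1 := Abelianization.commutator_subset_ker μ h2
  rw [map_mul, map_inv, map_pow, map_zpow, hμ, mul_inv_eq_one] at h3
  obtain ⟨u, v, huv⟩ := (Nat.prime_iff_prime_int.mp hp).coprime_iff_not_dvd.mpr hpj
  refine ha ⟨a ^ u * μ y ^ v, ?_⟩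
  rw [powMonoidHom_apply, mul_pow, ← zpow_natCast, ← zpow_natCast, ← zpow_mul, ← zpow_mul,
    mul_comm v, zpow_mul (μ y), zpow_natCast, h3, ← zpow_mul, ← zpow_add, mul_comm j, huv, zpow_one]

end Cfsg.Agent.S3974
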