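import Cfsg.Statements.S3977
import Cfsg.Agent.Base
import Cfsg.Agent.H3.Kulakoff

set_option autoImplicit false
open Cfsg

namespace Cfsg.Agent.S3977

/-- Let `p` be a prime and `G` a group of order `p ^ m` which has exactly one subgroup of order `p ^ s`, where `1 ≤ s < m`, and where `s ≥ 2` if `p = 2`. Then `G` is cyclic. (For `p = 2` and `s = 1` the generalized quaternion groups also occur; that case is the classical criterion for a unique involution.) -/
theorem result {G : Type*} [Group G] [Finite G] (p m s : ℕ) (hp : p.Prime) (hG : Nat.card G = p ^ m) (hs : 1 ≤ s) (hsm : s < m) (h2 : p ≠ 2 ∨ 2 ≤ s) (huniq : ∀ H K : Subgroup G, Nat.card H = p ^ s → Nat.card K = p ^ s → H = K) : IsCyclic G := by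
  have : Fact p.Prime := ⟨hp⟩
  by_contra hnc
  obtain ⟨H, hH⟩ := Sylow.exists_subgroup_card_pow_prime (G := G) p (n := s)
    (hG ▸ pow_dvd_pow p hsm.le)
  by_cases hd : p = 2 ∧ ∃ (n : ℕ) (a b : G), H3.DSQ n a b
  · obtain ⟨rfl, n, a, b, h⟩ := hd
    have hmn := Nat.pow_right_injective le_rfl (hG.symm.trans h.card)
    obtain ⟨K, hK, hKC⟩ := Sylow.exists_subgroup_card_pow_prime_le 2 (G := G) (n := 2) (m := s)
      (hG ▸ pow_dvd_pow 2 hsm.le) _ (h.card_centralizer h.notMem) (by omega)
    obtain ⟨L, hL⟩ := Sylow.exists_subgroup_card_pow_prime (G := Subgroup.zpowers a) 2 (n := s)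
      (by rw [Nat.card_zpowers, h.ord]; exact pow_dvd_pow 2 (by omega))
    have h3 := huniq K (L.map (Subgroup.zpowers a).subtype) hK
      (by rw [Subgroup.card_map_of_injective (Subgroup.subtype_injective _), hL])
    exact h.notMem (Subgroup.map_subtype_le L
      (h3 ▸ hKC (Subgroup.mem_centralizer_singleton_iff.mpr rfl)))
  · have h1 := H3.card_subgroups_modEq_sq m G hG hnc s hs hsm fun hp2 =>
      Or.inr fun h => hd ⟨hp2, h⟩
    rw [H3.card_subtype_eq_one (a := H) fun K => ⟨fun hK => huniq K H hK hH, fun h => h ▸ hH⟩]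
      at h1
    have h3 := (Nat.modEq_iff_dvd' (Nat.le_add_right 1 p)).mp h1
    rw [Nat.add_sub_cancel_left] at h3
    have := Nat.le_of_dvd hp.pos h3
    have := hp.two_le
    nlinarith

end Cfsg.Agent.S3977
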