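import Cfsg.Agent.Base
import Cfsg.Agent.H21.ProjRep
import Cfsg.Agent.S3955
import Cfsg.Statements.S3978
-- import your own Cfsg.Agent.* helpers here

set_option autoImplicit false
open Cfsg

namespace Cfsg.Agent.S3978

/-- A finite group `Q` has trivial Schur multiplier if and only if, for every `n`, every homomorphism from `Q` to the projective general linear group (the quotient of `GL n ℂ` by its centre) lifts to a homomorphism into `GL n ℂ`. -/
theorem result {Q : Type*} [Group Q] [Finite Q] : Cfsg.HasCyclicSchurMultiplier Q 1 ↔ ∀ (n : ℕ) (γ : Q →* (GL (Fin n) ℂ ⧸ Subgroup.center (GL (Fin n) ℂ))), ∃ ρ : Q →* GL (Fin n) ℂ, (QuotientGroup.mk' (Subgroup.center (GL (Fin n) ℂ))).comp ρ = γ := by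
  have hk : (MonoidHom.id Q).ker = ⊥ := by
    rw [eq_bot_iff]; intro x hx; exact hx
  have hu : Unique (MonoidHom.id Q).ker := by rw [hk]; infer_instance
  constructor
  · intro h n γ
    exact Cfsg.Agent.S3955.result h (MonoidHom.id Q) (H21.isStemExtension_id Q)
      ⟨MulEquiv.ofUnique⟩ n γ
  · intro h
    obtain ⟨e⟩ := H21.cover_of_projective_lift (MonoidHom.id Q) (H21.isStemExtension_id Q) h
    exact (H21.trivialMultiplier_iff_subsingleton (H21.hasSchurMultiplier_can Q)).mpr
      e.symm.toEquiv.subsingleton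

end Cfsg.Agent.S3978
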