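import Cfsg.Statements.S3992
import Cfsg.Agent.H24.Eppo

set_option autoImplicit false
open Cfsg

namespace Cfsg.Agent.S3992

/-- Let G be a finite non-solvable group in which every element has prime-power order, and let R be its largest solvable normal subgroup. Then R is a p-group for some prime p; G/R has a non-abelian simple normal subgroup contained in every nontrivial normal subgroup of G/R (its unique minimal normal subgroup); and the order of every solvable subgroup of G has at most two prime divisors. -/
theorem result {G : Type*} [Group G] [Finite G] (hns : ¬ Group.IsSolvable G) (hpp : ∀ g : G, g ≠ 1 → IsPrimePow (orderOf g))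
    (R : Subgroup G) [R.Normal] (hRs : Group.IsSolvable ↥R) (hRmax : ∀ N : Subgroup G, N.Normal → Group.IsSolvable ↥N → N ≤ R) :
    (∃ p : ℕ, p.Prime ∧ IsPGroup p ↥R) ∧
      (∃ M : Subgroup (G ⧸ R), M.Normal ∧ IsSimpleGroup ↥M ∧ ¬ IsMulCommutative ↥M ∧
        ∀ N : Subgroup (G ⧸ R), N.Normal → N ≠ ⊥ → M ≤ N) ∧
      ∀ H : Subgroup G, Group.IsSolvable ↥H → (Nat.card ↥H).primeFactors.card ≤ 2 := by
  have h : H24.Eppo G := hpp
  refine ⟨h.isPGroup_of_normal hns R, ?_, fun H _ => (h.subgroup H).card_primeFactors_le⟩
  have : Nontrivial (G ⧸ R) := not_subsingleton_iff_nontrivial.1 fun _ =>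
    hns (H2.isSolvable_of_normal_of_quotient R)
  refine (h.quotient R).exists_socle fun N hN _ => ?_
  have : Group.IsSolvable (N.comap (QuotientGroup.mk' R)) := by
    refine Group.isSolvable_of_ker_le_range (Subgroup.inclusion (QuotientGroup.le_comap_mk' R N))
      ((QuotientGroup.mk' R).subgroupComap N) fun x hx => ?_
    exact ⟨⟨x, (QuotientGroup.eq_one_iff _).1 (congrArg Subtype.val hx)⟩, rfl⟩
  rw [eq_bot_iff]
  intro x hx
  obtain ⟨y, rfl⟩ := QuotientGroup.mk'_surjective R x
  exact (QuotientGroup.eq_one_iff _).2 (hRmax _ (hN.comap _) this hx)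

end Cfsg.Agent.S3992
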