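import Cfsg.Statements.S3994
import Cfsg.Agent.Base
import Cfsg.Agent.H23.Frobenius

set_option autoImplicit false
open Cfsg

namespace Cfsg.Agent.S3994

/-- Let G be a finite group and n a positive integer. The number of elements of G whose order is divisible by n is either 0 or divisible by the largest divisor of the order of G that is coprime to n. -/
theorem result {G : Type*} [Group G] [Finite G] (n : ℕ) (hn : 0 < n) :
    Nat.card {g : G // n ∣ orderOf g} = 0 ∨
      (Nat.card G / Nat.gcd (Nat.card G) (n ^ Nat.card G)) ∣ Nat.card {g : G // n ∣ orderOf g} := by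
  right
  set m := Nat.card G / Nat.gcd (Nat.card G) (n ^ Nat.card G) with hm
  have hpos : 0 < Nat.card G := Nat.card_pos
  have hmd : m ∣ Nat.card G := Nat.div_dvd_of_dvd (Nat.gcd_dvd_left _ _)
  have hcop : Nat.Coprime n m := by
    rw [Nat.coprime_iff_gcd_eq_one]
    by_contra hne
    obtain ⟨p, hp, hpd⟩ := Nat.exists_prime_and_dvd hne
    have hpn : p ∣ n := hpd.trans (Nat.gcd_dvd_left _ _)
    have hpm : p ∣ m := hpd.trans (Nat.gcd_dvd_right _ _)
    have h1 : p * Nat.gcd (Nat.card G) (n ^ Nat.card G) ∣ Nat.card G :=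
      (Nat.dvd_div_iff_mul_dvd (Nat.gcd_dvd_left _ _)).mp hpm |> (mul_comm p _ ▸ ·)
    set a := (Nat.card G).factorization p with ha
    have h2 : p ^ a ∣ Nat.card G := Nat.ordProj_dvd _ _
    have h3 : a ≤ Nat.card G := (Nat.factorization_lt p hpos.ne').le
    have h4 : p ^ a ∣ n ^ Nat.card G := (pow_dvd_pow p h3).trans (pow_dvd_pow_of_dvd hpn _)
    have h5 : p ^ (a + 1) ∣ Nat.card G := by
      rw [pow_succ']
      exact (Nat.mul_dvd_mul_left p (Nat.dvd_gcd h2 h4)).trans h1
    exact Nat.pow_succ_factorization_not_dvd hpos.ne' hp h5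
  have h := H23.gcd_dvd_card_pow_mem_conj (G := G) m {y | n ∣ orderOf y} (by
    intro k c hc
    change n ∣ orderOf (k * c * k⁻¹)
    have : orderOf (k * c * k⁻¹) = orderOf c := (MulAut.conj k).orderOf_eq c
    rw [this]
    exact hc)
  rw [Nat.gcd_eq_left hmd] at h
  have e : Nat.card {g : G // n ∣ orderOf g} = Nat.card {x : G // x ^ m ∈ {y | n ∣ orderOf y}} := by
    refine Nat.card_congr (Equiv.subtypeEquivRight fun x => ?_)
    change _ ↔ n ∣ orderOf (x ^ m)
    constructor
    · intro hx
      have h1 : orderOf x ∣ m * orderOf (x ^ m) := by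
        rw [orderOf_dvd_iff_pow_eq_one, pow_mul, pow_orderOf_eq_one]
      exact hcop.dvd_of_dvd_mul_left (hx.trans h1)
    · intro hx
      exact hx.trans (orderOf_pow_dvd m)
  rw [e]
  exact h

end Cfsg.Agent.S3994
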