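import Cfsg.Statements.S3997
import Cfsg.Agent.Base
import Cfsg.Agent.H23.OrderType

set_option autoImplicit false
open Cfsg

namespace Cfsg.Agent.S3997

/-- Let G and H be finite groups with the same order type: for every m they have the same number of elements of order m. If G is nilpotent then so is H. -/
theorem result {G H : Type*} [Group G] [Finite G] [Group H] [Finite H] (hT : (∀ m : ℕ, Nat.card {g : G // orderOf g = m} = Nat.card {h : H // orderOf h = m})) (hG : Group.IsNilpotent G) :
    Group.IsNilpotent H := by
  obtain ⟨e, he⟩ := H23.exists_equiv_orderOf_eq hT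
  have h1 : ∀ (p : ℕ) (_hp : Fact p.Prime) (P : Sylow p H), (↑P : Subgroup H).Normal := by
    intro p hp Q
    obtain ⟨P⟩ : Nonempty (Sylow p G) := inferInstance
    have : (P : Subgroup G).Normal :=
      Sylow.normal_of_normalizerCondition Group.normalizerCondition_of_isNilpotent P
    exact H23.normal_of_isPiHall_of_orderType e he (H23.isPiHall_sylow P) (H23.isPiHall_sylow Q)
  exact ((Group.isNilpotent_of_finite_tfae (G := H)).out 3 0).mp h1

end Cfsg.Agent.S3997
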