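import Cfsg.Statements.S3998
import Cfsg.Agent.Base
import Cfsg.Agent.H23.Tower

set_option autoImplicit false
open Cfsg

namespace Cfsg.Agent.S3998

/-- Let G and H be finite groups with the same order type (for every m the same number of elements of order m). If G is supersolvable then H is solvable. -/
theorem result {G H : Type*} [Group G] [Finite G] [Group H] [Finite H] (hT : (∀ m : ℕ, Nat.card {g : G // orderOf g = m} = Nat.card {h : H // orderOf h = m})) (hG : Cfsg.IsSupersolvable G) :
    Group.IsSolvable H := by
  obtain ⟨e, he⟩ := H23.exists_equiv_orderOf_eq hT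
  set n := Nat.card H + 1 with hn
  obtain ⟨N, -, hNH, hNs⟩ := H23.exists_solvable_isPiHall_of_orderType e he
    (fun i => {q | n - i ≤ q}) n
    (fun q _ hq hd => by
      have h1 := Nat.le_of_dvd Nat.card_pos hd
      change n - 0 ≤ q at hq
      omega)
    (fun i hi => ⟨n - (i + 1), fun q _ => by
      change n - (i + 1) ≤ q ↔ n - i ≤ q ∨ q = n - (i + 1)
      omega⟩)
    (fun i _ => H23.exists_normal_isPiHall_ge_of_isSupersolvable hG _)
  have hN : N = ⊤ := by
    rw [← Subgroup.index_eq_one]
    by_contra hne
    obtain ⟨q, hq, hd⟩ := Nat.exists_prime_and_dvd hne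
    exact hNH.2 q hq (by change n - n ≤ q; omega) hd
  subst hN
  exact Group.isSolvable_of_surjective (f := Subgroup.topEquiv.toMonoidHom) (MulEquiv.surjective _)

end Cfsg.Agent.S3998
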