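import Cfsg.Statements.S4002
import Cfsg.Agent.Base
import Cfsg.Agent.H24.Eppo
import Cfsg.Agent.H4.Hall

set_option autoImplicit false
open Cfsg

namespace Cfsg.Agent.S4002

theorem three {G : Type*} [Group G] [Finite G] [Group.IsSolvable G] {p q r : ℕ} (hp : p.Prime)
    (hq : q.Prime) (hr : r.Prime) (h1 : p ≠ q) (h2 : p ≠ r) (h3 : q ≠ r)
    (hd : ∀ s ∈ ({p, q, r} : Set ℕ), s ∣ Nat.card G)
    (h : ∀ s ∈ ({p, q, r} : Set ℕ), ∀ t ∈ ({p, q, r} : Set ℕ), s ≠ t → ∀ g : G, ¬ s * t ∣ orderOf g) :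
    False := by
  obtain ⟨H, hH, hi⟩ := H4.exists_isPiHall {p, q, r} G
  have e : H24.Eppo H := fun g hg => by
    have h0 : orderOf g ≠ 1 := by simpa using hg
    have hs := Nat.minFac_prime h0
    refine isPrimePow_iff_unique_prime_dvd.2 ⟨_, ⟨hs, Nat.minFac_dvd _⟩, fun t ht => ?_⟩
    by_contra hn
    refine h t (hH t ht.1 (ht.2.trans (orderOf_dvd_natCard g))) _
      (hH _ hs ((Nat.minFac_dvd _).trans (orderOf_dvd_natCard g))) hn g ?_
    rw [Subgroup.orderOf_coe]
    exact ((Nat.coprime_primes ht.1 hs).2 hn).mul_dvd_of_dvd_of_dvd ht.2 (Nat.minFac_dvd _)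
  have k := e.card_primeFactors_le
  have hs : ({p, q, r} : Finset ℕ) ⊆ (Nat.card H).primeFactors := fun s hs => by
    have hs' : s ∈ ({p, q, r} : Set ℕ) := by simpa using hs
    have sp : s.Prime := by rcases hs' with rfl | rfl | rfl <;> assumption
    refine Nat.mem_primeFactors.2 ⟨sp, ?_, Nat.card_pos.ne'⟩
    have := hd s hs'
    rw [← H.card_mul_index] at this
    exact ((Nat.Prime.dvd_mul sp).1 this).resolve_right (hi s sp hs')
  have := Finset.card_le_card hs
  rw [Finset.card_eq_three.2 ⟨p, q, r, h1, h2, h3, rfl⟩] at this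
  omega

theorem primes (n : ℕ) (hn : 7 ≤ n) : ∃ p q r : ℕ, p.Prime ∧ q.Prime ∧ r.Prime ∧ p < q ∧ q < r ∧
    r ≤ n ∧ n < p * q := by
  by_cases h1 : n < 15
  · exact ⟨3, 5, 7, by norm_num, by norm_num, by norm_num, by omega, by omega, hn, by omega⟩
  by_cases h2 : n < 35
  · exact ⟨5, 7, 11, by norm_num, by norm_num, by norm_num, by omega, by omega, by omega, by omega⟩
  obtain ⟨p, hp, a1, a2⟩ := Nat.exists_prime_lt_and_le_two_mul (n / 8) (by omega)
  obtain ⟨q, hq, b1, b2⟩ := Nat.exists_prime_lt_and_le_two_mul (n / 4) (by omega)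
  obtain ⟨r, hr, c1, c2⟩ := Nat.exists_prime_lt_and_le_two_mul (n / 2) (by omega)
  refine ⟨p, q, r, hp, hq, hr, by omega, by omega, by omega, ?_⟩
  have : n < 8 * p := by omega
  have : 8 ≤ q := by omega
  nlinarith

/-- If the set of element orders of a finite group G is {1, 2, …, n} with n ≥ 7, then G is not solvable. -/
theorem result {G : Type*} [Group G] [Finite G] (n : ℕ) (hn : 7 ≤ n) (h : Set.range (orderOf : G → ℕ) = {k : ℕ | 1 ≤ k ∧ k ≤ n}) : ¬ Group.IsSolvable G := by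
  intro hs
  obtain ⟨p, q, r, hp, hq, hr, a, b, c, d⟩ := primes n hn
  have hle : ∀ g : G, orderOf g ≤ n := fun g => (h ▸ Set.mem_range_self g : orderOf g ∈ {k : ℕ | 1 ≤ k ∧ k ≤ n}).2
  refine three (G := G) hp hq hr a.ne (a.trans b).ne b.ne (fun s hs => ?_) fun s hs t ht hst g hg => ?_
  · have : s ∈ Set.range (orderOf : G → ℕ) := by
      rw [h]
      have := hp.one_le
      rcases hs with rfl | rfl | rfl <;> exact ⟨by omega, by omega⟩
    obtain ⟨g, rfl⟩ := this
    exact orderOf_dvd_natCard g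
  · have h1 := (Nat.le_of_dvd (orderOf_pos g) hg).trans (hle g)
    have : p * q ≤ s * t := by
      rcases hs with rfl | rfl | rfl <;> rcases ht with rfl | rfl | rfl <;>
        first | exact absurd rfl hst | nlinarith
    omega

end Cfsg.Agent.S4002
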