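import Cfsg.Statements.S4005
import Cfsg.Agent.Base
import Cfsg.Agent.H1.CoprimeGen
import Cfsg.Agent.H2.MinNormal
import Cfsg.Agent.H29.Burnside

set_option autoImplicit false
open Cfsg

namespace Cfsg.Agent.S4005

theorem not_sq_dvd {G : Type*} [Group G] [Finite G] (h : ∀ g : G, orderOf g ≤ 3) {p : ℕ}
    [hp : Fact p.Prime] (K : Subgroup G) [K.Normal] (hK : K ≠ ⊥) (hc : p.Coprime (Nat.card K)) :
    ¬ p ^ 2 ∣ Nat.card G := fun hd => by
  obtain ⟨A, hA⟩ := Sylow.exists_subgroup_card_pow_prime p hd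
  have : IsMulCommutative A := IsPGroup.isMulCommutative_of_card_eq_prime_sq hA
  have c : (Nat.card A).Coprime (Nat.card K) := hA ▸ hc.pow_left 2
  have p2 := hp.out.two_le
  refine hK (eq_bot_iff.2 (H1.le_of_noncyclic_centralizer_le (A := A) (fun hA' => ?_)
    (Subgroup.normalizer_eq_top K ▸ le_top) c ⊥ fun a ha a1 x hx => by_contra fun x1 => ?_))
  · obtain ⟨g, hg⟩ := hA'.exists_ofOrder_eq_natCard
    have := h g
    rw [Subgroup.orderOf_coe, hg, hA] at this
    nlinarith
  · have e := (show Commute x a from Subgroup.mem_centralizer_singleton_iff.1 hx.2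
      ).orderOf_mul_eq_mul_orderOf_of_coprime ((c.symm.coprime_dvd_left
        (K.orderOf_dvd_natCard hx.1)).coprime_dvd_right (A.orderOf_dvd_natCard ha))
    have h1 := h (x * a)
    have h3 : orderOf x ≠ 1 := mt orderOf_eq_one_iff.1 x1
    have h4 : orderOf a ≠ 1 := mt orderOf_eq_one_iff.1 a1
    have h5 := orderOf_pos x
    have h6 := orderOf_pos a
    have : 2 * 2 ≤ orderOf x * orderOf a := Nat.mul_le_mul (by omega) (by omega)
    omega

/-- A finite group whose set of element orders is exactly {1, 2, 3} has either a normal elementary abelian 3-subgroup of index 2 or a normal elementary abelian 2-subgroup of index 3. -/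
theorem result {G : Type*} [Group G] [Finite G] (h : Set.range (orderOf : G → ℕ) = {k : ℕ | 1 ≤ k ∧ k ≤ 3}) :
    (∃ N : Subgroup G, N.Normal ∧ Cfsg.IsElementaryAbelian 3 N ∧ N.index = 2) ∨
      (∃ N : Subgroup G, N.Normal ∧ Cfsg.IsElementaryAbelian 2 N ∧ N.index = 3) := by
  have : Fact (Nat.Prime 3) := ⟨Nat.prime_three⟩
  have h3 : ∀ g : G, orderOf g ≤ 3 := fun g => (h.le ⟨g, rfl⟩).2
  have hs : ∀ g : G, g ^ 2 = 1 ∨ g ^ 3 = 1 := fun g => by
    have h1 := h3 g
    have h2 := orderOf_pos g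
    have h4 := pow_orderOf_eq_one g
    interval_cases e : orderOf g
    · exact Or.inl (by rw [pow_one] at h4; rw [h4, one_pow])
    exacts [Or.inl h4, Or.inr h4]
  have pr : ∀ p : ℕ, p.Prime → p ∣ Nat.card G → p = 2 ∨ p = 3 := fun p hp hd => by
    have := Fact.mk hp
    obtain ⟨g, hg⟩ := exists_prime_orderOf_dvd_card' p hd
    have := h3 g
    have := hp.two_le
    omega
  obtain ⟨t, ht⟩ : 2 ∈ Set.range (orderOf : G → ℕ) := h.ge (by simp)
  obtain ⟨u, hu⟩ : 3 ∈ Set.range (orderOf : G → ℕ) := h.ge (by simp)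
  obtain ⟨S⟩ : Nonempty (Sylow 2 G) := inferInstance
  obtain ⟨a, ha⟩ := IsPGroup.iff_card.1 S.isPGroup'
  obtain ⟨b, hb⟩ : ∃ b, S.index = 3 ^ b := ⟨_, Nat.eq_prime_pow_of_unique_prime_dvd
    Subgroup.index_ne_zero_of_finite fun {p} hp hd =>
      (pr p hp (hd.trans S.index_dvd_card)).resolve_left fun e => S.not_dvd_index (e ▸ hd)⟩
  have hG : Nat.card G = 2 ^ a * 3 ^ b := by rw [← ha, ← hb, Subgroup.card_mul_index]
  have : Group.IsSolvable G :=
    H29.isSolvable_of_card_dvd_pow_mul_pow Nat.prime_two Nat.prime_three hG.dvd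
  have d2 : 2 ∣ Nat.card G := ht ▸ orderOf_dvd_natCard t
  have d3 : 3 ∣ Nat.card G := hu ▸ orderOf_dvd_natCard u
  by_cases hO : pPrimeCore 2 G = ⊥
  · right
    have s2 : ∀ x ∈ (S : Subgroup G), x * x = 1 := fun x hx => by
      rcases hs x with e | e
      · rwa [sq] at e
      · have h1 := (S : Subgroup G).orderOf_dvd_natCard hx
        have h2 := Nat.dvd_gcd h1 (orderOf_dvd_of_pow_eq_one e)
        rw [ha, Nat.Coprime.gcd_eq_one (Nat.Coprime.pow_left _ (by norm_num)), Nat.dvd_one,
          orderOf_eq_one_iff] at h2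
        rw [h2, one_mul]
    have sc : ∀ x ∈ (S : Subgroup G), ∀ y ∈ (S : Subgroup G), x * y = y * x := fun x hx y hy => by
      have := inv_eq_of_mul_eq_one_right (s2 _ (mul_mem hx hy))
      rw [mul_inv_rev, inv_eq_of_mul_eq_one_right (s2 _ hx), inv_eq_of_mul_eq_one_right (s2 _ hy)]
        at this
      exact this.symm
    have e : pCore 2 G = S := le_antisymm (H2.pCore_le_sylow S) fun x hx =>
      H2.centralizer_pCore_le hO fun y hy => sc _ (H2.pCore_le_sylow S hy) _ hx
    have : (S : Subgroup G).Normal := e ▸ inferInstance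
    refine ⟨S, this, ⟨⟨⟨fun x y => Subtype.ext (sc _ x.2 _ y.2)⟩⟩, fun x hx => by
      rw [sq, s2 x hx]⟩, ?_⟩
    have n := not_sq_dvd h3 (p := 3) S (S.ne_bot_of_dvd_card d2)
      (ha ▸ Nat.Coprime.pow_right _ (by norm_num))
    rw [hG] at n d3
    have b1 : b < 2 := by_contra fun k => n ((pow_dvd_pow 3 (by omega)).mul_left _)
    have b0 : b ≠ 0 := by
      rintro rfl
      have := Nat.prime_three.dvd_of_dvd_pow (by simpa using d3)
      omega
    rw [hb, show b = 1 by omega, pow_one]
  · left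
    have n := not_sq_dvd h3 (p := 2) _ hO (H2.coprime_card_pPrimeCore 2 G).symm
    rw [hG] at n
    have a1 : a < 2 := by_contra fun k => n ((pow_dvd_pow 2 (by omega)).mul_right _)
    have a0 : a ≠ 0 := by
      rintro rfl
      exact S.ne_bot_of_dvd_card d2 (Subgroup.eq_bot_of_card_eq _ ha)
    rw [show a = 1 by omega, pow_one] at ha
    have hc := IsCyclic.isComplement' (P := S) ((Nat.minFac_eq_two_iff _).2 d2)
      (isCyclic_of_prime_card ha)
    generalize_proofs h1 at hc
    set K := (MonoidHom.transferSylow S h1).ker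
    have i : K.index = 2 := hc.symm.index_eq_card.trans ha
    have o : Nat.card K = 3 ^ b := hc.index_eq_card.symm.trans hb
    have k2 : ∀ g, g ∉ K → g * g = 1 := fun g hg => by
      refine (sq g).symm.trans ((hs g).resolve_right fun e => hg ?_)
      have := K.sq_mem_of_index_two i g
      rwa [eq_inv_of_mul_eq_one_left ((pow_succ g 2).symm.trans e), inv_mem_iff] at this
    have tK : t ∉ K := fun k => by
      have := K.orderOf_dvd_natCard k
      rw [ht, o] at this
      have := Nat.prime_two.dvd_of_dvd_pow this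
      omega
    have iv : ∀ k ∈ K, t * k * t = k⁻¹ := fun k hk => eq_inv_of_mul_eq_one_left (by
      simpa only [mul_assoc] using k2 (t * k) (mt (mul_mem_cancel_right hk).1 tK))
    refine ⟨K, inferInstance, ⟨⟨⟨fun x y => Subtype.ext (inv_injective ?_)⟩⟩, fun k hk => ?_⟩, i⟩
    · change ((x : G) * y)⁻¹ = ((y : G) * x)⁻¹
      rw [← iv _ (mul_mem x.2 y.2), mul_inv_rev, ← iv _ x.2, ← iv _ y.2]
      calc _ = t * x * 1 * y * t := by simp only [mul_assoc, one_mul]
        _ = _ := by rw [← k2 t tK]; simp only [mul_assoc]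
    · refine (hs k).elim (fun e => ?_) id
      have h2 := Nat.dvd_gcd (K.orderOf_dvd_natCard hk) (orderOf_dvd_of_pow_eq_one e)
      rw [o, Nat.Coprime.gcd_eq_one (Nat.Coprime.pow_left _ (by norm_num)), Nat.dvd_one,
        orderOf_eq_one_iff] at h2
      rw [h2, one_pow]

end Cfsg.Agent.S4005
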