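import Cfsg.Statements.S4006
import Cfsg.Agent.Base
import Cfsg.Agent.H33.Ord4

set_option autoImplicit false
open Cfsg

namespace Cfsg.Agent.S4006

/-- A finite group whose set of element orders is exactly {1, 2, 3, 4} has a normal subgroup N such that either N is a 2-group of exponent 4 and nilpotency class at most 2 with G/N of order 3, or N is an elementary abelian 2-group with G/N isomorphic to the symmetric group of degree 3, or N is an elementary abelian 3-group with G/N cyclic of order 4 or quaternion of order 8. -/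
theorem result {G : Type*} [Group G] [Finite G] (h : Set.range (orderOf : G → ℕ) = {k : ℕ | 1 ≤ k ∧ k ≤ 4}) :
    ∃ (N : Subgroup G) (_ : N.Normal),
      (IsPGroup 2 ↥N ∧ Monoid.exponent ↥N = 4 ∧ Group.nilpotencyClass ↥N ≤ 2 ∧ N.index = 3) ∨
      (Cfsg.IsElementaryAbelian 2 N ∧ Nonempty (G ⧸ N ≃* Equiv.Perm (Fin 3))) ∨
      (Cfsg.IsElementaryAbelian 3 N ∧ ((IsCyclic (G ⧸ N) ∧ N.index = 4) ∨ Nonempty (G ⧸ N ≃* QuaternionGroup 2))) := by
  have hm : ∀ k : ℕ, 1 ≤ k → k ≤ 4 → ∃ g : G, orderOf g = k := fun k h1 h2 =>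
    (h ▸ (⟨h1, h2⟩ : k ∈ {k : ℕ | 1 ≤ k ∧ k ≤ 4}) : k ∈ Set.range (orderOf : G → ℕ))
  have H : ∀ g : G, g ^ 3 = 1 ∨ g ^ 4 = 1 := fun g => by
    have h1 : orderOf g ∈ {k : ℕ | 1 ≤ k ∧ k ≤ 4} := h ▸ Set.mem_range_self g
    obtain ⟨h1, h2⟩ := h1
    rw [← orderOf_dvd_iff_pow_eq_one, ← orderOf_dvd_iff_pow_eq_one]
    interval_cases orderOf g <;> simp
  obtain ⟨ρ, hρ⟩ := hm 3 (by norm_num) (by norm_num)
  obtain ⟨g, hg⟩ := hm 4 (by norm_num) (by norm_num)
  have := H29.isSolvable_of_prime_dvd_card (G := G) Nat.prime_two Nat.prime_three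
    fun r hr hd => H33.O4.primes H hr hd
  have : Nontrivial G := ⟨ρ, 1, fun e => by
    rw [e, orderOf_one] at hρ; exact absurd hρ (by norm_num)⟩
  obtain ⟨p, hp, hne⟩ := H2.exists_pCore_ne_bot G
  have hd : p ∣ Nat.card G := by
    have := Fact.mk hp
    obtain ⟨k, hk⟩ := IsPGroup.iff_card.1 (H2.pCore_isPGroup p G)
    refine (dvd_pow_self p fun e => hne ?_).trans (hk ▸ Subgroup.card_subgroup_dvd_card _)
    rw [e, pow_zero] at hk
    exact Subgroup.card_eq_one.1 hk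
  rcases H33.O4.primes H hp hd with rfl | rfl
  · obtain ⟨N, hN, h1⟩ := H33.O4.caseB H hρ hg hne
    exact ⟨N, hN, h1.imp id Or.inl⟩
  · exact ⟨_, inferInstance, Or.inr (Or.inr (H33.O4.caseA H hg hne))⟩

end Cfsg.Agent.S4006
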