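import Cfsg.Statements.S4198
import Cfsg.Agent.Base

set_option autoImplicit false
open Cfsg

namespace Cfsg.Agent.S4198

open Equiv

/-- Cycle types. -/
def T (n : ℕ) : Set (Multiset ℕ) := {m | m.sum ≤ n ∧ ∀ a ∈ m, 2 ≤ a}

theorem ct_mem {n : ℕ} (g : Perm (Fin n)) : g.cycleType ∈ T n :=
  (Perm.exists_with_cycleType_iff (Fin n)).1 ⟨g, rfl⟩ |>.imp (by simp) id

theorem exists_ct {n : ℕ} {m : Multiset ℕ} (h : m ∈ T n) : ∃ g : Perm (Fin n), g.cycleType = m :=
  (Perm.exists_with_cycleType_iff (Fin n)).2 ⟨by simpa using h.1, h.2⟩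

theorem T_finite (n : ℕ) : (T n).Finite :=
  (Set.finite_range fun g : Perm (Fin n) => g.cycleType).subset fun _ h => exists_ct h

theorem card_conj (n : ℕ) : Nat.card (ConjClasses (Perm (Fin n))) = (T n).ncard := by
  rw [← Nat.card_coe_set_eq]
  let f : ConjClasses (Perm (Fin n)) → T n := Quotient.lift (fun g => ⟨g.cycleType, ct_mem g⟩)
    fun a b h => Subtype.ext (Perm.isConj_iff_cycleType_eq.1 h)
  refine Nat.card_eq_of_bijective f ⟨fun a b h => ?_, fun m => ?_⟩
  · obtain ⟨a, rfl⟩ := ConjClasses.mk_surjective a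
    obtain ⟨b, rfl⟩ := ConjClasses.mk_surjective b
    have h' : (⟨a.cycleType, ct_mem a⟩ : T n) = ⟨b.cycleType, ct_mem b⟩ := h
    exact ConjClasses.mk_eq_mk_iff_isConj.2
      (Perm.isConj_iff_cycleType_eq.2 (by convert Subtype.mk.inj h'))
  · obtain ⟨g, hg⟩ := exists_ct m.2
    exact ⟨ConjClasses.mk g, Subtype.ext hg⟩

theorem T_five : (T 5).ncard ≤ 8 := by
  have : T 5 ⊆ ↑({0, {2}, {3}, {4}, {5}, {2, 2}, {2, 3}} : Finset (Multiset ℕ)) := by
    rintro m ⟨h1, h2⟩
    have h3 := Multiset.card_nsmul_le_sum h2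
    rw [smul_eq_mul] at h3
    have h4 : Multiset.card m = 0 ∨ Multiset.card m = 1 ∨ Multiset.card m = 2 := by omega
    rcases h4 with h | h | h
    · rw [Multiset.card_eq_zero.1 h]; simp
    · obtain ⟨a, rfl⟩ := Multiset.card_eq_one.1 h
      have := h2 a (by simp)
      rw [Multiset.sum_singleton] at h1
      interval_cases a <;> simp
    · obtain ⟨a, b, rfl⟩ := Multiset.card_eq_two.1 h
      have ha := h2 a (by simp)
      have hb := h2 b (by simp)
      simp only [Multiset.insert_eq_cons, Multiset.sum_cons, Multiset.sum_singleton] at h1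
      have : a ≤ 3 := by omega
      have : b ≤ 3 := by omega
      interval_cases a <;> interval_cases b <;> first | decide | omega
  refine (Set.ncard_le_ncard this (Finset.finite_toSet _)).trans ?_
  rw [Set.ncard_coe_finset]
  decide

theorem T_succ (n : ℕ) : (T (n + 1)).ncard ≤ 2 * (T n).ncard := by
  classical
  have hmin : ∀ m ∈ T (n + 1) \ T n, ∃ a r, m = a ::ₘ r ∧ ∀ b ∈ r, a ≤ b := by
    intro m hm
    have h0 : m.toFinset.Nonempty := by
      rw [Multiset.toFinset_nonempty]
      rintro rfl
      exact hm.2 ⟨by simp, by simp⟩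
    obtain ⟨a, ha, h⟩ := m.toFinset.exists_min_image id h0
    rw [Multiset.mem_toFinset] at ha
    exact ⟨a, m.erase a, (Multiset.cons_erase ha).symm,
      fun b hb => h b (Multiset.mem_toFinset.2 (Multiset.mem_of_mem_erase hb))⟩
  choose! a r h1 h2 using hmin
  have hs : ∀ m ∈ T (n + 1) \ T n, a m + (r m).sum = n + 1 ∧ 2 ≤ a m ∧ ∀ b ∈ r m, 2 ≤ b := by
    intro m hm
    have h3 : ¬ m.sum ≤ n := fun e => hm.2 ⟨e, hm.1.2⟩
    have h4 := hm.1.1
    have h5 := hm.1.2
    rw [h1 m hm] at h3 h4 h5
    rw [Multiset.sum_cons] at h3 h4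
    exact ⟨by omega, h5 _ (by simp), fun b hb => h5 b (by simp [hb])⟩
  have key : (T (n + 1) \ T n).ncard ≤ (T n).ncard := by
    refine Set.ncard_le_ncard_of_injOn (fun m => if a m = 2 then r m else (a m - 1) ::ₘ r m)
      (fun m hm => ?_) (fun m hm m' hm' e => ?_) (T_finite n)
    · obtain ⟨h3, h4, h5⟩ := hs m hm
      split_ifs with h
      · exact ⟨by omega, h5⟩
      · refine ⟨by rw [Multiset.sum_cons]; omega, fun b hb => ?_⟩
        rcases Multiset.mem_cons.1 hb with rfl | hb
        · omega
        · exact h5 b hb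
    · obtain ⟨h3, h4, h5⟩ := hs m hm
      obtain ⟨h3', h4', h5'⟩ := hs m' hm'
      dsimp only at e
      rw [h1 m hm, h1 m' hm']
      split_ifs at e with h h' h'
      · rw [h, h', e]
      · have := congrArg Multiset.sum e
        rw [Multiset.sum_cons] at this
        omega
      · have := congrArg Multiset.sum e
        rw [Multiset.sum_cons] at this
        omega
      · have e1 : a m - 1 ∈ (a m' - 1) ::ₘ r m' := e ▸ Multiset.mem_cons_self _ _
        have e2 : a m' - 1 ∈ (a m - 1) ::ₘ r m := e ▸ Multiset.mem_cons_self _ _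
        have e3 : a m = a m' := by
          rcases Multiset.mem_cons.1 e1 with e1 | e1
          · omega
          rcases Multiset.mem_cons.1 e2 with e2 | e2
          · omega
          have := h2 m' hm' _ e1
          have := h2 m hm _ e2
          omega
        rw [e3] at e ⊢
        rw [(Multiset.cons_inj_right _).1 e]
  have h6 := Set.ncard_le_ncard_diff_add_ncard (T (n + 1)) (t := T n) (T_finite n)
  omega

theorem T_le (n : ℕ) (hn : 5 ≤ n) : (T n).ncard ≤ 2 ^ (n - 2) := by
  induction n, hn using Nat.le_induction with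
  | base => exact T_five
  | succ n hn ih =>
    have := T_succ n
    rw [show n + 1 - 2 = n - 2 + 1 by omega, pow_succ]
    omega

theorem even_of_odd (m : Multiset ℕ) (h : ∀ a ∈ m, Odd a) : Even (m.sum + Multiset.card m) := by
  induction m using Multiset.induction_on with
  | empty => simp
  | cons a s ih =>
    have h1 := ih fun b hb => h b (Multiset.mem_cons_of_mem hb)
    have h2 := h a (Multiset.mem_cons_self _ _)
    rw [Multiset.sum_cons, Multiset.card_cons]
    rw [Nat.even_iff] at h1 ⊢
    rw [Nat.odd_iff] at h2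
    omega

theorem even_of_alt {n : ℕ} (g : alternatingGroup (Fin n)) :
    Even ((g : Perm (Fin n)).cycleType.sum + Multiset.card (g : Perm (Fin n)).cycleType) := by
  have := g.2
  rw [Perm.mem_alternatingGroup, Perm.sign_of_cycleType] at this
  by_contra h
  rw [(Nat.not_even_iff_odd.1 h).neg_one_pow] at this
  exact absurd this (by decide)

theorem isConj_alt {n : ℕ} {g r : alternatingGroup (Fin n)} {s : Perm (Fin n)}
    (hs : s ∈ alternatingGroup (Fin n)) (h : s * r * s⁻¹ = g) : IsConj r g :=
  isConj_iff.2 ⟨⟨s, hs⟩, Subtype.ext h⟩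

theorem alt_lt (n : ℕ) (hn : 5 ≤ n) :
    Nat.card (ConjClasses (alternatingGroup (Fin n))) < (T n).ncard := by
  classical
  have hrep : ∀ m : Multiset ℕ, (∃ g : alternatingGroup (Fin n), (g : Perm (Fin n)).cycleType = m) →
      ∃ g : alternatingGroup (Fin n), (g : Perm (Fin n)).cycleType = m := fun _ h => h
  choose! rep hrep using hrep
  have hodd : ∀ g : alternatingGroup (Fin n), ¬ IsConj (rep (g : Perm (Fin n)).cycleType) g →
      ∀ s : Perm (Fin n), s * rep (g : Perm (Fin n)).cycleType * s⁻¹ = g →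
        Perm.sign s = -1 := by
    intro g hg s hs
    refine (Int.units_eq_one_or _).resolve_left fun e => hg (isConj_alt e hs)
  have hex : ∀ g : alternatingGroup (Fin n), ∃ s : Perm (Fin n),
      s * rep (g : Perm (Fin n)).cycleType * s⁻¹ = g := fun g =>
    isConj_iff.1 (Perm.isConj_iff_cycleType_eq.2 (hrep _ ⟨g, rfl⟩))
  have hsplit : ∀ g : alternatingGroup (Fin n), ¬ IsConj (rep (g : Perm (Fin n)).cycleType) g →
      ∃ a r, (g : Perm (Fin n)).cycleType = a ::ₘ r ∧ Odd a ∧ (∀ b ∈ r, Odd b) ∧
        n ≤ a + r.sum + 1 := by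
    intro g hg
    have h1 : Subgroup.centralizer {(g : Perm (Fin n))} ≤ alternatingGroup (Fin n) := by
      intro c hc
      rw [Subgroup.mem_centralizer_singleton_iff] at hc
      obtain ⟨s, hs⟩ := hex g
      have h2 := hodd g hg (c * s) (by
        rw [mul_inv_rev, ← mul_assoc, mul_assoc c s, mul_assoc c, hs, hc, mul_inv_cancel_right])
      rw [map_mul, hodd g hg s hs] at h2
      simpa [Perm.mem_alternatingGroup] using h2
    obtain ⟨h2, h3, -⟩ := Perm.centralizer_le_alternating_iff.1 h1
    rw [Fintype.card_fin] at h3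
    have h0 : (g : Perm (Fin n)).cycleType ≠ 0 := by
      intro e
      rw [e] at h3
      simp at h3
      omega
    obtain ⟨a, ha⟩ := Multiset.exists_mem_of_ne_zero h0
    obtain ⟨r, hr⟩ := Multiset.exists_cons_of_mem ha
    rw [hr] at h2 h3
    exact ⟨a, r, hr, h2 a (by simp), fun b hb => h2 b (by simp [hb]), by simpa using h3⟩
  choose! a r h1 h2 h3 h4 using hsplit
  let f : alternatingGroup (Fin n) → Multiset ℕ := fun g =>
    if IsConj (rep (g : Perm (Fin n)).cycleType) g then (g : Perm (Fin n)).cycleType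
    else (a g - 1) ::ₘ r g
  have hpar : ∀ g : alternatingGroup (Fin n), ¬ IsConj (rep (g : Perm (Fin n)).cycleType) g →
      ¬ Even (((a g - 1) ::ₘ r g).sum + Multiset.card ((a g - 1) ::ₘ r g)) := by
    intro g hg
    have e1 := even_of_odd _ (h3 g hg)
    have e2 := h2 g hg
    rw [Multiset.sum_cons, Multiset.card_cons]
    rw [Nat.even_iff] at e1 ⊢
    rw [Nat.odd_iff] at e2
    omega
  have hmem : ∀ g, f g ∈ T n \ {{2}} := by
    intro g
    simp only [f]
    split_ifs with hg
    · refine ⟨ct_mem _, fun e => ?_⟩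
      have := even_of_alt g
      rw [Set.mem_singleton_iff.1 e] at this
      exact absurd this (by decide)
    · obtain ⟨e1, e2⟩ := ct_mem (g : Perm (Fin n))
      rw [h1 g hg] at e1 e2
      rw [Multiset.sum_cons] at e1
      have e3 := e2 (a g) (by simp)
      have e4 := h2 g hg
      rw [Nat.odd_iff] at e4
      refine ⟨⟨by rw [Multiset.sum_cons]; omega, fun b hb => ?_⟩, fun e => ?_⟩
      · rcases Multiset.mem_cons.1 hb with rfl | hb
        · omega
        · exact e2 b (by simp [hb])
      · have e5 := congrArg Multiset.sum (Set.mem_singleton_iff.1 e)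
        have := h4 g hg
        rw [Multiset.sum_cons, Multiset.sum_singleton] at e5
        omega
  have hinj : ∀ g g', f g = f g' → IsConj g g' := by
    intro g g' e
    simp only [f] at e
    split_ifs at e with hg hg' hg'
    · rw [e] at hg
      exact hg.symm.trans hg'
    · exact absurd (e ▸ even_of_alt g) (hpar g' hg')
    · exact absurd (e.symm ▸ even_of_alt g') (hpar g hg)
    · have e1 : a g - 1 ∈ (a g' - 1) ::ₘ r g' := e ▸ Multiset.mem_cons_self _ _
      have o1 := h2 g hg
      have o2 := h2 g' hg'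
      rw [Nat.odd_iff] at o1 o2
      have e3 : a g = a g' := by
        rcases Multiset.mem_cons.1 e1 with e1 | e1
        · omega
        · have := h3 g' hg' _ e1
          rw [Nat.odd_iff] at this
          omega
      rw [e3] at e
      have e4 : (g : Perm (Fin n)).cycleType = (g' : Perm (Fin n)).cycleType := by
        rw [h1 g hg, h1 g' hg', e3, (Multiset.cons_inj_right _).1 e]
      obtain ⟨s, hs⟩ := hex g
      obtain ⟨s', hs'⟩ := hex g'
      refine isConj_alt (s := s' * s⁻¹) ?_ ?_
      · simp [Perm.mem_alternatingGroup, hodd g hg s hs, hodd g' hg' s' hs']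
      · rw [← hs', ← e4]
        conv_lhs => rw [← hs]
        group
  have h5 : Nat.card (ConjClasses (alternatingGroup (Fin n))) ≤ (T n \ {{2}}).ncard := by
    rw [← Nat.card_coe_set_eq]
    haveI : Finite ↥(T n \ {{2}}) := ((T_finite n).subset Set.diff_subset).to_subtype
    refine Nat.card_le_card_of_injective
      (fun C => (⟨f (Quotient.out C), hmem _⟩ : ↥(T n \ {{2}}))) fun C D e => ?_
    exact Quotient.out_equiv_out.1 (hinj _ _ (congrArg Subtype.val e))
  refine h5.trans_lt (Set.ncard_diff_singleton_lt_of_mem ⟨by simp; omega, by simp⟩ (T_finite n))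


/-- For n ≥ 5 the alternating group of degree n has strictly fewer conjugacy classes than the symmetric group of degree n, and the symmetric group of degree n (whose classes correspond to the partitions of n) has at most 2^(n−2) conjugacy classes. -/
theorem result (n : ℕ) (hn : 5 ≤ n) : Nat.card (ConjClasses (alternatingGroup (Fin n))) < Nat.card (ConjClasses (Equiv.Perm (Fin n))) ∧ Nat.card (ConjClasses (Equiv.Perm (Fin n))) ≤ 2 ^ (n - 2) := by
  rw [card_conj]
  exact ⟨alt_lt n hn, T_le n hn⟩

end Cfsg.Agent.S4198
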