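import Cfsg.Statements.S4205
import Cfsg.Agent.H24.Comm

set_option autoImplicit false
open Cfsg

namespace Cfsg.Agent.S4205

/-- In a finite group whose upper central series reaches the whole group at step `c` (nilpotent of class at most `c`), starting from any subgroup and taking normalizers `c` times reaches the whole group. -/
theorem result {G : Type*} [Group G] [Finite G] (c : ℕ) (hG : Subgroup.upperCentralSeries G c = ⊤) (H : Subgroup G) : (fun K : Subgroup G => Subgroup.normalizer (K : Set G))^[c] H = ⊤ := by
  rw [eq_top_iff, ← hG]
  exact H24.upperCentralSeries_le_iterate_normalizer H c

end Cfsg.Agent.S4205
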