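import Cfsg.Statements.S4214
import Cfsg.Agent.Base
import Cfsg.Agent.H4.SystemQuot
import Cfsg.Agent.H4.Product
import Cfsg.Agent.H25.SylowNum
import Cfsg.Agent.H1.Coprime
import Cfsg.Agent.H2.MinNormal

set_option autoImplicit false
open Cfsg

namespace Cfsg.Agent.S4214

open Subgroup
open scoped Pointwise

universe u

theorem cent_index {G : Type*} [Group G] [Finite G] {p : ℕ} [Fact p.Prime] {M : Subgroup G}
    (hM : IsPGroup p M) (n : ℕ) : ∀ H : Subgroup G, Nat.card H = n → Group.IsSolvable H →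
    H ≤ normalizer (M : Set G) → ¬ p ∣ Nat.card H → (centralizer (H : Set G)).relIndex M ∈
      Submonoid.closure {x | (∃ e, x = p ^ e) ∧ x ∣ Nat.card M ∧
        ∃ q : ℕ, q.Prime ∧ q ∣ Nat.card H ∧ x ≡ 1 [MOD q]} := by
  induction n using Nat.strong_induction_on with | _ n ih
  intro H hn hs hN hp
  rcases subsingleton_or_nontrivial H with h | h
  · rw [eq_bot_of_subsingleton H, relIndex_eq_one.2 fun x _ => by simp [mem_centralizer_iff]]
    exact one_mem _
  obtain ⟨K₀, nK, hq⟩ := H1.exists_normal_prime_index H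
  have := Fact.mk hq
  obtain ⟨S⟩ : Nonempty (Sylow K₀.index H) := inferInstance
  have top : K₀ ⊔ S = ⊤ := index_eq_one.1 (((Nat.dvd_prime hq).1 (index_dvd_of_le le_sup_left)
    ).resolve_right fun e => S.not_dvd_index (e.symm.dvd.trans (index_dvd_of_le le_sup_right)))
  set K := K₀.map H.subtype
  have cK : Nat.card K = Nat.card K₀ := card_subtype _ _
  have KH : K ≤ H := map_subtype_le _
  have dK : Nat.card K ∣ Nat.card H := card_dvd_of_le KH
  have h1 := ih _ (by
    rw [← hn, cK]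
    exact H4.card_lt_of_ne_top _ fun e => hq.one_lt.ne' (e ▸ index_top)) K rfl
    (H2.isSolvable_of_le KH) (KH.trans hN) fun d => hp (d.trans dK)
  set W := M ⊓ centralizer (K : Set G)
  have hW : H ≤ normalizer (W : Set G) := H1.le_normalizer_inf hN (H1.le_normalizer_centralizer
    (H1.le_normalizer_of_conj_mem (by
      rintro a ha _ ⟨x, hx, rfl⟩
      exact ⟨_, nK.conj_mem x hx ⟨a, ha⟩, rfl⟩)))
  have h2 := H25.card_modEq_card_inf_centralizer (S.isPGroup'.map H.subtype)
    ((map_subtype_le _).trans hW)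
  have e : W ⊓ centralizer ((S : Subgroup H).map H.subtype : Set G) =
      centralizer (H : Set G) ⊓ W := by
    refine le_antisymm (fun x hx => ⟨fun y hy => ?_, hx.1⟩) fun x hx =>
      ⟨hx.2, centralizer_le (map_subtype_le _) hx.1⟩
    obtain ⟨a, ha, b, hb, e⟩ := mem_sup_of_normal_left.1 (top.ge (mem_top ⟨y, hy⟩))
    rw [← show (a : G) * b = y from congrArg Subtype.val e]
    exact (show Commute (a : G) x from hx.1.2 _ ⟨a, ha, rfl⟩).mul_left (hx.2 _ ⟨b, hb, rfl⟩)
  have h3 := H4.card_inf_mul_relIndex (centralizer (H : Set G)) W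
  have dW : (centralizer (H : Set G)).relIndex W ∣ Nat.card M :=
    (Dvd.intro_left _ h3).trans (card_dvd_of_le inf_le_left)
  obtain ⟨k, hk⟩ := IsPGroup.iff_card.1 hM
  have e2 : (centralizer (H : Set G)).relIndex M =
      (centralizer (H : Set G)).relIndex W * (centralizer (K : Set G)).relIndex M := by
    rw [← inf_relIndex_right (centralizer (K : Set G)), ← inf_relIndex_right _ W, inf_comm _ M,
      relIndex_mul_relIndex _ _ _ inf_le_right inf_le_left, ← inf_relIndex_right _ M]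
    congr 1
    exact le_antisymm (fun x hx => ⟨hx.1, hx.2, centralizer_le KH hx.1⟩) fun x hx => ⟨hx.1, hx.2.1⟩
  have qd : K₀.index ∣ Nat.card H := K₀.index_dvd_card
  rw [e2]
  refine mul_mem (Submonoid.subset_closure ⟨?_, dW, _, hq, qd, ?_⟩) (Submonoid.closure_mono ?_ h1)
  rotate_right
  · rintro x ⟨k1, k2, q, k3, k4, k5⟩
    exact ⟨k1, k2, q, k3, k4.trans dK, k5⟩
  · obtain ⟨j, -, hj⟩ := (Nat.dvd_prime_pow Fact.out).1 (hk ▸ dW)
    exact ⟨j, hj⟩
  · rw [e, ← h3] at h2
    refine Nat.ModEq.cancel_left_of_coprime ?_ (h2.trans (by rw [mul_one]))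
    refine Nat.Coprime.coprime_dvd_right (card_dvd_of_le (inf_le_right.trans inf_le_left)) ?_
    rw [hk]
    exact Nat.Coprime.pow_right _ ((Nat.coprime_primes hq Fact.out).2 fun k => hp (k ▸ qd))

/-- the admissible factors -/
def Good (G : Type*) [Group G] (m x : ℕ) : Prop :=
  (∃ q e : ℕ, q.Prime ∧ x = q ^ e) ∧ (∃ K L : Subgroup G, K.Normal ∧ L.Normal ∧ K < L ∧
    (∀ M : Subgroup G, M.Normal → K ≤ M → M ≤ L → M = K ∨ M = L) ∧ x ∣ K.relIndex L) ∧
    (∃ q : ℕ, q.Prime ∧ q ∣ m ∧ x ≡ 1 [MOD q])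

theorem main (π : Set ℕ) (n : ℕ) : ∀ (G : Type u) [Group G] [Finite G] [Group.IsSolvable G],
    Nat.card G = n → ∀ H : Subgroup G, IsPiHall π H →
    (normalizer (H : Set G)).index ∈ Submonoid.closure {x | Good G (Nat.card H) x} := by
  induction n using Nat.strong_induction_on with | _ n ih
  intro G _ _ _ hn H hH
  rcases subsingleton_or_nontrivial G with h | h
  · rw [Subsingleton.elim (normalizer (H : Set G)) ⊤, index_top]
    exact one_mem _
  obtain ⟨M, nM, M1, hmin⟩ := H2.exists_minimal_normal G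
  obtain ⟨p, hp, -, -, hM⟩ := H2.exists_elementaryAbelian_of_minimal_normal M1 hmin
  have := Fact.mk hp
  have sj := QuotientGroup.mk'_surjective M
  rw [H4.index_eq_index_map_mul_relIndex _ M, ← H4.normalizer_map_isPiHall M hH]
  refine mul_mem (Submonoid.closure_mono ?_ (ih _ (hn ▸ H4.card_quotient_lt M M1) _ rfl _
    (H4.isPiHall_map_of_surjective hH _ sj))) ?_
  · rintro x ⟨h1, ⟨K, L, nK, nL, KL, h2, h3⟩, q, hq, h4, h5⟩
    refine ⟨h1, ⟨K.comap (QuotientGroup.mk' M), L.comap (QuotientGroup.mk' M), inferInstance,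
      inferInstance, (comap_lt_comap_of_surjective sj).2 KL, fun X nX k1 k2 => ?_, ?_⟩, q, hq,
      h4.trans (card_map_dvd _ _), h5⟩
    · have e : (X.map (QuotientGroup.mk' M)).comap (QuotientGroup.mk' M) = X :=
        comap_map_eq_self ((ker_le_comap _ _).trans k1)
      exact (h2 _ (nX.map _ sj) ((map_comap_eq_self_of_surjective sj K).ge.trans (map_mono k1))
        (map_le_iff_le_comap.2 k2)).imp (fun k => by rw [← k, e]) fun k => by rw [← k, e]
    · rwa [relIndex_comap, map_comap_eq_self_of_surjective sj]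
  by_cases hπ : p ∈ π
  · rw [relIndex_eq_one.2 ((H4.le_isPiHall_of_normal hH
      (H4.isPiSubgroup_of_isPGroup hp hM hπ)).trans le_normalizer)]
    exact one_mem _
  have nd : ¬ p ∣ Nat.card H := fun d => hπ (hH.1 p hp d)
  have e : (normalizer (H : Set G)).relIndex M = (centralizer (H : Set G)).relIndex M := by
    rw [← inf_relIndex_right, ← inf_relIndex_right (centralizer _)]
    congr 1
    refine le_antisymm (fun x hx => ⟨fun y hy => ?_, hx.2⟩) fun x hx =>
      ⟨centralizer_le_normalizer _ hx.1, hx.2⟩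
    have := disjoint_def.1 (H2.disjoint_of_isPGroup_of_coprime hM
      (hp.coprime_iff_not_dvd.2 nd).symm) (x := y * (x * y⁻¹ * x⁻¹))
      (by simpa only [mul_assoc] using mul_mem (nM.conj_mem x hx.2 y) (inv_mem hx.2))
      (mul_mem hy ((mem_normalizer_iff.1 hx.1 _).1 (inv_mem hy)))
    calc y * x = y * (x * y⁻¹ * x⁻¹) * (x * y) := by group
      _ = _ := by rw [this, one_mul]
  rw [e]
  refine Submonoid.closure_mono ?_ (cent_index hM _ H rfl inferInstance le_normalizer_of_normal nd)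
  rintro x ⟨⟨k, rfl⟩, h1, h2⟩
  exact ⟨⟨p, k, hp, rfl⟩, ⟨⊥, M, inferInstance, nM, bot_lt_iff_ne_bot.2 M1,
    fun X nX _ k => hmin X nX k, by rwa [relIndex_bot_left]⟩, h2⟩

/-- Let `G` be a finite solvable group of order `mn` with `gcd(m, n) = 1`. Then the number of subgroups of order `m` is a product of natural numbers each of which is a power of a prime, divides the order of some chief factor of `G` (a quotient `L/K` of normal subgroups `K < L` of `G` with no normal subgroup of `G` strictly between them), and is congruent to `1` modulo some prime divisor of `m`. -/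
theorem result {G : Type*} [Group G] [Finite G] [Group.IsSolvable G] (m n : ℕ) (hG : Nat.card G = m * n) (hmn : Nat.Coprime m n) : ∃ (k : ℕ) (f : Fin k → ℕ), Nat.card {H : Subgroup G // Nat.card H = m} = ∏ i, f i ∧ ∀ i, (∃ q e : ℕ, q.Prime ∧ f i = q ^ e) ∧ (∃ K L : Subgroup G, K.Normal ∧ L.Normal ∧ K < L ∧ (∀ M : Subgroup G, M.Normal → K ≤ M → M ≤ L → M = K ∨ M = L) ∧ f i ∣ K.relIndex L) ∧ (∃ q : ℕ, q.Prime ∧ q ∣ m ∧ f i ≡ 1 [MOD q]) := by
  obtain ⟨H, hH⟩ := H4.exists_isPiHall {p | ¬ p ∣ n} G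
  have cH := H4.card_eq_of_isPiHall_not_dvd hG hmn hH
  obtain ⟨l, hl, e⟩ := Submonoid.exists_list_of_mem_closure (main _ _ G rfl H hH)
  refine ⟨l.length, l.get, ?_, fun i => cH ▸ hl _ (l.get_mem i)⟩
  rw [← List.prod_ofFn, List.ofFn_get, e]
  refine (Nat.card_eq_of_bijective (fun q : G ⧸ normalizer (H : Set G) =>
    (⟨MulAut.conj q.out • H, (H4.card_smul _ _).trans cH⟩ : {H : Subgroup G // Nat.card H = m}))
    ⟨fun a b h => ?_, fun K => ?_⟩).symm
  · have h : MulAut.conj a.out • H = MulAut.conj b.out • H := congrArg Subtype.val h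
    rw [← a.out_eq, ← b.out_eq]
    refine QuotientGroup.eq.2 (H4.conj_smul_eq_iff_mem_normalizer.1 ?_)
    rw [← H4.conj_smul_conj_smul, ← h, H4.conj_smul_conj_smul, inv_mul_cancel, H4.conj_one_smul]
  · obtain ⟨g, hg⟩ := H4.isPiHall_conj hH (H4.isPiHall_of_card_eq hG hmn K.2)
    obtain ⟨x, hx⟩ := QuotientGroup.mk_out_eq_mul (normalizer (H : Set G)) g
    refine ⟨g, Subtype.ext ?_⟩
    change MulAut.conj (g : G ⧸ normalizer (H : Set G)).out • H = K
    rw [hx, ← H4.conj_smul_conj_smul, H4.conj_smul_eq_iff_mem_normalizer.2 x.2, hg]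

end Cfsg.Agent.S4214
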