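import Cfsg.Statements.S4216
import Cfsg.Agent.H8.AlperinP
import Cfsg.Agent.H8.SylowInf

set_option autoImplicit false
open Cfsg

namespace Cfsg.Agent.S4216

/-- Grün's first Theorem: if `P` is a Sylow `p`-subgroup of the finite group `G`, then `P ∩ G'` is the subgroup generated by `P ∩ N_G(P)'` together with the subgroups `P ∩ z P' z⁻¹` for all `z ∈ G`, where `'` denotes the derived subgroup and `N_G(P)` the normalizer of `P`. -/
theorem result {G : Type*} [Group G] [Finite G] {p : ℕ} [Fact p.Prime] (P : Sylow p G) : (P : Subgroup G) ⊓ commutator G = ((P : Subgroup G) ⊓ ⁅Subgroup.normalizer ((P : Subgroup G) : Set G), Subgroup.normalizer ((P : Subgroup G) : Set G)⁆) ⊔ ⨆ z : G, (P : Subgroup G) ⊓ (⁅(P : Subgroup G), (P : Subgroup G)⁆).map (MulAut.conj z).toMonoidHom := by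
  apply le_antisymm
  · apply H8.inf_commutator_le_of_tame P
    · intro n hn t ht
      refine Subgroup.mem_sup_left ⟨?_, Subgroup.commutator_mem_commutator
        (Subgroup.le_normalizer ht) hn⟩
      exact (P : Subgroup G).focalSubgroup_le (H8.commutator_le_focal_of_le_normalizer _ _ le_rfl
        (Subgroup.commutator_mem_commutator ht hn))
    · rintro Q - x hx ⟨k, hk⟩ t ht
      have h1 : IsPGroup p (Subgroup.zpowers x) := IsPGroup.of_card (n := k) (by simp [hk])
      have h2 := IsPGroup.to_sup_of_normal_left' (P.isPGroup'.to_inf_left (K := Q)) h1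
        (Subgroup.zpowers_le.mpr hx)
      obtain ⟨R, hR⟩ := h2.exists_le_sylow
      obtain ⟨z, rfl⟩ := MulAction.exists_smul_eq G P R
      refine Subgroup.mem_sup_right (Subgroup.mem_iSup_of_mem z ⟨?_, ?_⟩)
      · exact (((P : Subgroup G) ⊓ Q).focalSubgroup_le (H8.commutator_le_focal_of_le_normalizer _ _
          le_rfl (Subgroup.commutator_mem_commutator ht hx))).1
      · rw [Subgroup.map_commutator]
        exact Subgroup.commutator_mem_commutator (hR (Subgroup.mem_sup_left ht))
          (hR (Subgroup.mem_sup_right (Subgroup.mem_zpowers x)))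
  · refine sup_le (inf_le_inf_left _ (Subgroup.commutator_mono le_top le_top))
      (iSup_le fun z => inf_le_inf_left _ ?_)
    rw [Subgroup.map_commutator]
    exact Subgroup.commutator_mono le_top le_top

end Cfsg.Agent.S4216
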