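import Cfsg.Statements.S4217
import Cfsg.Agent.Base
import Cfsg.Agent.H3.Gaschutz
import Cfsg.Agent.H24.PiPart

set_option autoImplicit false
open Cfsg

namespace Cfsg.Agent.S4217

open Subgroup in
theorem step {G : Type*} [Group G] [Finite G] (A : Subgroup G) [hAn : A.Normal]
    [IsMulCommutative A] {p : ℕ} (hp : p.Prime) (U K : Subgroup G) (hU : ¬ p ∣ U.index)
    (hK : K ⊓ A = ⊥) (hKA : K ⊔ A = U) :
    ∃ H : Subgroup G, H ⊔ A = ⊤ ∧ ∀ a ∈ A, a ∈ H ↔ ¬ p ∣ orderOf a := by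
  let B : Subgroup G :=
    { carrier := {a | a ∈ A ∧ ¬ p ∣ orderOf a}
      one_mem' := ⟨one_mem _, by rw [orderOf_one]; exact hp.one_lt.ne' ∘ Nat.dvd_one.mp⟩
      mul_mem' := fun {a b} ha hb => ⟨mul_mem ha.1 hb.1, fun h => by
        have h1 := h.trans (Commute.orderOf_mul_dvd_mul_orderOf (setLike_mul_comm ha.1 hb.1))
        rcases (Nat.Prime.dvd_mul hp).mp h1 with h2 | h2
        exacts [ha.2 h2, hb.2 h2]⟩
      inv_mem' := fun {a} ha => ⟨inv_mem ha.1, by rw [orderOf_inv]; exact ha.2⟩ }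
  have hBA : B ≤ A := fun a ha => ha.1
  have hBn : B.Normal := ⟨fun a ha g => ⟨hAn.conj_mem a ha.1 g, by
    rw [show g * a * g⁻¹ = MulAut.conj g a from rfl, MulEquiv.orderOf_eq]; exact ha.2⟩⟩
  let π := QuotientGroup.mk' B
  have hπ : Function.Surjective π := QuotientGroup.mk'_surjective B
  have hAU : A ≤ U := hKA ▸ le_sup_right
  have : (A.map π).Normal := hAn.map π hπ
  have := Fact.mk hp
  have hP : IsPGroup p (A.map π) := by
    rintro ⟨_, a, ha, rfl⟩
    obtain ⟨e, f, h1, ⟨k, hk⟩, h2⟩ := H24.exists_p_decomp hp a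
    refine ⟨k, Subtype.ext ?_⟩
    have h3 : π (a ^ f) = 1 := (QuotientGroup.eq_one_iff _).mpr ⟨pow_mem ha f, h2⟩
    change π a ^ p ^ k = 1
    rw [← h1, map_mul, h3, mul_one, ← map_pow, ← hk, pow_orderOf_eq_one, map_one]
  obtain ⟨H, hH⟩ := H3.gaschutz_exists (A.map π) (U.map π) (map_mono hAU) (by
      obtain ⟨n, hn⟩ := IsPGroup.iff_card.mp hP
      rw [hn]
      refine Nat.Coprime.pow_left n ((Nat.Prime.coprime_iff_not_dvd hp).mpr fun h => hU ?_)
      exact h.trans (index_map_dvd U hπ))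
    (K.map π) (by
      rw [eq_bot_iff]
      rintro _ ⟨⟨k, hk, rfl⟩, a, ha, hak⟩
      have h1 : a⁻¹ * k ∈ B := QuotientGroup.eq.mp hak
      have h2 : k ∈ K ⊓ A := ⟨hk, by simpa using mul_mem ha (hBA h1)⟩
      rw [hK, mem_bot] at h2
      rw [h2, map_one]; exact one_mem _)
    (by rw [← Subgroup.map_sup, sup_comm, hKA])
  refine ⟨H.comap π, ?_, fun a ha => ⟨fun h => ?_, fun h => ?_⟩⟩
  · refine (eq_top_iff' _).mpr fun g => ?_
    obtain ⟨⟨⟨_, a, ha, rfl⟩, h⟩, h1⟩ := hH.2 (π g)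
    have h2 : a⁻¹ * g ∈ H.comap π := by
      rw [mem_comap, map_mul, map_inv, ← h1]; simp
    simpa using mul_mem (mem_sup_right ha) (mem_sup_left h2)
  · have h1 : π a ∈ A.map π ⊓ H := ⟨mem_map_of_mem π ha, h⟩
    rw [hH.disjoint.eq_bot, mem_bot] at h1
    exact ((QuotientGroup.eq_one_iff a).mp h1).2
  · rw [mem_comap, show π a = 1 from (QuotientGroup.eq_one_iff a).mpr ⟨ha, h⟩]
    exact one_mem _

/-- Let `A` be an abelian normal subgroup of the finite group `G`. Then `A` has a complement in `G` if and only if, for every prime `p` dividing the index of `A`, there are a Sylow `p`-subgroup `S` of `G/A` and a subgroup `K` of `G` with `K ∩ A = 1` and `KA` equal to the preimage of `S` (that is, `A` has a complement in the preimage of a Sylow `p`-subgroup of `G/A`). -/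
theorem result {G : Type*} [Group G] [Finite G] (A : Subgroup G) [A.Normal] (hA : IsMulCommutative A) : (∃ K : Subgroup G, K.IsComplement' A) ↔ ∀ p : ℕ, p.Prime → p ∣ A.index → ∃ (S : Sylow p (G ⧸ A)) (K : Subgroup G), K ⊓ A = ⊥ ∧ K ⊔ A = (S : Subgroup (G ⧸ A)).comap (QuotientGroup.mk' A) := by
  constructor
  · rintro ⟨K, hK⟩ p hp -
    have := Fact.mk hp
    obtain ⟨S⟩ : Nonempty (Sylow p (G ⧸ A)) := inferInstance
    refine ⟨S, K ⊓ (S : Subgroup (G ⧸ A)).comap (QuotientGroup.mk' A), ?_, ?_⟩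
    · rw [inf_right_comm, hK.disjoint.eq_bot, bot_inf_eq]
    · have h1 : A ≤ (S : Subgroup (G ⧸ A)).comap (QuotientGroup.mk' A) := by
        intro a ha
        rw [Subgroup.mem_comap, QuotientGroup.mk'_apply, (QuotientGroup.eq_one_iff a).mpr ha]
        exact one_mem _
      refine le_antisymm (sup_le inf_le_right h1) fun g hg => ?_
      obtain ⟨⟨k, a⟩, rfl⟩ := hK.2 g
      have h2 := mul_mem hg (inv_mem (h1 a.2))
      rw [mul_inv_cancel_right] at h2
      exact mul_mem (Subgroup.mem_sup_left ⟨k.2, h2⟩) (Subgroup.mem_sup_right a.2)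
  · intro h
    have h1 : ∀ p : ℕ, p.Prime →
        ∃ H : Subgroup G, H ⊔ A = ⊤ ∧ ∀ a ∈ A, a ∈ H ↔ ¬ p ∣ orderOf a := by
      intro p hp
      by_cases hpA : p ∣ A.index
      · have := Fact.mk hp
        obtain ⟨S, K, h1, h2⟩ := h p hp hpA
        refine step A hp _ K ?_ h1 h2
        rw [Subgroup.index_comap_of_surjective _ (QuotientGroup.mk'_surjective A)]
        exact S.not_dvd_index
      · exact step A hp A ⊥ hpA (bot_inf_eq _) (bot_sup_eq _)
    have h2 : ∀ m : ℕ, m ≠ 0 →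
        ∃ H : Subgroup G, H ⊔ A = ⊤ ∧ ∀ a ∈ A, a ∈ H ↔ (orderOf a).Coprime m := by
      intro m
      induction m using induction_on_primes with
      | zero => exact fun h => absurd rfl h
      | one => exact fun _ => ⟨⊤, top_sup_eq _, fun a _ => by simp⟩
      | prime_mul p m hp ih =>
        intro hm
        obtain ⟨H, hH1, hH2⟩ := ih (right_ne_zero_of_mul hm)
        by_cases hpm : p ∣ m
        · refine ⟨H, hH1, fun a ha => (hH2 a ha).trans ?_⟩
          rw [Nat.coprime_mul_iff_right]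
          exact ⟨fun h => ⟨h.coprime_dvd_right hpm, h⟩, fun h => h.2⟩
        obtain ⟨L, hL1, hL2⟩ := h1 p hp
        refine ⟨H ⊓ L, (Subgroup.eq_top_iff' _).mpr fun g => ?_, fun a ha => ?_⟩
        · obtain ⟨h₁, hh₁, a₁, ha₁, rfl⟩ :=
            H3.mem_sup_normal_right.mp (hH1 ▸ Subgroup.mem_top g : g ∈ H ⊔ A)
          obtain ⟨h₂, hh₂, a₂, ha₂, rfl⟩ :=
            H3.mem_sup_normal_right.mp (hL1 ▸ Subgroup.mem_top h₁ : h₁ ∈ L ⊔ A)
          obtain ⟨e, f, h3, ⟨k, hk⟩, h4⟩ := H24.exists_p_decomp hp a₂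
          have h5 : a₂ ^ e ∈ H := (hH2 _ (pow_mem ha₂ e)).mpr (by
            rw [hk]
            exact ((Nat.Prime.coprime_iff_not_dvd hp).mpr hpm).pow_left k)
          have h6 : a₂ ^ f ∈ L := (hL2 _ (pow_mem ha₂ f)).mpr h4
          have h7 : h₂ * a₂ = h₂ * a₂ ^ f * a₂ ^ e := by
            rw [mul_assoc, pow_mul_comm, h3]
          have h8 : h₂ * a₂ ^ f ∈ H ⊓ L :=
            ⟨by simpa [h7] using mul_mem hh₁ (inv_mem h5), mul_mem hh₂ h6⟩
          rw [h7, mul_assoc]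
          exact mul_mem (Subgroup.mem_sup_left h8)
            (Subgroup.mem_sup_right (mul_mem (pow_mem ha₂ e) ha₁))
        · rw [Subgroup.mem_inf, hH2 a ha, hL2 a ha, Nat.coprime_mul_iff_right, and_comm,
            ← Nat.Prime.coprime_iff_not_dvd hp, Nat.coprime_comm]
    obtain ⟨H, hH1, hH2⟩ := h2 (Nat.card G) Nat.card_pos.ne'
    refine ⟨H, Subgroup.isComplement'_of_disjoint_and_mul_eq_univ ?_ ?_⟩
    · rw [Subgroup.disjoint_def]
      intro a ha haA
      exact orderOf_eq_one_iff.mp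
        (Nat.Coprime.eq_one_of_dvd ((hH2 a haA).mp ha) (orderOf_dvd_natCard a))
    · rw [← Subgroup.mul_normal, hH1, Subgroup.coe_top]

end Cfsg.Agent.S4217
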