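import Cfsg.Statements.S4218
import Cfsg.Agent.H18.PLength

set_option autoImplicit false
open Cfsg

namespace Cfsg.Agent.S4218

/-- Let `G` be a finite `p`-solvable group, `N₀ = O_{p'}(G)`, `P₁ = O_{p',p}(G)`, and let `F ≤ P₁` be the preimage of the Frattini subgroup of `P₁/N₀`. Then an element `g` of `G` induces the identity on `P₁/F` by conjugation (that is, `g x g⁻¹ x⁻¹ ∈ F` for all `x ∈ P₁`) if and only if `g ∈ P₁`: the group `G/P₁` acts faithfully on `P₁/F`. -/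
theorem result {G : Type*} [Group G] [Finite G] {p : ℕ} [Fact p.Prime] (hG : Cfsg.IsPSolvable p G) (g : G) : (∀ x ∈ Cfsg.pPrimePCore p G, g * x * g⁻¹ * x⁻¹ ∈ ((frattini (↥(Cfsg.pPrimePCore p G) ⧸ (Cfsg.pPrimeCore p G).subgroupOf (Cfsg.pPrimePCore p G))).comap (QuotientGroup.mk' ((Cfsg.pPrimeCore p G).subgroupOf (Cfsg.pPrimePCore p G)))).map (Cfsg.pPrimePCore p G).subtype) ↔ g ∈ Cfsg.pPrimePCore p G := by
  set N := pPrimeCore p G with hN
  set P := pPrimePCore p G with hP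
  have hmem : ∀ x : G, x ∈ P ↔ (QuotientGroup.mk' N x) ∈ pCore p (G ⧸ N) := fun x => Iff.rfl
  let φ : P →* pCore p (G ⧸ N) :=
    ((QuotientGroup.mk' N).comp P.subtype).codRestrict _ fun x => (hmem x).1 x.2
  let ψ : P ⧸ N.subgroupOf P →* pCore p (G ⧸ N) := QuotientGroup.lift _ φ fun x hx =>
    Subtype.ext ((QuotientGroup.eq_one_iff _).2 hx)
  have hψ : Function.Injective ψ := by
    rw [injective_iff_map_eq_one]
    intro y hy
    obtain ⟨x, rfl⟩ := QuotientGroup.mk'_surjective _ y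
    exact (QuotientGroup.eq_one_iff _).2 ((QuotientGroup.eq_one_iff (x : G)).1
      (congrArg Subtype.val hy))
  have hPG : IsPGroup p (P ⧸ N.subgroupOf P) := (H18.isPGroup_pCore p).of_injective ψ hψ
  constructor
  · intro h
    rw [hmem]
    refine H18.mem_pCore_of_frattini (H18.centralizer_pCore_le (H18.isPSolvable_quotient hG N)
      (H18.pPrimeCore_quotient_pPrimeCore p)) fun y hy => ?_
    obtain ⟨x, rfl⟩ := QuotientGroup.mk'_surjective _ y
    obtain ⟨z, hz, hz2⟩ := h x ((hmem x).2 hy)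
    refine ⟨φ z, H3.map_frattini_le_pgroup (H18.isPGroup_pCore p) ψ ⟨_, hz, rfl⟩, ?_⟩
    have : (z : G) = g * x * g⁻¹ * x⁻¹ := hz2
    simp only [← map_inv, ← map_mul, ← this]
    rfl
  · intro hg x hx
    refine ⟨⟨g, hg⟩ * ⟨x, hx⟩ * ⟨g, hg⟩⁻¹ * ⟨x, hx⟩⁻¹, ?_, rfl⟩
    refine H3.commutator_le_frattini_pgroup hPG ?_
    rw [map_mul, map_mul, map_mul, map_inv, map_inv]
    exact Subgroup.commutator_mem_commutator (Subgroup.mem_top _) (Subgroup.mem_top _)

end Cfsg.Agent.S4218
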