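import Cfsg.Statements.S4219
import Cfsg.Agent.Base

set_option autoImplicit false
open Cfsg

namespace Cfsg.Agent.S4219

open Pointwise

theorem aux {G : Type*} [Group G] [Finite G] {β : Type*} [MulAction G β] [MulAction.IsPretransitive G β]
    (x : β) {p : ℕ} [Fact p.Prime] (P : Sylow p (MulAction.stabilizer G x)) (a : β)
    (ha : ∀ g ∈ (P : Subgroup (MulAction.stabilizer G x)).map (MulAction.stabilizer G x).subtype, g • a = a) :
    ∃ g ∈ Subgroup.normalizer ((((P : Subgroup (MulAction.stabilizer G x)).map (MulAction.stabilizer G x).subtype) : Subgroup G) : Set G), g • a = x := by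
  set Q : Subgroup G := (P : Subgroup (MulAction.stabilizer G x)).map (MulAction.stabilizer G x).subtype with hQ
  obtain ⟨g, hg⟩ := MulAction.exists_smul_eq G a x
  have hle : MulAut.conj g • Q ≤ MulAction.stabilizer G x := by
    intro y hy
    rw [Subgroup.mem_pointwise_smul_iff_inv_smul_mem] at hy
    have h1 : (MulAut.conj g)⁻¹ • y = g⁻¹ * y * g := by simp [MulAut.smul_def]
    rw [h1] at hy
    have := ha _ hy
    rw [mul_smul, mul_smul, hg, inv_smul_eq_iff, hg] at this
    exact this
  have hcQ : Nat.card Q = Nat.card P := Subgroup.card_map_of_injective (Subgroup.subtype_injective _)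
  have hc : Nat.card ((MulAut.conj g • Q).subgroupOf (MulAction.stabilizer G x)) = Nat.card P := by
    rw [Nat.card_congr (Subgroup.subgroupOfEquivOfLe hle).toEquiv, ← hcQ]
    exact (Nat.card_congr (Subgroup.equivSMul (MulAut.conj g) Q).toEquiv).symm
  let R : Sylow p (MulAction.stabilizer G x) := Sylow.ofCard _ (hc.trans P.card_eq_multiplicity)
  obtain ⟨h, hh⟩ := MulAction.exists_smul_eq (MulAction.stabilizer G x) R P
  refine ⟨h * g, ?_, by rw [mul_smul, hg]; exact h.2⟩
  have h2 : MulAut.conj (h : G) • (MulAut.conj g • Q) = Q := by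
    have h3 := congrArg (fun S : Sylow p (MulAction.stabilizer G x) => (S : Subgroup (MulAction.stabilizer G x)).map (MulAction.stabilizer G x).subtype) hh
    simp only [Sylow.coe_subgroup_smul] at h3
    rw [← hQ] at h3
    rw [← h3]
    nth_rewrite 1 [h3]
    ext y
    simp only [Subgroup.mem_map, Subgroup.mem_pointwise_smul_iff_inv_smul_mem, R, Sylow.coe_ofCard, Subgroup.mem_subgroupOf]
    constructor
    · intro hy
      have hy' : (MulAut.conj (h : G))⁻¹ • y ∈ MulAction.stabilizer G x := by
        apply hle
        rwa [Subgroup.mem_pointwise_smul_iff_inv_smul_mem]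
      have : y ∈ MulAction.stabilizer G x := by
        have h4 : y = h * ((MulAut.conj (h : G))⁻¹ • y) * (h : G)⁻¹ := by simp [MulAut.smul_def, mul_assoc]
        rw [h4]
        exact Subgroup.mul_mem _ (Subgroup.mul_mem _ h.2 hy') (Subgroup.inv_mem _ h.2)
      exact ⟨⟨y, this⟩, hy, rfl⟩
    · rintro ⟨z, hz, rfl⟩
      exact hz
  rw [← mul_smul, ← map_mul] at h2
  exact Subgroup.conjAct_pointwise_smul_iff.1 h2

/-- Let a finite group `G` act `t`-fold transitively on a finite set, let `H` be the stabilizer of `t` distinct points and `P` a Sylow `p`-subgroup of `H`. Then the normalizer of `P` in `G` is `t`-fold transitive on the fixed points of `P`: any `t` distinct fixed points of `P` can be carried to any other `t` distinct fixed points of `P` by an element normalizing `P`. -/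
theorem result {G : Type*} [Group G] [Finite G] {α : Type*} [Fintype α] [MulAction G α] {t : ℕ} (hG : MulAction.IsMultiplyPretransitive G α t) (x : Fin t ↪ α) {p : ℕ} [Fact p.Prime] (P : Sylow p (MulAction.stabilizer G x)) (a b : Fin t ↪ α) (ha : ∀ i, a i ∈ MulAction.fixedPoints ((P : Subgroup (MulAction.stabilizer G x)).map (MulAction.stabilizer G x).subtype) α) (hb : ∀ i, b i ∈ MulAction.fixedPoints ((P : Subgroup (MulAction.stabilizer G x)).map (MulAction.stabilizer G x).subtype) α) : ∃ g ∈ Subgroup.normalizer ((((P : Subgroup (MulAction.stabilizer G x)).map (MulAction.stabilizer G x).subtype) : Subgroup G) : Set G), g • a = b := by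
  haveI : MulAction.IsPretransitive G (Fin t ↪ α) := hG
  obtain ⟨g, hg, hga⟩ := aux x P a (fun g hg => by
    ext i
    exact ha i ⟨g, hg⟩)
  obtain ⟨h, hh, hhb⟩ := aux x P b (fun g hg => by
    ext i
    exact hb i ⟨g, hg⟩)
  refine ⟨h⁻¹ * g, Subgroup.mul_mem _ (Subgroup.inv_mem _ hh) hg, ?_⟩
  rw [mul_smul, hga, ← hhb, inv_smul_smul]

end Cfsg.Agent.S4219
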