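import Cfsg.Statements.S4222
import Cfsg.Agent.Base

set_option autoImplicit false
open Cfsg

namespace Cfsg.Agent.S4222


/-- If a normal subgroup `N` of a finite group is complete (its centre is trivial and every automorphism of `N` is inner), then the group is the internal direct product of `N` and the centralizer of `N`: the centralizer is a complement to `N`. -/
theorem result {T : Type*} [Group T] [Finite T] (N : Subgroup T) [N.Normal] (hz : Subgroup.center ↥N = ⊥) (ha : Function.Surjective (MulAut.conj : ↥N →* MulAut ↥N)) : (Subgroup.centralizer (N : Set T)).IsComplement' N := by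
  apply Subgroup.isComplement'_of_disjoint_and_mul_eq_univ
  · rw [disjoint_iff, eq_bot_iff]
    rintro x ⟨hx1, hx2⟩
    have : (⟨x, hx2⟩ : N) ∈ Subgroup.center N := by
      rw [Subgroup.mem_center_iff]
      intro g
      apply Subtype.ext
      exact (Subgroup.mem_centralizer_iff.mp hx1) g g.2
    rw [hz, Subgroup.mem_bot] at this
    rw [Subgroup.mem_bot]
    exact congrArg Subtype.val this
  · rw [Set.eq_univ_iff_forall]
    intro t
    obtain ⟨n, hn⟩ := ha (MulAut.conjNormal t⁻¹)
    refine ⟨t * n, ?_, (n : T)⁻¹, N.inv_mem n.2, by simp⟩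
    rw [SetLike.mem_coe, Subgroup.mem_centralizer_iff]
    intro h hh
    have := congrArg (fun f : MulAut N => ((f ⟨h, hh⟩ : N) : T)) hn
    simp only [MulAut.conj_apply, Subgroup.coe_mul, InvMemClass.coe_inv, MulAut.conjNormal_apply, inv_inv] at this
    calc h * (t * n) = t * (t⁻¹ * h * t) * n := by group
      _ = t * (n * h * (n : T)⁻¹) * n := by rw [this]
      _ = _ := by group

end Cfsg.Agent.S4222
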