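import Cfsg.Statements.S4275
import Cfsg.Agent.Base

set_option autoImplicit false
open Cfsg

namespace Cfsg.Agent.S4275


/-- Let G be a transitive group of permutations of a finite set Ω, let o ∈ Ω, and let α be an automorphism of G. Then α is induced by conjugation by a permutation of Ω normalizing G if and only if the image under α of the stabilizer of o fixes some point of Ω. -/
theorem result {Ω : Type*} [Fintype Ω] (G : Subgroup (Equiv.Perm Ω)) (htr : MulAction.IsPretransitive G Ω) (o : Ω) (α : G ≃* G) : (∃ σ : Equiv.Perm Ω, σ ∈ Subgroup.normalizer (G : Set (Equiv.Perm Ω)) ∧ ∀ g : G, ((α g : G) : Equiv.Perm Ω) = σ * (g : Equiv.Perm Ω) * σ⁻¹) ↔ ∃ ω : Ω, ∀ g ∈ (MulAction.stabilizer G o).map α.toMonoidHom, g • ω = ω := by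
  constructor
  · rintro ⟨σ, -, hσ⟩
    refine ⟨σ o, ?_⟩
    rintro _ ⟨g, hg, rfl⟩
    have hg' : (g : Equiv.Perm Ω) o = o := hg
    change ((α g : G) : Equiv.Perm Ω) (σ o) = σ o
    rw [hσ]
    simp [hg']
  · rintro ⟨ω, hω⟩
    have hle : (MulAction.stabilizer G o).map α.toMonoidHom ≤ MulAction.stabilizer G ω := hω
    have heq : (MulAction.stabilizer G o).map α.toMonoidHom = MulAction.stabilizer G ω := by
      apply Subgroup.eq_of_le_of_card_ge hle
      rw [Subgroup.card_map_of_injective α.injective]
      obtain ⟨t, rfl⟩ := MulAction.exists_smul_eq G o ω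
      exact (Nat.card_congr (MulAction.stabilizerEquivStabilizer (g := t) rfl).toEquiv).ge
    choose t ht using fun x : Ω => MulAction.exists_smul_eq G o x
    have key : ∀ g h : G, g • o = h • o ↔ α g • ω = α h • ω := by
      intro g h
      have h1 : g • o = h • o ↔ h⁻¹ * g ∈ MulAction.stabilizer G o := by
        rw [MulAction.mem_stabilizer_iff, mul_smul, inv_smul_eq_iff]
      have h2 : α g • ω = α h • ω ↔ α (h⁻¹ * g) ∈ MulAction.stabilizer G ω := by
        rw [MulAction.mem_stabilizer_iff, map_mul, map_inv, mul_smul, inv_smul_eq_iff]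
      rw [h1, h2, ← heq]
      exact (Subgroup.mem_map_iff_mem (f := α.toMonoidHom) α.injective).symm
    let f : Ω → Ω := fun x => α (t x) • ω
    have hf : Function.Injective f := by
      intro x y hxy
      have := (key _ _).2 hxy
      rwa [ht, ht] at this
    have hfg : ∀ (g : G) (x : Ω), f (g • x) = α g • f x := by
      intro g x
      simp only [f]
      rw [← mul_smul, ← map_mul, ← key, ht, mul_smul, ht]
    let σ : Equiv.Perm Ω := Equiv.ofBijective f (Finite.injective_iff_bijective.1 hf)
    have hσ : ∀ g : G, ((α g : G) : Equiv.Perm Ω) = σ * (g : Equiv.Perm Ω) * σ⁻¹ := by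
      intro g
      rw [eq_mul_inv_iff_mul_eq]
      ext x
      exact (hfg g x).symm
    refine ⟨σ, ?_, hσ⟩
    rw [Subgroup.mem_normalizer_iff]
    intro h
    constructor
    · intro hh
      rw [← hσ ⟨h, hh⟩]
      exact (α ⟨h, hh⟩).2
    · intro hh
      have := hσ (α.symm ⟨_, hh⟩)
      rw [MulEquiv.apply_symm_apply] at this
      simp only [mul_left_inj, mul_right_inj] at this
      rw [this]
      exact (α.symm ⟨_, hh⟩).2

end Cfsg.Agent.S4275
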