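import Cfsg.Agent.Base
import Cfsg.Statements.S4277

set_option autoImplicit false
open Cfsg

namespace Cfsg.Agent.S4277

open Polynomial Subgroup in
theorem intertw {G : Type*} [Group G] [Finite G] (H : Subgroup G) {p : ℕ} [Fact p.Prime] (x : G)
    (hx : x ^ p = 1) (hH : ¬ p ∣ Nat.card H) (hs : ∀ g : G, ∃ i : ℕ, ∃ h ∈ H, g = x ^ i * h)
    (α : MulAut G) (hα : α x = x) :
    ∃ f : (ZMod p)[X], IsUnit (aeval (Representation.ofMulAction (ZMod p) G (G ⧸ H) x) f) ∧
      ∀ g, aeval (Representation.ofMulAction (ZMod p) G (G ⧸ H) x) f *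
        Representation.ofMulAction (ZMod p) G (G ⧸ H) g =
        Representation.ofMulAction (ZMod p) G (G ⧸ H) (α g) *
          aeval (Representation.ofMulAction (ZMod p) G (G ⧸ H) x) f := by
  classical
  have := Fintype.ofFinite H
  set ρ := Representation.ofMulAction (ZMod p) G (G ⧸ H) with hρ
  choose i k hk e using hs
  set e0 : MonoidAlgebra (ZMod p) (G ⧸ H) := MonoidAlgebra.single ((1 : G) : G ⧸ H) 1 with he0
  have h0 : ∀ h ∈ H, ρ h e0 = e0 := fun h hh => by
    rw [he0, hρ, Representation.ofMulAction_single, MulAction.Quotient.smul_mk, smul_eq_mul, mul_one,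
      QuotientGroup.eq.2 (show h⁻¹ * 1 ∈ H by simpa using hh)]
  set M := aeval (ρ x) (∑ h : H, (X : (ZMod p)[X]) ^ i (α h)) with hM
  have hc : ∀ n : ℕ, M * ρ (x ^ n) = ρ (x ^ n) * M := fun n => by
    rw [map_pow, hM, ← aeval_X_pow (R := ZMod p), ← map_mul, ← map_mul, mul_comm]
  have h1 : M e0 = ∑ h : H, ρ (α h) e0 := by
    rw [hM, map_sum, LinearMap.sum_apply]
    refine Finset.sum_congr rfl fun h _ => ?_
    rw [aeval_X_pow, ← map_pow]
    conv_rhs => rw [e (α h), map_mul, Module.End.mul_apply, h0 _ (hk _)]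
  have h2 : ∀ h ∈ H, ρ (α h) (M e0) = M e0 := fun h hh => by
    rw [h1, map_sum]
    conv_rhs => rw [← Equiv.sum_comp (Equiv.mulLeft (⟨h, hh⟩ : H))]
    refine Finset.sum_congr rfl fun h' _ => ?_
    rw [← Module.End.mul_apply, ← map_mul, ← map_mul]
    rfl
  have h3 : ∀ g, M (ρ g e0) = ρ (α g) (M e0) := fun g => by
    rw [e g, map_mul, map_mul, map_mul, map_pow α, hα, Module.End.mul_apply, Module.End.mul_apply,
      h0 _ (hk _), h2 _ (hk _), ← Module.End.mul_apply, hc, Module.End.mul_apply]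
  refine ⟨∑ h : H, (X : (ZMod p)[X]) ^ i (α h), ?_, fun g => ?_⟩
  · have hp : p ≠ 0 := (Fact.out : p.Prime).ne_zero
    refine (isUnit_pow_iff hp).1 ?_
    rw [← map_pow, ← ZMod.expand_card, expand_aeval, ← map_pow, hx, map_one, map_sum]
    simp only [aeval_X_pow, one_pow, Finset.sum_const, Finset.card_univ, nsmul_eq_mul, mul_one]
    rw [← map_natCast (algebraMap (ZMod p) _)]
    refine IsUnit.map _ (Ne.isUnit ?_)
    rwa [Ne, ZMod.natCast_eq_zero_iff, ← Nat.card_eq_fintype_card]
  · rw [← hM]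
    refine LinearMap.ext fun v => ?_
    induction v using MonoidAlgebra.induction_linear with
    | zero => rw [map_zero, map_zero]
    | add a b ha hb => rw [map_add, map_add, ha, hb]
    | single w r =>
      obtain ⟨u, rfl⟩ := QuotientGroup.mk_surjective w
      have : MonoidAlgebra.single (u : G ⧸ H) r = r • ρ u e0 := by
        rw [he0, hρ, Representation.ofMulAction_single, MulAction.Quotient.smul_mk, smul_eq_mul,
          mul_one, MonoidAlgebra.smul_single, smul_eq_mul, mul_one]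
      rw [this, map_smul, map_smul, Module.End.mul_apply, Module.End.mul_apply, h3,
        ← Module.End.mul_apply (ρ g), ← map_mul, h3, map_mul, map_mul, Module.End.mul_apply]

open Subgroup in
theorem comm_fix {G : Type*} [Group G] [Finite G] (H : Subgroup G) {p : ℕ} [Fact p.Prime] (x : G)
    (hx : x ^ p = 1) (hH : ¬ p ∣ Nat.card H) (hs : ∀ g : G, ∃ i : ℕ, ∃ h ∈ H, g = x ^ i * h)
    (hc : H.normalCore = ⊥) (α β : MulAut G) (hα : α x = x) (hβ : β x = x) : α * β = β * α := by
  obtain ⟨f, hf, ef⟩ := intertw H x hx hH hs α hα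
  obtain ⟨f', hf', ef'⟩ := intertw H x hx hH hs β hβ
  set ρ := Representation.ofMulAction (ZMod p) G (G ⧸ H) with hρ
  ext g
  have h1 : ρ ((α * β) g) = ρ ((β * α) g) := by
    refine (hf.mul hf').mul_right_cancel ?_
    rw [MulAut.mul_apply, MulAut.mul_apply, ← mul_assoc, ← ef, mul_assoc, ← ef', ← mul_assoc,
      ← map_mul, mul_comm f, map_mul, ← mul_assoc, ← ef', mul_assoc, mul_assoc, ← ef]
  have h2 : ((β * α) g)⁻¹ * (α * β) g ∈ H.normalCore := by
    rw [normalCore_eq_ker, MonoidHom.mem_ker]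
    ext w
    have := congrArg (fun T => T (MonoidAlgebra.single w (1 : ZMod p))) h1
    simp only [hρ, Representation.ofMulAction_single] at this
    have h3 := MonoidAlgebra.single_left_injective one_ne_zero this
    simp only [MulAction.toPermHom_apply, MulAction.toPerm_apply, Equiv.Perm.one_apply]
    rw [mul_smul, h3, inv_smul_smul]
  rw [hc, mem_bot, inv_mul_eq_one] at h2
  exact h2.symm

/-- A case of the Schreier conjecture: if a finite simple group G has a subgroup of prime index, then the outer automorphism group of G is solvable. -/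
theorem result {G : Type*} [Group G] [Finite G] [IsSimpleGroup G] (H : Subgroup G) (hH : H.index.Prime) : Group.IsSolvable (Cfsg.Out G) := by
  classical
  set p := H.index with hp
  have := Fact.mk hH
  have hc : H.normalCore = ⊥ := (H.normalCore_normal.eq_bot_or_eq_top).resolve_right fun e =>
    hH.ne_one (Subgroup.index_eq_one.2 (top_le_iff.1 (e ▸ H.normalCore_le)))
  have hcard := H.card_mul_index
  have hH' : ¬ p ∣ Nat.card H := by
    have h1 : Nat.card G ∣ p.factorial := by
      have := Subgroup.card_dvd_of_injective (MulAction.toPermHom G (G ⧸ H))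
        (by rw [← MonoidHom.ker_eq_bot_iff, ← Subgroup.normalCore_eq_ker, hc])
      rwa [Nat.card_perm] at this
    rw [← hcard, ← Nat.mul_factorial_pred hH.ne_zero, mul_comm p] at h1
    intro h2
    have := (hH.dvd_factorial).1 (h2.trans (Nat.dvd_of_mul_dvd_mul_right hH.pos h1))
    have := hH.pos
    omega
  obtain ⟨x, hx⟩ := exists_prime_orderOf_dvd_card' (G := G) p H.index_dvd_card
  have hcz : Nat.card (Subgroup.zpowers x) = p := by rw [Nat.card_zpowers, hx]
  have hco := Subgroup.isComplement'_of_coprime (H := Subgroup.zpowers x) (K := H)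
    (by rw [hcz, mul_comm, hcard]) (by rw [hcz]; exact (Nat.Prime.coprime_iff_not_dvd hH).2 hH')
  have hs : ∀ g : G, ∃ i : ℕ, ∃ h ∈ H, g = x ^ i * h := fun g => by
    obtain ⟨⟨⟨u, hu⟩, h⟩, e⟩ := hco.2 g
    obtain ⟨i, rfl⟩ := (mem_powers_iff_mem_zpowers.2 hu : u ∈ Submonoid.powers x)
    exact ⟨i, h, h.2, e.symm⟩
  have hcomm := comm_fix H x (hx ▸ pow_orderOf_eq_one x) hH' hs hc
  have hsyl : ∀ y : G, orderOf y = p → ∃ P : Sylow p G, (P : Subgroup G) = Subgroup.zpowers y :=
    fun y hy => by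
      have h1 : Nat.card (Subgroup.zpowers y) = p := by rw [Nat.card_zpowers, hy]
      have h2 := (Subgroup.zpowers y).card_mul_index
      rw [h1, ← hcard, mul_comm] at h2
      have h3 : IsPGroup p (Subgroup.zpowers y) := IsPGroup.of_card (n := 1) (by rw [h1, pow_one])
      have h4 : ¬ p ∣ (Subgroup.zpowers y).index := by rwa [Nat.eq_of_mul_eq_mul_right hH.pos h2]
      exact ⟨h3.toSylow h4, rfl⟩
  set π := QuotientGroup.mk' (Inn G)
  have hfr : ∀ a : Out G, ∃ α : MulAut G, a = (π α)⁻¹ ∧ ∃ n : ℤ, α x = x ^ n := fun a => by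
    obtain ⟨α, hα⟩ := QuotientGroup.mk'_surjective (Inn G) a⁻¹
    obtain ⟨P, hP⟩ := hsyl x hx
    obtain ⟨Q, hQ⟩ := hsyl (α x) (by rw [MulEquiv.orderOf_eq, hx])
    obtain ⟨g, hg⟩ := MulAction.exists_smul_eq G Q P
    refine ⟨MulAut.conj g * α, ?_, ?_⟩
    · have : π (MulAut.conj g) = 1 := (QuotientGroup.eq_one_iff (N := Inn G) _).2 ⟨g, rfl⟩
      rw [map_mul, this, one_mul, hα, inv_inv]
    · have : MulAut.conj g • α x ∈ (P : Subgroup G) := by
        rw [← hg, Sylow.coe_subgroup_smul, Subgroup.smul_mem_pointwise_smul_iff, hQ]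
        exact Subgroup.mem_zpowers _
      rw [hP] at this
      obtain ⟨n, hn⟩ := this
      exact ⟨n, hn.symm⟩
  have h1 : derivedSeries (Out G) 1 ≤ (MulAction.stabilizer (MulAut G) x).map π := by
    refine Subgroup.commutator_le.2 fun a _ b _ => ?_
    obtain ⟨α, rfl, n, hn⟩ := hfr a
    obtain ⟨β, rfl, m, hm⟩ := hfr b
    refine ⟨α⁻¹ * β⁻¹ * α * β, ?_, by simp [commutatorElement_def]⟩
    have : α (β x) = β (α x) := by
      rw [hn, hm, map_zpow, map_zpow, hn, hm, ← zpow_mul, ← zpow_mul, mul_comm]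
    change α⁻¹ (β⁻¹ (α (β x))) = x
    rw [this]
    simp
  refine ⟨⟨2, eq_bot_iff.2 ((Subgroup.commutator_mono h1 h1).trans ?_)⟩⟩
  refine Subgroup.commutator_le.2 ?_
  rintro _ ⟨α, hα, rfl⟩ _ ⟨β, hβ, rfl⟩
  rw [commutatorElement_eq_one_iff_mul_comm.2 (by rw [← map_mul, hcomm α β hα hβ, map_mul])]
  exact one_mem _

end Cfsg.Agent.S4277
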