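import Cfsg.Statements.S4280
import Cfsg.Agent.Base
import Cfsg.Agent.H67.InvTwo

set_option autoImplicit false
open Cfsg

namespace Cfsg.Agent.S4280

/-- In the Chevalley group of type F₄ over a finite field of odd order q there are exactly two conjugacy classes of involutions; the centralizer of an involution in one class has order q¹⁶(q² − 1)(q⁴ − 1)(q⁶ − 1)(q⁸ − 1), and in the other class q¹⁰(q² − 1)²(q⁴ − 1)(q⁶ − 1). -/
theorem result {F : Type*} [Field F] [Fintype F] (hF : Odd (Fintype.card F)) : ∃ s t : ↥(Cfsg.Lie.chevF4.group F), orderOf s = 2 ∧ orderOf t = 2 ∧ ¬ IsConj s t ∧ (∀ u : ↥(Cfsg.Lie.chevF4.group F), orderOf u = 2 → IsConj u s ∨ IsConj u t) ∧ Nat.card (Subgroup.centralizer ({s} : Set ↥(Cfsg.Lie.chevF4.group F))) = Fintype.card F ^ 16 * (Fintype.card F ^ 2 - 1) * (Fintype.card F ^ 4 - 1) * (Fintype.card F ^ 6 - 1) * (Fintype.card F ^ 8 - 1) ∧ Nat.card (Subgroup.centralizer ({t} : Set ↥(Cfsg.Lie.chevF4.group F))) = Fintype.card F ^ 10 * (Fintype.card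 F ^ 2 - 1) ^ 2 * (Fintype.card F ^ 4 - 1) * (Fintype.card F ^ 6 - 1) := by
  haveI := H65.tabF4
  haveI := H65.commF4
  have hq : 2 ≤ Fintype.card F := Fintype.one_lt_card
  have hp : ∀ k, 1 ≤ Fintype.card F ^ k := fun k => Nat.one_le_pow _ _ (by omega)
  have e1 := H67.card_centF4a hF
  have e2 := H67.card_centF4b hF
  replace e1 : _ = Fintype.card F ^ 16 * (Fintype.card F ^ 2 - 1) * (Fintype.card F ^ 4 - 1) * (Fintype.card F ^ 6 - 1) * (Fintype.card F ^ 8 - 1) := e1.trans (by
    simp only [H63.horner, List.map, List.sum_cons, List.sum_nil]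
    zify [hp, (by omega : 1 ≤ Fintype.card F)]
    ring)
  replace e2 : _ = Fintype.card F ^ 10 * (Fintype.card F ^ 2 - 1) ^ 2 * (Fintype.card F ^ 4 - 1) * (Fintype.card F ^ 6 - 1) := e2.trans (by
    simp only [H63.horner, List.map, List.sum_cons, List.sum_nil]
    zify [hp, (by omega : 1 ≤ Fintype.card F)]
    ring)
  have ho := fun k => (H67.orderOf_torG_cw (H64.kerF4.cker_eq_bot _) H67.coWF4 k (-1 : Fˣ)).trans
    (H67.orderOf_neg_one_units hF)
  refine ⟨_, _, ho ⟨0, by decide⟩, ho ⟨3, by decide⟩, fun h => ?_, fun u hu => ?_, e1, e2⟩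
  · have := (e2.symm.trans (H67.card_cent_of_isConj h).symm).trans e1
    simp only [mul_assoc] at this
    have hc := fun k (hk : k ≠ 0) => H67.cop_pow_sub_one (q := Fintype.card F) (by omega) hk
    exact H67.pow_mul_ne_of_coprime hq (by norm_num) (Nat.Coprime.mul_left ((hc 2 (by norm_num)).pow_left 2)
      (Nat.Coprime.mul_left (hc 4 (by norm_num)) (hc 6 (by norm_num)))) this
  · obtain ⟨n, h1, h2, h3⟩ := H67.isConj_invol (H64.kerF4.cker_eq_bot _) hF H67.orbOKF4 hu
    simp only [List.mem_cons, List.not_mem_nil, or_false, h2, false_or] at h1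
    rcases h1 with rfl | rfl
    · rw [H67.zpF4_0] at h3; exact Or.inl h3
    · rw [H67.zpF4_3] at h3; exact Or.inr h3

end Cfsg.Agent.S4280
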