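import Cfsg.Statements.S4281
import Cfsg.Agent.Base
import Cfsg.Agent.H67.InvTwo

set_option autoImplicit false
open scoped BigOperators
open Cfsg

namespace Cfsg.Agent.S4281

/-- In the Chevalley group of type E₈ over a finite field of odd order q there are exactly two conjugacy classes of involutions; the centralizer of an involution in one class has order q⁵⁶(q⁸ − 1)·∏_{i=1}^{7}(q^{2i} − 1), and in the other class q⁶⁴(q² − 1)²(q⁶ − 1)(q⁸ − 1)(q¹⁰ − 1)(q¹² − 1)(q¹⁴ − 1)(q¹⁸ − 1). -/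
theorem result {F : Type*} [Field F] [Fintype F] (hF : Odd (Fintype.card F)) : ∃ s t : ↥(Cfsg.Lie.chevE8.group F), orderOf s = 2 ∧ orderOf t = 2 ∧ ¬ IsConj s t ∧ (∀ u : ↥(Cfsg.Lie.chevE8.group F), orderOf u = 2 → IsConj u s ∨ IsConj u t) ∧ Nat.card (Subgroup.centralizer ({s} : Set ↥(Cfsg.Lie.chevE8.group F))) = Fintype.card F ^ 56 * (Fintype.card F ^ 8 - 1) * ∏ i ∈ Finset.Icc 1 7, (Fintype.card F ^ (2 * i) - 1) ∧ Nat.card (Subgroup.centralizer ({t} : Set ↥(Cfsg.Lie.chevE8.group F))) = Fintype.card F ^ 64 * (Fintype.card F ^ 2 - 1) ^ 2 * (Fintype.card F ^ 6 - 1) * (Fintype.card F ^ 8 - 1) * (Fintype.card F ^ 10 - 1) * (Fintype.card F ^ 12 - 1) * (Fintype.card F ^ 14 - 1) * (Fintype.card F ^ 18 - 1) := by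
  haveI := H65.tabE8
  haveI := H65.commE8
  have hq : 2 ≤ Fintype.card F := Fintype.one_lt_card
  have hp : ∀ k, 1 ≤ Fintype.card F ^ k := fun k => Nat.one_le_pow _ _ (by omega)
  have e1 := H67.card_centE8a hF
  have e2 := H67.card_centE8b hF
  replace e1 : _ = Fintype.card F ^ 56 * (Fintype.card F ^ 8 - 1) * ∏ i ∈ Finset.Icc 1 7, (Fintype.card F ^ (2 * i) - 1) := e1.trans (by
    rw [show Finset.Icc 1 7 = {1, 2, 3, 4, 5, 6, 7} from rfl]
    simp only [H63.horner, List.map, List.sum_cons, List.sum_nil]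
    rw [Finset.prod_insert (by decide), Finset.prod_insert (by decide), Finset.prod_insert (by decide),
      Finset.prod_insert (by decide), Finset.prod_insert (by decide), Finset.prod_insert (by decide),
      Finset.prod_singleton]
    zify [hp, (by omega : 1 ≤ Fintype.card F)]
    ring)
  replace e2 : _ = Fintype.card F ^ 64 * (Fintype.card F ^ 2 - 1) ^ 2 * (Fintype.card F ^ 6 - 1) * (Fintype.card F ^ 8 - 1) * (Fintype.card F ^ 10 - 1) * (Fintype.card F ^ 12 - 1) * (Fintype.card F ^ 14 - 1) * (Fintype.card F ^ 18 - 1) := e2.trans (by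
    simp only [H63.horner, List.map, List.sum_cons, List.sum_nil]
    zify [hp, (by omega : 1 ≤ Fintype.card F)]
    ring)
  have ho := fun k => (H67.orderOf_torG_cw (H64.kerE8.cker_eq_bot _) H67.coWE8 k (-1 : Fˣ)).trans
    (H67.orderOf_neg_one_units hF)
  refine ⟨_, _, ho ⟨0, by decide⟩, ho ⟨7, by decide⟩, fun h => ?_, fun u hu => ?_, e1, e2⟩
  · have := (e1.symm.trans (H67.card_cent_of_isConj h)).trans e2
    simp only [mul_assoc] at this
    have hc := fun k (hk : k ≠ 0) => H67.cop_pow_sub_one (q := Fintype.card F) (by omega) hk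
    exact H67.pow_mul_ne_of_coprime hq (by norm_num) (Nat.Coprime.mul_left (hc 8 (by norm_num))
      (Nat.Coprime.prod_left fun i hi => hc _ (by have := (Finset.mem_Icc.1 hi).1; omega))) this
  · obtain ⟨n, h1, h2, h3⟩ := H67.isConj_invol (H64.kerE8.cker_eq_bot _) hF H67.orbOKE8 hu
    simp only [List.mem_cons, List.not_mem_nil, or_false, h2, false_or] at h1
    rcases h1 with rfl | rfl
    · rw [H67.zpE8_0] at h3; exact Or.inl h3
    · rw [H67.zpE8_7] at h3; exact Or.inr h3

end Cfsg.Agent.S4281
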