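import Cfsg.Statements.S4282
import Cfsg.Agent.Base
import Cfsg.Agent.H22.HHSub
import Cfsg.Agent.H28.RepBasic

set_option autoImplicit false
open Cfsg

namespace Cfsg.Agent.S4282

open Polynomial

/-- A critical case behind the Hall–Higman theorem. Let p ≠ q be primes and G a finite group generated by a normal q-subgroup Q and a cyclic p-subgroup generated by x, such that the centralizer of every non-identity element of that cyclic subgroup is its product with the centre of G. Let K be an algebraically closed field of characteristic p and ρ a faithful representation of G on a nonzero finite-dimensional K-space whose restriction to Q is irreducible. If s is the least exponent with (ρ(x) − 1)^s = 0, then |⟨x⟩| − 1 ≤ s ≤ |⟨x⟩|; and if s = |⟨x⟩| − 1 then |⟨x⟩| − 1 is a power of q and Q is non-abelian. -/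
theorem result {G : Type*} [Group G] [Finite G] (p q : ℕ) [Fact p.Prime] [Fact q.Prime] (hpq : p ≠ q) (Q : Subgroup G) [Q.Normal] (hQ : IsPGroup q Q) (x : G) (hx : IsPGroup p (Subgroup.zpowers x)) (hgen : Q ⊔ Subgroup.zpowers x = ⊤) (hC : ∀ y ∈ Subgroup.zpowers x, y ≠ 1 → Subgroup.centralizer ({y} : Set G) = Subgroup.zpowers x ⊔ Subgroup.center G) {K : Type*} [Field K] [IsAlgClosed K] [CharP K p] {V : Type*} [AddCommGroup V] [Module K V] [FiniteDimensional K V] [Nontrivial V] (ρ : Representation K G V) (hfaith : Function.Injective ρ) (hirr : ∀ W : Submodule K V, (∀ g ∈ Q, Submodule.map (ρ g) W ≤ W) → W = ⊥ ∨ W = ⊤) (s : ℕ) (hs : (ρ x - 1) ^ s = 0) (hmin : ∀ k < s, (ρ x - 1) ^ k ≠ 0) : Nat.card (Subgroup.zpowers x) - 1 ≤ s ∧ s ≤ Nat.card (Subgroup.zpowers x) ∧ (s = Nat.card (Subgroup.zpowers x) - 1 → (∃ b : ℕ, Nat.card (Subgroup.zpowers x) - 1 = q ^ b) ∧ ¬ IsMulCommutative Q) := by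
  have hp : p.Prime := Fact.out
  have hq : q.Prime := Fact.out
  obtain ⟨n, hn⟩ := IsPGroup.iff_card.1 hx
  rw [hn]
  rw [Nat.card_zpowers] at hn
  have hxn : ρ x ^ p ^ n = 1 := by rw [← map_pow, ← hn, pow_orderOf_eq_one, map_one]
  have : CharP (Module.End K V) p := charP_of_injective_algebraMap (algebraMap K _).injective p
  have hle : s ≤ p ^ n := by
    by_contra h
    refine hmin (p ^ n) (by omega) ?_
    rw [sub_pow_char_pow_of_commute _ _ (Commute.one_right _), hxn, one_pow, sub_self]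
  rcases n with _ | n
  · have : s ≠ 0 := by
      rintro rfl
      exact one_ne_zero hs
    simp only [pow_zero] at hle ⊢
    omega
  have hqK : (q : K) ≠ 0 := by
    rwa [Ne, CharP.cast_eq_zero_iff K p, Nat.prime_dvd_prime_iff_eq hp hq]
  have hirr' : Representation.IsIrreducible (ρ.comp Q.subtype : Representation K Q V) :=
    (H28.isIrreducible_iff_submodule _).2 ⟨inferInstance, fun U hU => hirr U fun g hg => by
      rintro _ ⟨v, hv, rfl⟩
      exact hU ⟨g, hg⟩ v hv⟩
  have hsc : ∀ z : G, (∀ t ∈ Q, z * t = t * z) → ∃ a : K, ρ z = a • 1 := fun z hz =>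
    H28.exists_eq_smul_id_of_comm (ρ.comp Q.subtype : Representation K Q V) (ρ z) fun t => by
      change ρ z * ρ t = ρ t * ρ z
      rw [← map_mul, ← map_mul, hz t t.2]
  have hA : ∀ y ∈ Subgroup.zpowers x, (∀ t ∈ Q, y * t = t * y) → y = 1 := by
    intro y hy h
    obtain ⟨a, ha⟩ := hsc y h
    obtain ⟨k, hk⟩ := hx ⟨y, hy⟩
    have hk' : y ^ p ^ k = 1 := congrArg Subtype.val hk
    have h1 : a ^ p ^ k = 1 := by
      have h2 : ρ y ^ p ^ k = 1 := by rw [← map_pow, hk', map_one]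
      rw [ha, _root_.smul_pow, one_pow] at h2
      exact smul_left_injective K (one_ne_zero (α := Module.End K V)) (h2.trans (one_smul K _).symm)
    have h3 : a = 1 := by
      have h4 : (a - 1) ^ p ^ k = 0 := by rw [sub_pow_char_pow, h1, one_pow, sub_self]
      exact sub_eq_zero.1 (pow_eq_zero_iff (pow_pos hp.pos k).ne' |>.1 h4)
    apply hfaith
    rw [ha, h3, one_smul, map_one]
  have hB : ∀ y ∈ Subgroup.zpowers x, y ≠ 1 → ∀ t ∈ Q, t * y = y * t → t ∈ Subgroup.center G := by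
    intro y hy hy1 t ht hty
    have h1 : t ∈ Subgroup.zpowers x ⊔ Subgroup.center G := by
      rw [← hC y hy hy1]; exact Subgroup.mem_centralizer_singleton_iff.2 hty
    obtain ⟨a, ha, z, hz, rfl⟩ := Subgroup.mem_sup_of_normal_right.1 h1
    obtain ⟨b, hb⟩ := hQ ⟨_, ht⟩
    have hb' : (a * z) ^ q ^ b = 1 := congrArg Subtype.val hb
    have hc : Commute a z := Subgroup.mem_center_iff.1 hz a
    rw [hc.mul_pow] at hb'
    have h2 : a ^ q ^ b ∈ Subgroup.center G := by
      rw [eq_inv_of_mul_eq_one_left hb']; exact inv_mem (pow_mem hz _)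
    have h3 := hA _ (pow_mem ha _) fun t _ => (Subgroup.mem_center_iff.1 h2 t).symm
    obtain ⟨k, hk⟩ := hx ⟨a, ha⟩
    have hk' : a ^ p ^ k = 1 := congrArg Subtype.val hk
    have h4 := pow_gcd_eq_one.2 ⟨hk', h3⟩
    rw [Nat.Coprime.pow _ _ ((Nat.coprime_primes hp hq).2 hpq), pow_one] at h4
    rw [h4, one_mul]; exact hz
  set y := x ^ p ^ n with hy
  have hyx : y ∈ Subgroup.zpowers x := Subgroup.npow_mem_zpowers x _
  have hyo : ∀ b, y ^ q ^ b ≠ 1 := by
    intro b h
    rw [hy, ← pow_mul, ← orderOf_dvd_iff_pow_eq_one, hn, pow_succ,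
      Nat.mul_dvd_mul_iff_left (pow_pos hp.pos n)] at h
    exact hpq ((Nat.prime_dvd_prime_iff_eq hp hq).1 (hp.dvd_of_dvd_pow h))
  have hy1 : y ≠ 1 := by simpa using hyo 0
  have hF : ∀ t ∈ Q, t⁻¹ * (y * t * y⁻¹) ∈ Subgroup.center G → t ∈ Subgroup.center G := by
    intro t ht hz
    set z := t⁻¹ * (y * t * y⁻¹) with hzd
    have hzQ : z ∈ Q := mul_mem (inv_mem ht) (Subgroup.Normal.conj_mem inferInstance t ht y)
    obtain ⟨b, hb⟩ := hQ ⟨z, hzQ⟩
    have hb' : z ^ q ^ b = 1 := congrArg Subtype.val hb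
    have h2 : ∀ k : ℕ, y ^ k * t * (y ^ k)⁻¹ = t * z ^ k := by
      intro k
      induction k with
      | zero => simp
      | succ k ih =>
        have h3 : y * t * y⁻¹ = t * z := by rw [hzd]; group
        have h4 := Subgroup.mem_center_iff.1 (pow_mem hz k) y
        calc y ^ (k + 1) * t * (y ^ (k + 1))⁻¹ = y * (y ^ k * t * (y ^ k)⁻¹) * y⁻¹ := by
              rw [pow_succ']; group
          _ = y * t * y⁻¹ * (y * z ^ k) * y⁻¹ := by rw [ih]; group
          _ = t * z ^ (k + 1) := by rw [h4, h3, pow_succ']; group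
    refine hB _ (pow_mem hyx (q ^ b)) (hyo b) t ht ?_
    have h5 := h2 (q ^ b)
    rw [hb', mul_one] at h5
    conv_lhs => rw [← h5]
    group
  let Q₁ : Subgroup G :=
    { carrier := {t | t ∈ Q ∧ ∀ u ∈ Q, u * t * u⁻¹ * t⁻¹ ∈ Subgroup.center G}
      mul_mem' := fun {a b} ha hb => ⟨mul_mem ha.1 hb.1, fun u hu => by
        have e : u * (a * b) * u⁻¹ * (a * b)⁻¹ =
          (u * a * u⁻¹ * a⁻¹) * (a * (u * b * u⁻¹ * b⁻¹) * a⁻¹) := by group
        rw [e]
        exact mul_mem (ha.2 u hu) (Subgroup.Normal.conj_mem inferInstance _ (hb.2 u hu) a)⟩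
      one_mem' := ⟨one_mem _, fun u _ => by simp⟩
      inv_mem' := fun {a} ha => ⟨inv_mem ha.1, fun u hu => by
        have e : u * a⁻¹ * u⁻¹ * a⁻¹⁻¹ = a⁻¹ * (u * a * u⁻¹ * a⁻¹)⁻¹ * a⁻¹⁻¹ := by group
        rw [e]
        exact Subgroup.Normal.conj_mem inferInstance _ (inv_mem (ha.2 u hu)) _⟩ }
  have hQ₁ : Q₁.Normal := ⟨fun t ht g => ⟨Subgroup.Normal.conj_mem inferInstance t ht.1 g,
    fun u hu => by
      have e : u * (g * t * g⁻¹) * u⁻¹ * (g * t * g⁻¹)⁻¹ =
        g * ((g⁻¹ * u * g) * t * (g⁻¹ * u * g)⁻¹ * t⁻¹) * g⁻¹ := by group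
      rw [e]
      exact Subgroup.Normal.conj_mem inferInstance _
        (ht.2 _ (Subgroup.Normal.conj_mem' inferInstance u hu g)) _⟩⟩
  obtain ⟨t₀, ht₀, ht₁⟩ : ∃ t ∈ Q₁, t ∉ Subgroup.center G := by
    let π := QuotientGroup.mk' (Subgroup.center G)
    have h1 : Q.map π ≠ ⊥ := by
      intro h
      refine hy1 (hA y hyx fun t ht => ?_)
      have h2 : π t ∈ Q.map π := ⟨t, ht, rfl⟩
      rw [h, Subgroup.mem_bot] at h2
      exact Subgroup.mem_center_iff.1 ((QuotientGroup.eq_one_iff t).1 h2) y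
    have := (Subgroup.nontrivial_iff_ne_bot _).2 h1
    have := (hQ.map π).center_nontrivial
    obtain ⟨⟨⟨_, t, ht, rfl⟩, hc⟩, hne⟩ := exists_ne (1 : Subgroup.center (Q.map π))
    refine ⟨t, ⟨ht, fun u hu => ?_⟩, fun h => hne (Subtype.ext (Subtype.ext
      ((QuotientGroup.eq_one_iff t).2 h)))⟩
    have h3 : π u * π t = π t * π u :=
      congrArg Subtype.val (Subgroup.mem_center_iff.1 hc ⟨π u, u, hu, rfl⟩)
    rw [← QuotientGroup.eq_one_iff]
    change π _ = 1
    simp only [map_mul, map_inv, h3]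
    group
  let α : MulAut Q₁ := MulAut.conjNormal x
  have hα : ∀ (i : ℕ) (t : Q₁), ((α ^ i) t : G) = x ^ i * t * (x ^ i)⁻¹ := by
    intro i t
    rw [← map_pow]; rfl
  have hxα : ∀ t : Q₁, ρ x * ρ t = ρ (α t) * ρ x := by
    intro t
    have := hα 1 t
    simp only [pow_one] at this
    rw [← map_mul, ← map_mul, this]; congr 1; group
  have hg : aeval (ρ x) ((X - 1 : K[X]) ^ s) = 0 := by simpa using hs
  have hg0 : ((X - 1 : K[X]) ^ s) ≠ 0 := pow_ne_zero _ (by simpa using X_sub_C_ne_zero (1 : K))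
  have hdeg : ((X - 1 : K[X]) ^ s).natDegree = s := by
    have := natDegree_X_sub_C (1 : K)
    rw [natDegree_pow]
    simp only [map_one] at this
    rw [this, mul_one]
  have hfull : (X ^ p ^ (n + 1) - 1 : K[X]) ∣ (X - 1) ^ s → p ^ (n + 1) ≤ s := by
    intro h
    have h1 := natDegree_le_of_dvd h hg0
    have h2 := natDegree_X_pow_sub_C (n := p ^ (n + 1)) (r := (1 : K))
    simp only [map_one] at h2
    omega
  have hpos := pow_pos hp.pos (n + 1)
  have hQ₁q : IsPGroup q Q₁ := hQ.to_le fun t ht => ht.1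
  by_cases hab : ∀ a b : Q₁, Commute (ρ a) (ρ b)
  · have := hfull (H22.hh_abelian (fun t : Q₁ => ρ t) hab (fun t => by
      obtain ⟨k, hk⟩ := hQ₁q t
      exact ⟨q ^ k, by simpa using fun h => absurd h hqK, by
        rw [← map_pow, ← Subgroup.coe_pow, hk, Subgroup.coe_one, map_one]⟩) (ρ x) α.toEquiv hxα n hxn
      ⟨⟨t₀, ht₀⟩, fun h => ht₁ (hF t₀ ht₀.1 (by
        have h1 : ((α ^ p ^ n) ⟨t₀, ht₀⟩ : G) = t₀ := by
          have h2 := hfaith h
          have h3 : (α.toEquiv ^ p ^ n) = (α ^ p ^ n).toEquiv :=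
            ((MulAut.toPerm Q₁).map_pow α _).symm
          rwa [h3] at h2
        rw [hα] at h1
        rw [h1]; simp))⟩ _ hg)
    omega
  push Not at hab
  rcases H22.hh_scalar (ρ.comp Q₁.subtype : Representation K Q₁ V) hqK hQ₁q
    ((Subgroup.center G).subgroupOf Q₁)
    (fun z hz => hsc z fun t _ => (Subgroup.mem_center_iff.1 hz t).symm)
    (fun a b => b.2.2 a a.2.1) hab α (ρ x) hxα n hxn
    (by rw [← map_pow, ← hn, pow_orderOf_eq_one, map_one])
    (fun z hz => by
      rw [Subgroup.mem_subgroupOf, hα]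
      exact Subgroup.Normal.conj_mem (H := Subgroup.center G) inferInstance _ hz _)
    (fun t ht => by
      rw [Subgroup.mem_subgroupOf, Subgroup.coe_mul, hα] at ht
      exact hF t t.2.1 ht) _ hg with h | ⟨m, e1, e2, e3⟩
  · have := hfull h
    omega
  · have h1 := natDegree_le_of_dvd (minpoly.dvd K _ hg) hg0
    refine ⟨by omega, hle, fun _ => ⟨⟨m, by omega⟩, fun hc => ?_⟩⟩
    obtain ⟨a, b, hab⟩ := hab
    apply hab
    change ρ a * ρ b = ρ b * ρ a
    rw [← map_mul, ← map_mul]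
    exact congrArg ρ (congrArg Subtype.val (hc.is_comm.comm ⟨a, a.2.1⟩ ⟨b, b.2.1⟩))

end Cfsg.Agent.S4282
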