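import Cfsg.Statements.S4283
import Cfsg.Agent.H4.ClassMisc

set_option autoImplicit false
open Cfsg

namespace Cfsg.Agent.S4283

open H4

/-- Let G be a finite group with centre Z and let K, H be abelian subgroups of G containing Z such that G/Z is a Frobenius group with complement H/Z and kernel K/Z. Then the conjugacy class sizes of G are exactly 1, [G : K] and [G : H], and these two indices are coprime. (This is the converse half of the characterization of finite groups whose conjugacy class sizes are exactly 1, m and n with m and n coprime.) -/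
theorem result {G : Type*} [Group G] [Finite G] (K H : Subgroup G) (hZK : Subgroup.center G ≤ K) (hZH : Subgroup.center G ≤ H) (hK : IsMulCommutative K) (hH : IsMulCommutative H) (hFrob : Cfsg.IsFrobeniusComplement (H.map (QuotientGroup.mk' (Subgroup.center G)))) (hker : Cfsg.frobeniusKernel (H.map (QuotientGroup.mk' (Subgroup.center G))) = (K.map (QuotientGroup.mk' (Subgroup.center G)) : Set (G ⧸ Subgroup.center G))) : Set.range (fun x : G => (Subgroup.centralizer ({x} : Set G)).index) = ({1, K.index, H.index} : Set ℕ) ∧ K.index.Coprime H.index := by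
  set π := QuotientGroup.mk' (Subgroup.center G)
  have hπ : ∀ g : G, π g = 1 ↔ g ∈ Subgroup.center G := fun g => QuotientGroup.eq_one_iff g
  have hs : Function.Surjective π := QuotientGroup.mk'_surjective _
  have hker' : H5.frobKer hFrob = K.map π := by
    ext x
    rw [H5.mem_frobKer, hker]; rfl
  have hcm : ∀ L : Subgroup G, Subgroup.center G ≤ L → (L.map π).comap π = L := fun L hL =>
    Subgroup.comap_map_eq_self (by rwa [QuotientGroup.ker_mk'])
  have hi : ∀ L : Subgroup G, Subgroup.center G ≤ L → (L.map π).index = L.index := fun L hL =>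
    Subgroup.index_map_eq _ hs (by rwa [QuotientGroup.ker_mk'])
  obtain ⟨h1, h2, h3⟩ := (H5.isFrobeniusComplement_iff _).mp hFrob
  have h4 : ∀ k ∈ K, k ∉ Subgroup.center G → ind k = K.index := by
    intro k hk hkZ
    rw [ind]
    congr 1
    refine le_antisymm (fun g hg => ?_) fun a ha => mem_cent_iff.mpr (mul_comm_of_mem hK ha hk)
    rw [← hcm K hZK, Subgroup.mem_comap, ← hker']
    exact H5.centralizer_le_frobKer hFrob (hker' ▸ ⟨k, hk, rfl⟩) (mt (hπ k).mp hkZ)
      (mem_cent_iff.mpr (by rw [← map_mul, mem_cent_iff.mp hg, map_mul]))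
  have h5 : ∀ k ∈ H, k ∉ Subgroup.center G → ind k = H.index := by
    intro k hk hkZ
    rw [ind]
    congr 1
    refine le_antisymm (fun g hg => ?_) fun a ha => mem_cent_iff.mpr (mul_comm_of_mem hH ha hk)
    rw [← hcm H hZH, Subgroup.mem_comap]
    refine h3 _ _ ⟨k, hk, rfl⟩ (mt (hπ k).mp hkZ) ⟨k, hk, ?_⟩
    rw [← map_mul, mem_cent_iff.mp hg, map_mul, mul_inv_cancel_right]
  refine ⟨Set.Subset.antisymm ?_ ?_, ?_⟩
  · rintro _ ⟨x, rfl⟩
    by_cases hx : x ∈ Subgroup.center G
    · exact Or.inl (ind_eq_one_iff.mpr hx)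
    by_cases hxK : x ∈ K
    · exact Or.inr (Or.inl (h4 x hxK hx))
    refine Or.inr (Or.inr ?_)
    obtain ⟨-, g, hg⟩ := (H5.not_mem_frobeniusKernel_iff (H.map π) (π x)).mp (by
      rw [hker]; exact fun h => hxK (hcm K hZK ▸ h))
    obtain ⟨g, rfl⟩ := hs g
    refine (ind_conj g x).symm.trans (h5 _ (by
      rw [← hcm H hZH, Subgroup.mem_comap]; simpa using hg) fun h => hx ?_)
    rwa [← ind_eq_one_iff, ind_conj, ind_eq_one_iff] at h
  · rintro _ (rfl | rfl | rfl)
    · exact ⟨1, ind_eq_one_iff.mpr (Subgroup.one_mem _)⟩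
    · obtain ⟨k, hk, hkZ⟩ := SetLike.not_le_iff_exists.mp (show ¬ K ≤ Subgroup.center G from fun h => by
        have h6 := H5.card_frobKer hFrob
        rw [hker', (Subgroup.map_eq_bot_iff _).mpr (by rwa [QuotientGroup.ker_mk']),
          Subgroup.card_bot, eq_comm, Subgroup.index_eq_one] at h6
        exact h2 h6)
      exact ⟨k, h4 k hk hkZ⟩
    · obtain ⟨k, hk, hkZ⟩ := SetLike.not_le_iff_exists.mp (show ¬ H ≤ Subgroup.center G from fun h =>
        h1 ((Subgroup.map_eq_bot_iff _).mpr (by rwa [QuotientGroup.ker_mk'])))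
      exact ⟨k, h5 k hk hkZ⟩
  · rw [← hi K hZK, ← hi H hZH, ← hker', H5.index_frobKer, ← H5.card_frobKer hFrob]
    exact (H5.frobKer_coprime hFrob).symm

end Cfsg.Agent.S4283
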