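import Cfsg.Statements.S4290
import Cfsg.Agent.H40.TwoAut

set_option autoImplicit false
open Cfsg

namespace Cfsg.Agent.S4290

/-- Let G be a doubly transitive group of permutations of a finite set Ω in which a point stabilizer is a Hall subgroup of G (its order is coprime to its index). Then every automorphism of G of odd order is induced by conjugation by a permutation of Ω normalizing G. -/
theorem result {Ω : Type*} [Fintype Ω] (G : Subgroup (Equiv.Perm Ω)) (h2 : MulAction.IsMultiplyPretransitive G Ω 2) (o : Ω) (hHall : (Nat.card (MulAction.stabilizer G o)).Coprime (MulAction.stabilizer G o).index) (α : MulAut G) (hα : Odd (orderOf α)) : ∃ σ : Equiv.Perm Ω, σ ∈ Subgroup.normalizer (G : Set (Equiv.Perm Ω)) ∧ ∀ g : G, ((α g : G) : Equiv.Perm Ω) = σ * (g : Equiv.Perm Ω) * σ⁻¹ := by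
  have h2' : ∀ a b c d : Ω, a ≠ b → c ≠ d → ∃ g : G, g • a = c ∧ g • b = d :=
    fun _ _ _ _ h1 h3 => MulAction.is_two_pretransitive_iff.1 h2 h1 h3
  have htr : MulAction.IsPretransitive G Ω := ⟨fun x y => by
    by_cases hx : x = y
    · exact ⟨1, by rw [hx, one_smul]⟩
    · obtain ⟨g, h1, -⟩ := h2' x y y x hx (Ne.symm hx)
      exact ⟨g, h1⟩⟩
  rw [MulAction.index_stabilizer_of_transitive, Nat.card_eq_fintype_card (α := Ω)] at hHall
  obtain ⟨⟨σ, hσ⟩, -⟩ := H40.TwoAut.main h2' α hα o o (by
    refine Nat.Coprime.coprime_dvd_left ?_ hHall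
    rw [← Subgroup.card_map_of_injective (f := α.toMonoidHom) α.injective]
    have := MulAction.index_stabilizer ((MulAction.stabilizer G o).map α.toMonoidHom) o
    rw [Nat.card_coe_set_eq, ← this]
    exact Subgroup.index_dvd_card _)
  exact ⟨σ, H40.TwoAut.to_norm G α σ hσ⟩

end Cfsg.Agent.S4290
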