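import Cfsg.Statements.S4297
import Cfsg.Agent.Base
import Cfsg.Agent.H26.FrobConstruct


set_option autoImplicit false
open Cfsg

namespace Cfsg.Agent.S4297

theorem chi_half (n : ℕ) [NeZero (2 * n)] : ZMod.stdAddChar (n : ZMod (2 * n)) = -1 := by
  have hn : n ≠ 0 := by
    rintro rfl
    exact NeZero.ne (2 * 0) rfl
  have h2 : ZMod.stdAddChar (n : ZMod (2 * n)) * ZMod.stdAddChar (n : ZMod (2 * n)) = 1 := by
    rw [← AddChar.map_add_eq_mul]
    have : (n : ZMod (2 * n)) + n = 0 := by
      rw [← Nat.cast_add, ← two_mul, ZMod.natCast_self]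
    rw [this, AddChar.map_zero_eq_one]
  rcases mul_self_eq_one_iff.1 h2 with h | h
  · exfalso
    have : (n : ZMod (2 * n)) = 0 := by
      apply ZMod.injective_stdAddChar
      rw [h, AddChar.map_zero_eq_one]
    rw [ZMod.natCast_eq_zero_iff] at this
    have := Nat.le_of_dvd (Nat.pos_of_ne_zero hn) this
    omega
  · exact h

noncomputable def mat (n : ℕ) [NeZero (2 * n)] : QuaternionGroup n → Matrix (Fin 2) (Fin 2) ℂ
  | .a i => !![ZMod.stdAddChar i, 0; 0, ZMod.stdAddChar (-i)]
  | .xa i => !![0, -ZMod.stdAddChar (-i); ZMod.stdAddChar i, 0]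

theorem mat_mul (n : ℕ) [NeZero (2 * n)] (x y : QuaternionGroup n) :
    mat n (x * y) = mat n x * mat n y := by
  have hh := chi_half n
  have hh' : ZMod.stdAddChar (-(n : ZMod (2 * n))) = -1 := by
    rw [AddChar.map_neg_eq_inv, hh]; simp
  rcases x with i | i <;> rcases y with j | j
  · simp [mat, ← AddChar.map_add_eq_mul, add_comm]
  · simp [mat, ← AddChar.map_add_eq_mul, sub_eq_add_neg, add_comm]
  · simp [mat, ← AddChar.map_add_eq_mul, add_comm]
  · have e1 : (n : ZMod (2 * n)) + j - i = n + (-i + j) := by ring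
    have e2 : -((n : ZMod (2 * n)) + j - i) = -n + (i + -j) := by ring
    simp only [QuaternionGroup.xa_mul_xa, mat]
    rw [e2, e1, AddChar.map_add_eq_mul, AddChar.map_add_eq_mul _ (-(n : ZMod (2 * n))), hh, hh']
    simp [← AddChar.map_add_eq_mul]

noncomputable def rep (n : ℕ) [NeZero (2 * n)] : Representation ℂ (QuaternionGroup n) (Fin 2 → ℂ) where
  toFun x := Matrix.toLin' (mat n x)
  map_one' := by
    have : mat n 1 = 1 := by
      rw [QuaternionGroup.one_def]
      simp [mat, Matrix.one_fin_two]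
    rw [this, Matrix.toLin'_one]; rfl
  map_mul' x y := by rw [mat_mul, Matrix.toLin'_mul]; rfl


/-- For every n ≥ 2 the dicyclic group of order 4n (generated by an element a of order 2n and an element x with x² = aⁿ and x a x⁻¹ = a⁻¹) occurs as a Frobenius complement of some finite Frobenius group. -/
theorem result (n : ℕ) (hn : 2 ≤ n) :
    ∃ (L : Type) (_ : Group L) (_ : Finite L) (H : Subgroup L), Cfsg.IsFrobeniusComplement H ∧ Nonempty (H ≃* QuaternionGroup n) := by
  have : NeZero (2 * n) := ⟨by omega⟩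
  have : NeZero n := ⟨by omega⟩
  have : Nontrivial (QuaternionGroup n) := ⟨⟨.a 0, .xa 0, fun h => by cases h⟩⟩
  obtain ⟨L, i1, i2, H, h1, ⟨e⟩⟩ := H26.exists_frobenius_of_fpf_rep.{0} (rep n) (by
    intro q hq v hv
    have hv' : (mat n q).mulVec v = v := hv
    have h0 := congrFun hv' 0
    have h1 := congrFun hv' 1
    rcases q with i | i
    · have hi : i ≠ 0 := by
        rintro rfl
        exact hq QuaternionGroup.one_def.symm
      have c0 : ZMod.stdAddChar i ≠ 1 := fun h => hi (ZMod.injective_stdAddChar (by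
        rw [h, AddChar.map_zero_eq_one]))
      have c1 : ZMod.stdAddChar (-i) ≠ 1 := fun h => (neg_ne_zero.2 hi) (ZMod.injective_stdAddChar (by
        rw [h, AddChar.map_zero_eq_one]))
      simp [mat, Matrix.mulVec, dotProduct, Fin.sum_univ_two] at h0 h1
      ext k
      fin_cases k
      · exact (mul_eq_zero.1 (show (ZMod.stdAddChar i - 1) * v 0 = 0 by
          linear_combination h0)).resolve_left (sub_ne_zero.2 c0)
      · exact (mul_eq_zero.1 (show (ZMod.stdAddChar (-i) - 1) * v 1 = 0 by
          linear_combination h1)).resolve_left (sub_ne_zero.2 c1)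
    · simp [mat, Matrix.mulVec, dotProduct, Fin.sum_univ_two] at h0 h1
      have c : ZMod.stdAddChar (-i) * ZMod.stdAddChar i = 1 := by
        rw [← AddChar.map_add_eq_mul, neg_add_cancel, AddChar.map_zero_eq_one]
      have hz : v 0 = 0 := by
        have : v 0 = - v 0 := by
          conv_lhs => rw [← h0, ← h1, ← mul_assoc, c, one_mul]
        linear_combination (1/2) * this
      ext k
      fin_cases k
      · exact hz
      · simp [← h1, hz])
  exact ⟨L, i1, i2, H, h1, ⟨e.symm⟩⟩

end Cfsg.Agent.S4297
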