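import Cfsg.Statements.S4300
import Cfsg.Agent.Base


set_option autoImplicit false
open Cfsg

namespace Cfsg.Agent.S4300


/-- Let G act faithfully and primitively on a set X, and suppose the stabilizer of some point is a simple group. Then either G is simple, or G has a normal subgroup, neither trivial nor the whole group, that acts regularly on X (transitively with trivial point stabilizers). -/
theorem result {G : Type*} [Group G] {X : Type*} [MulAction G X] [FaithfulSMul G X]
    (hprim : MulAction.IsPreprimitive G X) (x : X) (hsimple : IsSimpleGroup (MulAction.stabilizer G x)) :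
    IsSimpleGroup G ∨ ∃ N : Subgroup G, N.Normal ∧ N ≠ ⊥ ∧ N ≠ ⊤ ∧
      MulAction.IsPretransitive N X ∧ ∀ y : X, MulAction.stabilizer N y = ⊥ := by
  by_cases hs : IsSimpleGroup G
  · exact Or.inl hs
  right
  have hnt : Nontrivial G := by
    have := hsimple.toNontrivial
    exact (MulAction.stabilizer G x).subtype_injective.nontrivial
  have hex : ∃ N : Subgroup G, N.Normal ∧ N ≠ ⊥ ∧ N ≠ ⊤ := by
    by_contra hcon
    push Not at hcon
    apply hs
    refine ⟨fun N hN => ?_⟩
    by_cases h : N = ⊥
    · exact Or.inl h
    · exact Or.inr (hcon N hN h)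
  obtain ⟨N, hN, hb, ht⟩ := hex
  have htr : MulAction.IsPretransitive N X := by
    apply MulAction.IsQuasiPreprimitive.isPretransitive_of_normal
    intro hfix
    apply hb
    rw [Subgroup.eq_bot_iff_forall]
    intro n hn
    apply FaithfulSMul.eq_of_smul_eq_smul (α := X)
    intro y
    have : y ∈ MulAction.fixedPoints N X := by rw [hfix]; trivial
    rw [one_smul]
    exact this ⟨n, hn⟩
  refine ⟨N, hN, hb, ht, htr, ?_⟩
  have hx : ∀ n ∈ N, n • x = x → n = 1 := by
    rcases hsimple.eq_bot_or_eq_top_of_normal (N.subgroupOf (MulAction.stabilizer G x)) inferInstance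
      with h | h
    · intro n hn hnx
      rw [Subgroup.eq_bot_iff_forall] at h
      exact congrArg Subtype.val (h ⟨n, hnx⟩ hn)
    · exfalso
      apply ht
      rw [Subgroup.eq_top_iff']
      intro g
      obtain ⟨n, hn⟩ := htr.exists_smul_eq x (g • x)
      have h1 : (n : G)⁻¹ * g ∈ MulAction.stabilizer G x := by
        rw [MulAction.mem_stabilizer_iff, mul_smul, ← hn]
        exact inv_smul_smul (n : G) x
      have h2 : (⟨_, h1⟩ : MulAction.stabilizer G x) ∈ N.subgroupOf (MulAction.stabilizer G x) := by
        rw [h]; trivial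
      have h3 : (n : G)⁻¹ * g ∈ N := h2
      simpa using N.mul_mem n.2 h3
  intro y
  rw [Subgroup.eq_bot_iff_forall]
  intro n hn
  obtain ⟨g, rfl⟩ := hprim.toIsPretransitive.exists_smul_eq x y
  have hn' : (n : G) • g • x = g • x := hn
  have := hx (g⁻¹ * n * g) (by simpa using hN.conj_mem n n.2 g⁻¹) (by
    rw [mul_smul, mul_smul, hn', inv_smul_smul])
  apply Subtype.ext
  have h2 : (n : G) = g * (g⁻¹ * n * g) * g⁻¹ := by group
  rw [h2, this]; simp

end Cfsg.Agent.S4300
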