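import Cfsg.Statements.S4301
import Cfsg.Agent.Base


set_option autoImplicit false
open Cfsg

namespace Cfsg.Agent.S4301

theorem two_trans {X : Type*} (G : Subgroup (Equiv.Perm (Option X)))
    (k : ℕ) (hk : 2 ≤ k) (hkX : Nonempty (Fin k ↪ X))
    (htrans : ∀ a b : Fin k ↪ X, ∃ f ∈ G, ∀ i, f (some (a i)) = some (b i))
    (a b c d : X) (hab : a ≠ b) (hcd : c ≠ d) :
    ∃ f ∈ G, f (some a) = some c ∧ f (some b) = some d := by
  obtain ⟨p, rfl⟩ := Nat.exists_eq_add_of_le hk
  have hcard : ((2 : ℕ) : ℕ∞) + (p : ℕ∞) ≤ ENat.card X := by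
    obtain ⟨e⟩ := hkX
    have := ENat.card_le_card_of_injective e.injective
    simpa using this
  obtain ⟨e1, he1⟩ := Fin.Embedding.restrictSurjective_of_add_le_ENatCard hcard
    (Function.Embedding.embFinTwo hab)
  obtain ⟨e2, he2⟩ := Fin.Embedding.restrictSurjective_of_add_le_ENatCard hcard
    (Function.Embedding.embFinTwo hcd)
  obtain ⟨f, hf, h⟩ := htrans e1 e2
  refine ⟨f, hf, ?_, ?_⟩
  · have h0 := h (Fin.castAdd p 0)
    have a1 : e1 (Fin.castAdd p 0) = a := DFunLike.congr_fun he1 0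
    have a2 : e2 (Fin.castAdd p 0) = c := DFunLike.congr_fun he2 0
    rwa [a1, a2] at h0
  · have h0 := h (Fin.castAdd p 1)
    have a1 : e1 (Fin.castAdd p 1) = b := DFunLike.congr_fun he1 1
    have a2 : e2 (Fin.castAdd p 1) = d := DFunLike.congr_fun he2 1
    rwa [a1, a2] at h0


/-- One-point extension of a multiply transitive group. Let X be a set and G a group of permutations of Option X (the set X with one extra point ∗ = none) all of whose elements fix ∗, such that G is k-transitive on the points of X for some k ≥ 2, X having at least k points. Suppose a permutation h of Option X and an element g of G satisfy: h interchanges ∗ with a point x of X and fixes a point y of X; g interchanges x and y; (g h)³ and h² lie in G; and for every f in G fixing x, the product h f h lies in G and fixes x. Then an element of the group generated by G and h fixes ∗ exactly when it lies in G, and that group acts (k+1)-transitively on Option X. -/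
theorem result {X : Type*} (G : Subgroup (Equiv.Perm (Option X))) (hfix : ∀ f ∈ G, f none = none)
    (k : ℕ) (hk : 2 ≤ k) (hkX : Nonempty (Fin k ↪ X))
    (htrans : ∀ a b : Fin k ↪ X, ∃ f ∈ G, ∀ i, f (some (a i)) = some (b i))
    (h g : Equiv.Perm (Option X)) (hg : g ∈ G) (x y : X)
    (h1 : h none = some x) (h2 : h (some x) = none) (h3 : h (some y) = some y)
    (h4 : g (some x) = some y) (h5 : g (some y) = some x)
    (h6 : (g * h) ^ 3 ∈ G) (h7 : h ^ 2 ∈ G)
    (h8 : ∀ f ∈ G, f (some x) = some x → h * f * h ∈ G ∧ (h * f * h) (some x) = some x) :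
    (∀ f ∈ Subgroup.closure ((G : Set (Equiv.Perm (Option X))) ∪ {h}), f none = none ↔ f ∈ G) ∧
      MulAction.IsMultiplyPretransitive (Subgroup.closure ((G : Set (Equiv.Perm (Option X))) ∪ {h})) (Option X) (k + 1) := by
  have hxy : x ≠ y := by
    rintro rfl
    rw [h2] at h3
    cases h3
  have hsome : ∀ f ∈ G, ∀ z : X, ∃ w : X, f (some z) = some w := by
    intro f hf z
    rcases hw : f (some z) with _ | w
    · rw [← hfix f hf] at hw
      cases f.injective hw
    · exact ⟨w, rfl⟩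
  have hsq : h * h ∈ G := by rwa [← pow_two]
  -- h g h lies in G h G
  have hgh : ∃ a ∈ G, ∃ b ∈ G, h * g * h = a * h * b := by
    refine ⟨g⁻¹ * (g * h) ^ 3 * (h * h)⁻¹, G.mul_mem (G.mul_mem (G.inv_mem hg) h6) (G.inv_mem hsq),
      g⁻¹, G.inv_mem hg, ?_⟩
    simp only [pow_succ, pow_zero]
    group
  have key : ∀ f ∈ G, h * f * h ∈ G ∨ ∃ a ∈ G, ∃ b ∈ G, h * f * h = a * h * b := by
    intro f hf
    by_cases hfx : f (some x) = some x
    · exact Or.inl (h8 f hf hfx).1
    right
    obtain ⟨w, hw⟩ := hsome f hf x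
    have hxw : x ≠ w := by
      rintro rfl
      exact hfx hw
    obtain ⟨a, ha, ha1, ha2⟩ := two_trans G k hk hkX htrans x y x w hxy hxw
    have hb : g⁻¹ * a⁻¹ * f ∈ G := G.mul_mem (G.mul_mem (G.inv_mem hg) (G.inv_mem ha)) hf
    have hb1 : (g⁻¹ * a⁻¹ * f) (some x) = some x := by
      simp only [Equiv.Perm.coe_mul, Function.comp_apply, hw]
      rw [Equiv.Perm.inv_eq_iff_eq, Equiv.Perm.inv_eq_iff_eq, h4, ha2]
    obtain ⟨u, hu, v, hv, huv⟩ := hgh
    refine ⟨(h * a * h) * (h * h)⁻¹ * u, G.mul_mem (G.mul_mem (h8 a ha ha1).1 (G.inv_mem hsq)) hu,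
      v * (h * h)⁻¹ * (h * (g⁻¹ * a⁻¹ * f) * h),
      G.mul_mem (G.mul_mem hv (G.inv_mem hsq)) (h8 _ hb hb1).1, ?_⟩
    have : h * a * h * (h * h)⁻¹ * u * h * (v * (h * h)⁻¹ * (h * (g⁻¹ * a⁻¹ * f) * h)) =
        h * a * h * (h * h)⁻¹ * (u * h * v) * (h * h)⁻¹ * (h * (g⁻¹ * a⁻¹ * f) * h) := by group
    rw [this, ← huv]
    group
  have hS : ∀ f ∈ Subgroup.closure ((G : Set (Equiv.Perm (Option X))) ∪ {h}),
      f ∈ G ∨ ∃ a ∈ G, ∃ b ∈ G, f = a * h * b := by
    intro f hf
    induction hf using Subgroup.closure_induction with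
    | mem z hz =>
      rcases hz with hz | hz
      · exact Or.inl hz
      · exact Or.inr ⟨1, G.one_mem, 1, G.one_mem, by simpa using hz⟩
    | one => exact Or.inl G.one_mem
    | mul z w _ _ hz hw =>
      rcases hz with hz | ⟨a, ha, b, hb, rfl⟩ <;> rcases hw with hw | ⟨c, hc, d, hd, rfl⟩
      · exact Or.inl (G.mul_mem hz hw)
      · exact Or.inr ⟨z * c, G.mul_mem hz hc, d, hd, by group⟩
      · exact Or.inr ⟨a, ha, b * w, G.mul_mem hb hw, by group⟩
      · have e : a * h * b * (c * h * d) = a * (h * (b * c) * h) * d := by group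
        rcases key (b * c) (G.mul_mem hb hc) with hh | ⟨u, hu, v, hv, huv⟩
        · left
          rw [e]
          exact G.mul_mem (G.mul_mem ha hh) hd
        · right
          rw [e, huv]
          exact ⟨a * u, G.mul_mem ha hu, v * d, G.mul_mem hv hd, by group⟩
    | inv z _ hz =>
      rcases hz with hz | ⟨a, ha, b, hb, rfl⟩
      · exact Or.inl (G.inv_mem hz)
      · exact Or.inr ⟨b⁻¹, G.inv_mem hb, (h * h)⁻¹ * a⁻¹, G.mul_mem (G.inv_mem hsq) (G.inv_mem ha),
          by group⟩
  have hstab : ∀ f ∈ Subgroup.closure ((G : Set (Equiv.Perm (Option X))) ∪ {h}),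
      f none = none ↔ f ∈ G := by
    intro f hf
    refine ⟨fun hn => ?_, hfix f⟩
    rcases hS f hf with hG | ⟨a, ha, b, hb, rfl⟩
    · exact hG
    · exfalso
      simp only [Equiv.Perm.coe_mul, Function.comp_apply, hfix b hb, h1] at hn
      obtain ⟨w, hw⟩ := hsome a ha x
      rw [hw] at hn
      cases hn
  refine ⟨hstab, ?_⟩
  set K := Subgroup.closure ((G : Set (Equiv.Perm (Option X))) ∪ {h}) with hK
  have hGK : ∀ f ∈ G, f ∈ K := fun f hf => Subgroup.subset_closure (Or.inl hf)
  have hhK : h ∈ K := Subgroup.subset_closure (Or.inr rfl)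
  have horb : ∀ z : Option X, ∃ f : K, f • (none : Option X) = z := by
    rintro (_ | z)
    · exact ⟨1, one_smul _ _⟩
    · by_cases hz : z = x
      · exact ⟨⟨h, hhK⟩, by rw [hz, ← h1]; rfl⟩
      · obtain ⟨a, ha, ha1, -⟩ := two_trans G k hk hkX htrans x z z x (Ne.symm hz) hz
        refine ⟨⟨a * h, K.mul_mem (hGK a ha) hhK⟩, ?_⟩
        change a (h none) = some z
        rw [h1, ha1]
  have htr : MulAction.IsPretransitive K (Option X) := by
    refine ⟨fun z w => ?_⟩
    obtain ⟨f1, rfl⟩ := horb z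
    obtain ⟨f2, rfl⟩ := horb w
    exact ⟨f2 * f1⁻¹, by rw [mul_smul, inv_smul_smul]⟩
  rw [SubMulAction.ofStabilizer.isMultiplyPretransitive (a := (none : Option X))]
  refine ⟨fun a b => ?_⟩
  have hget : ∀ z : SubMulAction.ofStabilizer K (none : Option X), ∃ w : X, (z : Option X) = some w := by
    rintro ⟨_ | w, hz⟩
    · exact absurd rfl hz
    · exact ⟨w, rfl⟩
  choose φ hφ using hget
  have hφinj : Function.Injective φ := by
    intro z w hzw
    apply Subtype.ext
    rw [hφ, hφ, hzw]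
  obtain ⟨f, hf, hfab⟩ := htrans (a.trans ⟨φ, hφinj⟩) (b.trans ⟨φ, hφinj⟩)
  refine ⟨⟨⟨f, hGK f hf⟩, hfix f hf⟩, ?_⟩
  refine Function.Embedding.ext fun i => Subtype.ext ?_
  change f (a i : Option X) = (b i : Option X)
  rw [hφ, hφ]
  exact hfab i

end Cfsg.Agent.S4301
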