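import Cfsg.Statements.S4303
import Cfsg.Agent.Base
import Cfsg.Agent.H25.SylowNum

set_option autoImplicit false
universe u
open Cfsg

namespace Cfsg.Agent.S4303


/-- For a finite group `G` and a prime `p`, the number of Sylow `p`-subgroups of `G` is a product of natural numbers each of which is either a prime power congruent to 1 modulo `p` or the number of Sylow `p`-subgroups of some finite simple group. -/
theorem result {G : Type u} [Group G] [Finite G]
    (p : ℕ) [Fact p.Prime] :
    ∃ l : List ℕ, l.prod = Nat.card (Sylow p G) ∧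
      ∀ m ∈ l, (IsPrimePow m ∧ m % p = 1) ∨
        ∃ (S : Type u) (_ : Group S) (_ : Finite S), IsSimpleGroup S ∧ m = Nat.card (Sylow p S) := by
  refine H25.card_sylow_induction (p := p) (fun n => ∃ l : List ℕ, l.prod = n ∧
      ∀ m ∈ l, (IsPrimePow m ∧ m % p = 1) ∨
        ∃ (S : Type u) (_ : Group S) (_ : Finite S), IsSimpleGroup S ∧ m = Nat.card (Sylow p S))
    ⟨[], rfl, by simp⟩ ?_ ?_ (fun _ _ => True) (fun _ _ _ _ => trivial) (fun _ _ _ _ _ => trivial)
    ?_ G trivial
  · rintro a b ⟨l1, rfl, h1⟩ ⟨l2, rfl, h2⟩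
    refine ⟨l1 ++ l2, List.prod_append, fun m hm => ?_⟩
    rcases List.mem_append.1 hm with h | h
    · exact h1 m h
    · exact h2 m h
  · intro m h1 h2
    exact ⟨[m], by simp, fun k hk => by rw [List.mem_singleton.1 hk]; exact Or.inl ⟨h1, h2⟩⟩
  · intro S _ _ hS _
    exact ⟨[_], by simp, fun k hk => Or.inr ⟨S, _, ‹_›, hS, List.mem_singleton.1 hk⟩⟩

end Cfsg.Agent.S4303
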