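import Cfsg.Statements.S4304
import Cfsg.Agent.Base
import Cfsg.Agent.H25.SylowNot

set_option autoImplicit false
open Cfsg

namespace Cfsg.Agent.S4304


/-- No finite group has exactly 15 Sylow 7-subgroups. -/
theorem result {G : Type*} [Group G] [Finite G] : Nat.card (Sylow 7 G) ≠ 15 := by
  have : Fact (Nat.Prime 7) := ⟨by norm_num⟩
  refine H25.card_sylow_ne_of_simple (by norm_num)
    (H25.not_isPrimePow_mul (a := 3) (b := 5) (by norm_num) (by norm_num) (by norm_num)) ?_ ?_ G
  · intro a b hab ha hb
    have h1 : a ≤ 15 := Nat.le_of_dvd (by norm_num) (Dvd.intro _ hab)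
    interval_cases a <;> omega
  · intro S _ _ _ hS hd hn
    obtain ⟨P⟩ : Nonempty (Sylow 7 S) := inferInstance
    obtain ⟨e, he1, he2, he3, he4⟩ := H25.simple_card_sylow_two_mul_add_one hS (by norm_num) P
      (H25.card_eq_prime_of_card_sylow_lt_sq hS hd (by omega) P) hn
    have h1 : e ≤ 6 := Nat.le_of_dvd (by norm_num) he1
    have h2 : e = 3 := by interval_cases e <;> simp_all (config := {decide := true})
    subst h2
    have : Fact (Nat.Prime 5) := ⟨by norm_num⟩
    obtain ⟨Q⟩ : Nonempty (Sylow 5 S) := inferInstance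
    have h3 : Nat.card S = 315 := he4
    have hQ : Nat.card Q = 5 := by
      rw [Q.card_eq_multiplicity, h3]
      have : Nat.factorization 315 5 = 1 := by
        rw [show (315 : ℕ) = 5 * 63 from rfl, Nat.factorization_mul (by norm_num) (by norm_num)]
        simp [Nat.Prime.factorization_self this.out, Nat.factorization_eq_zero_of_not_dvd]
      rw [this]; rfl
    apply H25.not_normalizer_le_centralizer hS Q (Q.ne_bot_of_dvd_card (by rw [h3]; norm_num))
    rw [← Subgroup.relIndex_eq_one]
    have h4 := H25.relIndex_centralizer_dvd_of_card_prime this.out hQ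
    have h5 := (Subgroup.relIndex_dvd_card (Subgroup.centralizer ((Q : Subgroup S) : Set S))
      (Subgroup.normalizer ((Q : Subgroup S) : Set S))).trans (Subgroup.card_subgroup_dvd_card _)
    rw [h3] at h5
    exact Nat.eq_one_of_dvd_coprimes (by norm_num) h4 h5

end Cfsg.Agent.S4304
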