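import Cfsg.Statements.S4314
import Cfsg.Agent.H4.ClassGraph
import Cfsg.Agent.H3.FrattiniP

set_option autoImplicit false
open Cfsg

namespace Cfsg.Agent.S4314

open H4

/-- Let `G` be a finite group every conjugacy class of which has size 1 or a prime. Then either `G` is nilpotent of class at most 2, or `G/Z(G)` is a non-abelian group of order `pq` for distinct primes `p, q` (a Frobenius group of order `pq`). -/
theorem result {G : Type*} [Group G] [Finite G]
    (h : ∀ x : G, (Subgroup.centralizer ({x} : Set G)).index = 1 ∨ ((Subgroup.centralizer ({x} : Set G)).index).Prime) :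
    Subgroup.upperCentralSeries G 2 = ⊤ ∨
      ∃ p q : ℕ, p.Prime ∧ q.Prime ∧ p ≠ q ∧ Nat.card (G ⧸ Subgroup.center G) = p * q ∧ ¬ IsMulCommutative (G ⧸ Subgroup.center G) := by
  have hdvd : ∀ (r : ℕ) (g : G), r.Prime → r ∣ ind g → ind g = r := fun r g hr hg =>
    (h g).elim (fun h1 => absurd (Nat.dvd_one.mp (h1 ▸ hg)) hr.one_lt.ne')
      fun h1 => ((Nat.prime_dvd_prime_iff_eq hr h1).mp hg).symm
  by_cases h2 : ∃ p : ℕ, p.Prime ∧ ∀ (r : ℕ) (g : G), r.Prime → r ∣ ind g → r = p
  · left
    obtain ⟨p, hp, h2⟩ := h2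
    have := Fact.mk hp
    have hZ : IsPGroup p (G ⧸ Subgroup.center G) := by
      refine IsPGroup.of_card (Nat.eq_prime_pow_of_unique_prime_dvd Nat.card_pos.ne' ?_)
      intro r hr hd
      by_contra hrp
      have := Fact.mk hr
      obtain ⟨R⟩ : Nonempty (Sylow r G) := inferInstance
      refine R.not_dvd_index (hd.trans (Subgroup.index_dvd_of_le fun z hz => ?_))
      have h3 : Subgroup.centralizer ((R : Subgroup G) : Set G) = ⊤ :=
        eq_top_of_forall_conj_mem fun x => exists_conj_mem_centralizer_sylow R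
          fun hx => hrp (h2 r x hr hx)
      exact Subgroup.mem_center_iff.mpr fun g => ((h3 ▸ Subgroup.mem_top g :) z hz).symm
    have hN : Group.IsNilpotent G := by
      have := hZ.isNilpotent
      exact Subgroup.isNilpotent_of_ker_le_center (QuotientGroup.mk' (Subgroup.center G))
        (by rw [QuotientGroup.ker_mk'])
    rw [eq_top_iff]
    intro x _
    rw [Subgroup.mem_upperCentralSeries_succ_iff]
    intro y
    rw [Subgroup.upperCentralSeries_one, Subgroup.mem_center_iff]
    intro g
    refine (mem_cent_iff.mp ?_).symm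
    rcases h g with h3 | h3
    · rw [Subgroup.index_eq_one.mp h3]; trivial
    · have h4 := Fact.mk h3
      have h5 : (Subgroup.centralizer ({g} : Set G)).Normal :=
        Subgroup.NormalizerCondition.normal_of_coatom _ Group.normalizerCondition_of_isNilpotent
          (H3.isCoatom_of_index_prime h3)
      have h6 : IsCyclic (G ⧸ Subgroup.centralizer ({g} : Set G)) := 
        isCyclic_of_prime_card (p := (Subgroup.centralizer ({g} : Set G)).index) rfl
      exact Subgroup.Normal.quotient_commutative_iff_commutator_le.mp inferInstance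
        (Subgroup.commutator_mem_commutator (Subgroup.mem_top x) (Subgroup.mem_top y))
  · right
    have h3 : ∃ p : ℕ, p.Prime ∧ ∃ g : G, p ∣ ind g := by
      by_contra hcon
      exact h2 ⟨2, Nat.prime_two, fun r g hr hg => absurd ⟨r, hr, g, hg⟩ hcon⟩
    obtain ⟨p, hp, h3⟩ := h3
    obtain ⟨A, hAn, hA, hZ, hA1, h4⟩ := exists_qf_of_disconnected (G := G) {p} ⟨p, rfl, hp, h3⟩ (by
      by_contra hcon
      exact h2 ⟨p, hp, fun r g hr hg => by_contra fun hrp => hcon ⟨r, hrp, hr, g, hg⟩⟩)
      fun r s g hr hs h1 h2 h3 h4 => h2 ((hdvd s g hs h4).symm.trans ((hdvd r g hr h3).trans h1))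
    obtain ⟨y, hy⟩ : ∃ y, y ∉ A := by
      by_contra hcon
      push Not at hcon
      exact hA1 (eq_top_iff.mpr fun y _ => hcon y)
    obtain ⟨-, h5, -, h6, h7, h8⟩ := quasiFrobenius A hA hZ h4 hy
    obtain ⟨a, ha, haZ⟩ := SetLike.not_le_iff_exists.mp h8
    have h9 : (ind y).Prime := (h y).resolve_left fun h' => hy (hZ (ind_eq_one_iff.mp h'))
    have h10 : A.index.Prime := h6 a ha haZ ▸ (h a).resolve_left fun h' => haZ (ind_eq_one_iff.mp h')
    refine ⟨_, _, h9, h10, (Nat.coprime_primes h9 h10).mp (h4 y hy), h7.symm, fun hc => ?_⟩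
    obtain ⟨h11, h12, h13⟩ := (H5.isFrobeniusComplement_iff _).mp h5
    obtain ⟨⟨t, ht⟩, ht1⟩ := (Subgroup.ne_bot_iff_exists_ne_one).mp h11
    refine h12 (eq_top_iff.mpr fun g _ => h13 g t ht (fun h' => ht1 (Subtype.ext h')) ?_)
    rwa [hc.is_comm.comm g t, mul_inv_cancel_right]

end Cfsg.Agent.S4314
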