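import Cfsg.Statements.S4316
import Cfsg.Agent.H25.BFC

set_option autoImplicit false
universe u
open Cfsg

namespace Cfsg.Agent.S4316

open Subgroup H25.BFC
open scoped commutatorElement IsMulCommutative

theorem index_le_q {A : Type*} [Group A] [Finite A] {q : ℕ} (hq : 0 < q) (he : ∀ a : A, a ^ q = 1)
    (Y : Subgroup A) [Y.Normal] (hY : IsCyclic (A ⧸ Y)) : Y.index ≤ q := by
  refine Nat.le_of_dvd hq ?_
  rw [index, ← IsCyclic.exponent_eq_card]
  refine Monoid.exponent_dvd_of_forall_pow_eq_one fun g => ?_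
  obtain ⟨a, rfl⟩ := QuotientGroup.mk_surjective g
  rw [← QuotientGroup.mk_pow, he, QuotientGroup.mk_one]

theorem main {A G : Type*} [Group A] [Finite A] [IsMulCommutative A] [Group G] [Finite G]
    (φ : A →* MulAut G) {q m : ℕ} (hq : q.Prime) (hA : Nat.card A = q ^ 3)
    (he : ∀ a : A, a ^ q = 1) (hcop : (Nat.card A).Coprime (Nat.card G))
    (hm : ∀ a, a ≠ 1 → Nat.card (commutator (Fx φ a)) ≤ m) :
    ∃ T : Set G, commutator G ≤ closure T ∧ (∀ g : G, ∀ t ∈ T, g * t * g⁻¹ ∈ T) ∧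
      T.ncard ≤ q ^ 3 * (m * (m ^ q ^ 3).factorial) ∧ ∀ t ∈ T, t ^ m.factorial = 1 := by
  classical
  have := Fintype.ofFinite A
  have hq1 := hq.one_lt
  have hne : ∀ (Y Z : Subgroup A), IsCyclic (A ⧸ Y) → IsCyclic (A ⧸ Z) →
      ∃ a, a ≠ 1 ∧ a ∈ Y ∧ a ∈ Z := by
    intro Y Z hY hZ
    by_contra h
    push Not at h
    have h0 : Y ⊓ Z = ⊥ := eq_bot_iff.2 fun a ha => by
      by_contra h1
      exact h a h1 ha.1 ha.2
    have h1 := (index_inf_le (H := Y) (K := Z)).trans
      (Nat.mul_le_mul (index_le_q hq.pos he Y hY) (index_le_q hq.pos he Z hZ))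
    rw [h0, index_bot, hA, ← pow_two] at h1
    exact absurd h1 (not_le.2 (Nat.pow_lt_pow_right hq1 (by norm_num)))
  have hnc : ∀ Y : Subgroup A, IsCyclic (A ⧸ Y) → ¬ IsCyclic Y := by
    intro Y hY hc
    have h1 : Nat.card Y ≤ q := by
      refine Nat.le_of_dvd hq.pos ?_
      rw [← IsCyclic.exponent_eq_card]
      exact Monoid.exponent_dvd_of_forall_pow_eq_one fun g => Subtype.ext (he g)
    have h2 := Nat.mul_le_mul (index_le_q hq.pos he Y hY) h1
    rw [Y.index_mul_card, hA, ← pow_two] at h2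
    exact absurd h2 (not_le.2 (Nat.pow_lt_pow_right hq1 (by norm_num)))
  set S : Set G := {x | ∃ Y : Subgroup A, IsCyclic (A ⧸ Y) ∧ ∀ y ∈ Y, φ y x = x} with hS
  have hcl : ∀ x ∈ S, (centralizer ({x} : Set G)).index ≤ (m ^ q ^ 3).factorial := by
    rintro x ⟨Y, hY, hx⟩
    obtain ⟨a, ha, -, -⟩ := hne Y Y hY hY
    refine index_le (hnc Y hY) (φ.comp Y.subtype)
      (hcop.coprime_dvd_left (card_subgroup_dvd_card Y)) ?_
      (Nat.card_pos.trans_le (hm a ha)) (hA ▸ card_le_card_group Y) ?_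
    · intro b y hy
      rw [mem_centralizer_singleton_iff] at hy ⊢
      have h1 := congrArg (φ b) hy
      rwa [map_mul, map_mul, hx b b.2] at h1
    · intro b hb
      exact (relIndex_centralizer_le (F := Fx φ b) (hx b b.2)).trans
        (hm b fun h => hb (Subtype.ext h))
  set D : A → Subgroup G := fun a => ⁅Fx φ a, Fx φ a⁆ with hD
  have hDc : ∀ a, a ≠ 1 → Nat.card (D a) ≤ m := fun a ha => by
    have h1 := hm a ha
    rwa [← card_map_of_injective (Fx φ a).subtype_injective, map_subtype_commutator] at h1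
  set T : Set G := ⋃ a : A, ⋃ x ∈ {x | a ≠ 1 ∧ x ∈ D a ∧ x ∈ S}, {y | IsConj x y} with hT
  have hTi : ∀ g : G, ∀ t ∈ T, g * t * g⁻¹ ∈ T := by
    intro g t ht
    simp only [hT, Set.mem_iUnion] at ht ⊢
    obtain ⟨a, x, hx, h⟩ := ht
    exact ⟨a, x, hx, IsConj.trans h (isConj_iff.2 ⟨g, rfl⟩)⟩
  refine ⟨T, ?_, hTi, ?_, ?_⟩
  · have : (closure T).Normal := ⟨fun n hn g =>
      (closure_le ((closure T).comap (MulAut.conj g).toMonoidHom)).2
        (fun t ht => subset_closure (hTi g t ht)) hn⟩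
    have hDT : ∀ a, a ≠ 1 → D a ≤ closure T := by
      intro a ha
      refine H1.le_of_cocyclic_fixed φ (D a) (fun b => ?_)
        (hcop.coprime_dvd_right (card_subgroup_dvd_card _)) _ fun Y hY x hx hxY => ?_
      · refine (commutator_le.2 fun x hx y hy => ?_ : D a ≤ (D a).comap (φ b).toMonoidHom)
        rw [mem_comap, map_commutatorElement]
        exact commutator_mem_commutator (Fx_inv φ a b x hx) (Fx_inv φ a b y hy)
      · refine subset_closure ?_
        simp only [hT, Set.mem_iUnion]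
        exact ⟨a, x, ⟨ha, hx, Y, hY, hxY⟩, IsConj.refl x⟩
    have key : ∀ y : G, (∀ x ∈ S, ⁅x, y⁆ ∈ closure T) → ∀ x : G, ⁅x, y⁆ ∈ closure T := by
      intro y hy x
      have h := H1.le_of_cocyclic_fixed φ ⊤ (fun _ _ _ => mem_top _) (by rwa [card_top])
        ((centralizer {QuotientGroup.mk' (closure T) y}).comap (QuotientGroup.mk' (closure T)))
        (fun Y hY x _ hxY => by
          rw [mem_comap, mem_centralizer_singleton_iff, ← commutatorElement_eq_one_iff_mul_comm,
            ← map_commutatorElement, QuotientGroup.mk'_apply, QuotientGroup.eq_one_iff]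
          exact hy x ⟨Y, hY, hxY⟩) (mem_top x)
      rwa [mem_comap, mem_centralizer_singleton_iff, ← commutatorElement_eq_one_iff_mul_comm,
        ← map_commutatorElement, QuotientGroup.mk'_apply, QuotientGroup.eq_one_iff] at h
    refine commutator_le.2 fun x _ y _ => key y (fun x hx => ?_) x
    rw [← commutatorElement_inv]
    refine inv_mem (key x (fun z hz => ?_) y)
    obtain ⟨Y, hY, hx⟩ := hx
    obtain ⟨Z, hZ, hz⟩ := hz
    obtain ⟨a, ha, haY, haZ⟩ := hne Y Z hY hZ
    exact hDT a ha (commutator_mem_commutator (hz a haZ) (hx a haY))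
  · refine (Set.ncard_iUnion_le_of_fintype _).trans ?_
    refine (Finset.sum_le_card_nsmul _ _ (m * (m ^ q ^ 3).factorial) fun a _ => ?_).trans
      (by rw [smul_eq_mul, Finset.card_univ, ← Nat.card_eq_fintype_card, hA])
    by_cases ha : a = 1
    · simp [ha]
    refine ((Set.toFinite _).ncard_biUnion_le _).trans ?_
    rw [finsum_mem_eq_finite_toFinset_sum _ (Set.toFinite _)]
    refine (Finset.sum_le_card_nsmul _ _ (m ^ q ^ 3).factorial fun x hx => ?_).trans ?_
    · rw [Set.Finite.mem_toFinset] at hx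
      rw [← Nat.card_coe_set_eq]
      exact (H28.card_isConj_eq_index x).trans_le (hcl x hx.2.2)
    · rw [smul_eq_mul, ← Set.ncard_eq_toFinset_card]
      refine Nat.mul_le_mul_right _ (le_trans ?_ (hDc a ha))
      exact Set.ncard_le_ncard (t := (D a : Set G)) fun x hx => hx.2.1
  · intro t ht
    simp only [hT, Set.mem_iUnion] at ht
    obtain ⟨a, x, ⟨ha, hx, -⟩, h⟩ := ht
    obtain ⟨g, rfl⟩ := isConj_iff.1 h
    obtain ⟨k, hk⟩ := Nat.dvd_factorial Nat.card_pos (hDc a ha)
    have h1 : x ^ Nat.card (D a) = 1 := congrArg Subtype.val (pow_card_eq_one' (x := (⟨x, hx⟩ : D a)))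
    rw [conj_pow, hk, pow_mul, h1]
    simp

theorem bound : ∃ F : ℕ → ℕ → ℕ, ∀ (G : Type u) [Group G] [Finite G] (T : Set G) (n e : ℕ),
    (∀ g : G, ∀ t ∈ T, g * t * g⁻¹ ∈ T) → T.ncard ≤ n → 0 < e → (∀ t ∈ T, t ^ e = 1) →
    Nat.card (closure T) ≤ F n e := by
  refine ⟨fun n e => n ^ n * (n ^ n * e) ^ (n ^ n * n), fun G _ _ T n e h2 h3 he h4 => ?_⟩
  have h5 : Nat.card (Subtype.val ⁻¹' T : Set (closure T)) ≤ n := by
    rw [Nat.card_coe_set_eq]
    exact (Set.ncard_le_ncard_of_injOn Subtype.val (fun _ h => h) Subtype.val_injective.injOn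
      (Set.toFinite T)).trans h3
  have h6 : ∀ g : closure T, ∀ t ∈ (Subtype.val ⁻¹' T : Set (closure T)),
      g * t * g⁻¹ ∈ (Subtype.val ⁻¹' T : Set (closure T)) := fun g t ht => h2 g t ht
  have h7 : ∀ t ∈ (Subtype.val ⁻¹' T : Set (closure T)), t ^ e = 1 :=
    fun t ht => Subtype.ext (h4 t ht)
  exact dietzmann _ (closure_preimage_eq_top T) h6 h5 he h7

theorem fx_eq {A G : Type*} [Group A] [Group G] [MulDistribMulAction A G] (a : A) :
    Fx (MulDistribMulAction.toMulAut A G) a = FixedPoints.subgroup (Subgroup.zpowers a) G := by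
  ext x
  rw [mem_Fx, FixedPoints.mem_subgroup]
  refine ⟨fun h b => ?_, fun h => h ⟨a, mem_zpowers a⟩⟩
  have h1 : zpowers a ≤ MulAction.stabilizer A x := (zpowers_le (G := A)).2 h
  exact h1 b.2

/-- There is a function `f` of two natural-number arguments with the following property. Let `q` be a prime and `A` an elementary abelian group of order `q³` acting by automorphisms on a finite group `G` of order prime to `q`, and suppose that for every non-identity `a ∈ A` the derived subgroup of the fixed-point subgroup `C_G(a)` has order at most `m`. Then the derived subgroup of `G` has order at most `f(q, m)`. -/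
theorem result :
    ∃ f : ℕ → ℕ → ℕ, ∀ (q m : ℕ) (A G : Type u) [Group A] [Finite A] [Group G] [Finite G] [MulDistribMulAction A G],
      q.Prime → Nat.card A = q ^ 3 → (∀ a b : A, a * b = b * a) → (∀ a : A, a ^ q = 1) → ¬ q ∣ Nat.card G →
      (∀ a : A, a ≠ 1 → Nat.card ↥(commutator ↥(FixedPoints.subgroup (Subgroup.zpowers a) G)) ≤ m) →
      Nat.card ↥(commutator G) ≤ f q m := by
  obtain ⟨F, hF⟩ := bound.{u}
  refine ⟨fun q m => F (q ^ 3 * (m * (m ^ q ^ 3).factorial)) m.factorial, ?_⟩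
  intro q m A G _ _ _ _ _ hq hA hc he hG hm
  have : IsMulCommutative A := ⟨⟨hc⟩⟩
  have hcop : (Nat.card A).Coprime (Nat.card G) := by
    rw [hA]; exact Nat.Coprime.pow_left 3 ((Nat.Prime.coprime_iff_not_dvd hq).2 hG)
  obtain ⟨T, h1, h2, h3, h4⟩ := main (m := m) (MulDistribMulAction.toMulAut A G) hq hA he hcop
    (fun a ha => by rw [fx_eq a]; exact hm a ha)
  exact (card_le_of_le h1).trans (hF G T _ _ h2 h3 (Nat.factorial_pos m) h4)

end Cfsg.Agent.S4316
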