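import Cfsg.Agent.Base
import Cfsg.Statements.S4320

set_option autoImplicit false
set_option linter.unusedSectionVars false
open Cfsg

namespace Cfsg.Agent.S4320

open MonoidAlgebra

section
variable {G A : Type*} [Group G] [Fintype G] [DecidableEq G] [CommGroup A] [Fintype A] (π : G →* A)

/-- The relations of the universal crossed homomorphism. -/
noncomputable def K : Submodule (MonoidAlgebra ℤ A) (G → MonoidAlgebra ℤ A) :=
  Submodule.span _ {w | ∃ g h : G, w = Pi.single (g * h) 1 - Pi.single g 1 - single (π g) (1 : ℤ) • Pi.single h 1}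

/-- The augmentation. -/
noncomputable def aug (A : Type*) [CommGroup A] : MonoidAlgebra ℤ A →+* ℤ := (lift ℤ ℤ A 1).toRingHom

theorem aug_single (a : A) (r : ℤ) : aug A (single a r) = r := by simp [aug]

theorem exists_lift (hπ : Function.Surjective π) (hk : π.ker ≤ commutator G) (v : G → ℤ)
    (hv : Fintype.linearCombination ℤ (fun g => Additive.ofMul (π g)) v = 0) :
    ∃ w ∈ K π, ∀ g, aug A (w g) = v g := by
  let L : Submodule ℤ (G → ℤ) :=
    { carrier := {v | ∃ w ∈ K π, ∀ g, aug A (w g) = v g}
      add_mem' := by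
        rintro _ _ ⟨w, hw, e⟩ ⟨w', hw', e'⟩
        exact ⟨w + w', add_mem hw hw', fun g => by simp [e, e']⟩
      zero_mem' := ⟨0, zero_mem _, fun g => by simp⟩
      smul_mem' := by
        rintro r _ ⟨w, hw, e⟩
        exact ⟨single 1 r • w, Submodule.smul_mem _ _ hw, fun g => by simp [e, aug_single]⟩ }
  let f : G →* Multiplicative ((G → ℤ) ⧸ L) := MonoidHom.mk'
    (fun g => Multiplicative.ofAdd (L.mkQ (Pi.single g 1))) fun g h => by
      rw [← ofAdd_add, ← map_add]
      refine congrArg _ ((Submodule.Quotient.eq L).2 ⟨_, Submodule.subset_span ⟨g, h, rfl⟩, fun x => ?_⟩)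
      simp only [Pi.sub_apply, Pi.smul_apply, Pi.add_apply, Pi.single_apply, smul_eq_mul, map_sub, map_mul,
        aug_single, apply_ite (aug A), map_one, map_zero]
      ring
  let ψ := π.liftOfSurjective hπ ⟨f, hk.trans (Abelianization.commutator_subset_ker f)⟩
  have hψ : ∀ g, ψ (π g) = f g := fun g => π.liftOfRightInverse_comp_apply _ _ _ g
  have h1 := congrArg (fun x => (MonoidHom.toAdditiveLeft ψ) x) hv
  simp only [Fintype.linearCombination_apply, map_sum, map_zsmul, map_zero] at h1
  refine (Submodule.Quotient.mk_eq_zero L).1 ?_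
  rw [← h1, ← Submodule.mkQ_apply]
  conv_lhs => rw [← Finset.univ_sum_single v]
  rw [map_sum]
  refine Finset.sum_congr rfl fun g _ => ?_
  have : (Pi.single g (v g) : G → ℤ) = v g • Pi.single g 1 := by rw [← Pi.single_smul]; simp
  rw [this, map_zsmul]
  simp [hψ, f]

theorem exists_gamma (hπ : Function.Surjective π) (hk : π.ker ≤ commutator G) :
    ∃ γ : MonoidAlgebra ℤ A, (aug A γ).natAbs = Nat.card A ∧ ∀ g : G, γ • Pi.single g 1 ∈ K π := by
  let φ := Fintype.linearCombination ℤ (fun g => Additive.ofMul (π g))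
  have hφ : Function.Surjective φ := fun a => by
    obtain ⟨g, hg⟩ := hπ a.toMul
    exact ⟨Pi.single g 1, by simp [φ, hg]⟩
  have e0 := φ.quotKerEquivOfSurjective hφ
  have : Finite ((G → ℤ) ⧸ LinearMap.ker φ) := Finite.of_equiv _ e0.toEquiv.symm
  let e := LinearEquiv.ofFinrankEq (R := ℤ) (G → ℤ) (LinearMap.ker φ)
    ((Submodule.finiteQuotient_iff _).1 this).symm
  have h1 := Submodule.natAbs_det_equiv (LinearMap.ker φ) e
  rw [Nat.card_congr e0.toEquiv, ← LinearMap.det_toMatrix'] at h1
  choose w hw hw' using fun j : G => exists_lift π hπ hk (e (Pi.single j 1)) (e (Pi.single j 1)).2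
  let C : Matrix G G (MonoidAlgebra ℤ A) := Matrix.of fun i j => w j i
  refine ⟨C.det, ?_, fun g => ?_⟩
  · rw [RingHom.map_det]
    refine Eq.trans (congrArg (fun M : Matrix G G ℤ => (Matrix.det M).natAbs) ?_) h1
    ext i j
    simp [C, hw', LinearMap.toMatrix'_apply]
  · have : C.det • (Pi.single g 1 : G → MonoidAlgebra ℤ A) = ∑ j, C.adjugate j g • w j := by
      ext1 i
      have := congrFun (congrFun (Matrix.mul_adjugate C) i) g
      rw [Matrix.mul_apply, Matrix.smul_apply, Matrix.one_apply] at this
      rw [Pi.smul_apply, Pi.single_apply, ← this, Finset.sum_apply]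
      exact Finset.sum_congr rfl fun j _ => mul_comm _ _
    rw [this]
    exact Submodule.sum_mem _ fun j _ => Submodule.smul_mem _ _ (hw j)

theorem smul_eq_zero {γ : MonoidAlgebra ℤ A} (h : ∀ g : G, γ • Pi.single g 1 ∈ K π) {M : Type*}
    [AddCommGroup M] [Module (MonoidAlgebra ℤ A) M] (d : G → M)
    (hd : ∀ g h, d (g * h) = d g + (single (π g) 1 : MonoidAlgebra ℤ A) • d h) (g : G) : γ • d g = 0 := by
  have : K π ≤ LinearMap.ker (Fintype.linearCombination (MonoidAlgebra ℤ A) d) := by
    refine Submodule.span_le.2 ?_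
    rintro _ ⟨g, h, rfl⟩
    simp [hd]
  simpa using this (h g)

theorem pit (hπ : Function.Surjective π) (hk : π.ker ≤ commutator G) {N : Type*} [AddCommGroup N]
    (c : A → G → N) (hc : ∀ a g h, c a (g * h) = c a g + c (a * π g) h) (g : G) : ∑ a, c a g = 0 := by
  obtain ⟨γ, h1, h2⟩ := exists_gamma π hπ hk
  have h3 : ∀ a, γ.coeff a = γ.coeff 1 := fun a => by
    obtain ⟨x, rfl⟩ := hπ a
    have := smul_eq_zero π h2 (fun g => (1 : MonoidAlgebra ℤ A) - single (π g) 1) (fun g h => by
      rw [smul_eq_mul, mul_sub, single_mul_single, mul_one, map_mul]; simp) x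
    rw [smul_eq_mul, mul_sub, mul_one, sub_eq_zero] at this
    conv_lhs => rw [this]
    simp [coeff_mul_single_apply]
  have h4 : γ = ∑ a, single a (γ.coeff 1) := by
    classical
    ext a
    simp [coeff_sum, Finsupp.single_apply, h3 a]
  have h5 : (γ.coeff 1).natAbs = 1 := by
    rw [h4, map_sum] at h1
    simp only [aug_single, Finset.sum_const, Finset.card_univ, nsmul_eq_mul, Int.natAbs_mul,
      Int.natAbs_natCast, Nat.card_eq_fintype_card] at h1
    exact Nat.eq_of_mul_eq_mul_left Fintype.card_pos (by rw [h1, mul_one])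
  let ρ : A →* Module.End ℤ (A → N) :=
    { toFun := fun a => LinearMap.funLeft ℤ N (· * a)
      map_one' := by ext; simp
      map_mul' := fun a b => by ext; simp [mul_assoc] }
  let _ : Module (MonoidAlgebra ℤ A) (A → N) := Module.compHom _ (lift ℤ _ A ρ).toRingHom
  have h6 := congrFun (smul_eq_zero π h2 (fun g a => c a g) (fun g h => by
    ext a
    show _ = c a g + lift ℤ _ A ρ (single (π g) 1) (fun a => c a h) a
    simp [ρ, hc]) g) 1
  change lift ℤ _ A ρ γ (fun a => c a g) 1 = 0 at h6
  rw [h4] at h6
  simp only [map_sum, lift_single, LinearMap.sum_apply, LinearMap.smul_apply, Finset.sum_apply,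
    Pi.smul_apply, ← Finset.smul_sum] at h6
  rcases Int.natAbs_eq_iff.1 h5 with e | e <;> simpa [e, ρ] using h6

end

/-- The Principal Ideal Theorem of class field theory in its group-theoretic form: for every finite group `G`, the transfer homomorphism from `G` into the abelianization `G'/G''` of its derived subgroup `G'` is the trivial homomorphism. -/
theorem result {G : Type*} [Group G] [Finite G] :
    MonoidHom.transfer (Abelianization.of : ↥(commutator G) →* Abelianization ↥(commutator G)) =
      (1 : G →* Abelianization ↥(commutator G)) := by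
  classical
  ext g
  have := Fintype.ofFinite G
  let _ : CommGroup (G ⧸ commutator G) := inferInstanceAs (CommGroup (Abelianization G))
  let _ := (commutator G).fintypeQuotientOfFiniteIndex
  let T : (commutator G).LeftTransversal := default
  let α := T.2.leftQuotientEquiv
  have hα : ∀ q, ((α q : G) : G ⧸ commutator G) = q := fun q => α.symm_apply_apply q
  have hm : ∀ (q : G ⧸ commutator G) (g : G), (α q : G)⁻¹ * (g * α (q * (g : G ⧸ commutator G)⁻¹)) ∈
      commutator G := fun q g => by
    rw [← QuotientGroup.eq, QuotientGroup.mk_mul, hα, hα, mul_comm, inv_mul_cancel_right]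
  have h := pit (A := G ⧸ commutator G) (QuotientGroup.mk' (commutator G))⁻¹
    (fun a => by
      obtain ⟨x, hx⟩ := QuotientGroup.mk_surjective a⁻¹
      exact ⟨x, by simp [hx]⟩)
    (fun x hx => by simpa using hx)
    (fun q g => Additive.ofMul (Abelianization.of (⟨_, hm q g⟩ : commutator G))) (fun a g h => by
      rw [← ofMul_mul, ← map_mul]
      congr 2
      ext
      simp [mul_assoc, mul_comm]) g
  rw [← ofMul_prod, ofMul_eq_zero] at h
  rw [MonoidHom.transfer_def _ T, MonoidHom.one_apply, ← h, Subgroup.leftTransversals.diff]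
  refine Finset.prod_congr rfl fun q _ => ?_
  congr 2
  rw [Subgroup.smul_apply_eq_smul_apply_inv_smul, smul_eq_mul]
  congr 4
  obtain ⟨x, rfl⟩ := QuotientGroup.mk_surjective q
  rw [mul_comm]
  rfl

end Cfsg.Agent.S4320
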