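import Cfsg.Agent.Base
import Cfsg.Agent.H4.Cover
import Cfsg.Agent.H18.Misc
import Cfsg.Agent.H24.PiPart
import Cfsg.Agent.H26.SylowTI
import Cfsg.Statements.S4321

set_option autoImplicit false
open Cfsg

namespace Cfsg.Agent.S4321

open Subgroup H4

section
variable {G : Type*} [Group G] [Finite G] {p : ℕ} [hp : Fact p.Prime]

omit [Finite G] in
theorem lol {U X Y : Subgroup G} (h : ∀ x ∈ U, x ∈ X ∨ x ∈ Y) : U ≤ X ∨ U ≤ Y := by
  by_contra! h1
  obtain ⟨a, ha, h2⟩ := SetLike.not_le_iff_exists.1 h1.1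
  obtain ⟨b, hb, h3⟩ := SetLike.not_le_iff_exists.1 h1.2
  rcases h _ (mul_mem ha hb) with h4 | h4
  · exact h2 ((mul_mem_cancel_right ((h b hb).resolve_right h3)).1 h4)
  · exact h3 ((mul_mem_cancel_left ((h a ha).resolve_left h2)).1 h4)

theorem L1 {x y : G} (hx : ∃ k, x ^ p ^ k = 1) (hy : ¬ p ∣ ind y) (hc : (ind x).Coprime (ind y))
    (hle : ind (x * y) ≤ ind y) : x ∈ center G := by
  obtain ⟨k, hk⟩ := hx
  refine mem_center_iff.2 fun g => ?_
  have h1 := commutator_mem_classStab hc hle g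
  have h2 := card_classStab_dvd y
  have h3 := mem_centralizer_of_coprime_ind (x := x) (classStab y) (hc.symm.coprime_dvd_left h2) _ h1
  have h4 : Commute x (g * x * g⁻¹) := by
    rw [mul_inv_cancel_left, mul_assoc, inv_mul_eq_iff_eq_mul] at h3
    exact h3.symm
  have h5 : (x⁻¹ * (g * x * g⁻¹)) ^ p ^ k = 1 := by rw [h4.inv_left.mul_pow, inv_pow, conj_pow, hk]; simp
  have h6 := orderOf_eq_one_iff.1 (Nat.eq_one_of_dvd_coprimes ((hp.out.coprime_iff_not_dvd.2 hy).pow_left k)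
    (orderOf_dvd_of_pow_eq_one h5) ((orderOf_dvd_natCard _ h1).trans h2))
  rw [inv_mul_eq_one, eq_mul_inv_iff_mul_eq] at h6
  exact h6.symm

omit [Finite G] in
theorem pd {z : G} (h1 : z ≠ 1) (h : ∃ k, z ^ p ^ k = 1) : p ∣ orderOf z := by
  obtain ⟨k, hk⟩ := h
  obtain ⟨j, -, hj⟩ := (Nat.dvd_prime_pow hp.out).1 (orderOf_dvd_of_pow_eq_one hk)
  exact hj ▸ dvd_pow_self p fun e => h1 (orderOf_eq_one_iff.1 (by rw [hj, e, pow_zero]))

omit [Finite G] hp in
theorem pc {z : G} (h : ∃ k, z ^ p ^ k = 1) (g : G) : ∃ k, (g * z * g⁻¹) ^ p ^ k = 1 :=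
  h.imp fun k hk => by rw [conj_pow, hk]; simp

theorem key (hZ : ¬ p ∣ Nat.card (center G)) {x y : G} (x1 : x ≠ 1) (y1 : y ≠ 1) (hx : ∃ k, x ^ p ^ k = 1)
    (hy : ∃ k, y ^ p ^ k = 1) (hpy : ¬ p ∣ ind y) (hc : (ind x).Coprime (ind y)) :
    ∃ w : G, p ∣ orderOf w ∧ ¬ (ind w).Coprime (ind x) ∧ ¬ (ind w).Coprime (ind y) := by
  by_contra! H
  have nc : ∀ z : G, z ≠ 1 → (∃ k, z ^ p ^ k = 1) → z ∉ center G := fun z h1 h2 h3 =>
    hZ ((pd h1 h2).trans (orderOf_dvd_natCard _ h3))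
  set C := centralizer ({y} : Set G) with hC
  obtain ⟨S, -, hS⟩ := H26.exists_sylow_le_of_not_dvd_index (K := C) IsPGroup.of_bot bot_le hpy
  by_cases hpx : p ∣ ind x
  swap
  · obtain ⟨g, hg⟩ := H18.exists_conj_mem_sylow S hx
    have hx' := pc hx g
    have x1' : g * x * g⁻¹ ≠ 1 := by simpa using x1
    rw [← ind_conj g x] at hc hpx H
    generalize g * x * g⁻¹ = x at *
    have h1 : Commute x y := mem_cent_iff.1 (hS hg)
    have h2 := ind_mul_dvd_of_coprime hc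
    have h3 : p ∣ orderOf (x * y) := pd (fun e => nc y y1 hy (ind_eq_one_iff.1 (by
      rwa [eq_inv_of_mul_eq_one_left e, ind_inv, Nat.coprime_self] at hc))) (by
      obtain ⟨a, ha⟩ := hx'
      obtain ⟨b, hb⟩ := hy
      exact ⟨a + b, by rw [h1.mul_pow, pow_add, pow_mul, ha, mul_comm (p ^ a), pow_mul, hb]; simp⟩)
    by_cases h4 : (ind (x * y)).Coprime (ind x)
    · exact nc x x1' hx' (L1 hx' hpy hc (Nat.le_of_dvd (ind_pos y) (h4.dvd_of_dvd_mul_left h2)))
    · exact nc y y1 hy (L1 hy hpx hc.symm (ind_mul_comm x y ▸ Nat.le_of_dvd (ind_pos x)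
        ((H _ h3 h4).dvd_of_dvd_mul_right h2)))
  replace H : ∀ w : G, p ∣ orderOf w → p ∣ ind w → (ind w).Coprime (ind y) := fun w h1 h2 =>
    H w h1 fun e => hp.out.not_dvd_one (e ▸ Nat.dvd_gcd h2 hpx)
  have h1 : ∀ c : C, ¬ p ∣ orderOf c → ¬ p ∣ ind c := fun c hc e => by
    obtain ⟨k, hk⟩ := hy
    have a1 : Commute y c := (mem_cent_iff.1 c.2).symm
    have a2 : (orderOf y).Coprime (orderOf (c : G)) := by
      rw [orderOf_coe]
      exact ((hp.out.coprime_iff_not_dvd.2 hc).pow_left k).coprime_dvd_left (orderOf_dvd_of_pow_eq_one hk)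
    refine nc y y1 ⟨k, hk⟩ (ind_eq_one_iff.1 (Nat.Coprime.eq_one_of_dvd (H (y * c) ?_ ?_).symm
      (ind_dvd_ind_mul_left a1 a2)))
    · rw [a1.orderOf_mul_eq_mul_orderOf_of_coprime a2]
      exact (pd y1 ⟨k, hk⟩).mul_right _
    · rw [ind, H24.centralizer_mul_of_coprime a1 a2, ← relIndex_mul_index inf_le_left, inf_relIndex_left]
      refine (e.trans (dvd_of_eq ?_)).mul_right _
      rw [ind, relIndex]
      congr 1
      ext g
      simp [mem_centralizer_singleton_iff, mem_subgroupOf, Subtype.ext_iff]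
  have hP := sylow_normal_of_not_dvd_ind (S.subtype hS) h1
  have h2 : ∀ c ∈ C, (∃ k, c ^ p ^ k = 1) → c ∈ (S : Subgroup G) := fun c hc h => by
    obtain ⟨g, hg⟩ := H18.exists_conj_mem_sylow (S.subtype hS) (x := ⟨c, hc⟩)
      (h.imp fun k hk => Subtype.ext hk)
    simpa [mul_assoc, mem_subgroupOf] using hP.conj_mem' _ hg g
  have h3 : ∀ c : C, ¬ p ∣ orderOf c → ∀ w ∈ (S : Subgroup G), w * c = c * w := fun c hc w hw => by
    obtain ⟨g, hg⟩ := exists_conj_mem_centralizer_sylow (S.subtype hS) (h1 c hc)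
    have := Normal.conj_mem' inferInstance _ hg g
    rw [mul_assoc, mul_assoc, inv_mul_cancel, mul_one, inv_mul_cancel_left] at this
    exact congrArg Subtype.val (this ⟨w, hS hw⟩ hw)
  have pos : ∀ w : G, p ∣ ind w → w ≠ 1 := fun w h e => hp.out.not_dvd_one (by
    rwa [e, ind_eq_one_iff.2 (one_mem _)] at h)
  have h4 : ∀ w : G, (∃ k, w ^ p ^ k = 1) → p ∣ ind w → w ∈ (S : Subgroup G).normalCore := by
    have : ∀ w : G, (∃ k, w ^ p ^ k = 1) → p ∣ ind w → w ∈ (S : Subgroup G) := fun w hw h => by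
      obtain ⟨g, hg⟩ := H18.exists_conj_mem_sylow S hw
      rw [← ind_conj g] at h
      obtain ⟨a, ha, b, hb, e⟩ := exists_mul_of_coprime_index (H _ (pd (pos _ h) (pc hw g)) h) g
      refine h2 w ?_ hw
      rw [show w = b⁻¹ * (g * w * g⁻¹) * b by
        calc w = b⁻¹ * a⁻¹ * (g * w * g⁻¹ * a) * b := by rw [e]; group
          _ = _ := by rw [← mem_cent_iff.1 ha]; group]
      exact mul_mem (mul_mem (inv_mem hb) (hS hg)) hb
    exact fun w hw h g => this _ (pc hw g) (by rwa [ind_conj])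
  have pS : ∀ w ∈ (S : Subgroup G), ∃ k, w ^ p ^ k = 1 := fun w hw =>
    (S.isPGroup' ⟨w, hw⟩).imp fun k hk => congrArg Subtype.val hk
  have xS : x ∉ centralizer ((S : Subgroup G) : Set G) := fun e => not_dvd_ind_of_mem_centralizer_sylow S e hpx
  have h5 : (S : Subgroup G).Normal := by
    rcases lol (U := S) (X := (S : Subgroup G).normalCore) (Y := centralizer ((S : Subgroup G).normalCore : Set G))
      fun w hw => (em (p ∣ ind w)).imp (h4 w (pS w hw)) fun e => by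
        obtain ⟨g, hg⟩ := exists_conj_mem_centralizer_sylow S e
        simpa [mul_assoc] using Normal.conj_mem' inferInstance _ (centralizer_le (normalCore_le _) hg) g
      with h | h
    · rw [le_antisymm h (normalCore_le _)]
      infer_instance
    · exact (xS (le_centralizer_iff.1 h (h4 x hx hpx))).elim
  refine nc y y1 hy (mem_center_iff.2 fun g => mem_cent_iff.1 (mem_of_forall_primePow_mem (H := C) g ?_))
  intro e q j hq _ hj
  generalize g ^ e = c at hj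
  by_cases hqp : q = p
  · obtain ⟨a, ha⟩ := H18.exists_conj_mem_sylow S ⟨j, by rw [← hqp, ← hj, pow_orderOf_eq_one]⟩
    simpa [mul_assoc] using hS (h5.conj_mem' _ ha a)
  have h6 : ∀ w ∈ (S : Subgroup G), p ∣ ind w → ∃ u ∈ (S : Subgroup G), u⁻¹ * w * u ∈ centralizer ({c} : Set G) :=
    fun w hw h => by
      have a1 : ∀ r : ℕ, r.Prime → r ∣ ind w → r = p := fun r hr h' => by
        by_contra a2
        have := Fact.mk hr
        obtain ⟨R⟩ : Nonempty (Sylow r C) := inferInstance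
        rw [ind, ← relIndex_eq_index_of_coprime (H w (pd (pos w h) (pS w hw)) h)] at h'
        refine R.not_dvd_index (h'.trans (index_dvd_of_le fun a ha => mem_cent_iff.2 (h3 a (fun a3 => a2 ?_) w hw).symm))
        obtain ⟨i, hi⟩ := IsPGroup.iff_orderOf.1 R.isPGroup' ⟨a, ha⟩
        rw [orderOf_mk] at hi
        exact ((Nat.prime_dvd_prime_iff_eq hp.out hr).1 (hp.out.dvd_of_dvd_pow (hi ▸ a3))).symm
      have := Fact.mk hq
      obtain ⟨Q, -, hQ⟩ := H26.exists_sylow_le_of_not_dvd_index (p := q) (K := centralizer ({w} : Set G))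
        IsPGroup.of_bot bot_le fun a => hqp (a1 q hq a)
      obtain ⟨g, hg⟩ := H18.exists_conj_mem_sylow Q (x := c) ⟨j, by rw [← hj, pow_orderOf_eq_one]⟩
      obtain ⟨a, ha, u, hu, rfl⟩ := exists_mul_of_coprime_index (H := centralizer ({w} : Set G)) (K := S)
        (Nat.coprime_of_dvd fun r hr b1 b2 => S.not_dvd_index (a1 r hr b1 ▸ b2)) g
      have a3 := mem_cent_iff.1 (mul_mem (mul_mem (inv_mem ha) (hQ hg)) ha)
      refine ⟨u, hu, mem_cent_iff.2 ?_⟩
      calc _ = u⁻¹ * (w * (a⁻¹ * (a * u * c * (a * u)⁻¹) * a)) * u := by group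
        _ = _ := by rw [← a3]; group
  have h7 : (centralizer ({c} : Set G)).subgroupOf S = ⊤ := by
    by_contra a1
    obtain ⟨M, hM, a2⟩ := (eq_top_or_exists_le_coatom _).resolve_left a1
    have := S.isPGroup'.isNilpotent
    have a3 := NormalizerCondition.normal_of_coatom M Group.normalizerCondition_of_isNilpotent hM
    rcases lol (U := ⊤) (X := M) (Y := (centralizer ((S : Subgroup G) : Set G)).subgroupOf S) fun w _ =>
      (em (p ∣ ind (w : G))).imp (fun e => by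
        obtain ⟨u, hu, a4⟩ := h6 w w.2 e
        simpa [mul_assoc] using a3.conj_mem (⟨u, hu⟩⁻¹ * w * ⟨u, hu⟩) (a2 a4) ⟨u, hu⟩) fun e => by
        obtain ⟨g, hg⟩ := exists_conj_mem_centralizer_sylow S e
        simpa [mul_assoc, mem_subgroupOf] using Normal.conj_mem' inferInstance _ hg g
      with h | h
    · exact hM.1 (eq_top_iff.2 h)
    · exact xS (h (mem_top ⟨x, normalCore_le _ (h4 x hx hpx)⟩))
  exact mem_cent_iff.2 (mem_cent_iff.1 (subgroupOf_eq_top.1 h7 (h2 y (mem_cent_iff.2 rfl) hy))).symm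

theorem key2 (hZ : ¬ p ∣ Nat.card (center G)) {x y : G} (hx : p ∣ orderOf x) (hy : p ∣ orderOf y) :
    ∃ w : G, p ∣ orderOf w ∧ ¬ (ind w).Coprime (ind x) ∧ ¬ (ind w).Coprime (ind y) := by
  have h : ∀ z : G, p ∣ orderOf z → ∃ u : G, u ≠ 1 ∧ (∃ k, u ^ p ^ k = 1) ∧ ind u ∣ ind z := fun z hz => by
    have := orderOf_pow_orderOf_div (orderOf_pos z).ne' hz
    exact ⟨_, fun e => hp.out.ne_one (by rw [← this, e, orderOf_one]),
      ⟨1, orderOf_dvd_iff_pow_eq_one.1 (by rw [this, pow_one])⟩, ind_pow_dvd z _⟩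
  obtain ⟨u, u1, u2, u3⟩ := h x hx
  obtain ⟨v, v1, v2, v3⟩ := h y hy
  suffices ∃ w : G, p ∣ orderOf w ∧ ¬ (ind w).Coprime (ind u) ∧ ¬ (ind w).Coprime (ind v) from
    this.imp fun w h => ⟨h.1, fun e => h.2.1 (e.coprime_dvd_right u3), fun e => h.2.2 (e.coprime_dvd_right v3)⟩
  by_cases hc : (ind u).Coprime (ind v)
  · by_cases h1 : p ∣ ind v
    · exact (key hZ v1 u1 v2 u2 (fun e => hp.out.not_dvd_one (hc ▸ Nat.dvd_gcd e h1)) hc.symm).imp
        fun w h => ⟨h.1, h.2.2, h.2.1⟩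
    · exact key hZ u1 v1 u2 v2 h1 hc
  · exact ⟨u, pd u1 u2, fun e => hc (by rw [(Nat.coprime_self _).1 e]; exact Nat.coprime_one_left _), hc⟩

end

/-- Let `G` be a finite group and `p` a prime not dividing the order of the centre of `G`. Consider the primes dividing the size of some conjugacy class of a `p`-singular element (an element of order divisible by `p`), two of them adjacent when their product divides such a class size. Then any two distinct such primes are joined by a path with at most 3 edges (the graph is connected of diameter at most 3). -/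
theorem result {G : Type*} [Group G] [Finite G] (p : ℕ) [Fact p.Prime]
    (hZ : ¬ p ∣ Nat.card ↥(Subgroup.center G)) (r s : ℕ) (hr : (r.Prime ∧ ∃ x : G, p ∣ orderOf x ∧ r ∣ (Subgroup.centralizer ({x} : Set G)).index)) (hs : (s.Prime ∧ ∃ x : G, p ∣ orderOf x ∧ s ∣ (Subgroup.centralizer ({x} : Set G)).index)) (hrs : r ≠ s) :
    (∃ x : G, p ∣ orderOf x ∧ r * s ∣ (Subgroup.centralizer ({x} : Set G)).index) ∨ (∃ t : ℕ, (t.Prime ∧ ∃ x : G, p ∣ orderOf x ∧ t ∣ (Subgroup.centralizer ({x} : Set G)).index) ∧ t ≠ r ∧ t ≠ s ∧ (∃ x : G, p ∣ orderOf x ∧ r * t ∣ (Subgroup.centralizer ({x} : Set G)).index) ∧ (∃ x : G, p ∣ orderOf x ∧ t * s ∣ (Subgroup.centralizer ({x} : Set G)).index)) ∨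
      (∃ t u : ℕ, (t.Prime ∧ ∃ x : G, p ∣ orderOf x ∧ t ∣ (Subgroup.centralizer ({x} : Set G)).index) ∧ (u.Prime ∧ ∃ x : G, p ∣ orderOf x ∧ u ∣ (Subgroup.centralizer ({x} : Set G)).index) ∧ t ≠ r ∧ u ≠ s ∧ t ≠ u ∧ (∃ x : G, p ∣ orderOf x ∧ r * t ∣ (Subgroup.centralizer ({x} : Set G)).index) ∧ (∃ x : G, p ∣ orderOf x ∧ t * u ∣ (Subgroup.centralizer ({x} : Set G)).index) ∧ (∃ x : G, p ∣ orderOf x ∧ u * s ∣ (Subgroup.centralizer ({x} : Set G)).index)) := by
  obtain ⟨hr, x, hx, rx⟩ := hr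
  obtain ⟨hs, y, hy, sy⟩ := hs
  obtain ⟨w, hw, h1, h2⟩ := key2 hZ hx hy
  obtain ⟨t, ht, tw, tx⟩ := Nat.Prime.not_coprime_iff_dvd.1 h1
  obtain ⟨u, hu, uw, uy⟩ := Nat.Prime.not_coprime_iff_dvd.1 h2
  have m : ∀ {a b n : ℕ}, a.Prime → b.Prime → a ≠ b → a ∣ n → b ∣ n → a * b ∣ n := fun ha hb h c d =>
    ((Nat.coprime_primes ha hb).2 h).mul_dvd_of_dvd_of_dvd c d
  by_cases tr : t = r
  · subst tr
    by_cases us : u = s
    · subst us
      exact .inl ⟨w, hw, m ht hu hrs tw uw⟩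
    by_cases ur : u = t
    · subst ur
      exact .inl ⟨y, hy, m hu hs hrs uy sy⟩
    exact .inr (.inl ⟨u, ⟨hu, w, hw, uw⟩, ur, us, ⟨w, hw, m ht hu (Ne.symm ur) tw uw⟩, y, hy, m hu hs us uy sy⟩)
  by_cases ts : t = s
  · subst ts
    exact .inl ⟨x, hx, m hr ht hrs rx tx⟩
  by_cases us : u = s
  · subst us
    exact .inr (.inl ⟨t, ⟨ht, w, hw, tw⟩, tr, ts, ⟨x, hx, m hr ht (Ne.symm tr) rx tx⟩, w, hw, m ht hu ts tw uw⟩)
  by_cases tu : t = u
  · subst tu
    exact .inr (.inl ⟨t, ⟨ht, w, hw, tw⟩, tr, ts, ⟨x, hx, m hr ht (Ne.symm tr) rx tx⟩, y, hy, m ht hs ts uy sy⟩)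
  exact .inr (.inr ⟨t, u, ⟨ht, w, hw, tw⟩, ⟨hu, w, hw, uw⟩, tr, us, tu, ⟨x, hx, m hr ht (Ne.symm tr) rx tx⟩,
    ⟨w, hw, m ht hu tu tw uw⟩, y, hy, m hu hs us uy sy⟩)

end Cfsg.Agent.S4321
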