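import Cfsg.Statements.S4423
import Cfsg.Agent.H27.Zsigmondy

set_option autoImplicit false
open Cfsg

namespace Cfsg.Agent.S4423

/-- Size of the primitive part of `q^e - 1`. For a prime power `q` and `e ≥ 3`, call a divisor of `q^e - 1` primitive when it is coprime to `q^i - 1` for every `1 ≤ i < e`; the primitive part is the largest primitive divisor. Apart from thirteen exceptional pairs, the primitive part is at least `3e + 1`: there is a primitive divisor `m ≥ 3e + 1` unless `(q, e)` is `(2, 6)` (where every primitive divisor is 1), one of `(2,4), (2,10), (2,12), (2,18), (3,4), (3,6), (5,6)` (where the primitive part is exactly `e + 1`), or one of `(2,3), (2,8), (2,20), (4,3), (4,6)` (where it is exactly `2e + 1`). The statement asserts the existence of a primitive divisor `m ≥ 3e + 1` outside the thirteen pairs, and that every primitive divisor is at most `2e + 1` for the thirteen pairs. -/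
theorem result (q e : ℕ) (hq : IsPrimePow q) (he : 3 ≤ e) :
    ((q, e) ∉ [(2, 6), (2, 4), (2, 10), (2, 12), (2, 18), (3, 4), (3, 6), (5, 6), (2, 3), (2, 8), (2, 20), (4, 3), (4, 6)] →
      ∃ m : ℕ, m ∣ q ^ e - 1 ∧ (∀ i : ℕ, 1 ≤ i → i < e → Nat.Coprime m (q ^ i - 1)) ∧ 3 * e + 1 ≤ m) ∧
    ((q, e) ∈ [(2, 6), (2, 4), (2, 10), (2, 12), (2, 18), (3, 4), (3, 6), (5, 6), (2, 3), (2, 8), (2, 20), (4, 3), (4, 6)] →
      ∀ m : ℕ, m ∣ q ^ e - 1 → (∀ i : ℕ, 1 ≤ i → i < e → Nat.Coprime m (q ^ i - 1)) → m ≤ 2 * e + 1) := by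
  constructor
  · intro h
    obtain ⟨m, hm, hb⟩ := H27.exists_isPrimDiv_zsBound_le hq.two_le he
    refine ⟨m, hm.1, hm.2, ?_⟩
    unfold H27.zsBound at hb
    split_ifs at hb with h1 h2 h3
    · exact absurd (by rw [h1]; simp) h
    · refine absurd ?_ h
      simp only [List.mem_cons, List.not_mem_nil] at h2 ⊢
      tauto
    · refine absurd ?_ h
      simp only [List.mem_cons, List.not_mem_nil] at h3 ⊢
      tauto
    · exact hb
  · intro h m hm hcop
    have key : ∀ a b : ℕ, q ^ e - 1 = a * b → a ∣ (∏ i ∈ Finset.Ico 1 e, (q ^ i - 1)) ^ 2 →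
        0 < b → b ≤ 2 * e + 1 → m ≤ 2 * e + 1 := by
      intro a b h1 h2 h3 h4
      have h5 : Nat.Coprime m a := by
        refine Nat.Coprime.coprime_dvd_right h2 (Nat.Coprime.pow_right 2 ?_)
        exact Nat.Coprime.prod_right fun i hi =>
          hcop i (Finset.mem_Ico.1 hi).1 (Finset.mem_Ico.1 hi).2
      rw [h1] at hm
      exact (Nat.le_of_dvd h3 (h5.dvd_of_dvd_mul_left hm)).trans h4
    simp only [List.mem_cons, Prod.mk.injEq, List.not_mem_nil, or_false] at h
    rcases h with ⟨rfl, rfl⟩ | ⟨rfl, rfl⟩ | ⟨rfl, rfl⟩ | ⟨rfl, rfl⟩ | ⟨rfl, rfl⟩ | ⟨rfl, rfl⟩ |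
      ⟨rfl, rfl⟩ | ⟨rfl, rfl⟩ | ⟨rfl, rfl⟩ | ⟨rfl, rfl⟩ | ⟨rfl, rfl⟩ | ⟨rfl, rfl⟩ | ⟨rfl, rfl⟩
    · exact key 63 1 (by norm_num) (by decide +kernel) (by norm_num) (by norm_num)
    · exact key 3 5 (by norm_num) (by decide +kernel) (by norm_num) (by norm_num)
    · exact key 93 11 (by norm_num) (by decide +kernel) (by norm_num) (by norm_num)
    · exact key 315 13 (by norm_num) (by decide +kernel) (by norm_num) (by norm_num)
    · exact key 13797 19 (by norm_num) (by decide +kernel) (by norm_num) (by norm_num)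
    · exact key 16 5 (by norm_num) (by decide +kernel) (by norm_num) (by norm_num)
    · exact key 104 7 (by norm_num) (by decide +kernel) (by norm_num) (by norm_num)
    · exact key 2232 7 (by norm_num) (by decide +kernel) (by norm_num) (by norm_num)
    · exact key 1 7 (by norm_num) (by decide +kernel) (by norm_num) (by norm_num)
    · exact key 15 17 (by norm_num) (by decide +kernel) (by norm_num) (by norm_num)
    · exact key 25575 41 (by norm_num) (by decide +kernel) (by norm_num) (by norm_num)
    · exact key 9 7 (by norm_num) (by decide +kernel) (by norm_num) (by norm_num)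
    · exact key 315 13 (by norm_num) (by decide +kernel) (by norm_num) (by norm_num)

end Cfsg.Agent.S4423
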