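import Cfsg.Statements.S4424
import Cfsg.Agent.H35.PRegInd

set_option autoImplicit false
open Cfsg H28

namespace Cfsg.Agent.S4424

/-- Let χ be an irreducible character of the finite group G lying in the p-block B (relative to a maximal ideal M of the algebraic integers containing p), and let p^a be the p-part of the order of G. Then the class function that equals p^a · χ on the p-regular elements and vanishes on the p-singular elements is an integer combination of the irreducible characters in B: there are integers a_ψ, zero for ψ outside B, with that function equal to Σ a_ψ ψ. -/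
theorem result {G : Type*} [Group G] [Finite G] (p : ℕ) [Fact p.Prime] (M : Ideal Cfsg.AlgInt) (hM : Cfsg.IsPModular p M) (B : Set (Cfsg.IrrCharacter G)) (hB : Cfsg.IsPBlock M B) (χ : Cfsg.IrrCharacter G) (hχ : χ ∈ B) : ∃ a : Cfsg.IrrCharacter G → ℤ, (∀ ψ, ψ ∉ B → a ψ = 0) ∧ (fun x : G => if p ∣ orderOf x then (0 : ℂ) else ((p ^ (Nat.card G).factorization p : ℕ) : ℂ) * (χ : G → ℂ) x) = fun x => ∑ᶠ ψ : Cfsg.IrrCharacter G, (a ψ : ℂ) * (ψ : G → ℂ) x := by
  have := Fintype.ofFinite G
  have := hM.2.1
  rw [← H35.smul_pReg_eq]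
  obtain ⟨n, -, hn, h⟩ := (((H35.inB_irr hχ).pReg hM hB).smul _).exists_int
    (H35.isGenChar_tilde hM.1 χ.2.isGeneralizedCharacter)
  refine ⟨n, hn, funext fun x => ?_⟩
  rw [h x, H35.finsum_mem_eq_bF, finsum_irr]
  exact H35.sum_bF_eq_sum_univ fun ψ hψ => by rw [hn ψ hψ]; simp

end Cfsg.Agent.S4424
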