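import Cfsg.Statements.S4425
import Cfsg.Agent.H35.PRegInd

set_option autoImplicit false
open Cfsg H28

namespace Cfsg.Agent.S4425

/-- Let χ be an irreducible character of the finite group G, p a prime, p^a the p-part of the order of G and p^b the p-part of the degree χ(1). Let χ̃ be the class function equal to p^a · χ on p-regular elements and zero on p-singular elements. Then p^(−b) · χ̃ is a generalized character of G, while p^(−(b+1)) · χ̃ is not. -/
theorem result {G : Type*} [Group G] [Finite G] (p : ℕ) [Fact p.Prime] (χ : Cfsg.IrrCharacter G) : Cfsg.IsGeneralizedCharacter G (fun x : G => if p ∣ orderOf x then (0 : ℂ) else ((p ^ ((Nat.card G).factorization p - (Cfsg.charDegree (χ : G → ℂ)).factorization p) : ℕ) : ℂ) * (χ : G → ℂ) x) ∧ ¬ Cfsg.IsGeneralizedCharacter G (fun x : G => if p ∣ orderOf x then (0 : ℂ) else ((p ^ (Nat.card G).factorization p : ℕ) : ℂ) / ((p ^ ((Cfsg.charDegree (χ : G → ℂ)).factorization p + 1) : ℕ) : ℂ) * (χ : G → ℂ) x) := by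
  have := Fintype.ofFinite G
  have hp : p.Prime := Fact.out
  rw [← H35.smul_pReg_eq, ← H35.smul_pReg_eq]
  refine ⟨by simpa using H35.isGenChar_pow_sub_smul_pReg hp χ, fun h => ?_⟩
  obtain ⟨k, hk⟩ := H35.exists_degree_of_vanish hp h
    (fun x hx => by rw [Pi.smul_apply, H35.pReg_of_sing _ hx, smul_zero])
  rw [Pi.smul_apply, H35.pReg_one hp, smul_eq_mul, ← H35.coe_deg] at hk
  have hp0 : (p : ℂ) ≠ 0 := Nat.cast_ne_zero.2 hp.ne_zero
  have h1 : ((Cfsg.charDegree (χ : G → ℂ) : ℤ) : ℂ) =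
      ((p ^ ((Cfsg.charDegree (χ : G → ℂ)).factorization p + 1) * k : ℤ) : ℂ) := by
    push_cast at hk ⊢
    field_simp at hk
    rw [hk]
  have h2 : p ^ ((Cfsg.charDegree (χ : G → ℂ)).factorization p + 1) ∣
      Cfsg.charDegree (χ : G → ℂ) := by
    rw [← Int.natCast_dvd_natCast]
    exact ⟨k, by exact_mod_cast h1⟩
  rw [hp.pow_dvd_iff_le_factorization (H35.deg_ne_zero χ)] at h2
  omega

end Cfsg.Agent.S4425
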