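import Cfsg.Statements.S4427
import Cfsg.Agent.H41.ProjChar
import Cfsg.Agent.H28.CharKer
import Cfsg.Agent.H35.PReg

set_option autoImplicit false
open Cfsg

namespace Cfsg.Agent.S4427

/-- Let G be a finite group of order p^a · q^b · r^c with p, q, r distinct primes, and suppose that G has exactly q^b · r^c elements of order not divisible by p. Then G has a normal p-complement: a normal subgroup of order q^b · r^c. -/
theorem result {G : Type*} [Group G] [Finite G] (p q r a b c : ℕ) (hp : p.Prime) (hq : q.Prime) (hr : r.Prime) (hpq : p ≠ q) (hpr : p ≠ r) (hqr : q ≠ r) (hG : Nat.card G = p ^ a * q ^ b * r ^ c) (hcount : Nat.card {g : G // ¬ p ∣ orderOf g} = q ^ b * r ^ c) : ∃ N : Subgroup G, N.Normal ∧ Nat.card N = q ^ b * r ^ c := by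
  open H28 H34 H41 in
  classical
  have := Fintype.ofFinite G
  obtain ⟨M, hM⟩ := H35.exists_isPModular p hp
  have := hM.2.1
  have := Fact.mk hq
  have := Fact.mk hr
  obtain ⟨Q, hQ⟩ := Sylow.exists_subgroup_card_pow_prime q (G := G) (n := b)
    (by rw [hG]; exact Dvd.intro (p ^ a * r ^ c) (by ring))
  obtain ⟨R, hR⟩ := Sylow.exists_subgroup_card_pow_prime r (G := G) (n := c)
    (by rw [hG]; exact Dvd.intro_left _ rfl)
  have hpQ : ¬ p ∣ Nat.card Q := fun h =>
    hpq ((Nat.prime_dvd_prime_iff_eq hp hq).1 (hp.dvd_of_dvd_pow (hQ ▸ h)))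
  have hpR : ¬ p ∣ Nat.card R := fun h =>
    hpr ((Nat.prime_dvd_prime_iff_eq hp hr).1 (hp.dvd_of_dvd_pow (hR ▸ h)))
  obtain ⟨i, hi, hii, hi1, hiQ, -, x, y, hiR⟩ := exists_idem_le_avg hM hpQ hpR
  have hq0 : (q : ℂ) ^ b ≠ 0 := pow_ne_zero _ (Nat.cast_ne_zero.2 hq.ne_zero)
  have hr0 : (r : ℂ) ^ c ≠ 0 := pow_ne_zero _ (Nat.cast_ne_zero.2 hr.ne_zero)
  have hp0 : (p : ℂ) ^ a ≠ 0 := pow_ne_zero _ (Nat.cast_ne_zero.2 hp.ne_zero)
  have hΦ := isCharacter_pch hii
  have h1 : classInner (pch (avg Q)) (pch (avg R)) = ((p ^ a : ℕ) : ℂ) := by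
    rw [classInner_pch_genChar _ (isCharacter_pch (avg_mul_self R)).isGeneralizedCharacter,
      ev_avg, Finset.sum_eq_single (1 : Q)]
    · rw [OneMemClass.coe_one, pch_apply_one, coeff_avg, if_pos R.one_mem, hG, hQ, hR]
      push_cast
      field_simp
    · intro k _ hk
      rw [pch_apply']
      refine Finset.sum_eq_zero fun h _ => ?_
      rw [coeff_avg, if_neg]
      intro hm
      have e1 : orderOf (h⁻¹ * (k : G)⁻¹ * h) ∣ r ^ c := hR ▸ R.orderOf_dvd_natCard hm
      have e2 : orderOf (k : G) ∣ q ^ b := hQ ▸ Q.orderOf_dvd_natCard k.2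
      have e3 : orderOf (h⁻¹ * (k : G)⁻¹ * h) = orderOf (k : G) := by
        have := H35.orderOf_conj' (k : G)⁻¹ h⁻¹
        rwa [inv_inv, orderOf_inv] at this
      rw [e3] at e1
      have e4 := Nat.eq_one_of_dvd_coprimes
        (Nat.Coprime.pow b c ((Nat.coprime_primes hq hr).2 hqr)) e2 e1
      exact hk (Subtype.ext (orderOf_eq_one_iff.1 e4))
    · simp
  have h2 : (classInner (pch i) (pch i)).re ≤ (p ^ a : ℕ) := by
    have e1 := classInner_re_le_of_sub
      (isCharacter_pch_sub_of_factor (a := 1) hii (avg_mul_self Q) (by rw [one_mul, hiQ])) hΦ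
    have e2 := classInner_re_le_of_sub
      (isCharacter_pch_sub_of_factor hii (avg_mul_self R) hiR) (isCharacter_pch (avg_mul_self Q))
    rw [hΦ.classInner_comm (isCharacter_pch (avg_mul_self Q)),
      (isCharacter_pch (avg_mul_self R)).classInner_comm (isCharacter_pch (avg_mul_self Q)),
      h1] at e2
    exact e1.trans e2
  set ψ : G → ℂ := pRegularPart p fun _ => 1 with hψ
  have h3 : pRegularPart p (pch i) = pch i :=
    H35.pReg_eq_self_iff.2 fun g hg => pch_eq_zero_of_sing hM hi hii hg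
  have h4 : classInner (pch i) ψ = 1 := by
    rw [hψ, ← H35.classInner_pReg_left, h3, classInner_pch_genChar _ isGeneralizedCharacter_one,
      hi1]
  have h5 : classInner ψ (pch i) = 1 := by rw [← classInner_conj_symm, h4, map_one]
  have h6 : classInner ψ ψ = ((p : ℂ) ^ a)⁻¹ := by
    rw [hψ, H35.classInner_pReg_pReg, H35.classInner_pReg_eq_sum]
    simp only [map_one, mul_one, Finset.sum_const, nsmul_eq_mul]
    rw [← Fintype.card_subtype, ← Nat.card_eq_fintype_card, hcount, hG]
    push_cast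
    field_simp
  have h7 : pch i - ((p : ℂ) ^ a) • ψ = 0 := by
    by_contra hne
    have e1 := classInner_self_re_pos hne
    rw [classInner_sub_left, classInner_sub_right, classInner_sub_right, classInner_smul_left,
      classInner_smul_right, classInner_smul_left, classInner_smul_right, h4, h5, h6, map_pow,
      Complex.conj_natCast, mul_inv_cancel₀ hp0] at e1
    simp only [mul_one, sub_self, sub_zero, Complex.sub_re] at e1
    rw [← Nat.cast_pow, Complex.natCast_re] at e1
    linarith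
  refine ⟨charKer (pch i), hΦ.charKer_normal, ?_⟩
  rw [← hcount]
  refine Nat.card_congr (Equiv.subtypeEquivRight fun g => ?_)
  rw [hΦ.mem_charKer, sub_eq_zero.1 h7]
  simp only [Pi.smul_apply, smul_eq_mul, hψ, H35.pReg_one hp, H35.pReg_apply p]
  by_cases hg : p ∣ orderOf g <;> simp [hg, H35.pReg_apply, hp0.symm]

end Cfsg.Agent.S4427
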