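import Cfsg.Statements.S4428
import Cfsg.Agent.H37.Kernel
import Cfsg.Agent.H35.PReg

set_option autoImplicit false
open Cfsg

namespace Cfsg.Agent.S4428

open H28 H35 H37

/-- Let χ be an irreducible character of height zero in the p-block B of the finite group G (relative to a maximal ideal M of the algebraic integers containing p). Let x be a p-element of G with centralizer C, and let b be a block of C that induces B. Form the class function ϑ(c) = χ(x c) on C and its b-part (the sum over ψ ∈ b of the inner product of ϑ with ψ, times ψ). Then the b-part of ϑ does not vanish identically on the p-regular elements of C. (Compare the second main Theorem, which gives vanishing when b does not induce B.) -/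
theorem result {G : Type*} [Group G] [Finite G] (p : ℕ) [Fact p.Prime] (M : Ideal Cfsg.AlgInt) (hM : Cfsg.IsPModular p M) (B : Set (Cfsg.IrrCharacter G)) (hB : Cfsg.IsPBlock M B) (χ : Cfsg.IrrCharacter G) (hχ : χ ∈ B) (h0 : Cfsg.blockHeight p B (χ : G → ℂ) = 0) (x : G) (hx : ∃ k : ℕ, orderOf x = p ^ k) (b : Set (Cfsg.IrrCharacter (Subgroup.centralizer ({x} : Set G)))) (hb : Cfsg.IsInducedBlock M (Subgroup.centralizer ({x} : Set G)) b B) : ∃ y : Subgroup.centralizer ({x} : Set G), ¬ p ∣ orderOf y ∧ Cfsg.blockPart b (fun c : Subgroup.centralizer ({x} : Set G) => (χ : G → ℂ) (x * (c : G))) y ≠ 0 := by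
  have := hM.2.1
  have := Fintype.ofFinite G
  let C := Subgroup.centralizer ({x} : Set G)
  have := Fintype.ofFinite C
  obtain ⟨ψ, hψ⟩ := block_nonempty hb.1
  have h1 := (induced_height_zero_iff hM C hb hψ χ).1 ⟨hχ, h0⟩
  let ϑ : C → ℂ := fun c : C => (χ : G → ℂ) (x * (c : G))
  have hcomm : ∀ c : C, x * c = c * x := fun c =>
    (Subgroup.mem_centralizer_singleton_iff.1 c.2).symm
  have hϑc : IsClassFunction C ϑ := fun a b => by
    have : x * ((b * a * b⁻¹ : C) : G) = b * (x * a) * (b : G)⁻¹ := by
      simp only [Subgroup.coe_mul, Subgroup.coe_inv, ← mul_assoc, hcomm b]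
    simp only [ϑ, this]
    exact χ.2.isClassFunction _ _
  have h2 : MemLocalIdeal M (om (rc p ϑ - rc p (fun c : C => (χ : G → ℂ) c)) ψ) := by
    refine P_om ((rc_isClassFunction p hϑc).sub
      (rc_isClassFunction p (χ.2.isCharacter.restrict C).isClassFunction)) (fun c => ?_) ψ.2
    rw [Pi.sub_apply, rc_eq, rc_eq]
    split_ifs
    · simpa using P_zero
    · exact char_congr_of_isPPart hM χ.2.isCharacter hx (hcomm c⁻¹)
  have h3 : om (rc p ϑ - rc p (fun c : C => (χ : G → ℂ) c)) ψ =
      rsum p ϑ ψ / (ψ : C → ℂ) 1 - rsum p (fun c : C => (χ : G → ℂ) c) ψ / (ψ : C → ℂ) 1 := by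
    simp only [om_def, rsum, Pi.sub_apply, sub_mul, Finset.sum_sub_distrib, sub_div]
  rw [h3] at h2
  rw [← P_congr_iff h2] at h1
  by_contra hcon
  push Not at hcon
  apply h1
  have h4 : blockPart b (pRegularPart p ϑ) = 0 := by
    rw [blockPart_pRegularPart hM hb.1]
    funext y
    rw [pRegularPart_eq]
    split_ifs with hy
    · rfl
    · exact hcon y hy
  have h5 := classInner_blockPart b (pRegularPart p ϑ) ψ
  rw [if_pos hψ, h4, classInner_zero_left] at h5
  rw [rsum_eq_classInner p _ ψ.2.isCharacter, ← h5, mul_zero, zero_div]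
  exact P_zero

end Cfsg.Agent.S4428
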