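import Cfsg.Statements.S4431
import Cfsg.Agent.H37.ThirdMain

set_option autoImplicit false
open Cfsg

namespace Cfsg.Agent.S4431

/-- Let H be a subgroup of the finite group G and b a block of H whose induced block B₀ in G is defined (relative to a maximal ideal M of the algebraic integers containing p). Let χ be an irreducible character of G, ψ ∈ b, and let η be the class function on H equal to p^a · χ on the p-regular elements of H and zero elsewhere, p^a being the p-part of the order of H. Then (a) if χ ∉ B₀, the number [η, ψ]/ψ(1) lies in the local ideal at M; (b) if χ ∈ B₀ has height zero, it does not. -/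
theorem result {G : Type*} [Group G] [Fintype G] (p : ℕ) [Fact p.Prime] (M : Ideal Cfsg.AlgInt) (hM : Cfsg.IsPModular p M) (H : Subgroup G) [Fintype H] (b : Set (Cfsg.IrrCharacter H)) (B₀ : Set (Cfsg.IrrCharacter G)) (hind : Cfsg.IsInducedBlock M H b B₀) (χ : Cfsg.IrrCharacter G) (ψ : Cfsg.IrrCharacter H) (hψ : ψ ∈ b) : (χ ∉ B₀ → Cfsg.MemLocalIdeal M (Cfsg.classInner (fun h : H => if p ∣ orderOf h then (0 : ℂ) else ((p ^ (Nat.card H).factorization p : ℕ) : ℂ) * (χ : G → ℂ) h) (ψ : H → ℂ) / (ψ : H → ℂ) 1)) ∧ (χ ∈ B₀ → Cfsg.blockHeight p B₀ (χ : G → ℂ) = 0 → ¬ Cfsg.MemLocalIdeal M (Cfsg.classInner (fun h : H => if p ∣ orderOf h then (0 : ℂ) else ((p ^ (Nat.card H).factorization p : ℕ) : ℂ) * (χ : G → ℂ) h) (ψ : H → ℂ) / (ψ : H → ℂ) 1)) := by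
  have := hM.2.1
  obtain ⟨u, hu, hcard⟩ := H35.exists_unit_natCast hM (Nat.card_pos (α := H)).ne'
  have hu0 : (u : ℂ) ≠ 0 := Nat.cast_ne_zero.2 (by rintro rfl; simp at hu)
  have key : Cfsg.classInner (fun h : H => if p ∣ orderOf h then (0 : ℂ) else ((p ^ (Nat.card H).factorization p : ℕ) : ℂ) * (χ : G → ℂ) h) (ψ : H → ℂ) / (ψ : H → ℂ) 1 =
      (u : ℂ)⁻¹ * (H37.rsum p (fun h : H => (χ : G → ℂ) h) ψ / (ψ : H → ℂ) 1) := by
    have h1 : (fun h : H => if p ∣ orderOf h then (0 : ℂ) else ((p ^ (Nat.card H).factorization p : ℕ) : ℂ) * (χ : G → ℂ) h) =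
        ((p ^ (Nat.card H).factorization p : ℕ) : ℂ) • pRegularPart p (fun h : H => (χ : G → ℂ) h) := by
      funext h
      rw [Pi.smul_apply, H37.pRegularPart_eq]
      split_ifs <;> simp
    rw [h1, H28.classInner_smul_left,
      H37.rsum_eq_classInner p _ (H28.Cfsg.IsIrrCharacter.isCharacter ψ.2)]
    have h2 : (Nat.card H : ℂ) = ((p ^ (Nat.card H).factorization p : ℕ) : ℂ) * u := by
      exact_mod_cast hcard
    conv_rhs => rw [h2]
    field_simp
  rw [key]
  constructor
  · intro hχ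
    exact H35.P_mul_left (H35.inv_natCast_mem_S hM hu) (H37.P_rsum_res_of_not_mem hM H hind hψ hχ)
  · intro hχ h0 h
    have h1 := H35.P_mul_left (natCast_mem (H35.S M) u) h
    rw [← mul_assoc, mul_inv_cancel₀ hu0, one_mul] at h1
    exact (H37.induced_height_zero_iff hM H hind hψ χ).1 ⟨hχ, h0⟩ h1

end Cfsg.Agent.S4431
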