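import Cfsg.Statements.S4437
import Cfsg.Agent.H36.Extended

set_option autoImplicit false
open Cfsg

namespace Cfsg.Agent.S4437

/-- Let P be a p-subgroup of the finite group G, H = P·C_G(P), and b a block of H (relative to a maximal ideal M of the algebraic integers containing p) having P as a defect group; let B be the block of G induced by b. Let T be the stabilizer of b in N_G(P): the elements g of N_G(P) such that the g-conjugate of every member of b is again a member of b. Then B has defect group P if and only if p does not divide the index of H in T. -/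
theorem result {G : Type*} [Group G] [Fintype G] (p : ℕ) [Fact p.Prime] (M : Ideal Cfsg.AlgInt) (hM : Cfsg.IsPModular p M) (P : Subgroup G) (hP : IsPGroup p P) (H : Subgroup G) [Fintype H] (hH : H = P ⊔ Subgroup.centralizer (P : Set G)) (b : Set (Cfsg.IrrCharacter H)) (hb : Cfsg.IsPBlock M b) (hbP : Cfsg.IsDefectGroup p M b (P.subgroupOf H)) (B : Set (Cfsg.IrrCharacter G)) (hind : Cfsg.IsInducedBlock M H b B) (T : Subgroup G) (hT : ∀ g : G, g ∈ T ↔ (g ∈ Subgroup.normalizer (P : Set G) ∧ ∀ θ ∈ b, ∀ θ' : Cfsg.IrrCharacter H, (∀ h h' : H, (h' : G) = g * h * g⁻¹ → (θ' : H → ℂ) h' = (θ : H → ℂ) h) → θ' ∈ b)) : Cfsg.IsDefectGroup p M B P ↔ ¬ p ∣ H.relIndex T := by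
  have := hM.2.1
  have hPH : P ≤ H := hH ▸ le_sup_left
  have hNH : H39.Nor P ≤ H39.Nor H := hH ▸ H36.nor_le_nor_sup_cen P
  rw [H36.isDefectGroup_iff_not_dvd_relIndex hM hH hind
    ((H36.isDefectGroup_subgroupOf_iff hM hb hPH).1 hbP)]
  have : T = H39.Nor P ⊓ H39.stab (H36.eS M H b) := by
    ext g
    rw [hT, Subgroup.mem_inf]
    refine and_congr_right fun hg => ?_
    have h1 := H36.stabilizesBlock_iff (M := M) hb (t := g)
    rw [H36.stabilizesBlock_iff_conjSet_subset] at h1
    simp only [hNH hg, true_and] at h1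
    rw [H39.mem_stab, ← h1]
    exact ⟨fun h θ' ⟨θ, hθ, h'⟩ => h θ hθ θ' h', fun h θ hθ θ' h' => h ⟨θ, hθ, h'⟩⟩
  rw [this]

end Cfsg.Agent.S4437
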