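import Cfsg.Statements.S4439
import Cfsg.Agent.H38.Fong

set_option autoImplicit false
open Cfsg

namespace Cfsg.Agent.S4439

open H28 H35 H38 H39 in
theorem nu_le {G : Type*} [Group G] [Finite G] {p : ℕ} [hp : Fact p.Prime]
    [Fintype (pPrimeCore p G)] (hG : IsPConstrained p G) {θ : IrrCharacter (pPrimeCore p G)}
    (hθ : H32.inertia θ.1 = ⊤) {χ : IrrCharacter G} (h : Over (pPrimeCore p G).subtype χ.1 θ.1)
    (P : Sylow p G) :
    (charDegree χ.1).factorization p ≤ (Subgroup.center P).index.factorization p := by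
  have hC := H10.isPConstrained_iff_isCharP_quotient.1 hG
  have hπ := QuotientGroup.mk'_surjective (pPrimeCore p G)
  set W := (Cen (pCore p (G ⧸ pPrimeCore p G))).comap (QuotientGroup.mk' (pPrimeCore p G))
    with hW
  have hN := H2.not_dvd_card_pPrimeCore p G
  have h1 := charDegree_dvd_of_abelian_section (W := W)
    ((QuotientGroup.ker_mk' _).ge.trans (Subgroup.ker_le_comap _ _)) (by
      rw [H18.relIndex_eq_card_map, hW, Subgroup.map_comap_eq_self_of_surjective hπ]
      obtain ⟨k, hk⟩ := IsPGroup.iff_card.1 ((H2.pCore_isPGroup p _).to_le hC)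
      rw [hk]
      exact (H2.coprime_card_pPrimeCore p G).pow_right k) (by
      refine Subgroup.commutator_le.2 fun a ha b hb => ?_
      rw [← QuotientGroup.ker_mk' (pPrimeCore p G), MonoidHom.mem_ker, map_commutatorElement,
        commutatorElement_eq_one_iff_mul_comm]
      exact hb _ (hC ha)) θ.2 hθ χ.2 h
  have h2 : ¬ p ∣ charDegree θ.1 := fun hd => hN (hd.trans (charDegree_dvd_card θ.2))
  have h3 : Subgroup.center P ≤ W.subgroupOf P := by
    intro z hz y hy
    obtain ⟨u, hu, rfl⟩ := H2.pCore_le_sylow (P.mapSurjective hπ) hy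
    rw [← map_mul, ← map_mul]
    exact congrArg _ (congrArg Subtype.val (Subgroup.mem_center_iff.1 hz ⟨u, hu⟩))
  have h4 : W.index = W.relIndex P * ((P : Subgroup G) ⊔ W).index := by
    rw [← Subgroup.relIndex_sup_right, Subgroup.relIndex_mul_index le_sup_right]
  have h5 : ¬ p ∣ ((P : Subgroup G) ⊔ W).index := fun hd =>
    P.not_dvd_index (hd.trans (Subgroup.index_dvd_of_le le_sup_left))
  have h6 : charDegree χ.1 ∣ (Subgroup.center P).index *
      (((P : Subgroup G) ⊔ W).index * charDegree θ.1) := by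
    rw [h4, mul_assoc] at h1
    exact h1.trans (Nat.mul_dvd_mul_right (Subgroup.index_dvd_of_le h3) _)
  have h7 : ¬ p ∣ ((P : Subgroup G) ⊔ W).index * charDegree θ.1 := fun hd =>
    (hp.out.dvd_mul.1 hd).elim h5 h2
  have h8 : ((P : Subgroup G) ⊔ W).index * charDegree θ.1 ≠ 0 := fun h0 => h7 (h0 ▸ dvd_zero p)
  have h9 := (Nat.factorization_le_iff_dvd (deg_ne_zero χ)
    (mul_ne_zero Subgroup.index_ne_zero_of_finite h8)).2 h6 p
  rwa [Nat.factorization_mul Subgroup.index_ne_zero_of_finite h8, Finsupp.add_apply,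
    Nat.factorization_eq_zero_of_not_dvd h7, add_zero] at h9

/-- Let G be a finite p-solvable group and B a p-block of G with defect group P (relative to a maximal ideal M of the algebraic integers containing p). Then the height of every irreducible character in B is at most the exponent of p in the index of the centre of P in P. -/
theorem result {G : Type*} [Group G] [Finite G] (p : ℕ) [Fact p.Prime] (M : Ideal Cfsg.AlgInt) (hM : Cfsg.IsPModular p M) (hsolv : Cfsg.IsPSolvable p G) (B : Set (Cfsg.IrrCharacter G)) (hB : Cfsg.IsPBlock M B) (P : Subgroup G) (hP : Cfsg.IsDefectGroup p M B P) (χ : Cfsg.IrrCharacter G) (hχ : χ ∈ B) : Cfsg.blockHeight p B (χ : G → ℂ) ≤ ((Subgroup.center P).index).factorization p := by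
  have := hM.2.1
  revert P χ
  refine H38.fong_induction hM (C := fun G _ => IsPSolvable p G)
    (fun G _ _ T h => H18.isPSolvable_subgroup h T)
    (fun G _ _ h => H38.isPConstrained_of_isPSolvable h)
    (motive := fun G _ B => ∀ P : Subgroup G, IsDefectGroup p M B P → ∀ χ ∈ B,
      blockHeight p B (χ : G → ℂ) ≤ ((Subgroup.center P).index).factorization p)
    (fun G _ _ _ θ hG hθ hB P hP χ hχ => ?_) (fun G _ _ T B' B _ h ih P hP χ hχ => ?_) hsolv hB
  · obtain ⟨S, rfl⟩ := H37.isSylowIn_top_iff.1
      ((H38.isDefectGroup_above_iff hM (H2.not_dvd_card_pPrimeCore p G) hθ hB).1 hP)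
    exact (Nat.sub_le _ _).trans (nu_le (H38.isPConstrained_of_isPSolvable hG)
      (eq_top_iff.2 fun g _ => congrArg Subtype.val (hθ g)) (H38.mem_above_singleton.1 hχ) S)
  · obtain ⟨ψ, hψ, h1⟩ := (h.mem_iff χ).1 hχ
    obtain ⟨D, hD⟩ := H34.exists_isDefectGroup p h.ind.1
    obtain ⟨x, rfl⟩ := H36.isDefectGroup_exists_conj hM h.ind.2.1 (h.defect D hD) hP
    rw [h1, h.height ψ hψ, ← H38.index_center_congr
      ((D.equivMapOfInjective T.subtype T.subtype_injective).trans
        ((D.map T.subtype).equivMapOfInjective _ (MulAut.conj x).injective))]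
    exact ih D hD ψ hψ

end Cfsg.Agent.S4439
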