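import Cfsg.Statements.S4440
import Cfsg.Agent.H38.Harada

set_option autoImplicit false
open Cfsg

namespace Cfsg.Agent.S4440

open H28 H35 H38
open scoped ComplexConjugate

section
variable {G : Type*} [Group G]

noncomputable def rho (U : Set (IrrCharacter G)) : G → ℂ := fun g => ∑ᶠ χ ∈ U, χ.1 1 * χ.1 g

variable [Fintype G]

theorem rho_eq_sum (U : Set (IrrCharacter G)) [DecidablePred (· ∈ U)] :
    rho U = ∑ χ : IrrCharacter G, (if χ ∈ U then χ.1 1 else 0) • χ.1 := by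
  funext g
  simp [rho, H41.finsum_mem_irr, Finset.sum_apply, ite_apply]

theorem classInner_rho (U : Set (IrrCharacter G)) (χ : IrrCharacter G) [Decidable (χ ∈ U)] :
    classInner (rho U) χ.1 = if χ ∈ U then χ.1 1 else 0 := by
  classical
  rw [rho_eq_sum, classInner_sum_irr_left]
  congr

theorem isClassFunction_rho (U : Set (IrrCharacter G)) : IsClassFunction G (rho U) :=
  fun g h => finsum_mem_congr rfl fun χ _ => by rw [χ.2.isClassFunction]

theorem blockCoeff_eq (U : Set (IrrCharacter G)) (g : G) :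
    blockCoeff U g = (Nat.card G : ℂ)⁻¹ * rho U g⁻¹ :=
  congrArg _ (finsum_mem_congr rfl fun χ _ => by rw [χ.2.isCharacter.apply_inv])

variable {p : ℕ} {M : Ideal AlgInt} [M.IsMaximal]

theorem vanish (hM : IsPModular p M) {B : Set (IrrCharacter G)} (hB : IsPBlock M B) {f : G → ℂ}
    (h : ∀ x, p ∣ orderOf x → f x = 0) {x : G} (hx : p ∣ orderOf x) : blockPart B f x = 0 := by
  rw [← pReg_eq_self_iff.2 h, blockPart_pReg hM hB, pReg_of_sing _ hx]

theorem blockPart_rho (B U : Set (IrrCharacter G)) : blockPart B (rho U) = rho (B ∩ U) := by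
  classical
  rw [H41.blockPart_eq_sum, rho_eq_sum (B ∩ U)]
  simp only [classInner_rho, Set.mem_inter_iff, ite_and]

theorem blockPart_res {T : Subgroup G} [Fintype T] {B' : Set (IrrCharacter T)}
    {B : Set (IrrCharacter G)} (h : IndBij p M T B' B) (U : Set (IrrCharacter G)) :
    blockPart B' (fun t : T => rho U t) =
      (T.index : ℂ) • rho {ψ | ψ ∈ B' ∧ ∃ χ ∈ U, χ.1 = indFun T ψ.1} := by
  classical
  rw [H41.blockPart_eq_sum, rho_eq_sum {ψ | ψ ∈ B' ∧ _}, Finset.smul_sum]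
  refine Finset.sum_congr rfl fun ψ _ => ?_
  rw [smul_smul]
  congr 1
  by_cases hψ : ψ ∈ B'
  · rw [if_pos hψ, ← H33.classInner_indFun_right T _ (isClassFunction_rho U),
      classInner_rho U ⟨_, h.irr ψ hψ⟩, mul_ite, mul_zero, ← H33.indFun_apply_one]
    refine if_congr ⟨fun h1 => ⟨hψ, _, h1, rfl⟩, ?_⟩ rfl rfl
    rintro ⟨-, χ, hχ, h1⟩
    rwa [show (⟨_, h.irr ψ hψ⟩ : IrrCharacter G) = χ from Subtype.ext h1.symm]
  · rw [if_neg hψ, if_neg fun h1 => hψ h1.1, mul_zero]

theorem base [Fact p.Prime] [Fintype (pPrimeCore p G)] (hG : IsPConstrained p G)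
    {θ : IrrCharacter (pPrimeCore p G)} (hθ : H32.inertia θ.1 = ⊤) {U : Set (IrrCharacter G)}
    (hU : ∀ χ ∈ U, Over (pPrimeCore p G).subtype χ.1 θ.1) (h : ∀ x, p ∣ orderOf x → rho U x = 0)
    {χ ψ : IrrCharacter G} (hχ : χ ∈ U) (hψ : Over (pPrimeCore p G).subtype ψ.1 θ.1) : ψ ∈ U := by
  have h0 : ∀ g, p ∣ orderOf g → blockCoeff U g = 0 := fun g hg => by
    rw [blockCoeff_eq, h _ (by rwa [orderOf_inv]), mul_zero]
  obtain ⟨k, hk⟩ := exists_relIndex_pPrimePCore p G
  have h1 : ∀ g, g ∉ (pPrimeCore p G).subtype.range → (H34.fC U).coeff g = 0 := fun g hg => by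
    by_contra h2
    rw [H34.coeff_fC] at h2
    rw [Subgroup.range_subtype] at hg
    refine hg ((QuotientGroup.eq_one_iff g).1
      ((H10.isPConstrained_iff_isCharP_quotient.1 hG).eq_one_of_coprime ?_ ?_))
    · intro x hx
      obtain ⟨x, rfl⟩ := QuotientGroup.mk_surjective x
      have h3 := comm_mem_of_pReg_supp H18.pPrimeCore_le_pPrimePCore
        (H2.not_dvd_card_pPrimeCore p G) hk θ.2 hθ hU h0 h2 (x := x) hx
      rw [← QuotientGroup.eq_one_iff, QuotientGroup.mk_mul, QuotientGroup.mk_mul,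
        QuotientGroup.mk_mul, QuotientGroup.mk_inv, QuotientGroup.mk_inv, mul_inv_eq_one,
        mul_assoc, inv_mul_eq_iff_eq_mul] at h3
      exact h3
    · exact ((Nat.Prime.coprime_iff_not_dvd Fact.out).2 fun hd => h2 (h0 g
        (hd.trans (orderOf_map_dvd (QuotientGroup.mk' _) g)))).symm
  have h2 := push_pull (pPrimeCore p G).subtype_injective h1
  have h3 := pull_mem_Z (ι := (pPrimeCore p G).subtype) (H34.fC_mem_Z U)
  have h4 := (hU χ hχ).omega_push χ.2 θ.2 h3 (h2.symm ▸ H34.fC_mem_Z U)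
  have h5 := hψ.omega_push ψ.2 θ.2 h3 (h2.symm ▸ H34.fC_mem_Z U)
  rw [← h4, h2, H34.omega_fC_of_mem hχ] at h5
  by_contra h6
  exact zero_ne_one ((H34.omega_fC_of_not_mem h6).symm.trans h5)

end


/-- Let G be a finite p-solvable group and fix a maximal ideal M of the algebraic integers containing p. Let U be a set of irreducible characters of G such that the class function Σ_{χ ∈ U} χ(1)·χ vanishes at every p-singular element of G. Then U is a union of p-blocks: if χ ∈ U and ψ lies in the same block as χ, then ψ ∈ U. -/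
theorem result {G : Type*} [Group G] [Finite G] (p : ℕ) [Fact p.Prime] (M : Ideal Cfsg.AlgInt) (hM : Cfsg.IsPModular p M) (hsolv : Cfsg.IsPSolvable p G) (U : Set (Cfsg.IrrCharacter G)) (hU : ∀ x : G, p ∣ orderOf x → ∑ᶠ χ ∈ U, (χ : G → ℂ) 1 * (χ : G → ℂ) x = 0) (χ : Cfsg.IrrCharacter G) (hχ : χ ∈ U) (ψ : Cfsg.IrrCharacter G) (hψ : Cfsg.SameBlock M (χ : G → ℂ) (ψ : G → ℂ)) : ψ ∈ U := by
  have := hM.2.1
  cases nonempty_fintype G
  have key : ∀ U ⊆ blockOf M χ.1, (∀ x, p ∣ orderOf x → rho U x = 0) → U.Nonempty →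
      blockOf M χ.1 ⊆ U := by
    refine H38.fong_induction hM (C := fun G _ => IsPSolvable p G)
      (fun G _ _ T h => H18.isPSolvable_subgroup h T)
      (fun G _ _ h => H38.isPConstrained_of_isPSolvable h)
      (motive := fun G _ B => ∀ U ⊆ B, (∀ x, p ∣ orderOf x → rho U x = 0) → U.Nonempty → B ⊆ U)
      (fun G _ _ _ θ hG hθ _ U hU h ⟨χ, hχ⟩ ψ hψ => ?_)
      (fun G _ _ T B' B _ h ih U hU h0 ⟨χ, hχ⟩ ψ hψ => ?_) hsolv (H34.isPBlock_blockOf χ)
    · exact base (H38.isPConstrained_of_isPSolvable hG)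
        (eq_top_iff.2 fun g _ => congrArg Subtype.val (hθ g))
        (fun φ hφ => mem_above_singleton.1 (hU hφ)) h hχ (mem_above_singleton.1 hψ)
    · cases nonempty_fintype T
      obtain ⟨χ', hχ', h1⟩ := (h.mem_iff χ).1 (hU hχ)
      obtain ⟨ψ', hψ', h2⟩ := (h.mem_iff ψ).1 hψ
      obtain ⟨-, φ, hφ, h3⟩ := ih {ξ | ξ ∈ B' ∧ ∃ χ ∈ U, χ.1 = indFun T ξ.1} (fun _ h => h.1)
        (fun x hx => by
          have h4 := vanish hM h.ind.1 (f := fun t : T => rho U t)
            (fun y hy => h0 _ (by rwa [Subgroup.orderOf_coe])) hx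
          rw [blockPart_res h] at h4
          exact (mul_eq_zero.1 h4).resolve_left
            (Nat.cast_ne_zero.2 Subgroup.index_ne_zero_of_finite)) ⟨χ', hχ', χ, hχ, h1⟩ hψ'
      rwa [show ψ = φ from Subtype.ext (h2.trans h3.symm)]
  exact (key (blockOf M χ.1 ∩ U) Set.inter_subset_left
    (fun x hx => by rw [← blockPart_rho, vanish hM (H34.isPBlock_blockOf χ) (f := rho U) hU hx])
    ⟨χ, H34.self_mem_blockOf χ, hχ⟩ hψ).2

end Cfsg.Agent.S4440
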