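import Cfsg.Statements.S4444
import Cfsg.Agent.H40.GlP2

set_option autoImplicit false
open Cfsg

namespace Cfsg.Agent.S4444

/-- The Glauberman correspondence for a p-group of operators. Inside a finite group Γ let S normalise G with the orders of G and S coprime, S a p-group, and let C = G ⊓ C(S) be the fixed points. Call an irreducible character χ of G S-invariant when χ(s g s⁻¹) = χ(g) for s ∈ S, g ∈ G. Then: (i) for every S-invariant χ there is exactly one irreducible character β of C whose multiplicity [χ_C, β] in the restriction of χ is not divisible by p; (ii) that multiplicity is ≡ 1 or ≡ −1 (mod p); (iii) distinct S-invariant χ give distinct β; (iv) every irreducible character of C arises in this way. So χ ↦ β is a bijection from the S-invariant irreducible characters of G onto the irreducible characters of C. -/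
theorem result {Γ : Type*} [Group Γ] [Fintype Γ] (G S : Subgroup Γ) [Fintype G] (hnorm : ∀ s ∈ S, ∀ g ∈ G, s * g * s⁻¹ ∈ G) (hcop : (Nat.card G).Coprime (Nat.card S)) (p : ℕ) (hp : p.Prime) (hS : IsPGroup p S) (C : Subgroup Γ) [Fintype C] (hC : C = G ⊓ Subgroup.centralizer (S : Set Γ)) (hCG : C ≤ G) : (∀ χ : Cfsg.IrrCharacter G, (∀ s ∈ S, ∀ g g' : G, (g' : Γ) = s * g * s⁻¹ → (χ : G → ℂ) g' = (χ : G → ℂ) g) → ∃! β : Cfsg.IrrCharacter C, ∃ m : ℕ, Cfsg.classInner (fun c : C => (χ : G → ℂ) ⟨c, hCG c.2⟩) (β : C → ℂ) = (m : ℂ) ∧ ¬ p ∣ m) ∧ (∀ χ : Cfsg.IrrCharacter G, (∀ s ∈ S, ∀ g g' : G, (g' : Γ) = s * g * s⁻¹ → (χ : G → ℂ) g' = (χ : G → ℂ) g) → ∀ β : Cfsg.IrrCharacter C, ∀ m : ℕ, Cfsg.classInner (fun c : C => (χ : G → ℂ) ⟨c, hCG c.2⟩) (β : C → ℂ) = (m : ℂ) → ¬ p ∣ m → ((m : ℤ) ≡ 1 [ZMOD p] ∨ (m : ℤ) ≡ -1 [ZMOD p])) ∧ (∀ χ χ' : Cfsg.IrrCharacter G, (∀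 s ∈ S, ∀ g g' : G, (g' : Γ) = s * g * s⁻¹ → (χ : G → ℂ) g' = (χ : G → ℂ) g) → (∀ s ∈ S, ∀ g g' : G, (g' : Γ) = s * g * s⁻¹ → (χ' : G → ℂ) g' = (χ' : G → ℂ) g) → ∀ β : Cfsg.IrrCharacter C, ∀ m m' : ℕ, Cfsg.classInner (fun c : C => (χ : G → ℂ) ⟨c, hCG c.2⟩) (β : C → ℂ) = (m : ℂ) → ¬ p ∣ m → Cfsg.classInner (fun c : C => (χ' : G → ℂ) ⟨c, hCG c.2⟩) (β : C → ℂ) = (m' : ℂ) → ¬ p ∣ m' → χ = χ') ∧ (∀ β : Cfsg.IrrCharacter C, ∃ χ : Cfsg.IrrCharacter G, (∀ s ∈ S, ∀ g g' : G, (g' : Γ) = s * g * s⁻¹ → (χ : G → ℂ) g' = (χ : G → ℂ) g) ∧ ∃ m : ℕ, Cfsg.classInner (fun c : C => (χ : G → ℂ) ⟨c, hCG c.2⟩) (β : C → ℂ) = (m : ℂ) ∧ ¬ p ∣ m) := by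
  have := Fact.mk hp
  have H := H40.pCorr_abs hS (fun s hs => Subgroup.mem_normalizer_fintype (hnorm s hs)) hcop hC hCG
  have hi : ∀ β : C → ℂ, H40.InvAll C S β := H40.invAll_of_le_centralizer (hC ▸ inf_le_right)
  have key : ∀ {χ : G → ℂ} {β : C → ℂ} {m : ℕ}, classInner (H40.res hCG χ) β = m → ¬ p ∣ m →
      (H40.mult hCG χ β : ZMod p) ≠ 0 := fun h1 h2 => by
    rwa [H40.mult_eq hCG h1, Ne, ZMod.natCast_eq_zero_iff]
  have key2 : ∀ {χ : G → ℂ} {β : C → ℂ}, IsIrrCharacter G χ → IsIrrCharacter C β →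
      (H40.mult hCG χ β : ZMod p) ≠ 0 → ∃ m : ℕ, classInner (H40.res hCG χ) β = m ∧ ¬ p ∣ m :=
    fun h1 h2 h3 => ⟨_, H40.mult_spec hCG (H28.Cfsg.IsIrrCharacter.isCharacter h1)
      (H28.Cfsg.IsIrrCharacter.isCharacter h2), mt (ZMod.natCast_eq_zero_iff _ _).2 h3⟩
  refine ⟨fun χ h1 => ?_, fun χ h1 β m h2 h3 => ?_, fun χ χ' h1 h1' β m m' h2 h3 h2' h3' => ?_,
    fun β => ?_⟩
  · obtain ⟨β, hβ, h2, h3⟩ := H.ex_right χ.2 h1
    refine ⟨⟨β, hβ⟩, key2 χ.2 hβ h3, fun β' ⟨m, h4, h5⟩ => Subtype.ext ?_⟩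
    exact H.uniq_right χ.2 β'.2 hβ h1 (hi _) h2 (key h4 h5) h3
  · have h4 := H.pm χ.2 β.2 h1 (hi _) (key h2 h3)
    rw [H40.mult_eq hCG h2] at h4
    exact h4.imp (fun e => (ZMod.intCast_eq_intCast_iff _ _ _).1 (by simpa using e))
      (fun e => (ZMod.intCast_eq_intCast_iff _ _ _).1 (by simpa using e))
  · exact Subtype.ext (H.uniq_left χ.2 χ'.2 β.2 h1 h1' (hi _) (key h2 h3) (key h2' h3'))
  · obtain ⟨χ, hχ, h2, h3⟩ := H.ex_left β.2 (hi _)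
    exact ⟨⟨χ, hχ⟩, h2, key2 hχ β.2 h3⟩

end Cfsg.Agent.S4444
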