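import Cfsg.Statements.S4446
import Cfsg.Agent.H40.GlCan

set_option autoImplicit false
open Cfsg

namespace Cfsg.Agent.S4446

/-- Let the finite group Γ be generated by a normal subgroup G and a cyclic subgroup S of coprime orders, C = G ⊓ C(S), and let χ be an S-invariant irreducible character of G with canonical extension χ̂ to Γ (the extension whose determinantal order is coprime to the order of S). Then there are exactly one irreducible character β of C and one sign ε such that χ̂(c s) = ε β(c) for every c ∈ C and every generator s of S; this β is a constituent of the restriction of χ to C; distinct S-invariant χ give distinct β; and every irreducible character of C arises in this way. -/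
theorem result {Γ : Type*} [Group Γ] [Fintype Γ] (G S : Subgroup Γ) [Fintype G] (hnorm : ∀ s ∈ S, ∀ g ∈ G, s * g * s⁻¹ ∈ G) (hcop : (Nat.card G).Coprime (Nat.card S)) (htop : G ⊔ S = ⊤) (hcyc : IsCyclic S) (C : Subgroup Γ) [Fintype C] (hC : C = G ⊓ Subgroup.centralizer (S : Set Γ)) (hCG : C ≤ G) : (∀ (χ : Cfsg.IrrCharacter G) (χh : Cfsg.IrrCharacter Γ), (∀ s ∈ S, ∀ g g' : G, (g' : Γ) = s * g * s⁻¹ → (χ : G → ℂ) g' = (χ : G → ℂ) g) → (∀ g : G, (χh : Γ → ℂ) g = (χ : G → ℂ) g) → (Cfsg.detOrder (χh : Γ → ℂ)).Coprime (Nat.card S) → (∃! βε : Cfsg.IrrCharacter C × ℤ, (βε.2 = 1 ∨ βε.2 = -1) ∧ ∀ c : C, ∀ s : Γ, Subgroup.zpowers s = S → (χh : Γ → ℂ) ((c : Γ) * s) = (βε.2 : ℂ) * (βε.1 : C → ℂ) c) ∧ ∀ β : Cfsg.IrrCharacter C, ∀ ε : ℤ, (ε = 1 ∨ ε = -1) → (∀ c : C, ∀ s : Γ, Subgroup.zpowers s = S → (χh : Γ → ℂ) ((c : Γ) * s) = (ε : ℂ) * (β : C →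 ℂ) c) → Cfsg.classInner (fun c : C => (χ : G → ℂ) ⟨c, hCG c.2⟩) (β : C → ℂ) ≠ 0) ∧ (∀ (χ χ' : Cfsg.IrrCharacter G) (χh χh' : Cfsg.IrrCharacter Γ), (∀ s ∈ S, ∀ g g' : G, (g' : Γ) = s * g * s⁻¹ → (χ : G → ℂ) g' = (χ : G → ℂ) g) → (∀ s ∈ S, ∀ g g' : G, (g' : Γ) = s * g * s⁻¹ → (χ' : G → ℂ) g' = (χ' : G → ℂ) g) → (∀ g : G, (χh : Γ → ℂ) g = (χ : G → ℂ) g) → (∀ g : G, (χh' : Γ → ℂ) g = (χ' : G → ℂ) g) → (Cfsg.detOrder (χh : Γ → ℂ)).Coprime (Nat.card S) → (Cfsg.detOrder (χh' : Γ → ℂ)).Coprime (Nat.card S) → ∀ β : Cfsg.IrrCharacter C, ∀ ε ε' : ℤ, (ε = 1 ∨ ε = -1) → (ε' = 1 ∨ ε' = -1) → (∀ c : C, ∀ s : Γ, Subgroup.zpowers s = S → (χh : Γ → ℂ) ((c : Γ) * s) = (ε : ℂ) * (β : C → ℂ) c) → (∀ c : C, ∀ s : Γ, Subgroup.zpowers s = S → (χh' : Γ → ℂ) ((c : Γ) * s) = (ε' : ℂ) * (β : C → ℂ) c) → χ = χ') ∧ (∀ β : Cfsg.IrrCharacter C, ∃ (χ : Cfsg.IrrCharacter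 G) (χh : Cfsg.IrrCharacter Γ) (ε : ℤ), (∀ s ∈ S, ∀ g g' : G, (g' : Γ) = s * g * s⁻¹ → (χ : G → ℂ) g' = (χ : G → ℂ) g) ∧ (∀ g : G, (χh : Γ → ℂ) g = (χ : G → ℂ) g) ∧ (Cfsg.detOrder (χh : Γ → ℂ)).Coprime (Nat.card S) ∧ (ε = 1 ∨ ε = -1) ∧ ∀ c : C, ∀ s : Γ, Subgroup.zpowers s = S → (χh : Γ → ℂ) ((c : Γ) * s) = (ε : ℂ) * (β : C → ℂ) c) := by
  have hSG : S ≤ Subgroup.normalizer (G : Set Γ) := fun s hs =>
    Subgroup.mem_normalizer_fintype (hnorm s hs)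
  obtain ⟨s, rfl⟩ := (Subgroup.isCyclic_iff_exists_zpowers_eq_top S).1 hcyc
  have hs := Subgroup.mem_zpowers s
  have hd : H40.GlData G C s :=
    H40.glData_of_fix hSG hcop hs (by rw [hC, H40.centralizer_zpowers'])
  have key : ∀ {χ : G → ℂ} {X : Γ → ℂ}, H40.CanData G (Subgroup.zpowers s) C χ X →
      ∀ {β : C → ℂ}, IsIrrCharacter C β → H40.GlRel G C s χ β → ∃ ε : ℤ, (ε = 1 ∨ ε = -1) ∧
        ∀ c : C, ∀ t : Γ, Subgroup.zpowers t = Subgroup.zpowers s → X (c * t) = ε * β c := by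
    intro χ X h β hβ hr
    obtain ⟨ε, h1, -, h2⟩ := h.key hs hd hβ ((h.rel_iff hs hd hβ).1 hr)
    refine ⟨ε, h1, fun c t ht => ?_⟩
    obtain ⟨k, hk, rfl⟩ := H40.exists_pow_of_zpowers_eq ht
    rw [h.apply_pow hk c hs, h2]
  have key2 : ∀ {χ : G → ℂ} {X : Γ → ℂ}, H40.CanData G (Subgroup.zpowers s) C χ X →
      ∀ {β : C → ℂ}, IsIrrCharacter C β → ∀ {ε : ℤ}, (ε = 1 ∨ ε = -1) →
        (∀ c : C, ∀ t : Γ, Subgroup.zpowers t = Subgroup.zpowers s → X (c * t) = ε * β c) →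
        H40.GlRel G C s χ β := by
    intro χ X h β hβ ε h1 h2
    rw [h.rel_iff hs hd hβ, H40.inner_eq_of_eq_mul hβ fun c => h2 c s rfl]
    rcases h1 with rfl | rfl <;> simp
  refine ⟨fun χ X h1 h2 h3 => ⟨?_, fun β ε h4 h5 => ?_⟩,
    fun χ χ' X X' h1 h1' h2 h2' h3 h3' β ε ε' h4 h4' h5 h5' => ?_, fun β => ?_⟩
  · have h : H40.CanData G _ C χ X := ⟨hSG, hcop, htop, hC, χ.2, X.2, h2, h3⟩
    obtain ⟨β, hβ, hr⟩ := hd.exists_rel_right χ.2 (h1 s hs)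
    obtain ⟨ε, h4, h5⟩ := key h hβ hr
    refine ⟨(⟨β, hβ⟩, ε), ⟨h4, h5⟩, ?_⟩
    rintro ⟨⟨β', hβ'⟩, ε'⟩ ⟨h6, h7⟩
    obtain rfl := hd.rel_unique_right χ.2 hβ hβ' hr (key2 h hβ' h6 h7)
    have h8 := (H40.inner_eq_of_eq_mul hβ fun c => h7 c s rfl).symm.trans
      (H40.inner_eq_of_eq_mul hβ fun c => h5 c s rfl)
    exact Prod.ext rfl (by exact_mod_cast h8)
  · exact hd.inner_ne_zero β.2 (key2 ⟨hSG, hcop, htop, hC, χ.2, X.2, h2, h3⟩ β.2 h4 h5)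
  · exact Subtype.ext (hd.rel_unique_left χ.2 χ'.2 β.2
      (key2 ⟨hSG, hcop, htop, hC, χ.2, X.2, h2, h3⟩ β.2 h4 h5)
      (key2 ⟨hSG, hcop, htop, hC, χ'.2, X'.2, h2', h3'⟩ β.2 h4' h5'))
  · obtain ⟨χ, hχ, hr⟩ := hd.exists_rel_left β.2
      (H40.invAll_of_le_centralizer (hC ▸ inf_le_right) _ s hs)
    have h1 := H40.invAll_zpowers hd.normG hr.invBy_left
    obtain ⟨X, h⟩ := H40.exists_canData hSG hcop htop hC hχ h1
    obtain ⟨ε, h4, h5⟩ := key h β.2 hr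
    exact ⟨⟨χ, hχ⟩, ⟨X, h.irrX⟩, ε, h1, h.ext, h.det, h4, h5⟩

end Cfsg.Agent.S4446
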