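import Cfsg.Statements.S4449
import Cfsg.Agent.H40.GlSolv

set_option autoImplicit false
open Cfsg

namespace Cfsg.Agent.S4449

/-- Inside a finite group Γ let the solvable subgroup S normalise G with the orders of G and S coprime, and let N be a normal subgroup of G normalised by S. Then for every S-invariant irreducible character ϑ of N, the induced character ϑ^G has an S-invariant irreducible constituent. -/
theorem result {Γ : Type*} [Group Γ] [Fintype Γ] (G S N : Subgroup Γ) [Fintype G] [Fintype N] (hnorm : ∀ s ∈ S, ∀ g ∈ G, s * g * s⁻¹ ∈ G) (hNG : N ≤ G) (hNnormal : ∀ g ∈ G, ∀ n ∈ N, g * n * g⁻¹ ∈ N) (hNS : ∀ s ∈ S, ∀ n ∈ N, s * n * s⁻¹ ∈ N) (hcop : (Nat.card G).Coprime (Nat.card S)) (hsolv : Group.IsSolvable S) (θ : Cfsg.IrrCharacter N) (hinv : (∀ s ∈ S, ∀ g g' : N, (g' : Γ) = s * g * s⁻¹ → (θ : N → ℂ) g' = (θ : N → ℂ) g)) : ∃ χ : Cfsg.IrrCharacter G, Cfsg.classInner (fun n : N => (χ : G → ℂ) ⟨n, hNG n.2⟩) (θ : N →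 ℂ) ≠ 0 ∧ (∀ s ∈ S, ∀ g g' : G, (g' : Γ) = s * g * s⁻¹ → (χ : G → ℂ) g' = (χ : G → ℂ) g) := by
  have hS : S ≤ Subgroup.normalizer (N : Set Γ) := fun s hs =>
    Subgroup.mem_normalizer_fintype (hNS s hs)
  have hn : (N.subgroupOf S).Normal := Subgroup.normal_subgroupOf_of_le_normalizer hS
  obtain ⟨χ, h1, h2, h3⟩ := H40.exists_inv_over_of_solvable hNG
    (fun g hg => Subgroup.mem_normalizer_fintype (hNnormal g hg)) hS
    (fun s hs => Subgroup.mem_normalizer_fintype (hnorm s hs))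
    ((hcop.symm.coprime_dvd_left (Subgroup.index_dvd_card _)).coprime_dvd_right
      (Subgroup.index_dvd_card _)) θ.2 hinv
  exact ⟨⟨χ, h1⟩, h2, h3⟩

end Cfsg.Agent.S4449
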