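import Cfsg.Statements.S4450
import Cfsg.Agent.H40.InvOver

set_option autoImplicit false
open Cfsg

namespace Cfsg.Agent.S4450

/-- Let N ≤ G be normal subgroups of the finite group Γ with the index of G in Γ coprime to the index of N in G, and Γ/G or G/N solvable. Then for every irreducible character ϑ of N invariant under conjugation by Γ, the induced character ϑ^G has an irreducible constituent invariant under conjugation by Γ. -/
theorem result {Γ : Type*} [Group Γ] [Fintype Γ] (G N : Subgroup Γ) [hG : G.Normal] [hN : N.Normal] [Fintype G] [Fintype N] (hNG : N ≤ G) (hcop : (G.index).Coprime (N.relIndex G)) (hsolv : Group.IsSolvable (Γ ⧸ G) ∨ Group.IsSolvable (G ⧸ N.subgroupOf G)) (θ : Cfsg.IrrCharacter N) (hinv : ∀ (x : Γ) (n : N), (θ : N → ℂ) ⟨x * n * x⁻¹, hN.conj_mem n n.2 x⟩ = (θ : N → ℂ) n) : ∃ χ : Cfsg.IrrCharacter G, Cfsg.classInner (fun n : N => (χ : G → ℂ) ⟨n, hNG n.2⟩) (θ : N → ℂ) ≠ 0 ∧ ∀ (x : Γ) (g : G), (χ : G → ℂ) ⟨x * g * x⁻¹, hG.conj_mem g g.2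 x⟩ = (χ : G → ℂ) g := by
  obtain ⟨S, h1, h2, h3, h4⟩ := H40.exists_rel_complement G N hNG hcop
  have hSN : S ≤ Subgroup.normalizer (N : Set Γ) := Subgroup.le_normalizer_of_normal
  have hSG : S ≤ Subgroup.normalizer (G : Set Γ) := Subgroup.le_normalizer_of_normal
  have hi : H40.InvAll N S θ := fun x _ g g' e => by
    rw [← hinv x g]
    exact congrArg _ (Subtype.ext e)
  have key : ∃ χ : G → ℂ, IsIrrCharacter G χ ∧ classInner (H40.res hNG χ) θ ≠ 0 ∧
      H40.InvAll G S χ := by
    rcases hsolv with h | h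
    · have : Group.IsSolvable (S ⧸ N.subgroupOf S) := Group.isSolvable_of_isSolvable_injective
        (f := QuotientGroup.map (N.subgroupOf S) G S.subtype fun x hx => hNG hx) (by
          refine (injective_iff_map_eq_one _).2 ?_
          rintro ⟨x⟩ hx
          have h5 : (x : Γ) ∈ G := (QuotientGroup.eq_one_iff _).1 hx
          exact (QuotientGroup.eq_one_iff x).2 (h2.le ⟨h5, x.2⟩))
      exact H40.exists_inv_over_of_solvable hNG Subgroup.le_normalizer_of_normal hSN hSG
        (h4 ▸ hcop) θ.2 hi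
    · exact H40.exists_inv_over_of_solvable_quot hSN θ.2 hi G hNG hSG h (h4 ▸ hcop)
  obtain ⟨χ, h5, h6, h7⟩ := key
  refine ⟨⟨χ, h5⟩, h6, fun x g => ?_⟩
  exact H40.InvAll.sup (P := G) Subgroup.le_normalizer hSG
    (fun y hy => H40.invBy_of_mem (H28.Cfsg.IsIrrCharacter.isClassFunction h5) hy) h7 x
    (h3 ▸ Subgroup.mem_top x) g _ rfl

end Cfsg.Agent.S4450
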