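import Cfsg.Statements.S4451
import Cfsg.Agent.H40.GlCan

set_option autoImplicit false
open Cfsg

namespace Cfsg.Agent.S4451

/-- Let the finite group Γ be generated by a normal subgroup G and a cyclic subgroup S of coprime orders such that every non-identity element of S has the same centraliser C = G ⊓ C(S) in G. Let χ be an S-invariant irreducible character of G, χ̂ its canonical extension to Γ (determinantal order coprime to the order of S), and β the irreducible character of C with χ̂(c s) = ε₀ β(c) for c ∈ C and generators s of S (ε₀ = ±1). Then there are a sign ε = ±1, which may differ from ε₀, and a linear character μ of S with μ² = 1, such that: (a) χ̂(c x) = ε β(c) μ(x) for all c ∈ C and all x ∈ S other than 1; (b) the restriction of χ to C equals |S|·ϑ + ε β for some character ϑ of C or ϑ = 0; (c) |S| divides χ(1) − ε β(1). -/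
theorem result {Γ : Type*} [Group Γ] [Fintype Γ] (G S : Subgroup Γ) [Fintype G] (hnorm : ∀ s ∈ S, ∀ g ∈ G, s * g * s⁻¹ ∈ G) (hcop : (Nat.card G).Coprime (Nat.card S)) (htop : G ⊔ S = ⊤) (hcyc : IsCyclic S) (C : Subgroup Γ) [Fintype C] (hC : C = G ⊓ Subgroup.centralizer (S : Set Γ)) (hCG : C ≤ G) (hfpf : ∀ x ∈ S, x ≠ 1 → G ⊓ Subgroup.centralizer ({x} : Set Γ) = C) (χ : Cfsg.IrrCharacter G) (hinv : (∀ s ∈ S, ∀ g g' : G, (g' : Γ) = s * g * s⁻¹ → (χ : G → ℂ) g' = (χ : G → ℂ) g)) (χh : Cfsg.IrrCharacter Γ) (hext : (∀ g : G, (χh : Γ → ℂ) g = (χ : G → ℂ) g)) (hdet : (Cfsg.detOrder (χh : Γ → ℂ)).Coprime (Nat.card S)) (β : Cfsg.IrrCharacter C) (ε₀ : ℤ) (hε₀ : ε₀ = 1 ∨ ε₀ = -1) (hβ : ∀ c : C, ∀ s : Γ, Subgroup.zpowers s = S → (χh : Γ → ℂ) ((c : Γ) * s) = (ε₀ : ℂ) * (β : C → ℂ) c) : ∃ ε : ℤ, (ε = 1 ∨ ε = -1) ∧ (∃ μ : S → ℂ, Cfsg.IsCharacter S μ ∧ μ 1 = 1 ∧ (∀ x : S, μ x * μ x = 1) ∧ ∀ c : C, ∀ x : S, x ≠ 1 → (χh :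 Γ → ℂ) ((c : Γ) * x) = (ε : ℂ) * (β : C → ℂ) c * μ x) ∧ (∃ ϑ : C → ℂ, Cfsg.IsCharacter C ϑ ∧ (fun c : C => (χ : G → ℂ) ⟨c, hCG c.2⟩) = fun c => (Nat.card S : ℂ) * ϑ c + (ε : ℂ) * (β : C → ℂ) c) ∧ (Nat.card S : ℤ) ∣ (Cfsg.charDegree (χ : G → ℂ) : ℤ) - ε * (Cfsg.charDegree (β : C → ℂ) : ℤ) := by
  classical
  have hSG : S ≤ Subgroup.normalizer (G : Set Γ) := fun s hs =>
    Subgroup.mem_normalizer_fintype (hnorm s hs)
  have h : H40.CanData G S C χ χh := ⟨hSG, hcop, htop, hC, χ.2, χh.2, hext, hdet⟩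
  have hA : ∀ a b : S, a * b = b * a := fun a b => hcyc.isMulCommutative.is_comm.comm a b
  obtain ⟨s, hs⟩ := (Subgroup.isCyclic_iff_exists_zpowers_eq_top S).1 hcyc
  have hsS : s ∈ S := hs ▸ Subgroup.mem_zpowers s
  have hd : ∀ x : S, x ≠ 1 → H40.GlData G C x := fun x hx =>
    H40.glData_of_fix hSG hcop x.2 (hfpf x x.2 fun e => hx (Subtype.ext e))
  have hψ : ∀ γ : IrrCharacter C, IsCharacter S fun x : S =>
      classInner (fun c : C => χh.1 (c * x)) γ := fun γ =>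
    h.isCharacter_mult (H28.Cfsg.IsIrrCharacter.isCharacter γ.2)
  have h1 : ∀ x : S, x ≠ 1 → ∃ ε : ℤ, (ε = 1 ∨ ε = -1) ∧
      classInner (fun c : C => χh.1 (c * x)) β = ε := fun x hx =>
    H40.forall_ne_one_of_prime_pow hA (fun x : S => ∃ ε : ℤ, (ε = 1 ∨ ε = -1) ∧
      classInner (fun c : C => χh.1 (c * x)) β = ε) (by
        rintro y z p k hp hz hyz ⟨ε, h1, h2⟩
        obtain ⟨ε', h3, h4, -⟩ := h.key (y * z).2 (hd _ hyz) β.2 (fun h0 => by
          have h3 := H40.pnil_char_mul_sub hp (hψ β) (hA y z) hz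
          rw [h0, h2] at h3
          rcases h1 with rfl | rfl
          · exact H40.not_pnil_one hp (by simpa using h3.neg)
          · exact H40.not_pnil_one hp (by simpa using h3))
        exact ⟨ε', h3, h4⟩) (s := ⟨s, hsS⟩)
      ⟨ε₀, hε₀, H40.inner_eq_of_eq_mul β.2 fun c => hβ c s hs⟩ hx
  have h2 : ∀ x : S, x ≠ 1 → classInner (fun c : C => χh.1 (c * x)) β ≠ 0 := fun x hx => by
    obtain ⟨ε, h3, h4⟩ := h1 x hx
    rcases h3 with rfl | rfl <;> simp [h4]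
  obtain ⟨a, ε, μ, h3, h4, h5, h6, h7⟩ := H40.exists_eq_reg_add_linear hA (hψ β) fun x hx => by
    obtain ⟨ε, h3, h4⟩ := h1 x hx
    rcases h3 with rfl | rfl <;> simp [h4]
  have := Fintype.ofFinite S
  have h8 : ∀ γ : IrrCharacter C, ∃ b : ℕ, classInner (fun c : C => χ.1 ⟨c, hCG c.2⟩) γ =
      Nat.card S * b + if γ = β then (ε : ℂ) else 0 := by
    intro γ
    split_ifs with e
    · exact ⟨a, by simpa [← hext, e] using h6⟩
    · obtain ⟨b, hb⟩ := H40.exists_degree_eq_of_vanish (hψ γ) fun x hx => by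
        by_contra h0
        exact e (Subtype.ext ((hd x hx).rel_unique_right χ.2 γ.2 β.2
          ((h.rel_iff x.2 (hd x hx) γ.2).2 h0) ((h.rel_iff x.2 (hd x hx) β.2).2 (h2 x hx))))
      exact ⟨b, by simpa [← hext] using hb⟩
  choose b hb using h8
  have h9 : (fun c : C => χ.1 ⟨c, hCG c.2⟩) = fun c => (Nat.card S : ℂ) *
      (∑ γ : IrrCharacter C, (b γ : ℂ) • (γ : C → ℂ)) c + (ε : ℂ) * β.1 c := by
    funext c
    refine (H28.Cfsg.IsClassFunction.apply_eq_sum_irr (H28.Cfsg.IsCharacter.isClassFunction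
      (H40.isCharacter_res hCG (H28.Cfsg.IsIrrCharacter.isCharacter χ.2))) c).trans ?_
    simp [hb, add_mul, Finset.sum_add_distrib, Finset.mul_sum, mul_assoc]
  refine ⟨ε, h3, ⟨μ, h4, h5, fun x => ?_, fun c x hx => ?_⟩, ⟨_, H28.isCharacter_sum_irr b, h9⟩, ?_⟩
  · by_cases hx : x = 1
    · simp [hx, h5]
    obtain ⟨ε', h10, h11⟩ := h1 x hx
    have h12 := h11.symm.trans (h7 x hx)
    rcases h3 with rfl | rfl <;> rcases h10 with rfl | rfl <;>
      simp only [Int.cast_one, Int.cast_neg, one_mul, neg_mul] at h12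
    · simp [← h12]
    · simp [← h12]
    · simp [← neg_eq_iff_eq_neg.2 h12]
    · simp [← neg_inj.1 h12]
  · obtain ⟨ε', -, h10, h11⟩ := h.key x.2 (hd x hx) β.2 (h2 x hx)
    rw [h11, ← h10, h7 x hx, mul_right_comm]
  · obtain ⟨n, hn⟩ := H28.Cfsg.IsCharacter.exists_degree (H28.isCharacter_sum_irr b)
    have h10 : χ.1 1 = _ := congrFun h9 1
    rw [hn, ← H28.Cfsg.IsIrrCharacter.cast_charDegree χ.2,
      ← H28.Cfsg.IsIrrCharacter.cast_charDegree β.2] at h10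
    exact ⟨n, by rw [sub_eq_iff_eq_add]; exact_mod_cast h10⟩

end Cfsg.Agent.S4451
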