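import Cfsg.Statements.S4452
import Cfsg.Agent.H40.CopDeg

set_option autoImplicit false
open Cfsg

namespace Cfsg.Agent.S4452

/-- Let the finite group G be the product of a normal subgroup K and a solvable subgroup H of coprime orders, and let N = N_G(H). Then the number of irreducible characters of G of degree coprime to the order of H equals the number of irreducible characters of N of degree coprime to the order of H. (The two sets are in fact in a canonical bijection; only the equality of their sizes is stated here.) -/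
theorem result {G : Type*} [Group G] [Finite G] (K H : Subgroup G) [K.Normal] (hKH : K ⊔ H = ⊤) (hcop : (Nat.card K).Coprime (Nat.card H)) (hsolv : Group.IsSolvable H) : Nat.card {χ : Cfsg.IrrCharacter G // (Cfsg.charDegree (χ : G → ℂ)).Coprime (Nat.card H)} = Nat.card {η : Cfsg.IrrCharacter (Subgroup.normalizer (H : Set G)) // (Cfsg.charDegree (η : Subgroup.normalizer (H : Set G) → ℂ)).Coprime (Nat.card H)} := by
  have hdis : K ⊓ H = ⊥ := (Subgroup.disjoint_of_coprime_natCard hcop).eq_bot
  have hcompl : Subgroup.IsComplement' K H :=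
    Subgroup.isComplement'_of_disjoint_and_mul_eq_univ (disjoint_iff.2 hdis)
      (by rw [← Subgroup.normal_mul, hKH, Subgroup.coe_top])
  have hidx : K.index = Nat.card H := hcompl.symm.index_eq_card
  have hC : K ⊓ Subgroup.normalizer (H : Set G) = K ⊓ Subgroup.centralizer (H : Set G) := by
    refine le_antisymm (fun k hk => ⟨hk.1, fun h hh => ?_⟩)
      (inf_le_inf_left K (Subgroup.centralizer_le_normalizer _))
    have h1 : k * h * k⁻¹ * h⁻¹ ∈ K ⊓ H :=
      ⟨by simpa [mul_assoc] using K.mul_mem hk.1 (‹K.Normal›.conj_mem _ (K.inv_mem hk.1) h),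
        H.mul_mem ((Subgroup.mem_normalizer_iff.1 hk.2 h).1 hh) (H.inv_mem hh)⟩
    rw [hdis, Subgroup.mem_bot, mul_inv_eq_one, mul_inv_eq_iff_eq_mul] at h1
    exact h1.symm
  let e : (Subgroup.normalizer (H : Set G) ⧸ K.subgroupOf (Subgroup.normalizer (H : Set G))) ≃*
      G ⧸ K := QuotientGroup.liftEquiv _
    (φ := (QuotientGroup.mk' K).comp (Subgroup.normalizer (H : Set G)).subtype) (by
      rintro ⟨g⟩
      obtain ⟨⟨k, h⟩, rfl⟩ := hcompl.2 g
      refine ⟨⟨h, Subgroup.le_normalizer h.2⟩, ?_⟩
      change ((h : G) : G ⧸ K) = ((k * h : G) : G ⧸ K)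
      rw [QuotientGroup.mk_mul, (QuotientGroup.eq_one_iff (k : G)).2 k.2, one_mul])
    (by rw [← MonoidHom.comap_ker, QuotientGroup.ker_mk']; rfl)
  have hidx' : (K.subgroupOf (Subgroup.normalizer (H : Set G))).index = Nat.card H :=
    (Nat.card_congr e.toEquiv).trans hidx
  have h1 := H40.card_irr_coprime_degree K (hidx ▸ hcop)
  have h2 := H40.card_irr_coprime_degree (K.subgroupOf (Subgroup.normalizer (H : Set G)))
    (hidx' ▸ hcop.coprime_dvd_left (Subgroup.card_comap_dvd_of_injective _ _ Subtype.val_injective))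
  rw [hidx] at h1
  rw [hidx'] at h2
  rw [h1, h2, Nat.card_congr e.monoidHomCongrLeftEquiv]
  congr 1
  have h3 := H40.card_inv_irr (G := K) (S := H) Subgroup.le_normalizer_of_normal hcop hsolv
  rw [← hC, ← H40.card_irr_congr (Subgroup.subgroupOfEquivOfLe (inf_le_right :
    K ⊓ Subgroup.normalizer (H : Set G) ≤ _)), Subgroup.inf_subgroupOf_right] at h3
  refine ((Nat.card_congr (Equiv.subtypeEquivRight fun θ => ?_)).trans h3).trans
    (Nat.card_congr (Equiv.subtypeUnivEquiv fun θ => ?_)).symm
  · rw [H32.inertia_eq_top_iff]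
    refine ⟨fun h x _ g g' e => (congrArg θ.1 (Subtype.ext e)).trans (h x g), fun h x g => ?_⟩
    exact H40.InvAll.sup (P := K) Subgroup.le_normalizer Subgroup.le_normalizer_of_normal
      (fun y hy => H40.invBy_of_mem (H28.Cfsg.IsIrrCharacter.isClassFunction θ.2) hy) h x
      (hKH ▸ Subgroup.mem_top x) g _ rfl
  · rw [Subgroup.eq_top_iff']
    intro x
    obtain ⟨⟨k, h⟩, e⟩ := hcompl.2 x
    have e' : (k : G) * h = x := e
    have hk : (k : G) ∈ Subgroup.normalizer (H : Set G) := by
      have := Subgroup.mul_mem _ x.2 (Subgroup.inv_mem _ (Subgroup.le_normalizer h.2))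
      rwa [← e', mul_inv_cancel_right] at this
    have : x = ⟨k, hk⟩ * ⟨h, Subgroup.le_normalizer h.2⟩ := Subtype.ext e'.symm
    rw [this]
    refine Subgroup.mul_mem _ (H32.le_inertia (H28.Cfsg.IsIrrCharacter.isClassFunction θ.2) k.2)
      (H32.mem_inertia_iff.2 fun n => congrArg θ.1 (Subtype.ext (Subtype.ext ?_)))
    exact mul_inv_eq_iff_eq_mul.2 ((hC.le ⟨n.2, n.1.2⟩).2 h h.2)

end Cfsg.Agent.S4452
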