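import Cfsg.Statements.S4453
import Cfsg.Agent.H34.IsaC

set_option autoImplicit false
open Cfsg

namespace Cfsg.Agent.S4453

/-- Inside a finite group Γ let S normalise the solvable subgroup G of odd order with the orders of G and S coprime, let C = G ⊓ C(S), and let L ≤ K be S-invariant normal subgroups of G with K/L abelian, G = KC and H = LC (so C ≤ H ≤ G). Then for each S-invariant irreducible character χ of G there is exactly one S-invariant irreducible character ψ of H whose multiplicity in the restriction of χ to H is odd, and χ ↦ ψ is a bijection from the S-invariant irreducible characters of G onto those of H (distinct χ give distinct ψ, and every S-invariant ψ arises). -/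
theorem result {Γ : Type*} [Group Γ] [Fintype Γ] (G S : Subgroup Γ) [Fintype G] (hnorm : ∀ s ∈ S, ∀ g ∈ G, s * g * s⁻¹ ∈ G) (hcop : (Nat.card G).Coprime (Nat.card S)) (hGsolv : Group.IsSolvable G) (hodd : Odd (Nat.card G)) (C : Subgroup Γ) [Fintype C] (hC : C = G ⊓ Subgroup.centralizer (S : Set Γ)) (hCG : C ≤ G) (K L H : Subgroup Γ) [Fintype H] (hLK : L ≤ K) (hKG : K ≤ G) (hKn : ∀ g ∈ G, ∀ k ∈ K, g * k * g⁻¹ ∈ K) (hLn : ∀ g ∈ G, ∀ l ∈ L, g * l * g⁻¹ ∈ L) (hKS : ∀ s ∈ S, ∀ k ∈ K, s * k * s⁻¹ ∈ K) (hLS : ∀ s ∈ S, ∀ l ∈ L, s * l * s⁻¹ ∈ L) (hab : ∀ a ∈ K, ∀ b ∈ K, a * b * a⁻¹ * b⁻¹ ∈ L) (hGKC : K ⊔ C = G) (hH : H = L ⊔ C) (hHG : H ≤ G) : (∀ χ : Cfsg.IrrCharacter G, (∀ s ∈ S, ∀ g g' : G, (g' : Γ) = s * g * s⁻¹ → (χ : G → ℂ) g' = (χ : G → ℂ) g) → ∃! ψ : Cfsg.IrrCharacter H, (∀ s ∈ S, ∀ g g' : H, (g'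 : Γ) = s * g * s⁻¹ → (ψ : H → ℂ) g' = (ψ : H → ℂ) g) ∧ ∃ m : ℕ, Cfsg.classInner (fun h : H => (χ : G → ℂ) ⟨h, hHG h.2⟩) (ψ : H → ℂ) = (m : ℂ) ∧ Odd m) ∧ (∀ χ χ' : Cfsg.IrrCharacter G, (∀ s ∈ S, ∀ g g' : G, (g' : Γ) = s * g * s⁻¹ → (χ : G → ℂ) g' = (χ : G → ℂ) g) → (∀ s ∈ S, ∀ g g' : G, (g' : Γ) = s * g * s⁻¹ → (χ' : G → ℂ) g' = (χ' : G → ℂ) g) → ∀ ψ : Cfsg.IrrCharacter H, (∀ s ∈ S, ∀ g g' : H, (g' : Γ) = s * g * s⁻¹ → (ψ : H → ℂ) g' = (ψ : H → ℂ) g) → ∀ m m' : ℕ, Cfsg.classInner (fun h : H => (χ : G → ℂ) ⟨h, hHG h.2⟩) (ψ : H → ℂ) = (m : ℂ) → Odd m → Cfsg.classInner (fun h : H => (χ' : G → ℂ) ⟨h, hHG h.2⟩) (ψ : H → ℂ) = (m' : ℂ) → Odd m' → χ = χ') ∧ (∀ ψ : Cfsg.IrrCharacter H, (∀ s ∈ S, ∀ g g' : H, (g' : Γ) = s * g * s⁻¹ → (ψ : H → ℂ) g' = (ψ : H → ℂ) g) → ∃ χ : Cfsg.IrrCharacter G, (∀ s ∈ S, ∀ g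 g' : G, (g' : Γ) = s * g * s⁻¹ → (χ : G → ℂ) g' = (χ : G → ℂ) g) ∧ ∃ m : ℕ, Cfsg.classInner (fun h : H => (χ : G → ℂ) ⟨h, hHG h.2⟩) (ψ : H → ℂ) = (m : ℂ) ∧ Odd m) := by
  have hCH : C ≤ H := hH ▸ le_sup_right
  have hLH : L ≤ H := hH ▸ le_sup_left
  have hGL : G ≤ H32.Nm L := fun g hg => H32.mem_Nm_of_conj_le (hLn g hg)
  have hGK : G ≤ H32.Nm K := fun g hg => H32.mem_Nm_of_conj_le (hKn g hg)
  have B := H34.Isa.main (L := H ⊓ K) hC (fun s hs => H32.mem_Nm_of_conj_le (hnorm s hs)) hcop hodd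
    hHG hCH hGKC rfl hGK (hGKC ▸ sup_le (fun k hk => H32.mem_Nm_of_conj_le fun y hy =>
      ⟨by simpa using mul_mem (hLH (hab k hk y hy.2)) hy.1, hKn k (hKG hk) y hy.2⟩)
      ((le_inf (hCH.trans Subgroup.le_normalizer) (hCG.trans hGK)).trans H32.Nm_inf_le_Nm_inf))
    (fun s hs => H32.mem_Nm_of_conj_le (hKS s hs))
    (fun a ha b hb => le_inf hLH hLK (hab a ha b hb)) fun s hs y hy => by
      obtain ⟨l, hl, c, hc, rfl⟩ := H32.exists_mul_of_mem_sup (hCG.trans hGL) (hH.le hy)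
      refine le_inf hLH hLK ?_
      have h1 := mul_mem (hLS s hs l hl) (inv_mem hl)
      rwa [← mul_assoc, mul_assoc _ c, ← (hC.le hc).2 _ (inv_mem hs), mul_inv_rev, ← mul_assoc,
        ← mul_assoc, mul_inv_cancel_right]
  open H28 in
  have key : ∀ (χ : IrrCharacter G) (ψ : IrrCharacter H), (∃ m : ℕ, classInner
      (fun h : H => (χ : G → ℂ) ⟨h, hHG h.2⟩) (ψ : H → ℂ) = (m : ℂ) ∧ Odd m) ↔
      Odd (H40.mult hHG χ.1 ψ.1) := fun χ ψ =>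
    ⟨fun ⟨m, h1, h2⟩ => (H40.mult_eq hHG h1).symm ▸ h2, fun h =>
      ⟨_, H40.mult_spec hHG χ.2.isCharacter
        ψ.2.isCharacter, h⟩⟩
  refine ⟨fun χ hχ => ?_, fun χ χ' h h' ψ hψ m m' h1 h2 h3 h4 => Subtype.ext
    (B.unL _ _ _ ⟨χ.2, h⟩ ⟨χ'.2, h'⟩ ⟨ψ.2, hψ⟩ ((key χ ψ).1 ⟨m, h1, h2⟩)
      ((key χ' ψ).1 ⟨m', h3, h4⟩)), fun ψ hψ => ?_⟩
  · obtain ⟨ψ, hψ, h⟩ := B.exR _ ⟨χ.2, hχ⟩
    exact ⟨⟨ψ, hψ.1⟩, ⟨hψ.2, (key χ ⟨ψ, hψ.1⟩).2 h⟩, fun ψ' h' => Subtype.ext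
      (B.unR _ _ _ ⟨χ.2, hχ⟩ ⟨ψ'.2, h'.1⟩ hψ ((key χ ψ').1 h'.2) h)⟩
  · obtain ⟨χ, hχ, h⟩ := B.exL _ ⟨ψ.2, hψ⟩
    exact ⟨⟨χ, hχ.1⟩, hχ.2, (key ⟨χ, hχ.1⟩ ψ).2 h⟩

end Cfsg.Agent.S4453
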