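import Cfsg.Statements.S4454
import Cfsg.Agent.H40.GlCan

set_option autoImplicit false
open Cfsg

namespace Cfsg.Agent.S4454

/-- Let N ≤ G be normal subgroups of the finite group Γ with Γ/G cyclic and Γ/N a Frobenius group with kernel G/N: G ≠ Γ, N ≠ G, and no element of Γ outside G fixes a non-identity coset of N in G under conjugation. Let ϑ be an irreducible character of N invariant under conjugation by Γ and suppose ϑ is fully ramified in G: the character of G induced from ϑ equals e·χ for an irreducible character χ of G and a natural number e. Then the index of G in Γ divides e − 1 or e + 1. -/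
theorem result {Γ : Type*} [Group Γ] [Fintype Γ] (G N : Subgroup Γ) [hG : G.Normal] [hN : N.Normal] [Fintype G] [Fintype N] (hNG : N ≤ G) (hGlt : G ≠ ⊤) (hNlt : N ≠ G) (hcyc : IsCyclic (Γ ⧸ G)) (hfrob : ∀ x : Γ, x ∉ G → ∀ g : Γ, g ∈ G → x * g * x⁻¹ * g⁻¹ ∈ N → g ∈ N) (θ : Cfsg.IrrCharacter N) (hinv : ∀ (x : Γ) (n : N), (θ : N → ℂ) ⟨x * n * x⁻¹, hN.conj_mem n n.2 x⟩ = (θ : N → ℂ) n) (χ : Cfsg.IrrCharacter G) (e : ℕ) (hram : Cfsg.indFun (N.subgroupOf G) (fun n : N.subgroupOf G => (θ : N → ℂ) ⟨(n : G), n.2⟩) = fun g => (e : ℂ) * (χ : G → ℂ) g) : (G.index : ℤ) ∣ (e : ℤ) - 1 ∨ (G.index : ℤ) ∣ (e : ℤ) + 1 := by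
  classical
  have hnN : ∀ x, x ∈ Subgroup.normalizer (N : Set Γ) := fun x =>
    Subgroup.le_normalizer_of_normal (K := ⊤) trivial
  have hnG : ∀ x, x ∈ Subgroup.normalizer (G : Set Γ) := fun x =>
    Subgroup.le_normalizer_of_normal (K := ⊤) trivial
  have hθ : ∀ x, H40.cjn (hnN x) θ = θ := fun x => funext (hinv x)
  have h1 : ∀ ψ : G → ℂ, IsIrrCharacter G ψ →
      classInner (H40.res hNG ψ) θ = e * classInner ψ χ := fun ψ hψ => by
    have := Fintype.ofFinite (N.subgroupOf G)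
    rw [← H40.classInner_subgroupOf hNG, ← H33.classInner_indFun_right (N.subgroupOf G) _
      (H28.Cfsg.IsIrrCharacter.isClassFunction hψ), hram]
    exact (H28.classInner_smul_right (e : ℂ) ψ χ.1).trans (by rw [map_natCast])
  have h2 : classInner (H40.res hNG χ) θ = e := by
    rw [h1 _ χ.2, H28.Cfsg.IsIrrCharacter.classInner_self χ.2, mul_one]
  have he : (e : ℂ) ≠ 0 := by
    obtain ⟨ψ, hψ, h⟩ := H40.exists_irr_over' hNG θ.2
    exact left_ne_zero_of_mul (h1 ψ hψ ▸ h)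
  have h3 : ∀ x, H40.InvBy G x χ := fun x => (H40.invBy_iff_cjn (hnG x)).2 (by
    refine H28.Cfsg.IsIrrCharacter.eq_of_classInner_ne_zero (H40.isIrr_cjn _ χ.2) χ.2
      (right_ne_zero_of_mul (a := (e : ℂ)) ?_)
    rwa [← h1 _ (H40.isIrr_cjn _ χ.2), ← hθ x, H40.classInner_res_cjn, h2])
  obtain ⟨⟨s⟩, hs⟩ := isCyclic_iff_exists_zpowers_eq_top.1 hcyc
  have htop : G ⊔ Subgroup.zpowers s = ⊤ := by
    have := congrArg (Subgroup.comap (QuotientGroup.mk' G)) ((MonoidHom.map_zpowers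
      (QuotientGroup.mk' G) s).trans hs)
    rwa [Subgroup.comap_map_eq, QuotientGroup.ker_mk', Subgroup.comap_top, sup_comm] at this
  have hsG : s ∉ G := fun h => hGlt (by rw [← htop, sup_eq_left.2 (Subgroup.zpowers_le.2 h)])
  have hnorm := H40.normal_inclusion_range le_sup_left (H40.sup_zpowers_le_normalizer (hnN s))
  have hinf : G ⊓ (N ⊔ Subgroup.zpowers s) = N := by
    refine le_antisymm (fun y hy => ?_) (le_inf hNG le_sup_left)
    obtain ⟨n, hn, _, ⟨k, rfl⟩, rfl⟩ := Subgroup.mem_sup_of_normal_left.1 hy.2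
    refine N.mul_mem hn (hfrob s hsG _ ((G.mul_mem_cancel_left (hNG hn)).1 hy.1) ?_)
    convert N.one_mem
    group
  obtain ⟨X, hX⟩ := H40.exists_isExt (hnG s) χ.2 (h3 s)
  obtain ⟨Y, hY⟩ := H40.exists_isExt (hnN s) θ.2 ((H40.invBy_iff_cjn (hnN s)).2 (hθ s))
  obtain ⟨η, hη, h4⟩ := H40.exists_quot_char_inner
    (Subgroup.inclusion (le_sup_left : N ≤ N ⊔ Subgroup.zpowers s))
    (Subgroup.inclusion_injective _) (hX.1.mono (sup_le_sup_right hNG _)) hY.1
  have h5 : Nat.card (↥(N ⊔ Subgroup.zpowers s) ⧸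
      (Subgroup.inclusion (le_sup_left : N ≤ N ⊔ Subgroup.zpowers s)).range) = G.index := by
    rw [← Subgroup.index, Subgroup.inclusion_range, ← Subgroup.relIndex]
    conv_lhs => arg 1; rw [← hinf]
    rw [Subgroup.inf_relIndex_right, ← Subgroup.relIndex_sup_left, ← sup_assoc, sup_eq_left.2 hNG,
      htop, Subgroup.relIndex_top_right]
  rw [← h5]
  refine H40.card_dvd_degree_pm (fun a b => (H40.isCyclic_quot_of_sup _ _
    (H40.inclusion_range_sup_zpowers N s)).isMulCommutative.is_comm.comm a b) hη ?_ ?_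
  · rintro ⟨x⟩ hx
    have hxG : (x : Γ) ∉ G := fun h => hx ((QuotientGroup.eq_one_iff x).2
      ⟨⟨x, hinf.le ⟨h, x.2⟩⟩, rfl⟩)
    have hd : H40.GlData G N x := ⟨hNG, hnG x, hnN x, fun k hk g hg c hc c' hc' e => by
      refine hfrob (c * x ^ k) (fun h => hxG (Subgroup.zpowers_le.2
        ((G.mul_mem_cancel_left (hNG hc)).1 h) (mem_zpowers_pow_iff.2 hk))) g⁻¹ (G.inv_mem hg) ?_
        |> fun h => by simpa using h
      have : c * x ^ k * g⁻¹ * (c * x ^ k)⁻¹ * g⁻¹⁻¹ = g⁻¹ * (c' * c⁻¹) * g⁻¹⁻¹ := by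
        calc _ = g⁻¹ * (g * (c * x ^ k) * g⁻¹) * (c * x ^ k)⁻¹ * g⁻¹⁻¹ := by group
          _ = _ := by rw [e]; group
      rw [this]
      exact hN.conj_mem _ (N.mul_mem hc' (N.inv_mem hc)) _⟩
    have hX' : H40.IsExt G x χ X := ⟨hX.1.mono (htop ▸ le_top), hX.2⟩
    have hY' : H40.IsExt N x θ Y :=
      ⟨hY.1.mono (sup_le le_sup_left (Subgroup.zpowers_le.2 x.2)), hY.2⟩
    obtain ⟨β, hβ, hr⟩ := hd.exists_rel_right χ.2 (h3 x)
    obtain ⟨g, hg, rfl⟩ := H40.exists_cjn_of_constituent hNG (fun g _ => hnN g) χ.2 θ.2 hβ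
      (h2 ▸ he) (hd.inner_ne_zero hβ hr)
    rw [hθ] at hr
    exact (congrArg norm (h4 x)).trans
      (hd.key χ.2 θ.2 hX' hY' (hd.inner_ne_zero_of_rel χ.2 θ.2 hX' hY' hr)).1
  · refine (h4 1).trans (Eq.trans ?_ h2)
    congr 1
    · exact funext fun n => by simpa using hX.2 ⟨n, hNG n.2⟩
    · exact funext fun n => by simpa using hY.2 n

end Cfsg.Agent.S4454
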