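import Cfsg.Statements.S4459
import Cfsg.Agent.H44.CD5

set_option autoImplicit false
open Cfsg

namespace Cfsg.Agent.S4459

/-- Let G be a non-abelian finite group and p a prime. Then the irreducible character degrees of G are exactly 1 and p if and only if either G has an abelian normal subgroup of index p or the centre of G has index p³. -/
theorem result {G : Type*} [Group G] [Finite G] (hG : ∃ a b : G, a * b ≠ b * a) (p : ℕ) (hp : p.Prime) : ((∀ χ : Cfsg.IrrCharacter G, Cfsg.charDegree (χ : G → ℂ) = 1 ∨ Cfsg.charDegree (χ : G → ℂ) = p) ∧ ∃ χ : Cfsg.IrrCharacter G, Cfsg.charDegree (χ : G → ℂ) = p) ↔ ((∃ A : Subgroup G, A.Normal ∧ (∀ a ∈ A, ∀ b ∈ A, a * b = b * a) ∧ A.index = p) ∨ (Subgroup.center G).index = p ^ 3) := by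
  refine ⟨fun h => H44.degrees_one_prime hp (fun d ⟨χ, e⟩ => e ▸ h.1 χ) h.2, fun h => ?_⟩
  have h1 : ∀ d ∈ charDegrees G, d = 1 ∨ d = p := fun d hd => by
    rcases h with ⟨A, _, h1, h2⟩ | h
    · exact (Nat.dvd_prime hp).1 (h2 ▸ H44.dvd_index_of_mem_cd hd A h1)
    · obtain ⟨k, -, rfl⟩ := (Nat.dvd_prime_pow hp).1 (h ▸ H44.dvd_index_of_mem_cd hd
        (Subgroup.center G) fun a ha b _ => (Subgroup.mem_center_iff.1 ha b).symm)
      have h2 := H44.sq_le_index_center_of_mem_cd hd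
      rw [h, ← pow_mul, Nat.pow_le_pow_iff_right hp.one_lt] at h2
      rcases (show k = 0 ∨ k = 1 by omega) with rfl | rfl <;> simp
  refine ⟨fun χ => h1 _ ⟨χ, rfl⟩, by_contra fun h2 => ?_⟩
  obtain ⟨a, b, hab⟩ := hG
  exact hab (H44.comm_of_cd (fun d hd => (h1 d hd).resolve_right fun e => h2 (e ▸ hd)) a b)

end Cfsg.Agent.S4459
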