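import Cfsg.Statements.S4467
import Cfsg.Agent.H44.CD1
import Cfsg.Agent.H32.QuasiPrim
import Cfsg.Agent.H98.Coprime
import Cfsg.Agent.H2.CoreFree
import Cfsg.Agent.H4.HallBasic

set_option autoImplicit false
open Cfsg

namespace Cfsg.Agent.S4467

open Subgroup H28 H32

universe u

def Good (p n : ℕ) : Prop :=
  ∃ q : ℕ, IsPrimePow q ∧ q ∣ n ∧
    ((q : ℤ) ≡ -1 [ZMOD p] ∨ (q : ℤ) ≡ 0 [ZMOD p] ∨ (q : ℤ) ≡ 1 [ZMOD p])

theorem Good.mono {p n m : ℕ} (h : Good p n) (e : n ∣ m) : Good p m :=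
  let ⟨q, h1, h2, h3⟩ := h; ⟨q, h1, h2.trans e, h3⟩

theorem pow_sub_modEq {p r j k : ℕ} (hp : p.Prime) (hr : ¬ p ∣ r ^ k) (hj : j ≤ k)
    (h : r ^ k ≡ r ^ j [MOD p]) : r ^ (k - j) ≡ 1 [MOD p] := by
  refine Nat.ModEq.cancel_left_of_coprime (c := r ^ j) ((Nat.Prime.coprime_iff_not_dvd hp).2
    fun e => hr (e.trans (pow_dvd_pow r hj))) ?_
  rwa [← pow_add, mul_one, Nat.add_sub_cancel' hj]

variable {G : Type u} [Group G] [Finite G] {p : ℕ} [hp : Fact p.Prime] {χ : G → ℂ}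

omit hp in
theorem card_lt {A B : Subgroup G} (h : A < B) : Nat.card A < Nat.card B :=
  lt_of_not_ge fun e => h.ne (eq_of_le_of_card_ge h.le e)

theorem imprim [Group.IsSolvable G] (P : Sylow p G)
    (gen : ∀ M : Subgroup G, M.Normal → (P : Subgroup G) ≤ M → M = ⊤) {T : Subgroup G}
    (hT : T ≠ ⊤) (hd : ¬ p ∣ T.index) : Good p T.index := by
  obtain ⟨U, hU, hTU⟩ := (eq_top_or_exists_le_coatom T).resolve_left hT
  refine Good.mono ?_ (index_dvd_of_le hTU)
  replace hd : ¬ p ∣ U.index := fun e => hd (e.trans (index_dvd_of_le hTU))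
  let π := QuotientGroup.mk' U.normalCore
  have h1 := isCoatom_map_mk U.normalCore_le hU
  have : Nontrivial (G ⧸ U.normalCore) := ⟨by
    by_contra e
    push Not at e
    exact h1.1 (eq_top_iff.2 fun x _ => e 1 x ▸ one_mem _)⟩
  obtain ⟨r, W, hr, hW, -, W1, -, pW, -⟩ :=
    H2.exists_elementaryAbelian_normal_le (⊤ : Subgroup (G ⧸ U.normalCore)) top_ne_bot
  have := Fact.mk hr
  have := pW.isNilpotent
  obtain ⟨c1, c2, -⟩ := H2.nilpotent_normal_of_corefree h1 (normalCore_map_mk_eq_bot U) W W1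
  have e1 : U.index = Nat.card W := by
    rw [← c2.index_eq_card, index_map_eq U (QuotientGroup.mk'_surjective _)
      (by rw [QuotientGroup.ker_mk']; exact U.normalCore_le)]
  have pP := P.isPGroup'.map π
  have e2 := H2.card_modEq_card_inf_centralizer pP (K := W) le_normalizer_of_normal
  obtain ⟨k, hk⟩ := IsPGroup.iff_card.1 pW
  obtain ⟨j, hj⟩ := IsPGroup.iff_card.1 (pW.to_inf_left (K := centralizer ((P : Subgroup G).map π)))
  have lt : j < k := (Nat.pow_lt_pow_iff_right hr.one_lt).1 (hj ▸ hk ▸ card_lt (inf_lt_left.2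
    fun e => hU.1 (eq_top_iff.2 ((gen _ inferInstance fun x hx => ?_).ge.trans U.normalCore_le))))
  · rw [e1, hk] at hd ⊢
    rw [hk, hj] at e2
    exact ⟨r ^ (k - j), hr.isPrimePow.pow (by omega), pow_dvd_pow r (by omega),
      .inr (.inr (Int.natCast_modEq_iff.2 (pow_sub_modEq hp.out hd lt.le e2)))⟩
  have e3 : (P : Subgroup G).map π ≤ W := c1 ▸ le_centralizer_iff.1 e
  have e4 := pP.card_eq_or_dvd.resolve_right fun e4 => hd (e1 ▸ e4.trans (card_dvd_of_le e3))
  exact (QuotientGroup.eq_one_iff x).1 (mem_bot.1 (card_eq_one.1 e4 ▸ mem_map_of_mem π hx))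

omit hp in
theorem deg_sq (hχ : IsIrrCharacter G χ) (hk : charKer χ = ⊥) {Y : Subgroup G} [Fintype Y]
    (h1 : ⁅Y, Y⁆ ≤ center G) (h2 : Y ⊓ centralizer (Y : Set G) ≤ center G) {θ : Y → ℂ}
    (hθ : IsIrrCharacter Y θ) (hc : classInner (fun y : Y => χ y) θ ≠ 0) :
    Nat.card (Y ⊓ center G :) * charDegree θ ^ 2 = Nat.card Y := by
  have e1 : charCenter θ = (center G).subgroupOf Y := by
    refine le_antisymm (fun y hy => h2 ⟨y.2, fun g hg => ?_⟩) fun y hy => hθ.center_le_charCenter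
      (mem_center_iff.2 fun g => Subtype.ext (mem_center_iff.1 hy g))
    have e2 := hθ.mem_charCenter_iff_commutator.1 hy ⟨g, hg⟩
    have e3 : (y : G) * g * (y : G)⁻¹ * g⁻¹ ∈ center G := h1 (commutator_mem_commutator y.2 hg)
    obtain ⟨l, hl⟩ := hχ.exists_central_hom (Z := center G) le_rfl
    have e4 := classInner_comp_equiv (Equiv.mulLeft (y * ⟨g, hg⟩ * y⁻¹ * ⟨g, hg⟩⁻¹))
      (fun y : Y => χ y) θ
    have e5 : (fun x : Y => χ ((y * ⟨g, hg⟩ * y⁻¹ * ⟨g, hg⟩⁻¹ * x : Y) : G)) =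
        (l ⟨_, e3⟩ : ℂ) • fun x : Y => χ x := funext fun x => hl ⟨_, e3⟩ x
    simp only [Equiv.coe_mulLeft] at e4
    rw [e5, funext e2, classInner_smul_left, mul_eq_right₀ hc] at e4
    have e6 : (y : G) * g * (y : G)⁻¹ * g⁻¹ ∈ charKer χ := fun x => by
      rw [hl ⟨_, e3⟩ x, e4, one_mul]
    rw [hk, mem_bot, mul_inv_eq_one, mul_inv_eq_iff_eq_mul] at e6
    exact e6.symm
  rw [hθ.degree_sq_eq_index_of_commutator_le (by
    rw [e1, subgroupOf, ← map_le_iff_le_comap, map_subtype_commutator]; exact h1)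
    hθ.cast_charDegree.symm, e1, ← ((center G).subgroupOf Y).card_mul_index, inf_comm,
    ← subgroupOf_map_subtype, card_map_of_injective Y.subtype_injective]

theorem prim [Group.IsSolvable G] (hχ : IsIrrCharacter G χ) (hk : charKer χ = ⊥)
    (hq : ∀ A : Subgroup G, A.Normal → ∃ (φ : A → ℂ) (e : ℕ), IsIrrCharacter A φ ∧
      (fun a : A => χ a) = (e : ℂ) • φ) (hd : ¬ p ∣ charDegree χ) (P : Sylow p G)
    (gen : ∀ M : Subgroup G, M.Normal → (P : Subgroup G) ≤ M → M = ⊤)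
    (hP : ¬ (P : Subgroup G) ≤ pCore p G) : Good p (charDegree χ) := by
  have ab : ∀ A : Subgroup G, A.Normal → ⁅A, A⁆ ≤ ⊥ → A ≤ center G := fun A hA e => by
    obtain ⟨φ, n, h1, h2⟩ := hq A hA
    exact hχ.charCenter_eq_center hk ▸ le_charCenter_of_homogeneous hχ.isCharacter (hk ▸ e) h1 h2
  have Op : pCore p G ≤ center G := ab _ inferInstance (by
    obtain ⟨φ, n, h1, h2⟩ := hq (pCore p G) inferInstance
    obtain ⟨k, hk'⟩ := h1.exists_pow_charDegree (H2.pCore_isPGroup p G)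
    have e1 : charDegree χ = n * p ^ k := by
      rw [← hk', ← h1.isCharacter.charDegree_natCast_smul, ← h2]; rfl
    obtain rfl : k = 0 := by_contra fun e => hd (e1 ▸ (dvd_pow_self p e).mul_left n)
    rw [← map_subtype_commutator, ← hk]
    rintro _ ⟨a, ha, rfl⟩
    have e2 := apply_of_mem_charKer (h1.charDegree_eq_one_iff.1 hk' ha)
    exact hχ.mem_charKer.2 ((congrFun h2 a).trans (by
      rw [Pi.smul_apply, e2]; exact (congrFun h2 1).symm)))
  have cP : center G ≤ centralizer ((P : Subgroup G) : Set G) := center_le_centralizer _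
  obtain ⟨r, hr⟩ : ∃ r : Nat.Primes, ¬ pCore r G ≤ center G := by
    by_contra e
    push Not at e
    refine hP (H2.le_pCore_of_le_fitting P.isPGroup' ((le_centralizer_iff.1 ?_).trans
      (H2.centralizer_fitting_le G)))
    rw [H2.fitting_eq_iSup_pCore]
    exact iSup_le fun r => (e r).trans cP
  have := Fact.mk r.2
  have rp : p ≠ r := fun e => hr (e ▸ Op)
  obtain ⟨K, ⟨hK, pK, nK⟩, mK⟩ := H2.exists_minimal_subgroup
    (fun K : Subgroup G => K.Normal ∧ IsPGroup r K ∧ ¬ K ≤ center G)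
    ⟨_, inferInstance, H2.pCore_isPGroup r G, hr⟩
  have c1 : ⁅K, K⁆ ≤ center G := by
    by_contra e
    exact (H2.commutator_lt_of_isSolvable (M := K) fun e => nK (e ▸ bot_le)).ne
      (mK _ ⟨inferInstance, pK.to_le (commutator_le_left K K), e⟩ (commutator_le_left K K))
  have c2 : K ⊓ centralizer (K : Set G) ≤ center G := ab _ inferInstance
    ((commutator_mono inf_le_right inf_le_left).trans
      (commutator_eq_bot_iff_le_centralizer.2 le_rfl).le)
  have pd := H98.not_dvd_card_of_isPGroup_ne hp.out rp pK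
  have c3 := H98.commutator_sup_centralizer_eq P.isPGroup' pd le_normalizer_of_normal
  set K2 := K ⊓ centralizer ((P : Subgroup G) : Set G)
  have c4 : ⁅⁅K, (P : Subgroup G)⁆, K2⁆ = ⊥ := commutator_commutator_eq_bot_of_rotate
    (by rw [commutator_eq_bot_iff_le_centralizer.2 (le_centralizer_iff.1 inf_le_right),
      commutator_bot_left])
    (commutator_eq_bot_iff_le_centralizer.2
      (((commutator_mono inf_le_left le_rfl).trans c1).trans cP))
  have := Fintype.ofFinite G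
  have := Fintype.ofFinite K
  have := Fintype.ofFinite K2
  obtain ⟨θ, hθ, hc⟩ := exists_constituent_res (H := K) hχ.isCharacter hχ.apply_one_ne_zero
  obtain ⟨θ', hθ', hc'⟩ := exists_constituent_res (H := K2) hχ.isCharacter hχ.apply_one_ne_zero
  have d1 := deg_sq hχ hk c1 c2 hθ hc
  have d2 := deg_sq hχ hk ((commutator_mono inf_le_left inf_le_left).trans c1)
    (fun x hx => c2 ⟨hx.1.1, le_centralizer_iff.1 (c3.ge.trans (sup_le ((commutator_eq_bot_iff_le_centralizer.1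
      c4).trans (centralizer_le (SetLike.coe_subset_coe.2 (zpowers_le.2 hx.1)))) (le_centralizer_iff.1
      (zpowers_le.2 hx.2)))) (mem_zpowers x)⟩) hθ' hc'
  rw [inf_assoc, inf_eq_right.2 cP] at d2
  obtain ⟨a, ha⟩ := hθ.exists_pow_charDegree pK
  obtain ⟨b, hb⟩ := hθ'.exists_pow_charDegree (pK.to_le inf_le_left)
  obtain ⟨c, hc2⟩ := IsPGroup.iff_card.1 (pK.to_inf_left (K := center G))
  obtain ⟨k, -, hk'⟩ := H44.exists_degree_mul hχ hθ hc
  have e2 := H2.card_modEq_card_inf_centralizer P.isPGroup' (K := K) le_normalizer_of_normal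
  have lt := card_lt (inf_lt_left.2 fun e : K ≤ centralizer ((P : Subgroup G) : Set G) =>
    nK fun x hx => mem_center_iff.2 fun g =>
      ((gen _ inferInstance (le_centralizer_iff.1 e)).ge (mem_top g) x hx).symm)
  rw [← d1, ← d2, ha, hb, hc2, ← pow_mul, ← pow_mul, ← pow_add, ← pow_add] at e2 lt
  rw [← d1, ha, hc2, ← pow_mul, ← pow_add] at pd
  replace lt := (Nat.pow_lt_pow_iff_right r.2.one_lt).1 lt
  have e3 := Int.natCast_modEq_iff.2 (pow_sub_modEq hp.out pd lt.le e2)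
  rw [show c + a * 2 - (c + b * 2) = (a - b) * 2 by omega, pow_mul] at e3
  refine ⟨r ^ (a - b), r.2.isPrimePow.pow (by omega),
    hk' ▸ ha ▸ (pow_dvd_pow _ (by omega)).mul_left k, ?_⟩
  generalize (r : ℕ) ^ (a - b) = q at e3
  have e4 : (p : ℤ) ∣ (q + 1) * (q - 1) := by
    convert e3.symm.dvd using 1; push_cast; ring
  rcases (Nat.prime_iff_prime_int.1 hp.out).dvd_or_dvd e4 with e | e
  exacts [.inl (Int.modEq_iff_dvd.2 (by simpa using e)).symm, .inr (.inr (Int.modEq_iff_dvd.2 e).symm)]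

theorem key (n : ℕ) : ∀ {G : Type u} [Group G] [Finite G] [Group.IsSolvable G] {χ : G → ℂ},
    Nat.card G = n → IsIrrCharacter G χ → ∀ x y : G, (∃ i, x ^ p ^ i = 1) → (∃ i, y ^ p ^ i = 1) →
    (∀ i, (x * y) ^ p ^ i ∉ charKer χ) → Good p (charDegree χ) := by
  induction n using Nat.strong_induction_on with
  | _ n ih =>
  intro G _ _ _ χ hn hχ x y hx hy hxy
  by_cases hk : charKer χ = ⊥
  swap
  · have := hχ.charKer_normal
    obtain ⟨η, hη, e⟩ := hχ.exists_quotient _ le_rfl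
    rw [← charDegree_congr (η := η) (by simpa using e 1)]
    refine ih _ (hn ▸ H4.card_quotient_lt _ hk) rfl hη x y
      (hx.imp fun i e => by rw [← QuotientGroup.mk_pow, e]; rfl)
      (hy.imp fun i e => by rw [← QuotientGroup.mk_pow, e]; rfl) fun i e1 => hxy i fun g => ?_
    rw [← e, ← e g]
    exact e1 g
  by_cases hd : p ∣ charDegree χ
  · exact ⟨p, hp.out.isPrimePow, hd, .inr (.inl Int.modulus_modEq_zero)⟩
  obtain ⟨P⟩ : Nonempty (Sylow p G) := inferInstance
  have mem : ∀ M : Subgroup G, M.Normal → (P : Subgroup G) ≤ M → ∀ x : G, (∃ i, x ^ p ^ i = 1) →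
      x ∈ M := fun M hM e x ⟨i, hi⟩ => by
    obtain ⟨g, -, e1⟩ := (H98.isSyl_sylow P).exists_cj_le (H98.isPGroup_zpowers hi) le_top
    simpa [mul_assoc] using hM.conj_mem _ (e (e1 (mem_map_of_mem _ (mem_zpowers x)))) g⁻¹
  have := Fintype.ofFinite G
  by_cases gen : ∀ M : Subgroup G, M.Normal → (P : Subgroup G) ≤ M → M = ⊤
  swap
  · push Not at gen
    obtain ⟨M, hM, h1, h2⟩ := gen
    have := Fintype.ofFinite M
    let x' : M := ⟨x, mem M hM h1 x hx⟩
    let y' : M := ⟨y, mem M hM h1 y hy⟩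
    by_cases e : ∀ θ : IrrCharacter M, ∃ i, classInner (fun m : M => χ m) θ.1 ≠ 0 →
        (x' * y') ^ p ^ i ∈ charKer θ.1
    · choose f hf using e
      have := (hχ.isCharacter.restrict M).mem_charKer_iff_constituents.2 fun θ hθ hc =>
        show (x' * y') ^ p ^ Finset.univ.sup f ∈ charKer θ by
          obtain ⟨j, hj⟩ := Nat.exists_eq_add_of_le
            (Finset.le_sup (f := f) (Finset.mem_univ (⟨θ, hθ⟩ : IrrCharacter M)))
          rw [hj, pow_add, pow_mul]
          exact pow_mem (hf ⟨θ, hθ⟩ hc) _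
      rw [hχ.isCharacter.charKer_restrict] at this
      exact absurd this (hxy _)
    push Not at e
    obtain ⟨θ, hθ⟩ := e
    obtain ⟨k, -, e⟩ := H44.exists_degree_mul hχ θ.2 (hθ 0).1
    exact (ih _ (hn ▸ H4.card_lt_of_ne_top _ h2) rfl θ.2 x' y'
      (hx.imp fun i e => Subtype.ext e) (hy.imp fun i e => Subtype.ext e)
      fun i => (hθ i).2).mono (e ▸ dvd_mul_left _ _)
  by_cases hq : ∀ (T : Subgroup G) (η : T → ℂ), T ≠ ⊤ → IsIrrCharacter T η → indFun T η ≠ χ
  · refine prim hχ hk (homogeneous_of_primitive hχ hq) hd P gen fun e => ?_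
    obtain ⟨i, hi⟩ := H98.isPGroup_iff_forall.1 (H2.pCore_isPGroup p G) _
      (mul_mem (mem _ inferInstance e x hx) (mem _ inferInstance e y hy))
    exact hxy i (hi ▸ one_mem _)
  push Not at hq
  obtain ⟨T, η, h1, h2, rfl⟩ := hq
  rw [h2.isCharacter.charDegree_indFun] at hd ⊢
  exact (imprim P gen h1 fun e => hd (e.mul_right _)).mono (dvd_mul_right _ _)

/-- Let the finite solvable group G have a faithful irreducible character of degree n, and suppose that for the prime p a Sylow p-subgroup of G is not normal. Then n is divisible by a prime power q > 1 with q congruent to −1, 0 or 1 modulo p. -/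
theorem result {G : Type*} [Group G] [Finite G] (χ : Cfsg.IrrCharacter G) (hfaith : ∀ g : G, (χ : G → ℂ) g = (χ : G → ℂ) 1 → g = 1) (n : ℕ) (hn : Cfsg.charDegree (χ : G → ℂ) = n) (hsolv : Group.IsSolvable G) (p : ℕ) (hp : p.Prime) (P : Sylow p G) (hP : ¬ (P : Subgroup G).Normal) : ∃ q : ℕ, IsPrimePow q ∧ q ∣ n ∧ ((q : ℤ) ≡ -1 [ZMOD p] ∨ (q : ℤ) ≡ 0 [ZMOD p] ∨ (q : ℤ) ≡ 1 [ZMOD p]) := by
  have := Fact.mk hp
  by_contra e
  refine hP ?_
  let S : Subgroup G :=
    { carrier := {x | ∃ i, x ^ p ^ i = 1}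
      one_mem' := ⟨0, one_pow _⟩
      inv_mem' := fun hx => hx.imp fun i e => by rw [inv_pow, e, inv_one]
      mul_mem' := fun {x y} hx hy => by_contra fun e1 => e (hn ▸ key _ rfl χ.2 x y hx hy
        fun i e2 => e1 ⟨i, hfaith _ (apply_of_mem_charKer e2)⟩) }
  rw [← P.is_maximal' (Q := S) (H98.isPGroup_iff_forall.2 fun _ h => h)
    (H98.isPGroup_iff_forall.1 P.isPGroup')]
  exact ⟨fun x hx g => hx.imp fun i e => by rw [conj_pow, e]; simp⟩

end Cfsg.Agent.S4467
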