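import Cfsg.Agent.Base
import Cfsg.Agent.S4473
import Cfsg.Agent.H9.PBasic
import Cfsg.Agent.H2.Fitting
import Cfsg.Agent.H28.Degree
import Cfsg.Agent.H32.CliffordCorr
import Cfsg.Agent.H32.IndKer
import Cfsg.Statements.S4471

set_option autoImplicit false
open Cfsg

namespace Cfsg.Agent.S4471

open H28 H32 Module
open scoped commutatorElement

theorem mem_of_pow_mem {G : Type*} [Group G] {T : Subgroup G} {x : G} {a p : ℕ} (hp : p.Prime)
    (h1 : x ^ a ∈ T) (h2 : x ^ p = 1) (h3 : ¬ p ∣ a) : x ∈ T := by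
  obtain ⟨m, hm⟩ := exists_pow_eq_self_of_coprime (x := x) (n := a)
    (((Nat.Prime.coprime_iff_not_dvd hp).2 h3).symm.coprime_dvd_right
      (orderOf_dvd_of_pow_eq_one h2))
  exact hm ▸ T.pow_mem h1 m

/-- Two operators with the same quadratic relation act irreducibly only in dimension at most 2. -/
theorem finrank_le_two {H U : Type*} [Group H] [Finite H] [AddCommGroup U] [Module ℂ U]
    [FiniteDimensional ℂ U] (σ : Representation ℂ H U) [hσ : σ.IsIrreducible] {z w : H} {s t : ℂ}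
    (hH : Subgroup.closure {z, w} = ⊤) (hz : ∀ v, σ z (σ z v) = s • σ z v - t • v)
    (hw : ∀ v, σ w (σ w v) = s • σ w v - t • v) : finrank ℂ U ≤ 2 := by
  have hgen : ∀ P : H → Prop, P 1 → P z → P w → (∀ a b, P a → P b → P (a * b)) → ∀ h, P h := by
    intro P h1 h2 h3 h4 h
    have : h ∈ Submonoid.closure {z, w} := by
      rw [← Subgroup.closure_toSubmonoid_of_finite, hH]; trivial
    induction this using Submonoid.closure_induction with
    | mem x hx => rcases hx with rfl | rfl <;> assumption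
    | one => exact h1
    | mul a b _ _ ha hb => exact h4 a b ha hb
  have := nontrivial_of_isIrreducible σ
  obtain ⟨c, hc⟩ := exists_eq_smul_id_of_comm σ (σ z ∘ₗ σ w + σ w ∘ₗ σ z - s • σ z - s • σ w)
    (hgen (fun g => _ ∘ₗ σ g = σ g ∘ₗ _) (by ext; simp)
      (by ext v; simp [hz, map_sub, map_smul]; module)
      (by ext v; simp [hw, map_sub, map_smul]; module)
      fun a b ha hb => by
        rw [map_mul, Module.End.mul_eq_comp, ← LinearMap.comp_assoc, ha, LinearMap.comp_assoc, hb,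
          LinearMap.comp_assoc])
  obtain ⟨μ, hμ⟩ := Module.End.exists_eigenvalue (σ z)
  obtain ⟨v, hv⟩ := hμ.exists_hasEigenvector
  have h1 : σ z v = μ • v := hv.apply_eq_smul
  have h2 : σ z (σ w v) = (c + s * μ) • v + (s - μ) • σ w v := by
    have := LinearMap.congr_fun hc v
    simp only [LinearMap.sub_apply, LinearMap.add_apply, LinearMap.comp_apply, LinearMap.smul_apply,
      h1, map_smul, LinearMap.id_apply] at this
    linear_combination (norm := module) this
  let S := Submodule.span ℂ (Set.range ![v, σ w v])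
  have hv1 : v ∈ S := Submodule.subset_span ⟨0, rfl⟩
  have hv2 : σ w v ∈ S := Submodule.subset_span ⟨1, rfl⟩
  have key : ∀ f : U →ₗ[ℂ] U, f v ∈ S → f (σ w v) ∈ S → ∀ u ∈ S, f u ∈ S := fun f a b =>
    show S ≤ S.comap f from Submodule.span_le.2 (by
      rintro _ ⟨i, rfl⟩
      fin_cases i
      exacts [a, b])
  have h3 := ((isIrreducible_iff_submodule σ).1 hσ).2 S (hgen (fun g => ∀ u ∈ S, σ g u ∈ S)
    (fun u hu => by simpa using hu)
    (key _ (h1 ▸ S.smul_mem _ hv1) (h2 ▸ S.add_mem (S.smul_mem _ hv1) (S.smul_mem _ hv2)))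
    (key _ hv2 (hw v ▸ S.sub_mem (S.smul_mem _ hv2) (S.smul_mem _ hv1)))
    fun a b ha hb u hu => by rw [map_mul]; exact ha _ (hb _ hu))
  rcases h3 with h3 | h3
  · exact absurd (h3 ▸ hv1 : v ∈ (⊥ : Submodule ℂ U)) hv.2
  · rw [← finrank_top, ← h3]
    exact (finrank_range_le_card _).trans (by simp)

/-- A group generated by two elements of order `p ≥ 7` has no irreducible character of degree 2. -/
theorem degree_ne_two {H : Type*} [Group H] [Finite H] {θ : H → ℂ} (hθ : IsIrrCharacter H θ)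
    {z w : H} {p : ℕ} (hp : p.Prime) (h7 : 7 ≤ p) (hH : Subgroup.closure {z, w} = ⊤)
    (hz : z ^ p = 1) (hw : w ^ p = 1) : charDegree θ ≠ 2 := by
  intro h2
  have := hθ.charKer_normal
  obtain ⟨η, hη, h1⟩ := hθ.exists_quotient (charKer θ) le_rfl
  have := Fintype.ofFinite (H ⧸ charKer θ)
  have key : ∀ (T : Subgroup (H ⧸ charKer θ)) (a : ℕ), ¬ p ∣ a → (∀ x, x ^ a ∈ T) → T = ⊤ := by
    intro T a ha hT
    have h3 : ∀ x : H, x ^ p = 1 → x ∈ T.comap (QuotientGroup.mk' (charKer θ)) := fun x hx =>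
      mem_of_pow_mem hp (show x ^ a ∈ T.comap (QuotientGroup.mk' (charKer θ)) from hT (x : H ⧸ _))
        hx ha
    have h4 : T.comap (QuotientGroup.mk' (charKer θ)) = ⊤ := by
      rw [eq_top_iff, ← hH, Subgroup.closure_le]
      rintro x (rfl | rfl)
      exacts [h3 _ hz, h3 _ hw]
    rw [eq_top_iff]
    rintro x -
    obtain ⟨y, rfl⟩ := QuotientGroup.mk'_surjective _ x
    exact (h4.ge (Subgroup.mem_top y) :)
  have hd : ∀ a, a ∣ 120 → ¬ p ∣ a := fun a ha h => by
    have h3 := h.trans ha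
    rw [show 120 = 2 ^ 3 * 3 * 5 by norm_num, hp.dvd_mul, hp.dvd_mul] at h3
    rcases h3 with (h3 | h3) | h3
    · exact absurd (Nat.le_of_dvd two_pos (hp.dvd_of_dvd_pow h3)) (by omega)
    · exact absurd (Nat.le_of_dvd (by norm_num) h3) (by omega)
    · exact absurd (Nat.le_of_dvd (by norm_num) h3) (by omega)
  have h3 : charDegree η = 2 := (charDegree_congr (h1 1)).trans h2
  have h4 := S4473.result ⟨η, hη⟩ (fun g hg => by
    obtain ⟨y, rfl⟩ := QuotientGroup.mk_surjective g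
    exact (QuotientGroup.eq_one_iff y).2 (hθ.mem_charKer.2 ((h1 y).symm.trans (hg.trans (h1 1)))))
    h3 fun T hT φ hφ h => by
      change η = _ at h
      rw [h, hφ.charDegree_indFun] at h3
      rcases (Nat.dvd_prime Nat.prime_two).1 (Dvd.intro _ h3) with h5 | h5
      · exact hT (Subgroup.index_eq_one.1 h5)
      · exact hT (key T 2 (hd 2 (by norm_num)) (Subgroup.sq_mem_of_index_two h5))
  have h5 := key (Subgroup.center _) _ (hd _ (by rcases h4 with h | h | h <;> rw [h] <;> norm_num))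
    (Subgroup.pow_index_mem _)
  rw [h5, Subgroup.index_top] at h4
  omega

theorem comm_of_quad {H : Type*} [Group H] [Finite H] {z w : H} {p : ℕ} (hp : p.Prime)
    (h7 : 7 ≤ p) (hH : Subgroup.closure {z, w} = ⊤) (hz : z ^ p = 1) (hw : w ^ p = 1) {s t : ℂ}
    (V : Type) [AddCommGroup V] [Module ℂ V] [FiniteDimensional ℂ V] (ρ : Representation ℂ H V) :
    (∀ v, ρ z (ρ z v) = s • ρ z v - t • v) → (∀ v, ρ w (ρ w v) = s • ρ w v - t • v) →
      ∀ v, ρ (z * w) v = ρ (w * z) v := by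
  have := neZero_card_complex H
  refine rep_induction (P := fun V _ _ _ ρ => (∀ v, ρ z (ρ z v) = s • ρ z v - t • v) →
    (∀ v, ρ w (ρ w v) = s • ρ w v - t • v) → ∀ v, ρ (z * w) v = ρ (w * z) v)
    (fun V _ _ _ _ ρ _ _ _ => Subsingleton.elim _ _) ?_ V ρ
  · intro V _ _ _ ρ U U' hU hc ih h1 h2 v
    have h3 := ih (fun u => Subtype.ext (h1 u)) fun u => Subtype.ext (h2 u)
    have h4 := finrank_le_two U.toRepresentation hH (fun u => Subtype.ext (h1 u))
      fun u => Subtype.ext (h2 u)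
    have h5 := isIrrCharacter_rep U.toRepresentation
    have h6 := degree_ne_two h5 hp h7 hH hz hw
    have h7 := h5.charDegree_pos
    have h8 := h5.charDegree_eq_one_iff.1 (by rw [charDegree_rep] at *; omega)
    have h9 : U.toRepresentation (z * w) = U.toRepresentation (w * z) := by
      have := (mem_charKer_rep _).1 (h8 (Subgroup.commutator_mem_commutator (Subgroup.mem_top z)
        (Subgroup.mem_top w)))
      rw [show z * w = ⁅z, w⁆ * (w * z) by rw [commutatorElement_def]; group, map_mul, this,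
        one_mul]
    obtain ⟨u, hu, u', hu', rfl⟩ := Submodule.mem_sup.1 (hc.sup_eq_top.ge (Submodule.mem_top (x := v)))
    rw [map_add, map_add]
    exact congrArg₂ _ (congrArg Subtype.val (LinearMap.congr_fun h9 ⟨u, hu⟩))
      (congrArg Subtype.val (h3 ⟨u', hu'⟩))

open Classical in
/-- Multiplicities of roots of unity from power sums. -/
theorem count {ι : Type*} (s : Finset ι) (f : ι → ℂ) {p : ℕ} (hp : p ≠ 0) {m a b ε : ℂ}
    (hf : ∀ i ∈ s, f i ^ p = 1) (hε : ε ^ p = 1) (h : ∀ k : ℕ, m * ∑ i ∈ s, f i ^ k = a + b * ε ^ k)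
    {u : ℂ} (hu : u ^ p = 1) :
    m * (s.filter fun i => f i = u).card = (if 1 = u then a else 0) + if ε = u then b else 0 := by
  have hu0 : u ≠ 0 := fun h => by simp [h, hp] at hu
  have h1 : ∀ x : ℂ, x ^ p = 1 →
      ∑ k ∈ Finset.range p, x ^ k * u⁻¹ ^ k = p * if x = u then 1 else 0 := fun x hx => by
    simp only [← mul_pow]
    split_ifs with h2
    · simp [h2, hu0]
    · rw [geom_sum_eq (fun h3 => h2 ((mul_inv_eq_one₀ hu0).1 h3)), mul_pow, inv_pow, hx, hu]
      simp
  have h2 : ∑ k ∈ Finset.range p, (m * ∑ i ∈ s, f i ^ k) * u⁻¹ ^ k =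
      ∑ k ∈ Finset.range p, (a * (1 ^ k * u⁻¹ ^ k) + b * (ε ^ k * u⁻¹ ^ k)) :=
    Finset.sum_congr rfl fun k _ => by rw [h]; ring
  simp only [mul_assoc, Finset.sum_mul] at h2
  rw [← Finset.mul_sum, Finset.sum_comm, Finset.sum_congr rfl fun i hi => h1 _ (hf i hi),
    Finset.sum_add_distrib, ← Finset.mul_sum, ← Finset.mul_sum, ← Finset.mul_sum, h1 1 (one_pow p),
    h1 ε hε, Finset.sum_boole] at h2
  refine mul_left_cancel₀ (Nat.cast_ne_zero.2 hp : (p : ℂ) ≠ 0) ?_
  rw [mul_left_comm, h2]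
  split_ifs <;> ring

/-- The values on a central commutator of a character of small degree of a `p`-group. -/
theorem value {X : Type*} [Group X] [Finite X] {p : ℕ} [hp : Fact p.Prime] (hX : IsPGroup p X)
    {z : X} (h1 : z ∈ commutator X) (h2 : z ∈ Subgroup.center X) (h3 : z ^ p = 1) {φ : X → ℂ}
    (hφ : IsCharacter X φ) : charDegree φ < 2 * p → z ∈ charKer φ ∨
      ∃ ε : ℂ, ε ≠ 1 ∧ ε ^ p = 1 ∧ p ≤ charDegree φ ∧ ∀ k : ℕ, φ (z ^ k) = φ 1 - p + p * ε ^ k := by
  refine hφ.induction (P := fun φ => charDegree φ < 2 * p → z ∈ charKer φ ∨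
    ∃ ε : ℂ, ε ≠ 1 ∧ ε ^ p = 1 ∧ p ≤ charDegree φ ∧ ∀ k : ℕ, φ (z ^ k) = φ 1 - p + p * ε ^ k)
    (fun _ => Or.inl fun _ => rfl) fun ψ θ hψ hθ ih h => ?_
  rw [hψ.isCharacter.charDegree_add hθ] at h ⊢
  rw [hψ.isCharacter.charKer_add hθ]
  by_cases h4 : z ∈ charKer ψ
  · refine (ih (by omega)).imp (fun h5 => ⟨h4, h5⟩) ?_
    rintro ⟨ε, e1, e2, e3, e4⟩
    refine ⟨ε, e1, e2, by omega, fun k => ?_⟩
    rw [Pi.add_apply, Pi.add_apply, e4, apply_of_mem_charKer ((charKer ψ).pow_mem h4 k)]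
    ring
  obtain ⟨j, hj⟩ := hψ.exists_pow_charDegree hX
  have h5 : charDegree ψ = p := by
    rcases j with _ | _ | j
    · exact absurd (hψ.charDegree_eq_one_iff.1 hj h1) h4
    · simpa using hj
    · have := hp.out.two_le
      have := pow_pos hp.out.pos j
      rw [pow_succ, pow_succ] at hj
      have h5 : 1 * 2 * p ≤ p ^ j * p * p := by gcongr; omega
      omega
  have h6 : z ∈ charKer θ := (ih (by omega)).resolve_right (by rintro ⟨_, -, -, h, -⟩; omega)
  obtain ⟨l, hl⟩ := hψ.exists_central_hom (Z := Subgroup.center X) le_rfl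
  refine Or.inr ⟨l ⟨z, h2⟩, fun e => h4 fun x => ?_, ?_, by omega, fun k => ?_⟩
  · rw [hl ⟨z, h2⟩ x, e, one_mul]
  · rw [← Units.val_pow_eq_pow_val, ← map_pow, show (⟨z, h2⟩ : Subgroup.center X) ^ p = 1 from
      Subtype.ext h3, map_one, Units.val_one]
  · have := hl (⟨z, h2⟩ ^ k) 1
    rw [mul_one, map_pow, Units.val_pow_eq_pow_val, ← hψ.cast_charDegree, h5] at this
    rw [Pi.add_apply, Pi.add_apply, apply_of_mem_charKer ((charKer θ).pow_mem h6 k),
      ← hψ.cast_charDegree, h5, show ψ (z ^ k) = _ from this]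
    ring

/-- The normal closure of a quadratic element is abelian. -/
theorem closure_comm {G : Type*} [Group G] [Finite G] {χ : G → ℂ} (hχ : IsCharacter G χ)
    (hk : charKer χ = ⊥) {p : ℕ} (hp : p.Prime) (h7 : 7 ≤ p) {z : G} (hz : z ^ p = 1) {a b ε : ℂ}
    (hε : ε ^ p = 1) (h : ∀ k : ℕ, χ (z ^ k) = a + b * ε ^ k) :
    IsMulCommutative (Subgroup.normalClosure {z}) := by
  classical
  obtain ⟨n, ρ, rfl⟩ := hχ
  obtain ⟨β, f, hf, hβ⟩ := H29.exists_eigenbasis ρ z (isOfFinOrder_of_finite z)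
  have h1 : ∀ i, f i ^ p = 1 := fun i => by
    obtain ⟨k, hk⟩ := orderOf_dvd_of_pow_eq_one hz
    rw [hk, pow_mul, hf, one_pow]
  have h2 : ∀ i, f i = 1 ∨ f i = ε := fun i => by
    have := count Finset.univ f hp.ne_zero (m := 1) (fun i _ => h1 i) hε (fun k => by
      rw [one_mul, ← h, ← H29.trace_eq_sum_of_eigenbasis β (ρ (z ^ k)) _ fun i => by
        rw [map_pow]; exact H29.pow_apply_of_eigen _ _ _ (hβ i) k]
      rfl) (h1 i)
    by_contra h3
    rw [not_or] at h3
    rw [if_neg (Ne.symm h3.1), if_neg (Ne.symm h3.2), add_zero, one_mul, Nat.cast_eq_zero,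
      Finset.card_eq_zero, Finset.filter_eq_empty_iff] at this
    exact this (Finset.mem_univ i) rfl
  have h3 : ∀ v, ρ z (ρ z v) = (1 + ε) • ρ z v - ε • v := fun v =>
    LinearMap.congr_fun (β.ext (f₁ := ρ z ∘ₗ ρ z) (f₂ := (1 + ε) • ρ z - ε • LinearMap.id) fun i => by
      simp only [LinearMap.comp_apply, LinearMap.sub_apply, LinearMap.smul_apply, hβ, map_smul,
        LinearMap.id_apply]
      rcases h2 i with h | h <;> rw [h] <;> module) v
  have h4 : ∀ w ∈ Group.conjugatesOfSet ({z} : Set G),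
      w ^ p = 1 ∧ ∀ v, ρ w (ρ w v) = (1 + ε) • ρ w v - ε • v := fun w hw => by
    obtain ⟨_, rfl, hw'⟩ := Group.mem_conjugatesOfSet_iff.1 hw
    obtain ⟨g, rfl⟩ := isConj_iff.1 hw'
    refine ⟨by rw [conj_pow, hz, mul_one, mul_inv_cancel], fun v => ?_⟩
    simp only [map_mul, Module.End.mul_apply, Representation.inv_self_apply, h3, map_sub, map_smul,
      Representation.self_inv_apply]
  refine Subgroup.isMulCommutative_closure fun x hx y hy => ?_
  have hx' : x ∈ Subgroup.closure {x, y} := Subgroup.subset_closure (by simp)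
  have hy' : y ∈ Subgroup.closure {x, y} := Subgroup.subset_closure (by simp)
  have h5 := comm_of_quad (z := (⟨x, hx'⟩ : Subgroup.closure {x, y})) (w := ⟨y, hy'⟩) hp h7
    (by
      rw [← Subgroup.closure_closure_coe_preimage]
      congr 1
      ext u
      simp [Subtype.ext_iff])
    (Subtype.ext (h4 x hx).1) (Subtype.ext (h4 y hy).1) _
    (ρ.comp (Subgroup.closure {x, y}).subtype) (h4 x hx).2 (h4 y hy).2
  rw [charKer_rep] at hk
  exact (MonoidHom.ker_eq_bot_iff _).1 hk (LinearMap.ext h5)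

theorem main {G : Type*} [Group G] [Finite G] {χ : G → ℂ} (hχ : IsIrrCharacter G χ)
    (hk : charKer χ = ⊥) {p : ℕ} [hp : Fact p.Prime] (h7 : 7 ≤ p) (hn : charDegree χ < 2 * p)
    (hnp : charDegree χ ≠ p) (P : Sylow p G) (hP : commutator P ≠ ⊥) :
    ¬ p ^ 2 ∣ (pCore p G).index := by
  classical
  cases nonempty_fintype G
  obtain ⟨z, h1, h2, h3⟩ := H9.exists_mem_center_orderOf_eq P.isPGroup' hP
  have h4 : z ^ p = 1 := orderOf_dvd_iff_pow_eq_one.1 h3.dvd
  have hz : (z : G) ^ p = 1 := congrArg Subtype.val h4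
  obtain ⟨ε, e1, e2, e3, e4⟩ := (value P.isPGroup' h1 h2 h4 (hχ.isCharacter.restrict P) hn).resolve_left
    fun h => by
      rw [hχ.isCharacter.charKer_restrict, hk, Subgroup.mem_subgroupOf, Subgroup.mem_bot] at h
      exact hp.out.one_lt.ne' (h3.symm.trans (orderOf_eq_one_iff.2 (Subtype.ext h)))
  replace e3 : p ≤ charDegree χ := e3
  replace e4 : ∀ k : ℕ, χ ((z : G) ^ k) = χ 1 - p + p * ε ^ k := e4
  have hA := closure_comm hχ.isCharacter hk hp.out h7 hz e2 e4
  set A := Subgroup.normalClosure {(z : G)}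
  have hzA : (z : G) ∈ A := Subgroup.subset_normalClosure rfl
  obtain ⟨θ, hθ, h5⟩ := exists_constituent_res (H := A) hχ.isCharacter hχ.apply_one_ne_zero
  obtain ⟨e, he⟩ := (hχ.isCharacter.restrict A).classInner_nat hθ.isCharacter
  have h6 : ∀ φ ∈ conjSet (G := G) θ, ∀ k : ℕ, φ (⟨z, hzA⟩ ^ k) = φ ⟨z, hzA⟩ ^ k := fun φ hφ k => by
    have h7 := isIrrCharacter_of_mem_conjSet hθ hφ
    obtain ⟨f, rfl⟩ := h7.isCharacter.exists_hom (h7.apply_one_of_comm hA.is_comm.comm)
    simp only [map_pow, Units.val_pow_eq_pow_val]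
  have h8 := fun u hu => count (conjSet (G := G) θ) (fun φ => φ ⟨z, hzA⟩) hp.out.ne_zero (m := e)
    (fun φ hφ => by
      rw [← h6 φ hφ, show (⟨z, hzA⟩ : A) ^ p = ⟨z, hzA⟩ ^ 0 from Subtype.ext (hz.trans (pow_zero _).symm), h6 φ hφ, pow_zero])
    e2 (fun k => by
      have := congrFun (clifford hχ hθ h5) (⟨z, hzA⟩ ^ k)
      rw [he, Pi.smul_apply, Finset.sum_apply, Finset.sum_congr rfl fun φ hφ => h6 φ hφ k] at this
      exact this.symm.trans (e4 k)) (u := u) hu
  have h9 := h8 1 (one_pow p)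
  have h10 := h8 ε e2
  rw [if_pos rfl, if_neg e1, add_zero, ← hχ.cast_charDegree, ← Nat.cast_sub e3] at h9
  rw [if_pos rfl, if_neg e1.symm, zero_add] at h10
  norm_cast at h9 h10
  obtain rfl : e = 1 := ((Nat.dvd_prime hp.out).1 (Dvd.intro _ h10)).resolve_right fun h => by
    have := Nat.le_of_dvd (by omega) (Dvd.intro _ h9)
    omega
  have hθ1 := hθ.apply_one_of_comm hA.is_comm.comm
  have h11 : charDegree χ = (inertia (G := G) θ).index :=
    charDegree_eq (by rw [clifford_degree hχ hθ h5, he, hθ1]; simp)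
  obtain ⟨ψ, hψ, h12, -⟩ := cliffordCorr_surj hθ rfl (le_inertia hθ.isClassFunction) hχ h5
  generalize inertia (G := G) θ = T at *
  have h13 : charDegree ψ = 1 := by
    have := hψ.isCharacter.charDegree_indFun
    rw [h12, h11] at this
    exact (Nat.mul_eq_left Subgroup.index_ne_zero_of_finite).1 this.symm
  have h14 : ⁅T.normalCore, T.normalCore⁆ ≤ (commutator T).map T.subtype := by
    rw [Subgroup.map_subtype_commutator]
    exact Subgroup.commutator_mono T.normalCore_le T.normalCore_le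
  have h15 : ⁅T.normalCore, T.normalCore⁆ ≤ charKer χ := by
    rw [← h12]
    refine le_charKer_indFun hψ.isCharacter (h14.trans (Subgroup.map_subtype_le _)) fun m => ?_
    obtain ⟨t, ht, h⟩ := h14 m.2
    rw [← apply_of_mem_charKer (hψ.charDegree_eq_one_iff.1 h13 ht)]
    exact congrArg ψ (Subtype.ext h.symm)
  rw [hk, le_bot_iff, Subgroup.commutator_self_eq_bot_iff] at h15
  have h16 : T.normalCore.index ∣ (charDegree χ).factorial := by
    rw [Subgroup.normalCore_eq_ker, Subgroup.index_ker, h11, Subgroup.index,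
      ← Nat.card_perm]
    exact Subgroup.card_subgroup_dvd_card _
  obtain ⟨Q⟩ : Nonempty (Sylow p T.normalCore) := inferInstance
  have h17 : (Q : Subgroup T.normalCore).map T.normalCore.subtype ≤ pCore p G :=
    (Subgroup.map_mono (H2.le_pCore Q.isPGroup')).trans (H2.map_pCore_subtype_le _)
  intro h
  have h18 := h.trans (Subgroup.index_dvd_of_le h17)
  rw [Subgroup.index_map_subtype] at h18
  have h19 := ((((Nat.Prime.coprime_iff_not_dvd hp.out).2 Q.not_dvd_index).pow_left 2).dvd_of_dvd_mul_left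
    h18).trans h16
  obtain ⟨m, hm⟩ := Nat.exists_eq_add_of_le e3
  rw [padicValNat_dvd_iff_le (Nat.factorial_ne_zero _), hm, show p + m = p * 1 + m by ring,
    padicValNat_factorial_mul_add 1 (by omega), padicValNat_factorial_mul] at h19
  simp at h19

/-- Let p ≥ 7 be a prime and let the finite group G have a faithful irreducible character of degree n with n < 2p and n ≠ p. If the Sylow p-subgroups of G are non-abelian then p² does not divide the index of O_p(G) in G; consequently, in every case G/O_p(G) has abelian Sylow p-subgroups. -/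
theorem result {G : Type*} [Group G] [Finite G] (χ : Cfsg.IrrCharacter G) (hfaith : ∀ g : G, (χ : G → ℂ) g = (χ : G → ℂ) 1 → g = 1) (n : ℕ) (hn : Cfsg.charDegree (χ : G → ℂ) = n) (p : ℕ) (hp : p.Prime) (h7 : 7 ≤ p) (hn2 : n < 2 * p) (hnp : n ≠ p) : ((∃ P : Sylow p G, ∃ x ∈ (P : Subgroup G), ∃ y ∈ (P : Subgroup G), x * y ≠ y * x) → ¬ p ^ 2 ∣ (Cfsg.pCore p G).index) ∧ ∀ Q : Sylow p (G ⧸ Cfsg.pCore p G), ∀ x ∈ (Q : Subgroup (G ⧸ Cfsg.pCore p G)), ∀ y ∈ (Q : Subgroup (G ⧸ Cfsg.pCore p G)), x * y = y * x := by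
  have := Fact.mk hp
  subst hn
  have h1 : (∃ P : Sylow p G, ∃ x ∈ (P : Subgroup G), ∃ y ∈ (P : Subgroup G), x * y ≠ y * x) →
      ¬ p ^ 2 ∣ (Cfsg.pCore p G).index := by
    rintro ⟨P, x, hx, y, hy, h⟩
    refine main χ.2 (charKer_eq_bot_of_forall hfaith) h7 hn2 hnp P fun h2 => h ?_
    have h3 : ⁅(⟨x, hx⟩ : (P : Subgroup G)), (⟨y, hy⟩ : (P : Subgroup G))⁆ ∈ commutator P :=
      Subgroup.commutator_mem_commutator (Subgroup.mem_top _) (Subgroup.mem_top _)
    rw [h2, Subgroup.mem_bot, commutatorElement_eq_one_iff_mul_comm] at h3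
    exact congrArg Subtype.val h3
  refine ⟨h1, fun Q x hx y hy => ?_⟩
  obtain ⟨P, rfl⟩ := Sylow.mapSurjective_surjective (QuotientGroup.mk'_surjective (pCore p G)) p Q
  by_contra h
  have h2 := h1 ⟨P, by
    obtain ⟨a, ha, rfl⟩ := hx
    obtain ⟨b, hb, rfl⟩ := hy
    exact ⟨a, ha, b, hb, fun e => h (by rw [← map_mul, e, map_mul])⟩⟩
  generalize P.mapSurjective (QuotientGroup.mk'_surjective (pCore p G)) = Q at hx hy
  obtain ⟨k, hk⟩ := IsPGroup.iff_card.1 Q.isPGroup'
  have h3 : k ≤ 1 := by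
    by_contra h3
    have h4 := (Q : Subgroup (G ⧸ pCore p G)).card_subgroup_dvd_card
    rw [hk] at h4
    exact h2 ((pow_dvd_pow p (show 2 ≤ k by omega)).trans h4)
  have h4 : IsCyclic Q := isCyclic_of_card_dvd_prime (p := p)
    (hk.dvd.trans ((pow_dvd_pow p h3).trans (pow_one p).dvd))
  exact h (congrArg Subtype.val (h4.isMulCommutative.is_comm.comm (⟨x, hx⟩ : Q) ⟨y, hy⟩))

end Cfsg.Agent.S4471
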