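import Cfsg.Agent.Base
import Cfsg.Agent.H87.PRat
import Cfsg.Agent.H18.PSolv
import Cfsg.Agent.H40.GlCan
import Cfsg.Agent.H40.CopDeg
import Cfsg.Agent.H1.Glauberman
import Cfsg.Statements.S4472

set_option autoImplicit false
open Cfsg

namespace Cfsg.Agent.S4472

open H28 H29 H32 H33 Subgroup
open scoped Pointwise

variable {p : ℕ} [hp : Fact p.Prime]

theorem orbit_ext {Γ : Type*} [Group Γ] [Fintype Γ] {K : Subgroup Γ} [K.Normal]
    (hK : (Nat.card K).Coprime p) {j : ℕ} (hi : K.index = p ^ j) {θ : K → ℂ}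
    (hθ : IsIrrCharacter K θ) : ∃ X : Γ → ℂ, IsCharacter Γ X ∧
      (∀ n : K, X n = (∑ φ ∈ conjSet θ, φ) n) ∧
      ∀ (x : Γ) (i k : ℕ), x ^ p ^ i = 1 → k.Coprime p → X (x ^ k) = X x := by
  have hKT := le_inertia hθ.isClassFunction
  obtain ⟨l, -, hl⟩ := (Nat.dvd_prime_pow hp.out).1 (hi ▸ relIndex_dvd_index_of_le hKT)
  have hc : Nat.card (K.subgroupOf (inertia θ)) = Nat.card K :=
    Nat.card_congr (subgroupOfEquivOfLe hKT).toEquiv
  have hθ' := hθ.comp_mulEquiv (subgroupOfEquivOfLe hKT)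
  obtain ⟨ψ, hψ, h1, h2⟩ := H40.exists_canonical_ext_of_coprime (K.subgroupOf (inertia θ))
    (by rw [hc, show Subgroup.index _ = _ from hl]; exact hK.pow_right l) hθ' fun g n => mem_inertia_iff.1 g.2 ⟨n.1, n.2⟩
  refine ⟨indFun _ ψ, hψ.isCharacter.indFun, fun n => ?_, fun x i k hx hk => ?_⟩
  · rw [indFun_apply', Finset.sum_congr rfl (g := fun y => cj y θ n) fun y _ => by
      have h3 := Normal.conj_mem inferInstance _ n.2 y
      rw [ext0_of_mem _ _ (hKT h3)]
      exact h1 ⟨⟨_, hKT h3⟩, h3⟩, sum_cj_eq θ (fun φ => φ n), nsmul_eq_mul, ← mul_assoc,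
      inv_mul_cancel₀ (card_ne_zero' _), one_mul, Finset.sum_apply]
  · rw [indFun_apply', indFun_apply']
    congr 1
    refine Finset.sum_congr rfl fun y _ => ?_
    rw [← conj_pow]
    have h3 : (y * x * y⁻¹) ^ p ^ i = 1 := by rw [conj_pow, hx]; simp
    generalize y * x * y⁻¹ = h at h3
    by_cases h4 : h ∈ inertia θ
    · rw [ext0_of_mem _ _ h4, ext0_of_mem _ _ (pow_mem h4 k)]
      obtain ⟨S, hS⟩ := (isPGroup_zpowers_of_pow (x := (⟨h, h4⟩ : inertia θ))
        (Subtype.ext h3)).exists_le_sylow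
      obtain ⟨m, hm⟩ := IsPGroup.iff_card.1 S.isPGroup'
      have h5 : K.subgroupOf (inertia θ) ⊔ S = ⊤ := by
        rw [← index_eq_one]
        have h6 := index_dvd_of_le (le_sup_left (a := K.subgroupOf (inertia θ)) (b := S))
        have h7 := index_dvd_of_le (le_sup_right (a := K.subgroupOf (inertia θ)) (b := S))
        exact Nat.eq_one_of_dvd_coprimes (((hp.out.coprime_iff_not_dvd).2 S.not_dvd_index).pow_left l)
          (hl ▸ h6) h7
      have h6 : (detOrder ψ).Coprime (Nat.card S) := h2.coprime_dvd_right (by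
        refine Nat.Coprime.dvd_of_dvd_mul_left (m := Nat.card (K.subgroupOf (inertia θ))) ?_ ?_
        · rw [hc, hm]; exact (hK.pow_right m).symm
        · rw [card_mul_index]; exact card_subgroup_dvd_card _)
      simpa using H40.canon_pow (by rw [hc, hm]; exact hK.pow_right m) h5 hψ
        (by rwa [funext h1]) h6 (k := k) (hm ▸ hk.pow_right m) (one_mem _) (hS (mem_zpowers _))
        (Commute.one_left _)
    · rw [ext0_of_not_mem _ _ h4, ext0_of_not_mem _ _ fun h5 => h4 (zpowers_le.2 h5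
        (mem_zpowers_pow_iff.2 ((hk.pow_right i).coprime_dvd_right (orderOf_dvd_of_pow_eq_one h3))))]

theorem exists_ext {Γ : Type*} [Group Γ] [Finite Γ] {K : Subgroup Γ} [K.Normal]
    (hK : (Nat.card K).Coprime p) {j : ℕ} (hi : K.index = p ^ j) (n : ℕ) : ∀ {φ : K → ℂ},
    IsCharacter K φ → (∀ g : Γ, cj g φ = φ) → charDegree φ = n → ∃ X : Γ → ℂ, IsCharacter Γ X ∧
      (∀ n : K, X n = φ n) ∧
      ∀ (x : Γ) (i k : ℕ), x ^ p ^ i = 1 → k.Coprime p → X (x ^ k) = X x := by
  induction n using Nat.strong_induction_on with | _ n ih => ?_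
  intro φ hφ hinv hn
  classical
  have := Fintype.ofFinite Γ
  by_cases h0 : φ = 0
  · exact ⟨0, isCharacter_zero, fun _ => by rw [h0]; rfl, fun _ _ _ _ _ => rfl⟩
  obtain ⟨θ, hθ, h1⟩ := hφ.exists_constituent h0
  have hΘ : IsCharacter K (∑ φ ∈ conjSet θ, φ) :=
    isCharacter_sum _ fun φ hφ => (isIrrCharacter_of_mem_conjSet hθ hφ).isCharacter
  have hφ' : IsCharacter K (φ - ∑ φ ∈ conjSet θ, φ) := by
    refine (hφ.isClassFunction.sub hΘ.isClassFunction).isCharacter_of_nat fun ξ hξ => ?_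
    rw [classInner_sub_left]
    obtain ⟨m, hm⟩ := hφ.classInner_nat hξ.isCharacter
    by_cases h2 : ξ ∈ conjSet θ
    · rw [classInner_sum_conjSet_of_mem hθ h2]
      obtain ⟨g, rfl⟩ := mem_conjSet.1 h2
      rcases m with _ | m
      · rw [← hinv g, classInner_cj_cj] at hm
        exact absurd (hm.trans Nat.cast_zero) h1
      · exact ⟨m, by rw [hm]; push_cast; ring⟩
    · exact ⟨m, by rw [classInner_sum_conjSet_of_not_mem hθ hξ h2, hm, sub_zero]⟩
  obtain ⟨X, hX, h2, h3⟩ := orbit_ext hK hi hθ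
  have h4 : n = charDegree (∑ φ ∈ conjSet θ, φ) + charDegree (φ - ∑ φ ∈ conjSet θ, φ) := by
    rw [← hΘ.charDegree_add hφ', add_sub_cancel, hn]
  have h5 : charDegree (∑ φ ∈ conjSet θ, φ) ≠ 0 := fun e => by
    have h6 := classInner_sum_conjSet_of_mem hθ (self_mem_conjSet θ)
    rw [hΘ.charDegree_eq_zero_iff.1 e, classInner_zero_left] at h6
    exact zero_ne_one h6
  obtain ⟨Y, hY, h6, h7⟩ := ih _ (by omega) hφ' (fun g => by
    rw [cj_sub, hinv, ← funext h2, cj_res hX.isClassFunction]) rfl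
  exact ⟨X + Y, hX.add hY, fun n => by simp [h2, h6], fun x i k a b => by
    simp [h3 x i k a b, h7 x i k a b]⟩

theorem exists_rat {N : Type*} [Group N] [Finite N] (K : Subgroup N) [K.Normal]
    (hK : (Nat.card K).Coprime p) {S : Subgroup N} (hS : IsPGroup p S) {χ : N → ℂ}
    (hχ : IsCharacter N χ) : ∃ ψ : S → ℂ, IsCharacter S ψ ∧ charDegree ψ = charDegree χ ∧
      (∀ (σ : RingAut ℂ) x, σ (ψ x) = ψ x) ∧
      ∀ s ∈ charKer ψ, ∀ k ∈ K, χ (k * s * k⁻¹ * s⁻¹) = χ 1 := by
  obtain ⟨m, hm⟩ := IsPGroup.iff_card.1 hS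
  obtain ⟨j, -, hj⟩ := (Nat.dvd_prime_pow hp.out).1 (hm ▸ relIndex_dvd_card K S)
  rw [← relIndex_sup_left] at hj
  have h0 := hχ.restrict (K ⊔ S)
  obtain ⟨X, hX, h1, h2⟩ := exists_ext (K := K.subgroupOf (K ⊔ S))
    (by rwa [Nat.card_congr (subgroupOfEquivOfLe le_sup_left).toEquiv]) hj _
    (h0.restrict _) (cj_res h0.isClassFunction) rfl
  have h3 := hX.comp (inclusion (le_sup_right : S ≤ K ⊔ S))
  refine ⟨_, h3, charDegree_congr (h1 1), fun σ x => ?_, fun s hs k hk => ?_⟩
  · have h4 : p ^ (m + 1) ≠ 0 := pow_ne_zero _ hp.out.ne_zero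
    obtain ⟨k, hk, hσ⟩ := exists_pow_of_ringEquiv σ h4
    have h5 : x ^ p ^ (m + 1) = 1 := by rw [pow_succ, pow_mul, ← hm, pow_card_eq_one', one_pow]
    rw [show σ _ = _ from h3.ringHom_apply σ.toRingHom h4 hσ x h5, map_pow]
    exact h2 _ (m + 1) k (by rw [← map_pow, h5, map_one])
      (hk.coprime_dvd_right (dvd_pow_self p m.succ_ne_zero))
  · have h4 : inclusion (le_sup_right : S ≤ K ⊔ S) s ∈ charKer X :=
      hX.mem_charKer.2 (h3.mem_charKer.1 hs)
    have h5 := apply_of_mem_charKer (mul_mem (hX.charKer_normal.conj_mem _ h4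
      ⟨k, mem_sup_left hk⟩) (inv_mem h4))
    have h6 : k * s * k⁻¹ * s⁻¹ ∈ K := by
      simpa [mul_assoc] using mul_mem hk (Normal.conj_mem inferInstance _ (inv_mem hk) (s : N))
    exact (h1 ⟨_, h6⟩).symm.trans (h5.trans (h1 1))

theorem exists_compl {G : Type*} [Group G] [Finite G] (O L : Subgroup G) [O.Normal] [L.Normal]
    (hOL : O ≤ L) (hO : IsPGroup p O) (hL : (O.relIndex L).Coprime p) :
    ∃ K : Subgroup G, (Nat.card K).Coprime p ∧ L ≤ O ⊔ K ∧ O ⊔ normalizer K = ⊤ := by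
  have hO' : IsPGroup p (O.subgroupOf L) := hO.of_equiv (subgroupOfEquivOfLe hOL).symm
  obtain ⟨m, hm⟩ := IsPGroup.iff_card.1 hO'
  have hc : (Nat.card (O.subgroupOf L)).Coprime (O.subgroupOf L).index := by
    rw [hm]; exact hL.symm.pow_left m
  obtain ⟨K, hK⟩ := exists_right_complement'_of_coprime hc
  have h1 : Nat.card K = O.relIndex L := hK.symm.index_eq_card.symm
  refine ⟨K.map L.subtype, by rwa [card_map_of_injective L.subtype_injective, h1], ?_, ?_⟩
  · have := congrArg (map L.subtype) hK.sup_eq_top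
    rw [Subgroup.map_sup, subgroupOf_map_subtype, inf_eq_left.2 hOL, ← MonoidHom.range_eq_map,
      range_subtype] at this
    exact this.ge
  · rw [eq_top_iff]
    intro g _
    have := hO'.isNilpotent
    have h2 : Nat.card (K.map (MulAut.conjNormal g : MulAut L).toMonoidHom) = Nat.card K :=
      card_map_of_injective (MulEquiv.injective _)
    obtain ⟨u, hu, h3⟩ := H1.sz_conj _ hc (Or.inl inferInstance) K
      (K.map (MulAut.conjNormal g : MulAut L).toMonoidHom) hK
      (isComplement'_of_coprime (by rw [h2, hK.card_mul_card]) (by rwa [h2, h1]))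
    have h4 : (u : G)⁻¹ * g ∈ normalizer (K.map L.subtype : Set G) := by
      refine mem_normalizer_fintype ?_
      rintro _ ⟨k, hk, rfl⟩
      have h5 : MulAut.conjNormal g k ∈ MulAut.conj u • K := h3 ▸ mem_map_of_mem _ hk
      rw [mem_pointwise_smul_iff_inv_smul_mem] at h5
      exact ⟨_, h5, by simp [mul_assoc]⟩
    simpa using mul_mem (mem_sup_left (T := normalizer (K.map L.subtype : Set G)) hu)
      (mem_sup_right h4)

/-- Let the finite p-solvable group G have a faithful character of degree n, and let p^a be the index of O_p(G) in a Sylow p-subgroup of G (the p-part of [G : O_p(G)]). Then a ≤ Σ_{i ≥ 0} ⌊n / ((p − 1) p^i)⌋ (a finite sum; the terms vanish for p^i > n). -/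
theorem result {G : Type*} [Group G] [Finite G] (χ : G → ℂ) (hχ : Cfsg.IsCharacter G χ) (hfaith : ∀ g : G, χ g = χ 1 → g = 1) (n : ℕ) (hn : Cfsg.charDegree χ = n) (p : ℕ) (hp : p.Prime) (hsolv : Cfsg.IsPSolvable p G) : ((Cfsg.pCore p G).index).factorization p ≤ ∑ i ∈ Finset.range (n + 1), n / ((p - 1) * p ^ i) := by
  have := Fact.mk hp
  set π := QuotientGroup.mk' (pCore p G) with hπ
  have hπs : Function.Surjective π := QuotientGroup.mk'_surjective _
  have h0 : (pCore p G).map π = ⊥ := (Subgroup.map_eq_bot_iff _).2 (QuotientGroup.ker_mk' _).ge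
  obtain ⟨K, h1, h2, h3⟩ := exists_compl (pCore p G) ((pPrimeCore p (G ⧸ pCore p G)).comap π)
    (fun g hg => by rw [mem_comap, (QuotientGroup.eq_one_iff g).2 hg |> (show π g = 1 from ·)]
                    exact one_mem _) (H18.isPGroup_pCore p)
    (by rw [H18.relIndex_eq_card_map, map_comap_eq_self_of_surjective hπs]
        exact H18.coprime_card_pPrimeCore p)
  obtain ⟨S⟩ : Nonempty (Sylow p (normalizer (K : Set G))) := inferInstance
  obtain ⟨ψ, hψ, h4, h5, h6⟩ := exists_rat (K.subgroupOf (normalizer (K : Set G)))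
    (by rwa [Nat.card_congr (subgroupOfEquivOfLe le_normalizer).toEquiv]) S.isPGroup'
    (hχ.restrict _)
  obtain ⟨a, ha⟩ := S.isPGroup'.index (charKer ψ)
  refine le_trans ?_ (H87.rat_bound S.isPGroup' (n + 1) n hψ h5 (h4.trans hn) n.lt_succ_self ha)
  set f := π.comp (normalizer (K : Set G)).subtype
  have hf : Function.Surjective f := by
    rw [← MonoidHom.range_eq_top, MonoidHom.range_comp, range_subtype, eq_top_iff,
      ← map_top_of_surjective π hπs, ← h3, Subgroup.map_sup, h0, bot_sup_eq]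
  have h7 := (S.mapSurjective hf).card_eq_multiplicity
  rw [Sylow.coe_mapSurjective, ← index_eq_card] at h7
  have h8 : charKer ψ ≤ (f.comp (S : Subgroup _).subtype).ker := fun s hs => by
    have h9 : f s ∈ pPrimeCore p (G ⧸ pCore p G) := by
      refine H18.centralizer_pPrimeCore_le (H18.isPSolvable_quotient hsolv _)
        (H18.pCore_quotient_pCore p) fun y hy => ?_
      rw [← map_comap_eq_self_of_surjective hπs (pPrimeCore p _)] at hy
      have h10 := map_mono (f := π) h2 hy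
      rw [Subgroup.map_sup, h0, bot_sup_eq] at h10
      obtain ⟨k, hk, rfl⟩ := h10
      have h11 := hfaith _ (h6 s hs ⟨k, le_normalizer hk⟩ hk)
      simp only [coe_mul, coe_inv] at h11
      rw [mul_inv_eq_one, mul_inv_eq_iff_eq_mul] at h11
      exact (map_mul π _ _).symm.trans ((congrArg π h11).trans (map_mul π _ _))
    obtain ⟨i, hi⟩ := S.isPGroup' s
    refine orderOf_eq_one_iff.1 (Nat.eq_one_of_dvd_coprimes
      ((H18.coprime_card_pPrimeCore p).pow_right i) (orderOf_dvd_natCard _ h9) ?_)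
    exact orderOf_dvd_of_pow_eq_one (by
      rw [← map_pow (f.comp (S : Subgroup _).subtype), hi, map_one])
  have h9 := index_dvd_of_le h8
  rw [index_ker, MonoidHom.range_comp, range_subtype, h7, ha] at h9
  exact (Nat.pow_dvd_pow_iff_le_right hp.one_lt).1 h9

end Cfsg.Agent.S4472
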