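import Cfsg.Statements.S4478
import Cfsg.Agent.Base
import Cfsg.Agent.H30.Counting
import Cfsg.Agent.H30.Vanish
import Cfsg.Agent.H29.Codeg

set_option autoImplicit false
open Cfsg

namespace Cfsg.Agent.S4478

open Cfsg H28 H30 H29

/-- Let G be a finite group of even order and χ an irreducible character of G whose degree x is divisible by the full power of 2 dividing the order of G and, for every odd prime p such that G has an element of order 2p, by the full power of p dividing the order of G. Then all involutions of G are conjugate, the centralizer of every involution has order exactly x with x coprime to its index, and the Frobenius–Schur indicator of χ equals 1. -/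
theorem result {G : Type*} [Group G] [Fintype G] (heven : Even (Nat.card G)) (χ : Cfsg.IrrCharacter G) (h2 : 2 ^ (Nat.card G).factorization 2 ∣ Cfsg.charDegree (χ : G → ℂ)) (hp : ∀ p : ℕ, p.Prime → p ≠ 2 → (∃ g : G, orderOf g = 2 * p) → p ^ (Nat.card G).factorization p ∣ Cfsg.charDegree (χ : G → ℂ)) : (∀ s t : G, orderOf s = 2 → orderOf t = 2 → IsConj s t) ∧ (∀ s : G, orderOf s = 2 → Nat.card (Subgroup.centralizer ({s} : Set G)) = Cfsg.charDegree (χ : G → ℂ) ∧ (Nat.card (Subgroup.centralizer ({s} : Set G))).Coprime (Subgroup.centralizer ({s} : Set G)).index) ∧ (Nat.card G : ℂ)⁻¹ * ∑ g : G, (χ : G → ℂ) (g * g) = 1 := by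
  classical
  haveI := Fact.mk Nat.prime_two
  have hd0 := χ.2.charDegree_pos
  have hv2 : ∀ g : G, 2 ∣ orderOf g → χ.1 g = 0 := fun g hg =>
    eq_zero_of_pow_factorization_dvd Nat.prime_two χ.2 h2 hg
  -- primes dividing the order of the centralizer of an involution
  have hpr : ∀ s : G, orderOf s = 2 → ∀ p : ℕ, p.Prime →
      p ∣ Nat.card (Subgroup.centralizer ({s} : Set G)) →
      p ^ (Nat.card G).factorization p ∣ charDegree χ.1 := by
    intro s hs p hpp hd
    by_cases hp2 : p = 2
    · exact hp2 ▸ h2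
    haveI := Fact.mk hpp
    obtain ⟨y, hy⟩ := exists_prime_orderOf_dvd_card' p hd
    refine hp p hpp hp2 ⟨s * y, ?_⟩
    have hc : Commute s y := (mem_centralizer_singleton.1 y.2).symm
    rw [hc.orderOf_mul_eq_mul_orderOf_of_coprime, hs, Subgroup.orderOf_coe, hy]
    rw [hs, Subgroup.orderOf_coe, hy]
    exact (Nat.coprime_primes Nat.prime_two hpp).2 (Ne.symm hp2)
  have hvC : ∀ s : G, orderOf s = 2 → ∀ x ∈ Subgroup.centralizer ({s} : Set G), x ≠ 1 →
      χ.1 x = 0 := by
    intro s hs x hx hx1
    obtain ⟨p, hpp, hd⟩ := Nat.exists_prime_and_dvd (orderOf_eq_one_iff.not.2 hx1)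
    exact eq_zero_of_pow_factorization_dvd hpp χ.2
      (hpr s hs p hpp (hd.trans (Subgroup.orderOf_dvd_natCard _ hx))) hd
  have hdvd : ∀ s : G, orderOf s = 2 →
      Nat.card (Subgroup.centralizer ({s} : Set G)) ∣ charDegree χ.1 := fun s hs =>
    card_dvd_degree_of_vanishing χ.2.isCharacter _ (hvC s hs) χ.2.cast_charDegree.symm
  obtain ⟨s₀, hs₀⟩ := exists_prime_orderOf_dvd_card' 2 heven.two_dvd
  have hne : χ.1 ≠ fun _ => 1 := fun h => by
    have := hv2 s₀ (hs₀ ▸ dvd_rfl)
    simp [h] at this
  set T := Finset.univ.filter (fun x : G => orderOf x = 2) with hT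
  -- the indicator sum
  have hsum : ∑ g : G, χ.1 (g * g) = T.card * charDegree χ.1 := by
    rw [← Finset.sum_filter_add_sum_filter_not _ (fun g : G => 2 ∣ orderOf g)]
    have e1 : ∑ g ∈ Finset.univ.filter (fun g : G => ¬ 2 ∣ orderOf g), χ.1 (g * g) = 0 := by
      have e2 : ∑ g ∈ Finset.univ.filter (fun g : G => ¬ 2 ∣ orderOf g), χ.1 (g * g) =
          ∑ g ∈ Finset.univ.filter (fun g : G => ¬ 2 ∣ orderOf g), χ.1 g := by
        have hinj : Set.InjOn (fun g : G => g * g)
            (Finset.univ.filter (fun g : G => ¬ 2 ∣ orderOf g) : Finset G) := by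
          intro a ha b hb hab
          simp only [Finset.coe_filter, Finset.mem_univ, true_and, Set.mem_setOf_eq] at ha hb hab
          have hodd : Odd (orderOf a * orderOf b) :=
            (Nat.two_dvd_ne_zero.1 ha |> Nat.odd_iff.2).mul
              (Nat.two_dvd_ne_zero.1 hb |> Nat.odd_iff.2)
          obtain ⟨k, hk⟩ := hodd
          have key : ∀ c : G, c ^ (orderOf a * orderOf b) = 1 → c = (c * c) ^ (k + 1) := by
            intro c hc
            rw [← sq, ← pow_mul, show 2 * (k + 1) = orderOf a * orderOf b + 1 by omega, pow_succ,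
              hc, one_mul]
          rw [key a (by rw [pow_mul, pow_orderOf_eq_one, one_pow]),
            key b (by rw [mul_comm, pow_mul, pow_orderOf_eq_one, one_pow]), hab]
        have hmaps : ∀ g ∈ Finset.univ.filter (fun g : G => ¬ 2 ∣ orderOf g),
            g * g ∈ Finset.univ.filter (fun g : G => ¬ 2 ∣ orderOf g) := by
          intro g hg
          simp only [Finset.mem_filter, Finset.mem_univ, true_and] at hg ⊢
          exact fun h => hg (h.trans (sq g ▸ orderOf_pow_dvd 2))
        exact Finset.sum_nbij (fun g => g * g) hmaps hinj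
          (Finset.surjOn_of_injOn_of_card_le _ hmaps hinj le_rfl) (fun _ _ => rfl)
      rw [e2, Finset.sum_filter_of_ne (p := fun g : G => ¬ 2 ∣ orderOf g)
        fun g _ hg h => hg (hv2 g h)]
      exact χ.2.sum_eq_zero hne
    rw [e1, add_zero, χ.2.cast_charDegree, ← nsmul_eq_mul, ← Finset.sum_const, hT,
      Finset.sum_filter, Finset.sum_filter]
    refine Finset.sum_congr rfl fun g _ => ?_
    by_cases hg : orderOf g = 2
    · rw [if_pos (hg ▸ dvd_rfl), if_pos hg, ← sq, ← hg, pow_orderOf_eq_one]
    rw [if_neg hg]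
    split_ifs with hg2
    swap
    · rfl
    obtain ⟨m, hm⟩ := hg2
    have hm0 : m ≠ 0 := by
      rintro rfl
      exact (orderOf_pos g).ne' hm
    refine hvC (g ^ m) ?_ _ (mem_centralizer_singleton.2
      (((Commute.refl g).mul_left (Commute.refl g)).pow_right m)) fun h => hg ?_
    · rw [orderOf_pow_of_dvd hm0 ⟨2, by omega⟩, hm, Nat.mul_div_cancel _ (Nat.pos_of_ne_zero hm0)]
    · have : orderOf g ∣ 2 := orderOf_dvd_of_pow_eq_one (by rwa [sq])
      have := Nat.le_of_dvd two_pos this
      omega
  have hTpos : 0 < T.card := Finset.card_pos.2 ⟨s₀, by simp [hT, hs₀]⟩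
  have hfs : fsInd χ.1 = 1 := by
    have e : (Nat.card G : ℂ) * fsInd χ.1 = (T.card * charDegree χ.1 : ℕ) := by
      rw [fsInd, hsum, mul_inv_cancel_left₀ (card_ne_zero' G)]
      push_cast
      rfl
    have hpos := Nat.mul_pos hTpos hd0
    rcases fsInd_trichotomy χ.2 with h | h | h
    · rw [h, mul_zero] at e
      exact absurd (by exact_mod_cast e.symm) hpos.ne'
    · exact h
    · rw [h, mul_neg_one] at e
      have e' : (-(Nat.card G : ℤ)) = (T.card * charDegree χ.1 : ℕ) := by exact_mod_cast e
      omega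
  have hG : Nat.card G = T.card * charDegree χ.1 := by
    have e := hfs
    rw [fsInd, hsum, inv_mul_eq_iff_eq_mul₀ (card_ne_zero' G), mul_one] at e
    exact_mod_cast e.symm
  have key : ∀ s : G, orderOf s = 2 →
      Nat.card (Subgroup.centralizer ({s} : Set G)) = charDegree χ.1 ∧
        Finset.univ.filter (fun x => IsConj s x) = T := by
    intro s hs
    have hsub : Finset.univ.filter (fun x => IsConj s x) ⊆ T := by
      intro x hx
      simp only [hT, Finset.mem_filter, Finset.mem_univ, true_and] at hx ⊢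
      obtain ⟨c, rfl⟩ := isConj_iff.1 hx
      rw [← hs]
      exact (MulAut.conj c).orderOf_eq s
    have h1 := Finset.card_le_card hsub
    have h3 := (Subgroup.centralizer ({s} : Set G)).card_mul_index
    have h4 := Nat.le_of_dvd hd0 (hdvd s hs)
    have h5 := card_filter_isConj s
    rw [← h5, hG] at h3
    have h6 : Nat.card (Subgroup.centralizer ({s} : Set G)) = charDegree χ.1 := by
      refine le_antisymm h4 ?_
      by_contra hlt
      push Not at hlt
      nlinarith
    refine ⟨h6, Finset.eq_of_subset_of_card_le hsub ?_⟩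
    rw [h6, mul_comm] at h3
    exact (Nat.eq_of_mul_eq_mul_right hd0 h3).ge
  refine ⟨fun s t hs ht => ?_, fun s hs => ⟨(key s hs).1, ?_⟩, hfs⟩
  · have : t ∈ T := by simp [hT, ht]
    rw [← (key s hs).2] at this
    simpa using this
  · refine Nat.Coprime.symm (Nat.coprime_of_dvd' fun p hpp h1 h3 => ?_)
    exfalso
    have h4 := hpr s hs p hpp h3
    rw [← (key s hs).1] at h4
    have h5 := Nat.mul_dvd_mul h4 h1
    rw [(Subgroup.centralizer ({s} : Set G)).card_mul_index, ← pow_succ,
      hpp.pow_dvd_iff_le_factorization Nat.card_pos.ne'] at h5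
    omega

end Cfsg.Agent.S4478
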