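import Cfsg.Statements.S4479
import Cfsg.Agent.H36.DihCount

set_option autoImplicit false
open Cfsg

namespace Cfsg.Agent.S4479

open H35

theorem klein_of_no_compl {G : Type*} [Group G] [Finite G] {g₀ : ℕ} (hg₀ : Odd g₀)
    (hG : Nat.card G = 4 * g₀) (hnc : ¬ ∃ N : Subgroup G, N.Normal ∧ Nat.card N = g₀)
    (P : Sylow 2 G) : IsKleinFour (P : Subgroup G) ∧
      ∀ s t : G, orderOf s = 2 → orderOf t = 2 → IsConj s t := by
  have hP : Nat.card P = 4 := by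
    rw [P.card_eq_multiplicity, hG, Nat.factorization_mul (by norm_num) hg₀.pos.ne',
      show 4 = 2 ^ 2 by norm_num, Nat.prime_two.factorization_pow]
    simp [Nat.factorization_eq_zero_of_not_dvd (Nat.two_dvd_ne_zero.2 (Nat.odd_iff.1 hg₀))]
  have h1 : ∀ N : Subgroup G, N.Normal → ¬ N.IsComplement' P := fun N hN hc => hnc ⟨N, hN, by
    have := hc.card_mul_card
    rw [hP, hG] at this
    omega⟩
  have h2 : IsKleinFour (P : Subgroup G) := ⟨hP, (not_isCyclic_iff_exponent_eq_prime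
    Nat.prime_two hP).1 fun hc => h1 _ inferInstance (IsCyclic.isComplement'
      ((Nat.minFac_eq_two_iff _).2 (by omega)) hc)⟩
  exact ⟨h2, fun s t => (H34.rk2_of_isKleinFour h2).isConj_of_not_le fun h =>
    h1 _ inferInstance (MonoidHom.ker_transferSylow_isComplement' P h)⟩

theorem sum_bF_eq {G : Type*} [Group G] [Fintype G] {B : Set (IrrCharacter G)}
    {χ₁ χ₂ χ₃ : IrrCharacter G}
    (hB : B = {χ : Cfsg.IrrCharacter G | (χ : G → ℂ) = (fun _ => 1) ∨ χ = χ₁ ∨ χ = χ₂ ∨ χ = χ₃})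
    (hdist : (χ₁ : G → ℂ) ≠ (fun _ => 1) ∧ (χ₂ : G → ℂ) ≠ (fun _ => 1) ∧
      (χ₃ : G → ℂ) ≠ (fun _ => 1) ∧ χ₁ ≠ χ₂ ∧ χ₁ ≠ χ₃ ∧ χ₂ ≠ χ₃) (f : (G → ℂ) → ℂ) :
    ∑ χ ∈ bF B, f χ = f (fun _ => 1) + (f χ₁ + (f χ₂ + f χ₃)) := by
  classical
  obtain ⟨h1, h2, h3, h12, h13, h23⟩ := hdist
  have : bF B = {⟨fun _ => 1, H28.isIrrCharacter_one⟩, χ₁, χ₂, χ₃} := by
    ext χ
    simp [mem_bF, hB, Subtype.ext_iff]
  rw [this, Finset.sum_insert (by simp [Subtype.ext_iff, h1.symm, h2.symm, h3.symm]),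
    Finset.sum_insert (by simp [h12, h13]), Finset.sum_pair h23]

/-- An order formula from the principal 2-block. Let G be a finite group of order 4·g₀ with g₀ odd having no normal 2-complement (no normal subgroup of order g₀); let P be a Sylow 2-subgroup, J an involution of P, and fix a maximal ideal M of the algebraic integers containing 2. Suppose the principal 2-block consists of the principal character and three further distinct characters χ₁, χ₂, χ₃ of degrees x₁, x₂, x₃, with χ_i(J) = ε_i = ±1. Then, writing c(J) and c(P) for the orders of the centralizers of J and of P, the order of G equals 8·α·c(J)³/c(P)² with α = x₁x₂x₃ / ((x₁ + ε₁)(x₂ + ε₂)(x₃ + ε₃)). -/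
theorem result {G : Type*} [Group G] [Finite G] (M : Ideal Cfsg.AlgInt) (hM : Cfsg.IsPModular 2 M) (g₀ : ℕ) (hg₀ : Odd g₀) (hG : Nat.card G = 4 * g₀) (hnc : ¬ ∃ N : Subgroup G, N.Normal ∧ Nat.card N = g₀) (P : Sylow 2 G) (J : G) (hJ : J ∈ (P : Subgroup G)) (hJ2 : orderOf J = 2) (χ₁ χ₂ χ₃ : Cfsg.IrrCharacter G) (ε₁ ε₂ ε₃ : ℤ) (hB : Cfsg.principalBlock M G = {χ : Cfsg.IrrCharacter G | (χ : G → ℂ) = (fun _ => 1) ∨ χ = χ₁ ∨ χ = χ₂ ∨ χ = χ₃}) (hdist : (χ₁ : G → ℂ) ≠ (fun _ => 1) ∧ (χ₂ : G → ℂ) ≠ (fun _ => 1) ∧ (χ₃ : G → ℂ) ≠ (fun _ => 1) ∧ χ₁ ≠ χ₂ ∧ χ₁ ≠ χ₃ ∧ χ₂ ≠ χ₃) (hε : (ε₁ = 1 ∨ ε₁ = -1) ∧ (ε₂ = 1 ∨ ε₂ = -1) ∧ (ε₃ = 1 ∨ ε₃ = -1)) (hval : (χ₁ : G → ℂ) J = ε₁ ∧ (χ₂ : G → ℂ) J = ε₂ ∧ (χ₃ : G → ℂ) J = ε₃) : (Nat.card G : ℚ) = 8 * (((Cfsg.charDegree (χ₁ : G → ℂ) : ℚ) * Cfsg.charDegree (χ₂ : G → ℂ) * Cfsg.charDegree (χ₃ : G → ℂ)) / ((Cfsg.charDegree (χ₁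 : G → ℂ) + ε₁) * (Cfsg.charDegree (χ₂ : G → ℂ) + ε₂) * (Cfsg.charDegree (χ₃ : G → ℂ) + ε₃))) * (Nat.card (Subgroup.centralizer ({J} : Set G)) : ℚ) ^ 3 / (Nat.card (Subgroup.centralizer ((P : Subgroup G) : Set G)) : ℚ) ^ 2 := by
  have := hM.2.1
  have := Fintype.ofFinite G
  obtain ⟨hP, hone⟩ := klein_of_no_compl hg₀ hG hnc P
  have h1 := H36.klein_order hM hP hone hJ hJ2
  have h2 : H41.bker (principalBlock M G) 1 J = 0 := H41.weak_orthogonality_of_coeff_mem hM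
    (H34.blockCoeff_mem_S H34.isPBlock_principalBlock) (by simp) hJ2.symm.dvd
  rw [H34.bker_eq_sum_bF, sum_bF_eq hB hdist fun χ => χ 1 * (starRingEnd ℂ) (χ J)] at h2
  rw [sum_bF_eq hB hdist fun χ => χ J ^ 3 / χ 1] at h1
  simp only [hval, ← coe_deg, map_intCast, map_one] at h1 h2
  have d1 : (charDegree (χ₁ : G → ℂ) : ℚ) ≠ 0 := Nat.cast_ne_zero.2 (deg_ne_zero _)
  have d2 : (charDegree (χ₂ : G → ℂ) : ℚ) ≠ 0 := Nat.cast_ne_zero.2 (deg_ne_zero _)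
  have d3 : (charDegree (χ₃ : G → ℂ) : ℚ) ≠ 0 := Nat.cast_ne_zero.2 (deg_ne_zero _)
  have c1 : (Nat.card (Subgroup.centralizer ({J} : Set G)) : ℚ) ≠ 0 :=
    Nat.cast_ne_zero.2 Nat.card_pos.ne'
  have c2 : (Nat.card (Subgroup.centralizer ((P : Subgroup G) : Set G)) : ℚ) ≠ 0 :=
    Nat.cast_ne_zero.2 Nat.card_pos.ne'
  generalize charDegree (χ₁ : G → ℂ) = x₁ at *
  generalize charDegree (χ₂ : G → ℂ) = x₂ at *
  generalize charDegree (χ₃ : G → ℂ) = x₃ at *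
  have h3 : (Nat.card G : ℚ) * (1 ^ 3 / 1 + (ε₁ ^ 3 / x₁ + (ε₂ ^ 3 / x₂ + ε₃ ^ 3 / x₃))) *
      (Nat.card (Subgroup.centralizer ((P : Subgroup G) : Set G)) : ℚ) ^ 2 =
      8 * (Nat.card (Subgroup.centralizer ({J} : Set G)) : ℚ) ^ 3 :=
    Rat.cast_injective (α := ℂ) (by push_cast; exact h1)
  have h4 : (1 : ℚ) * 1 + (x₁ * ε₁ + (x₂ * ε₂ + x₃ * ε₃)) = 0 := by exact_mod_cast h2
  have h5 : (1 : ℚ) ^ 3 / 1 + (ε₁ ^ 3 / x₁ + (ε₂ ^ 3 / x₂ + ε₃ ^ 3 / x₃)) =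
      (x₁ + ε₁) * (x₂ + ε₂) * (x₃ + ε₃) / (x₁ * x₂ * x₃) := by
    obtain ⟨rfl | rfl, rfl | rfl, rfl | rfl⟩ := hε <;> push_cast at h4 ⊢ <;> field_simp <;>
      first | linear_combination h4 | linear_combination -h4
  rw [h5] at h3
  have h6 : ((x₁ : ℚ) + ε₁) * (x₂ + ε₂) * (x₃ + ε₃) ≠ 0 := fun h => by
    rw [h] at h3
    simp [c1] at h3
  field_simp at h3
  rw [eq_div_iff (pow_ne_zero 2 c2), ← mul_div_assoc, div_mul_eq_mul_div, eq_div_iff h6]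
  linear_combination h3

end Cfsg.Agent.S4479
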