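import Cfsg.Statements.S4480
import Cfsg.Agent.S4479
import Cfsg.Agent.H41.RealBlock
import Cfsg.Agent.H30.Counting

set_option autoImplicit false
open Cfsg

namespace Cfsg.Agent.S4480

open H35 H28

theorem arith {x t c n : ℕ} (hc : 0 < c)
    (h : (n * (t * c) : ℚ) = 8 * (x * x * (2 * x + 1) / ((x + 1) * (x + 1) * (2 * x))) *
      (t * c) ^ 3 / c ^ 2) (hx : 0 < x) (ht : 0 < t) :
    ∃ m : ℕ, 4 * (t * c) = m * c * (2 * x + 1 + 1) ∧
      8 * (n * (t * c)) = m ^ 3 * c * ((2 * x + 1) ^ 3 - (2 * x + 1)) := by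
  have h1 : n * (x + 1) ^ 2 = x * (2 * x + 1) * (2 * t) ^ 2 := by
    have : (n * (x + 1) ^ 2 : ℚ) = x * (2 * x + 1) * (2 * t) ^ 2 := by
      field_simp at h
      linear_combination h / 2
    exact_mod_cast this
  have h2 : Nat.Coprime ((x + 1) ^ 2) (x * (2 * x + 1)) := by
    refine Nat.Coprime.pow_left 2 (Nat.Coprime.mul_right (by simp) ?_)
    rw [show 2 * x + 1 = x + (x + 1) by ring]
    simp
  obtain ⟨m, hm⟩ := (Nat.pow_dvd_pow_iff two_ne_zero).1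
    (h2.dvd_of_dvd_mul_left ⟨n, by rw [← h1, mul_comm]⟩)
  have h3 : n = x * (2 * x + 1) * m ^ 2 :=
    Nat.eq_of_mul_eq_mul_right (by positivity : 0 < (x + 1) ^ 2) (by rw [h1, hm]; ring)
  refine ⟨m, by linear_combination 2 * c * hm, ?_⟩
  rw [show (2 * x + 1) ^ 3 = (2 * x + 1) * (2 * x) * (2 * x + 2) + (2 * x + 1) by ring,
    Nat.add_sub_cancel, h3]
  linear_combination 4 * x * (2 * x + 1) * m ^ 2 * c * hm

/-- Same setting as the Klein-four order formula: G of order 4·g₀ (g₀ odd) with no normal 2-complement, P a Sylow 2-subgroup, J an involution of P, M over 2, principal 2-block {1, χ₁, χ₂, χ₃} with χ_i(J) = ε_i = ±1. Suppose ε₁ε₂ε₃ = −1 and ε₃ = −1, and put q = x₃ = χ₃(1). Then there is a natural number m with 4·c(J) = m·c(P)·(q + 1), and the order of G equals (m³·c(P)/4)·(q³ − q)/2, that is 8·#G = m³·c(P)·(q³ − q). -/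
theorem result {G : Type*} [Group G] [Finite G] (M : Ideal Cfsg.AlgInt) (hM : Cfsg.IsPModular 2 M) (g₀ : ℕ) (hg₀ : Odd g₀) (hG : Nat.card G = 4 * g₀) (hnc : ¬ ∃ N : Subgroup G, N.Normal ∧ Nat.card N = g₀) (P : Sylow 2 G) (J : G) (hJ : J ∈ (P : Subgroup G)) (hJ2 : orderOf J = 2) (χ₁ χ₂ χ₃ : Cfsg.IrrCharacter G) (ε₁ ε₂ ε₃ : ℤ) (hB : Cfsg.principalBlock M G = {χ : Cfsg.IrrCharacter G | (χ : G → ℂ) = (fun _ => 1) ∨ χ = χ₁ ∨ χ = χ₂ ∨ χ = χ₃}) (hdist : (χ₁ : G → ℂ) ≠ (fun _ => 1) ∧ (χ₂ : G → ℂ) ≠ (fun _ => 1) ∧ (χ₃ : G → ℂ) ≠ (fun _ => 1) ∧ χ₁ ≠ χ₂ ∧ χ₁ ≠ χ₃ ∧ χ₂ ≠ χ₃) (hε : (ε₁ = 1 ∨ ε₁ = -1) ∧ (ε₂ = 1 ∨ ε₂ = -1) ∧ (ε₃ = 1 ∨ ε₃ = -1)) (hval : (χ₁ : G → ℂ) J = ε₁ ∧ (χ₂ : G → ℂ) J = ε₂ ∧ (χ₃ : G → ℂ) J = ε₃) (hprod : ε₁ * ε₂ * ε₃ = -1) (hε₃ : ε₃ = -1) : ∃ m : ℕ, 4 * Nat.card (Subgroup.centralizer ({J} : Set G)) = m * Nat.card (Subgroup.centralizer ((P : Subgroup G) : Set G)) *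 (Cfsg.charDegree (χ₃ : G → ℂ) + 1) ∧ 8 * Nat.card G = m ^ 3 * Nat.card (Subgroup.centralizer ((P : Subgroup G) : Set G)) * (Cfsg.charDegree (χ₃ : G → ℂ) ^ 3 - Cfsg.charDegree (χ₃ : G → ℂ)) := by
  classical
  have := hM.2.1
  have := Fintype.ofFinite G
  have h0 := S4479.result M hM g₀ hg₀ hG hnc P J hJ hJ2 χ₁ χ₂ χ₃ ε₁ ε₂ ε₃ hB hdist hε hval
  obtain ⟨hP, hone⟩ := S4479.klein_of_no_compl hg₀ hG hnc P
  have h2 : H41.bker (principalBlock M G) 1 J = 0 := H41.weak_orthogonality_of_coeff_mem hM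
    (H34.blockCoeff_mem_S H34.isPBlock_principalBlock) (by simp) hJ2.symm.dvd
  rw [H34.bker_eq_sum_bF, S4479.sum_bF_eq hB hdist fun χ => χ 1 * (starRingEnd ℂ) (χ J)] at h2
  simp only [hval, ← coe_deg, map_intCast, map_one] at h2
  have h4 : (1 : ℤ) * 1 + (charDegree (χ₁ : G → ℂ) * ε₁ + (charDegree (χ₂ : G → ℂ) * ε₂ +
    charDegree (χ₃ : G → ℂ) * ε₃)) = 0 := by exact_mod_cast h2
  have d1 := deg_ne_zero χ₁
  have d3 := deg_ne_zero χ₃
  subst hε₃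
  obtain ⟨rfl, rfl⟩ : ε₁ = 1 ∧ ε₂ = 1 := by
    obtain ⟨rfl | rfl, rfl | rfl, -⟩ := hε <;> omega
  have h5 := blockPart_eq_zero_of_sing hM (H34.isPBlock_principalBlock (M := M))
    (η := ∑ χ : IrrCharacter G, H30.fsInd χ.1 • χ.1) (fun x hx => by
      rw [Finset.sum_apply]
      refine (H30.card_sqrt_eq_sum x).symm.trans (Nat.cast_eq_zero.2 (Nat.card_eq_zero.2
        (Or.inl ⟨fun s => ?_⟩)))
      obtain ⟨u, hu⟩ := H41.exists_isPPart Nat.prime_two s.1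
      obtain ⟨y, e, hc, hk, hy⟩ := hu
      have h6 : u * u = 1 := by
        by_cases h : u = 1
        · simp [h]
        · exact H85.ord2_mul_self (H34.klein_orderOf_of_pow hP hk h)
      rw [← s.2, ← e, ← sq, hc.mul_pow, sq u, h6, one_mul] at hx
      exact hy (hx.trans (orderOf_pow_dvd 2))) J hJ2.symm.dvd
  rw [blockPart_eq, Finset.sum_apply, Finset.sum_congr rfl (g := fun χ => H30.fsInd χ.1 * χ.1 J)
    fun χ _ => by rw [Pi.smul_apply, smul_eq_mul, ← sum_bF_eq_sum_univ (B := Set.univ) (by simp),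
      classInner_sum_bF _ (Set.mem_univ _)],
    S4479.sum_bF_eq hB hdist fun χ => H30.fsInd χ * χ J] at h5
  have hfs : ∀ (χ : IrrCharacter G) (ε : ℤ), ε = 1 ∨ ε = -1 → χ.1 J = ε →
      (H30.fsInd χ.1 = 0 ∧ ¬ ∀ g, (χ.1 g).im = 0) ∨ H30.fsInd χ.1 = 1 := fun χ ε hε h => by
    by_cases hr : ∀ g, (χ.1 g).im = 0
    · obtain ⟨a, b, h6, h7⟩ := H34.char_invol χ.2.isCharacter (H85.ord2_mul_self hJ2)
      have h8 : ε = a - b := by exact_mod_cast h.symm.trans h7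
      exact Or.inr (H30.fsInd_eq_one_of_odd χ.2 hr h6 (Nat.odd_iff.2 (by omega)))
    · exact Or.inl ⟨H30.fsInd_eq_zero_of_not_real χ.2 hr, hr⟩
  have h6 : ¬ ∀ g, (χ₁.1 g).im = 0 := by
    rw [hval.1, hval.2.1, hval.2.2, H30.fsInd_eq_one_of_odd isIrrCharacter_one (by simp)
      (d := 1) (by simp) odd_one] at h5
    rcases hfs χ₁ _ hε.1 hval.1 with h | h
    · exact h.2
    rcases hfs χ₂ _ hε.2.1 hval.2.1 with ⟨h', -⟩ | h' <;>
      rcases hfs χ₃ _ hε.2.2 hval.2.2 with ⟨h'', -⟩ | h'' <;> norm_num [h, h', h''] at h5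
  have h7 := H41.cconj_mem_principalBlock (M := M) (χ := χ₁) (by simp [hB])
  have h8 : charDegree (χ₂ : G → ℂ) = charDegree (χ₁ : G → ℂ) := by
    rw [hB] at h7
    rcases h7 with h | h | h | h
    · exact absurd (funext fun g => by
        simpa [H41.cconj] using congrArg (starRingEnd ℂ) (congrFun h g)) hdist.1
    · exact absurd (H30.real_iff_conj_eq.2 (congrArg Subtype.val h)) h6
    · rw [← h]; simp [charDegree, H41.cconj]
    · have := hval.2.2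
      rw [← h] at this
      norm_num [H41.cconj, hval.1] at this
  have h9 : charDegree (χ₃ : G → ℂ) = 2 * charDegree (χ₁ : G → ℂ) + 1 := by omega
  obtain ⟨t, ht⟩ := Subgroup.card_dvd_of_le (Subgroup.centralizer_le (Set.singleton_subset_iff.2 hJ) :
    Subgroup.centralizer ((P : Subgroup G) : Set G) ≤ Subgroup.centralizer {J})
  obtain ⟨n, hn⟩ := Subgroup.card_subgroup_dvd_card (Subgroup.centralizer ({J} : Set G))
  rw [mul_comm] at ht hn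
  have ht0 : 0 < t := Nat.pos_of_mul_pos_right (ht ▸ Nat.card_pos)
  rw [h8, h9, hn, ht] at h0
  rw [h9, hn, ht]
  refine arith Nat.card_pos ?_ (Nat.pos_of_ne_zero d1) ht0
  push_cast at h0
  convert h0 using 5
  ring

end Cfsg.Agent.S4480
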