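import Cfsg.Statements.S4481
import Cfsg.Agent.H36.DihBlk

set_option autoImplicit false
open Cfsg

namespace Cfsg.Agent.S4481

/-- The principal 2-block of a group with dihedral Sylow 2-subgroups. Let G be a finite group whose Sylow 2-subgroup P is dihedral of order 2^n ≥ 8, let σ be an element of P of order 2^(n−1), ζ a primitive 2^(n−1)-th root of unity, and M a maximal ideal of the algebraic integers containing 2. Then the principal 2-block consists of exactly 3 + 2^(n−2) irreducible characters, which can be labelled 1, χ₁, χ₂, χ₃ and χ^(j) for 1 ≤ j ≤ 2^(n−2) − 1 (all distinct), with signs δ₁, δ₂, δ₃ such that for 0 < λ < 2^(n−1): χ₁(σ^λ) = δ₁, χ₂(σ^λ) = δ₂(−1)^(λ+1), χ₃(σ^λ) = δ₃(−1)^(λ+1) and χ^(j)(σ^λ) = δ₁(ζ^(jλ) + ζ^(−jλ)); and for every element ρ of odd order and every j: 1 + δ₁χ₁(ρ) = −δ₂χ₂(ρ)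 − δ₃χ₃(ρ) = δ₁χ^(j)(ρ). -/
theorem result {G : Type*} [Group G] [Finite G] (M : Ideal Cfsg.AlgInt) (hM : Cfsg.IsPModular 2 M) (n : ℕ) (hn : 3 ≤ n) (P : Sylow 2 G) (hP : Nonempty ((P : Subgroup G) ≃* DihedralGroup (2 ^ (n - 1)))) (σ : G) (hσ : σ ∈ (P : Subgroup G)) (hσo : orderOf σ = 2 ^ (n - 1)) (ζ : ℂ) (hζ : IsPrimitiveRoot ζ (2 ^ (n - 1))) : Nat.card (Cfsg.principalBlock M G) = 3 + 2 ^ (n - 2) ∧ ∃ (χ₁ χ₂ χ₃ : Cfsg.IrrCharacter G) (χ' : Fin (2 ^ (n - 2) - 1) → Cfsg.IrrCharacter G) (δ₁ δ₂ δ₃ : ℤ), (δ₁ = 1 ∨ δ₁ = -1) ∧ (δ₂ = 1 ∨ δ₂ = -1) ∧ (δ₃ = 1 ∨ δ₃ = -1) ∧ Function.Injective χ' ∧ (χ₁ : G → ℂ) ≠ (fun _ => 1) ∧ (χ₂ : G → ℂ) ≠ (fun _ => 1) ∧ (χ₃ : G → ℂ) ≠ (fun _ => 1) ∧ χ₁ ≠ χ₂ ∧ χ₁ ≠ χ₃ ∧ χ₂ ≠ χ₃ ∧ (∀ j, χ' j ≠ χ₁ ∧ χ' j ≠ χ₂ ∧ χ' j ≠ χ₃ ∧ (χ' j : G → ℂ) ≠ (fun _ => 1)) ∧ Cfsg.principalBlock M G = {χ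 : Cfsg.IrrCharacter G | (χ : G → ℂ) = (fun _ => 1) ∨ χ = χ₁ ∨ χ = χ₂ ∨ χ = χ₃ ∨ ∃ j, χ = χ' j} ∧ (∀ l : ℕ, 0 < l → l < 2 ^ (n - 1) → (χ₁ : G → ℂ) (σ ^ l) = δ₁ ∧ (χ₂ : G → ℂ) (σ ^ l) = δ₂ * (-1) ^ (l + 1) ∧ (χ₃ : G → ℂ) (σ ^ l) = δ₃ * (-1) ^ (l + 1) ∧ ∀ j : Fin (2 ^ (n - 2) - 1), (χ' j : G → ℂ) (σ ^ l) = δ₁ * (ζ ^ (((j : ℕ) + 1) * l) + (ζ ^ (((j : ℕ) + 1) * l))⁻¹)) ∧ ∀ ρ : G, Odd (orderOf ρ) → ∀ j : Fin (2 ^ (n - 2) - 1), 1 + δ₁ * (χ₁ : G → ℂ) ρ = -δ₂ * (χ₂ : G → ℂ) ρ - δ₃ * (χ₃ : G → ℂ) ρ ∧ 1 + δ₁ * (χ₁ : G → ℂ) ρ = δ₁ * (χ' j : G → ℂ) ρ := by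
  classical
  have := hM.2.1
  have := Fintype.ofFinite G
  obtain ⟨e⟩ := hP
  obtain ⟨m, rfl⟩ := Nat.exists_eq_add_of_le' hn
  have e1 : 2 ^ (m + 3 - 1) = 2 * 2 ^ (m + 3 - 2) := by
    rw [← pow_succ']; rfl
  have e2 : 2 ^ (m + 3 - 2) = 2 * 2 ^ m := by
    rw [← pow_succ']; rfl
  have e3 : 0 < 2 ^ m := by positivity
  obtain ⟨r, s, h, hr⟩ := H85.exists_Dih e
  have hz : Subgroup.zpowers σ = Subgroup.zpowers r :=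
    Subgroup.eq_of_le_of_card_ge (Subgroup.zpowers_le.2 (h.mem_zpowers_of_sq_ne hσ fun h2 => by
      have := Nat.le_of_dvd two_pos (orderOf_dvd_of_pow_eq_one ((pow_two σ).trans h2))
      omega)) (by rw [Nat.card_zpowers, Nat.card_zpowers, hr, hσo])
  have h' : H85.Dih (P : Subgroup G) σ s :=
    ⟨h.sq, hz ▸ h.notMem, h.s_conj (hz ▸ Subgroup.mem_zpowers σ), hz ▸ h.mem⟩
  obtain ⟨ψ₀, hψ⟩ := H36.exists_hom_zpowers (hσo ▸ hζ)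
  obtain ⟨χ₁, χ₂, χ₃, χ', δ₁, δ₂, δ₃, b⟩ := H36.exists_dihBlk hM h' (N := 2 ^ (m + 3 - 2))
    (e2 ▸ even_two_mul _) (hσo.trans e1) (hψ ▸ e1 ▸ hζ)
  have hA : IsPGroup 2 (Subgroup.zpowers σ) := P.isPGroup'.to_le h'.zpowers_le
  refine ⟨?_, χ₁, χ₂, χ₃, χ', δ₁, δ₂, δ₃, b.s₁, b.s₂, b.s₃, b.inj, b.n₁, b.n₂, b.n₃, b.n₁₂, b.n₁₃,
    b.n₂₃, b.n', b.blk, fun l h0 hl => ?_, fun ρ hρ j => ?_⟩
  · let o : IrrCharacter G := ⟨_, H28.isIrrCharacter_one⟩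
    have h1 : principalBlock M G = insert o (insert χ₁ (insert χ₂ (insert χ₃ (Set.range χ')))) := by
      rw [b.blk]
      ext χ
      simp [o, Subtype.ext_iff (a1 := χ) (a2 := o), eq_comm (a := χ)]
    have h2 : ∀ χ : IrrCharacter G, (χ : G → ℂ) ≠ (fun _ => 1) → o ≠ χ := fun χ h e =>
      h (congrArg Subtype.val e.symm)
    rw [h1, Nat.card_coe_set_eq, Set.ncard_insert_of_notMem (by
        simp [h2 _ b.n₁, h2 _ b.n₂, h2 _ b.n₃, fun j => (h2 _ (b.n' j).2.2.2).symm]),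
      Set.ncard_insert_of_notMem (by simp [b.n₁₂, b.n₁₃, fun j => (b.n' j).1]),
      Set.ncard_insert_of_notMem (by simp [b.n₂₃, fun j => (b.n' j).2.1]),
      Set.ncard_insert_of_notMem (by simp [fun j => (b.n' j).2.2.1]),
      Set.ncard_range_of_injective b.inj, Nat.card_eq_fintype_card, Fintype.card_fin]
    omega
  · have h1 := b.val (⟨σ, Subgroup.mem_zpowers σ⟩ ^ l) fun e =>
      pow_ne_one_of_lt_orderOf h0.ne' (hσo ▸ hl) (congrArg Subtype.val e)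
    have h2 : ζ ^ 2 ^ (m + 3 - 2) = -1 :=
      (hζ.pow (by positivity) (e1.trans (mul_comm _ _))).eq_neg_one_of_two_right
    simp only [map_pow, Units.val_pow_eq_pow_val, hψ, ← pow_mul, mul_comm l] at h1
    simp only [pow_mul ζ (2 ^ (m + 3 - 2)), h2] at h1
    refine ⟨h1.1, h1.2.1.trans ?_, h1.2.2.1.trans ?_, h1.2.2.2⟩ <;> ring
  · have hρ' : ¬ 2 ∣ orderOf ρ := hρ.not_two_dvd_nat
    have h1 := (b.col j fun χ => (χ : G → ℂ) ρ).symm.trans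
      (H36.sum_mult_sub_mul_reg hM hA H34.isPBlock_principalBlock _ _ hρ')
    have h2 := (b.col' fun χ => (χ : G → ℂ) ρ).symm.trans
      (H36.sum_mult_sub_mul_reg hM hA H34.isPBlock_principalBlock _ _ hρ')
    exact ⟨by linear_combination h2, by linear_combination h1⟩

end Cfsg.Agent.S4481
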