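import Cfsg.Statements.S4483
import Cfsg.Agent.H41.RealBlock

set_option autoImplicit false
open Cfsg

namespace Cfsg.Agent.S4483

/-- Let G be a finite group of order 2^n·g₀ with g₀ odd, and M a maximal ideal of the algebraic integers containing 2. Every real-valued irreducible character of G of odd degree lies in the principal 2-block; consequently G has at most 2^(2n) real-valued irreducible characters of odd degree. -/
theorem result {G : Type*} [Group G] [Finite G] (M : Ideal Cfsg.AlgInt) (hM : Cfsg.IsPModular 2 M) : (∀ χ : Cfsg.IrrCharacter G, (∀ g : G, ((χ : G → ℂ) g).im = 0) → Odd (Cfsg.charDegree (χ : G → ℂ)) → χ ∈ Cfsg.principalBlock M G) ∧ Nat.card {χ : Cfsg.IrrCharacter G // (∀ g : G, ((χ : G → ℂ) g).im = 0) ∧ Odd (Cfsg.charDegree (χ : G → ℂ))} ≤ 2 ^ (2 * (Nat.card G).factorization 2) := by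
  have := hM.2.1
  have := Fintype.ofFinite G
  have h1 : ∀ χ : Cfsg.IrrCharacter G, (∀ g : G, ((χ : G → ℂ) g).im = 0) →
      Odd (Cfsg.charDegree (χ : G → ℂ)) → χ ∈ Cfsg.principalBlock M G := fun χ h ho => by
    refine H41.mem_principal_of_sameBlock_cconj hM ho.not_two_dvd_nat ?_
    have : H41.cconj χ = χ := Subtype.ext (funext fun g => Complex.conj_eq_iff_im.2 (h g))
    rw [this]
    exact H34.sameBlock_refl _
  refine ⟨h1, (Nat.card_le_card_of_injective (β := Cfsg.principalBlock M G)
    (fun χ => ⟨χ.1, h1 χ.1 χ.2.1 χ.2.2⟩) fun a b e => Subtype.ext (by simpa using e)).trans ?_⟩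
  have h2 := H35.four_mul_card_le hM (H34.isPBlock_principalBlock (M := M) (G := G))
  rw [H36.blockDefect_principalBlock hM.1] at h2
  have h3 : 0 < 2 ^ (2 * (Nat.card G).factorization 2) := by positivity
  omega

end Cfsg.Agent.S4483
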