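import Cfsg.Statements.S4484
import Cfsg.Agent.H14.Blich
import Cfsg.Agent.H37.Kernel
import Cfsg.Agent.H37.ClassSum
import Cfsg.Agent.H45.BrGen

set_option autoImplicit false
open Cfsg

namespace Cfsg.Agent.S4484

open H28 H35 H14
open scoped ComplexConjugate

/-- The principal `p`-block has a nonprincipal character of degree prime to `q`. -/
theorem exists_char {G : Type*} [Group G] [Finite G] {p q : ℕ} {M : Ideal AlgInt}
    (hM : IsPModular p M) (hq : q.Prime) {y : G} (hy : p ∣ orderOf y) :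
    ∃ χ : IrrCharacter G, χ ∈ principalBlock M G ∧ (χ : G → ℂ) ≠ (fun _ => 1) ∧
      ¬ q ∣ charDegree (χ : G → ℂ) := by
  classical
  have hMm := hM.2.1
  by_contra hno
  push Not at hno
  obtain ⟨N, hN⟩ := exists_isPModular q hq
  have hNm := hN.2.1
  let e : IrrCharacter G := ⟨fun _ => 1, isIrrCharacter_one⟩
  have hB : IsPBlock M (principalBlock M G) := ⟨e, rfl⟩
  have h1 := H37.weak_orthogonality hM hB (x := 1) (y := y)
    (by rw [orderOf_one]; exact hM.1.not_dvd_one) hy
  have he : e ∈ (Set.toFinite (principalBlock M G)).toFinset := by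
    rw [Set.Finite.mem_toFinset]
    intro g
    rw [sub_self]
    exact P_zero
  rw [← Finset.add_sum_erase _ _ he] at h1
  have h2 : MemLocalIdeal N (∑ θ ∈ (Set.toFinite (principalBlock M G)).toFinset.erase e,
      (θ : G → ℂ) 1 * conj ((θ : G → ℂ) y)) := by
    refine P_sum _ _ fun θ hθ => ?_
    obtain ⟨h3, h4⟩ := Finset.mem_erase.1 hθ
    rw [Set.Finite.mem_toFinset] at h4
    have h5 := hno θ h4 fun h => h3 (Subtype.ext h)
    refine P_mul_right ?_ ?_
    · rw [← θ.2.cast_charDegree]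
      exact (P_natCast_iff hN).2 h5
    · rw [← θ.2.isCharacter.apply_inv]
      exact mem_S_of_isIntegral_int (θ.2.isCharacter.isIntegral _)
  have h3 : (e : G → ℂ) 1 * conj ((e : G → ℂ) y) = 1 := by simp [e]
  rw [h3, add_eq_zero_iff_eq_neg] at h1
  have := P_neg h2
  rw [← h1] at this
  exact P_not_one this

theorem sum_mul_inv_eq {A : Type*} [Group A] [Fintype A] [DecidableEq (A →* ℂˣ)]
    (s : Multiset (A →* ℂˣ)) (lam : A →* ℂˣ) :
    ∑ a, (s.map fun f => (f a : ℂ)).sum * (lam a : ℂ)⁻¹ = (s.count lam : ℂ) * Nat.card A := by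
  induction s using Multiset.induction_on with
  | empty => simp
  | cons f s ih =>
    simp only [Multiset.map_cons, Multiset.sum_cons, add_mul, Finset.sum_add_distrib, ih,
      H45.sum_hom_mul_inv, Multiset.count_cons]
    by_cases h : f = lam
    · simp [h]; ring
    · simp [h, Ne.symm h]

/-- The number of distinct constituents on a subgroup of order `p`. -/
theorem exists_constituents {G : Type*} [Group G] [Finite G] {p : ℕ} {M : Ideal AlgInt}
    (hM : IsPModular p M) {χ : G → ℂ} (hχ : IsIrrCharacter G χ)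
    (hB : SameBlock M (fun _ => 1) χ) (H : Subgroup G) [Fintype H] (hH : Nat.card H = p) {d : ℕ}
    (hd : d ∣ charDegree χ)
    (hc : ∀ h ∈ H, ¬ p ∣ (Subgroup.centralizer {h}).index ∧
      (h ≠ 1 → Nat.gcd (charDegree χ) (Subgroup.centralizer {h}).index ∣ d)) :
    ∃ Λ : Finset (H →* ℂˣ), Λ.card ≤ d ∧
      ∀ lam : H →* ℂˣ, classInner (fun x : H => χ x) (fun x => (lam x : ℂ)) ≠ 0 → lam ∈ Λ := by
  classical
  have hMm := hM.2.1
  have := Fact.mk hM.1
  have hcyc : IsCyclic H := isCyclic_of_prime_card hH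
  have hcomm : ∀ a b : H, a * b = b * a := fun a b => (IsCyclic.commGroup (α := H)).mul_comm a b
  obtain ⟨s, hs⟩ := (hχ.isCharacter.restrict H).exists_sum_hom_of_comm hcomm
  obtain ⟨u, hu⟩ := hd
  have hn := hχ.cast_charDegree
  have hn0 := hχ.charDegree_pos
  have hu0 : u ≠ 0 := by rintro rfl; simp [hu] at hn0
  have hd0 : d ≠ 0 := by rintro rfl; simp [hu] at hn0
  have hu0' : (u : ℂ) ≠ 0 := Nat.cast_ne_zero.2 hu0
  have hd0' : (d : ℂ) ≠ 0 := Nat.cast_ne_zero.2 hd0
  have hn1 : χ 1 = d * u := by rw [← hn, hu]; push_cast; ring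
  have hint : ∀ h ∈ H, IsIntegral ℤ (χ h / u) := by
    intro h hh
    by_cases h1 : h = 1
    · rw [h1, hn1, mul_div_cancel_right₀ _ hu0']
      exact isIntegral_natCast d
    obtain ⟨t, ht⟩ := (hc h hh).2 h1
    set c := (Subgroup.centralizer ({h} : Set G)).index with hcdef
    have h2 := Nat.gcd_eq_gcd_ab (charDegree χ) c
    have h3 : ((Nat.gcd (charDegree χ) c : ℕ) : ℂ) =
        χ 1 * (Nat.gcdA (charDegree χ) c : ℂ) + c * (Nat.gcdB (charDegree χ) c : ℂ) := by
      rw [← hn]; exact_mod_cast congrArg (Int.cast : ℤ → ℂ) h2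
    have h4 : (d : ℂ) = ((Nat.gcd (charDegree χ) c : ℕ) : ℂ) * t := by exact_mod_cast ht
    have h5 : χ h / u = t * ((Nat.gcdA (charDegree χ) c : ℂ) * χ h +
        (Nat.gcdB (charDegree χ) c : ℂ) * centralChar χ h) := by
      have h6 : χ h / u = d * χ h / χ 1 := by rw [hn1]; field_simp
      have h7 := hχ.apply_one_ne_zero
      rw [h6, h4, h3, centralChar, ← hcdef]
      field_simp
    rw [h5]
    exact (isIntegral_natCast t).mul (((isIntegral_intCast _).mul
      (hχ.isCharacter.isIntegral h)).add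
        ((isIntegral_intCast _).mul (H37.centralChar_isIntegral hχ h)))
  have hcong : ∀ h ∈ H, MemLocalIdeal M (χ h / u - d) := by
    intro h hh
    set c := (Subgroup.centralizer ({h} : Set G)).index with hcdef
    have hc0 : (c : ℂ) ≠ 0 := Nat.cast_ne_zero.2 Subgroup.index_ne_zero_of_finite
    have h1 := P_mul_left (mul_mem (inv_natCast_mem_S hM (hc h hh).1)
      (natCast_mem (S M) d)) (P_neg (hB h))
    convert h1 using 1
    simp only [centralChar, ← hcdef, hn1]
    field_simp
    ring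
  have hdvd : ∀ lam : H →* ℂˣ, u ∣ s.count lam := by
    intro lam
    have h1 := sum_mul_inv_eq s lam
    simp only [← hs, hH] at h1
    have hroot : ∀ a : H, ((lam a : ℂ)⁻¹) ^ p ^ 1 = 1 := fun a => by
      rw [pow_one, inv_pow, ← Units.val_pow_eq_pow_val, ← map_pow, ← hH, pow_card_eq_one',
        map_one, Units.val_one, inv_one]
    have h2 : ∑ a : H, χ a / u * (lam a : ℂ)⁻¹ = ((s.count lam * p : ℕ) : ℂ) / u := by
      push_cast
      rw [← h1, Finset.sum_div]
      exact Finset.sum_congr rfl fun a _ => by ring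
    have h3 : IsIntegral ℤ (((s.count lam * p : ℕ) : ℂ) / u) := by
      rw [← h2]
      exact IsIntegral.sum _ fun a _ => (hint a a.2).mul
        (IsIntegral.of_pow (pow_pos hM.1.pos 1) (by rw [hroot]; exact isIntegral_one))
    have h4 : MemLocalIdeal M (((s.count lam * p : ℕ) : ℂ) / u) := by
      have h5 : ∑ a : H, χ a / u * (lam a : ℂ)⁻¹ = ∑ a : H, ((χ a / u - d) * (lam a : ℂ)⁻¹ +
          d * ((lam a : ℂ)⁻¹ - 1)) + d * p := by
        rw [← hH, Nat.card_eq_fintype_card, ← Finset.card_univ, mul_comm (d : ℂ), ← nsmul_eq_mul,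
          ← Finset.sum_const, ← Finset.sum_add_distrib]
        exact Finset.sum_congr rfl fun a _ => by ring
      rw [← h2, h5]
      refine P_add (P_sum _ _ fun a _ => P_add ?_ ?_) (P_mul_left (natCast_mem _ d) (P_p hM))
      · exact P_mul_right (hcong a a.2) (mem_S_of_pow_eq_one (pow_pos hM.1.pos 1).ne' (hroot a))
      · exact P_mul_left (natCast_mem _ d) (P_sub_one_of_pow_eq_one hM (hroot a))
    have h5 : IsIntegral ℤ (((s.count lam * p : ℕ) : ℚ) / u) := by
      rw [← isIntegral_algebraMap_iff (algebraMap ℚ ℂ).injective]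
      convert h3 using 1
      simp
    obtain ⟨z, hz⟩ := IsIntegrallyClosed.isIntegral_iff.1 h5
    have hz' : (z : ℂ) = ((s.count lam * p : ℕ) : ℂ) / u := by
      have := congrArg (algebraMap ℚ ℂ) hz
      simpa using this
    rw [← hz'] at h4
    obtain ⟨w, rfl⟩ := (P_intCast_iff hM).1 h4
    have h6 : ((s.count lam : ℤ) : ℂ) = ((u * w : ℤ) : ℂ) := by
      have hp0 : (p : ℂ) ≠ 0 := Nat.cast_ne_zero.2 hM.1.ne_zero
      rw [eq_div_iff hu0'] at hz'
      push_cast at hz' ⊢
      apply mul_right_cancel₀ hp0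
      rw [← hz']; ring
    exact Int.natCast_dvd_natCast.1 ⟨w, Int.cast_injective h6⟩
  refine ⟨s.toFinset, ?_, fun lam hl => ?_⟩
  · have h1 : s.card = d * u := by
      have h2 := hs 1
      simp only [OneMemClass.coe_one, map_one, Units.val_one, Multiset.map_const',
        Multiset.sum_replicate, nsmul_eq_mul, mul_one, hn1] at h2
      exact_mod_cast h2.symm
    have h2 : s.toFinset.card * u ≤ s.card := by
      rw [← Multiset.toFinset_sum_count_eq, ← smul_eq_mul]
      exact Finset.card_nsmul_le_sum _ _ _ fun lam hl =>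
        Nat.le_of_dvd (Multiset.count_pos.2 (Multiset.mem_toFinset.1 hl)) (hdvd lam)
    rw [h1] at h2
    exact Nat.le_of_mul_le_mul_right h2 (Nat.pos_of_ne_zero hu0)
  · by_contra h0
    apply hl
    have h1 := sum_mul_inv_eq s lam
    rw [Multiset.count_eq_zero.2 fun h => h0 (Multiset.mem_toFinset.2 h), Nat.cast_zero,
      zero_mul] at h1
    rw [classInner_eq_sum_inv _ (isCharacter_of_hom lam)]
    simp only [map_inv, Units.val_inv_eq_inv_val, hs, h1, mul_zero]

/-- A refinement of Burnside's result on simple groups of order divisible by only two primes. Let G be a finite simple group of order p^a · q^b · g₀ with p, q distinct primes, a > 0, g₀ coprime to p and q, and the order of G different from p. Then g₀ − 1 > log p / log 6, that is 6^(g₀ − 1) > p. -/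
theorem result {G : Type*} [Group G] [Finite G] [IsSimpleGroup G] (p q a b g₀ : ℕ) (hp : p.Prime) (hq : q.Prime) (hpq : p ≠ q) (ha : 0 < a) (hg : Nat.card G = p ^ a * q ^ b * g₀) (hcop : ¬ p ∣ g₀) (hcoq : ¬ q ∣ g₀) (hne : Nat.card G ≠ p) : p < 6 ^ (g₀ - 1) := by
  classical
  have := Fact.mk hp
  have hG0 : Nat.card G ≠ 0 := Nat.card_pos.ne'
  have hg0 : g₀ ≠ 0 := by rintro rfl; simp at hcop
  obtain ⟨P⟩ : Nonempty (Sylow p G) := inferInstance
  have hpG : p ∣ Nat.card G := by
    rw [hg, mul_assoc]; exact (dvd_pow_self p ha.ne').mul_right _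
  have hPi : (P : Subgroup G).index ∣ q ^ b * g₀ := by
    refine Nat.Coprime.dvd_of_dvd_mul_left (m := p ^ a) ?_ ?_
    · exact ((Nat.Prime.coprime_iff_not_dvd hp).2 P.not_dvd_index).symm.pow_right a
    · rw [← mul_assoc, ← hg]; exact Subgroup.index_dvd_card _
  have hPnt : Nontrivial P := by
    rw [Subgroup.nontrivial_iff_ne_bot]
    exact P.ne_bot_of_dvd_card hpG
  have hZ := P.isPGroup'.center_nontrivial
  obtain ⟨z, hz⟩ := exists_prime_orderOf_dvd_card' (G := Subgroup.center P) p (by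
    obtain ⟨k, hk⟩ := IsPGroup.iff_card.1 (P.isPGroup'.to_subgroup (Subgroup.center P))
    rw [hk]
    refine dvd_pow_self p ?_
    rintro rfl
    exact (Finite.one_lt_card (α := Subgroup.center P)).ne' hk)
  let y : G := (z : P)
  have hy : orderOf y = p := by
    rw [← hz, Subgroup.orderOf_coe, Subgroup.orderOf_coe]
  let H := Subgroup.zpowers y
  have := Fintype.ofFinite H
  have hH : Nat.card H = p := by rw [Nat.card_zpowers, hy]
  have hPc : ∀ h ∈ H, (P : Subgroup G) ≤ Subgroup.centralizer {h} := by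
    rintro h ⟨k, rfl⟩ x hx
    rw [Subgroup.mem_centralizer_singleton_iff]
    have h1 : Commute x y := congrArg Subtype.val (Subgroup.mem_center_iff.1 z.2 ⟨x, hx⟩)
    exact (h1.zpow_right k).eq
  obtain ⟨M, hM⟩ := exists_isPModular p hp
  obtain ⟨χ, hB, h1, hqχ⟩ := exists_char hM hq (y := y) (hy ▸ dvd_rfl)
  obtain ⟨Λ, hΛ, hΛ'⟩ := exists_constituents hM χ.2 hB H hH
    (Nat.gcd_dvd_left (charDegree (χ : G → ℂ)) g₀) (fun h hh => by
      have h2 := Subgroup.index_dvd_of_le (hPc h hh)
      refine ⟨fun h3 => P.not_dvd_index (h3.trans h2), fun _ => Nat.dvd_gcd (Nat.gcd_dvd_left _ _) ?_⟩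
      refine Nat.Coprime.dvd_of_dvd_mul_left (m := q ^ b) ?_
        ((Nat.gcd_dvd_right _ _).trans (h2.trans hPi))
      exact ((Nat.Prime.coprime_iff_not_dvd hq).2 fun h3 =>
        hqχ (h3.trans (Nat.gcd_dvd_left _ _))).symm.pow_right b)
  by_contra hlt
  have hk : Λ.card ≤ g₀ := hΛ.trans (Nat.gcd_le_right _ (Nat.pos_of_ne_zero hg0))
  have h6 : 6 ^ (Λ.card - 1) < Nat.card H := by
    rw [hH]
    refine lt_of_le_of_ne ((Nat.pow_le_pow_right (by norm_num) (by omega)).trans
      (not_lt.1 hlt)) fun h => ?_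
    rw [← h] at hp
    have := (Nat.Prime.pow_eq_iff hp).1 rfl
    rw [this.2, pow_one] at hp
    exact absurd hp (by norm_num)
  obtain ⟨h, hh, hh1, hc⟩ := blich_simple χ.2 (χ.2.charKer_eq_bot_of_simple h1) H
    (fun a b => (Subgroup.zpowers_isMulCommutative y).is_comm.comm a b) Λ hΛ' h6
  have hN : (Subgroup.zpowers h).Normal :=
    ⟨fun x hx g => by
      rwa [Subgroup.mem_center_iff.1 (Subgroup.zpowers_le.2 hc hx) g, mul_inv_cancel_right]⟩
  have hT := (IsSimpleGroup.eq_bot_or_eq_top_of_normal _ hN).resolve_left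
    (Subgroup.zpowers_ne_bot.2 hh1)
  have hT' : H = ⊤ := top_unique (hT ▸ Subgroup.zpowers_le.2 hh)
  rw [hT', Subgroup.card_top] at hH
  exact hne hH

end Cfsg.Agent.S4484
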