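import Cfsg.Agent.Base
import Cfsg.Agent.H87.PRat
import Cfsg.Statements.S4488

set_option autoImplicit false
open Cfsg

namespace Cfsg.Agent.S4488

open H28 H29 in
/-- Let the finite group G have a faithful p-rational character χ of degree n (all values of χ lie in the field generated over ℚ by a root of unity of order prime to p), and let p^a be the order of a Sylow p-subgroup of G. Then a ≤ Σ_{i ≥ 0} ⌊n / ((p − 1)·p^i)⌋ (a finite sum; the terms vanish once (p − 1)p^i > n). -/
theorem result {G : Type*} [Group G] [Finite G] (p : ℕ) (hp : p.Prime) (χ : G → ℂ) (hχ : Cfsg.IsCharacter G χ) (hfaith : ∀ g : G, χ g = χ 1 → g = 1) (hrat : (∃ r : ℕ, 0 < r ∧ ¬ p ∣ r ∧ ∀ g : G, χ g ∈ IntermediateField.adjoin ℚ ({Complex.exp (2 * Real.pi * Complex.I / r)} : Set ℂ))) (n : ℕ) (hn : Cfsg.charDegree χ = n) : (Nat.card G).factorization p ≤ ∑ i ∈ Finset.range (n + 1), n / ((p - 1) * p ^ i) := by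
  have := Fact.mk hp
  obtain ⟨r, hr, hpr, hrat⟩ := hrat
  obtain ⟨P⟩ : Nonempty (Sylow p G) := inferInstance
  have hP := P.card_eq_multiplicity
  set a := (Nat.card G).factorization p
  have h0 : p ^ a ≠ 0 := pow_ne_zero _ hp.ne_zero
  have hcop : (p ^ a).Coprime r := ((hp.coprime_iff_not_dvd).2 hpr).pow_left a
  refine H87.rat_bound P.isPGroup' (n + 1) n (hχ.restrict P) (fun σ x => ?_) hn n.lt_succ_self ?_
  · obtain ⟨k, hk, hσ⟩ := exists_pow_of_ringEquiv σ h0
    have hx : (x : G) ^ p ^ a = 1 := by rw [← hP]; exact congrArg Subtype.val (pow_card_eq_one' (x := x))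
    obtain ⟨m, h1, h2⟩ := Nat.chineseRemainder hcop k 1
    have hm : m.Coprime (p ^ a * r) := Nat.Coprime.mul_right
      (by rwa [Nat.Coprime, h1.gcd_eq]) (by rw [Nat.Coprime, h2.gcd_eq, Nat.gcd_one_left])
    obtain ⟨τ, hτ⟩ := exists_ringEquiv_pow (mul_ne_zero h0 hr.ne') hm
    have h3 := hχ.ringHom_apply σ.toRingHom h0 hσ x hx
    have h4 := hχ.ringHom_apply τ.toRingHom (mul_ne_zero h0 hr.ne') hτ x
      (by rw [pow_mul, hx, one_pow])
    have h5 : ∀ y ∈ IntermediateField.adjoin ℚ
        ({Complex.exp (2 * Real.pi * Complex.I / r)} : Set ℂ), τ y = y := fun y hy => by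
      induction hy using IntermediateField.adjoin_induction with
      | mem y hy =>
        have h6 : y ^ r = 1 := hy ▸ (Complex.isPrimitiveRoot_exp r hr.ne').pow_eq_one
        rw [hτ y (by rw [mul_comm, pow_mul, h6, one_pow]), pow_eq_pow_of_modEq h2 h6, pow_one]
      | algebraMap q => simp
      | add x y _ _ a b => rw [map_add, a, b]
      | inv x _ a => rw [map_inv₀, a]
      | mul x y _ _ a b => rw [map_mul, a, b]
    rw [pow_eq_pow_of_modEq h1 hx] at h4
    exact h3.trans (h4.symm.trans (h5 _ (hrat _)))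
  · rw [charKer_eq_bot_of_forall fun g hg => Subtype.ext (hfaith g hg), Subgroup.index_bot, hP]

end Cfsg.Agent.S4488
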