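import Cfsg.Agent.Base
import Cfsg.Agent.H87.PRat
import Cfsg.Statements.S4489

set_option autoImplicit false
open Cfsg

namespace Cfsg.Agent.S4489

/-- Let P be a finite p-group of order p^a with a > 0, and χ a faithful irreducible character of P of degree f whose field of values ℚ(χ) has degree (p − 1)·p^t over ℚ. Then a ≤ (f − 1)/(p − 1) + (t + 1)·f; in integer form, (p − 1)·a ≤ (f − 1) + (p − 1)(t + 1)·f. -/
theorem result {P : Type*} [Group P] [Finite P] (p a : ℕ) (hp : p.Prime) (ha : 0 < a) (hP : Nat.card P = p ^ a) (χ : Cfsg.IrrCharacter P) (hfaith : ∀ g : P, (χ : P → ℂ) g = (χ : P → ℂ) 1 → g = 1) (f t : ℕ) (hf : Cfsg.charDegree (χ : P → ℂ) = f) (hfield : Module.finrank ℚ (IntermediateField.adjoin ℚ (Set.range (χ : P → ℂ))) = (p - 1) * p ^ t) : (p - 1) * a ≤ (f - 1) + (p - 1) * (t + 1) * f := by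
  have := Fact.mk hp
  have hq : 0 < p - 1 := Nat.sub_pos_of_lt hp.one_lt
  have h0 := Nat.mul_pos hq (pow_pos hp.pos t)
  have : FiniteDimensional ℚ (IntermediateField.adjoin ℚ (Set.range (χ : P → ℂ))) :=
    Module.finite_of_finrank_pos (hfield ▸ h0)
  have h1 := H87.galN_le_finrank (χ : P → ℂ)
  have h2 := H87.order_bound a t hP χ.2 (H28.charKer_eq_bot_of_forall hfaith) (h1.trans_lt (by
    rw [hfield]
    exact Nat.mul_lt_mul_of_pos_left (Nat.pow_lt_pow_right hp.one_lt t.lt_succ_self) hq))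
  rw [hf] at h2
  have h3 := hf ▸ H28.Cfsg.IsIrrCharacter.charDegree_pos χ.2
  omega

end Cfsg.Agent.S4489
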