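import Cfsg.Statements.S4490
import Cfsg.Agent.H41.RealBlock

set_option autoImplicit false
open Cfsg

namespace Cfsg.Agent.S4490

/-- Let G be a finite group and M a maximal ideal of the algebraic integers containing 2. Every 2-block B of G whose defect groups are the Sylow 2-subgroups of G (a block of full defect) and which is not the principal block is different from its complex-conjugate block, the block formed by the complex conjugates of the members of B. -/
theorem result {G : Type*} [Group G] [Finite G] (M : Ideal Cfsg.AlgInt) (hM : Cfsg.IsPModular 2 M) (B : Set (Cfsg.IrrCharacter G)) (hB : Cfsg.IsPBlock M B) (P : Sylow 2 G) (hfull : Cfsg.IsDefectGroup 2 M B (P : Subgroup G)) (hnp : B ≠ Cfsg.principalBlock M G) : {ψ : Cfsg.IrrCharacter G | ∃ χ ∈ B, (ψ : G → ℂ) = fun g => (starRingEnd ℂ) ((χ : G → ℂ) g)} ≠ B := by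
  have := hM.2.1
  intro h
  obtain ⟨χ, hχ⟩ := H34.block_nonempty hB
  refine hnp (H41.eq_principal_of_cconj_mem hM hB
    (H36.blockDefect_eq_of_card hM hB hfull P.card_eq_multiplicity) hχ ?_)
  rw [← h]
  exact ⟨χ, h.symm ▸ hχ, rfl⟩

end Cfsg.Agent.S4490
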