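import Cfsg.Statements.S4493
import Cfsg.Agent.H44.CD1
import Cfsg.Agent.H38.Ito
import Cfsg.Agent.H18.PSolv

set_option autoImplicit false
open Cfsg

namespace Cfsg.Agent.S4493

/-- Let G be a finite solvable group and p a prime. Then G has a normal abelian Sylow p-subgroup if and only if no irreducible character degree of G is divisible by p. -/
theorem result {G : Type*} [Group G] [Finite G] (hsolv : Group.IsSolvable G) (p : ℕ) (hp : p.Prime) : (∃ P : Subgroup G, P.Normal ∧ (∀ x ∈ P, ∀ y ∈ P, x * y = y * x) ∧ IsPGroup p P ∧ ¬ p ∣ P.index) ↔ ∀ χ : Cfsg.IrrCharacter G, ¬ p ∣ Cfsg.charDegree (χ : G → ℂ) := by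
  have := Fact.mk hp
  constructor
  · rintro ⟨P, _, h1, -, h2⟩ χ h
    exact h2 (h.trans (H44.dvd_index_of_mem_cd (H44.mem_cd χ.2) P h1))
  · intro h
    obtain ⟨P⟩ : Nonempty (Sylow p G) := inferInstance
    have e := H38.sylow_eq_pCore_of_not_dvd (H18.isPSolvable_of_isSolvable p) h P
    have hc := H38.isMulCommutative_pCore_of_not_dvd h
    refine ⟨pCore p G, inferInstance, fun x hx y hy => ?_, H2.pCore_isPGroup p G,
      e ▸ P.not_dvd_index⟩
    exact congrArg Subtype.val (hc.is_comm.comm (⟨x, hx⟩ : pCore p G) ⟨y, hy⟩)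

end Cfsg.Agent.S4493
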