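import Cfsg.Statements.S4497
import Cfsg.Agent.H37.SelfC

set_option autoImplicit false
open Cfsg

namespace Cfsg.Agent.S4497

/-- Let the finite group G contain an element x of prime order p with C_G(x) = ⟨x⟩, let t be the number of conjugacy classes of elements of order p, and let S* = O_{p′}(G) be the largest normal subgroup of order prime to p. Then S* ≤ G′; if t ≠ p − 1 the quotient G′/S* is simple (in particular non-trivial); if t = p − 1 then G′ = S*. -/
theorem result {G : Type*} [Group G] [Finite G] (p : ℕ) (hp : p.Prime) (x : G) (hx : orderOf x = p) (hC : Subgroup.centralizer ({x} : Set G) = Subgroup.zpowers x) (t : ℕ) (ht : Nat.card {C : ConjClasses G // ∃ g ∈ C.carrier, orderOf g = p} = t) : Cfsg.pPrimeCore p G ≤ commutator G ∧ (t ≠ p - 1 → ∀ h : ((Cfsg.pPrimeCore p G).subgroupOf (commutator G)).Normal, IsSimpleGroup (↥(commutator G) ⧸ (Cfsg.pPrimeCore p G).subgroupOf (commutator G))) ∧ (t = p - 1 → commutator G = Cfsg.pPrimeCore p G) := by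
  have h : H37.SelfC p x := ⟨hp, hx, hC⟩
  have := Fact.mk hp
  have h0 := H2.not_dvd_card_pPrimeCore p G
  refine ⟨h.le_commutator h0, fun h1 hn => ?_, fun h1 => le_antisymm (H2.le_pPrimeCore_of_not_dvd
    fun h2 => h.mem_commutator_iff.1 (h.mem_of_dvd h2 h.pow_eq) ((h.t_eq_iff ht).1 h1))
    (h.le_commutator h0)⟩
  have hx' := h.mem_commutator_iff.2 (mt (h.t_eq_iff ht).2 h1)
  have h' := h.subgroup hx'
  have : Nontrivial (↥(commutator G) ⧸ (Cfsg.pPrimeCore p G).subgroupOf (commutator G)) :=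
    ⟨⟨((⟨x, hx'⟩ : commutator G) : _ ⧸ _), 1, fun h2 =>
      h0 (h.dvd_card ((QuotientGroup.eq_one_iff (⟨x, hx'⟩ : commutator G)).1 h2))⟩⟩
  refine ⟨fun K hK => ?_⟩
  let L := K.comap (QuotientGroup.mk' ((Cfsg.pPrimeCore p G).subgroupOf (commutator G)))
  by_cases h2 : p ∣ Nat.card L
  · right
    have h3 : commutator G ≤ Subgroup.normalClosure {x} :=
      h.commutator_le (Subgroup.subset_normalClosure rfl)
    have h4 : Subgroup.normalClosure {x} ≤ L.map (commutator G).subtype := by
      refine (Subgroup.closure_le _).2 fun y hy => ?_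
      obtain ⟨a, rfl, hy'⟩ := Group.mem_conjugatesOfSet_iff.1 hy
      obtain ⟨c, rfl⟩ := isConj_iff.1 hy'
      refine ⟨⟨_, Subgroup.Normal.conj_mem inferInstance a hx' c⟩, h'.mem_of_dvd h2 ?_, rfl⟩
      exact Subtype.ext (by simp [conj_pow, h.pow_eq])
    rw [eq_top_iff]
    rintro g -
    obtain ⟨g, rfl⟩ := QuotientGroup.mk_surjective g
    obtain ⟨y, hy, h5⟩ := h4 (h3 g.2)
    exact (Subtype.ext h5 : y = g) ▸ hy
  · left
    have h3 := H2.le_pPrimeCore_of_not_dvd h2
    rw [H2.pPrimeCore_eq_subgroupOf] at h3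
    rw [eq_bot_iff]
    intro g hg
    obtain ⟨g, rfl⟩ := QuotientGroup.mk_surjective g
    exact (QuotientGroup.eq_one_iff _).2 (h3 hg)

end Cfsg.Agent.S4497
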