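import Cfsg.Statements.S4731
import Cfsg.Agent.H35.BSpan

set_option autoImplicit false
open Cfsg H28

namespace Cfsg.Agent.S4731

theorem aux {G : Type*} [Group G] [Finite G] {p q : ℕ} (hp : p.Prime) (hq : q.Prime)
    (hpq : p ≠ q) (hno : ∀ g : G, orderOf g ≠ p * q) {x : G} (hx : q ∣ orderOf x) :
    ¬ p ∣ orderOf x := by
  intro h
  have h1 : p * q ∣ orderOf x :=
    Nat.Coprime.mul_dvd_of_dvd_of_dvd ((Nat.coprime_primes hp hq).2 hpq) h hx
  exact hno _ (orderOf_pow_orderOf_div (orderOf_pos x).ne' h1)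


/-- Let p ≠ q be primes, M_p and M_q maximal ideals of the algebraic integers containing p and q respectively, and G a finite group with no element of order pq; let q^b be the q-part of the order of G. For a p-block B_p (relative to M_p), a q-block B_q (relative to M_q) and a p-singular element y, the sum of χ(1)χ(y) over the irreducible characters χ lying in both B_p and B_q is q^b times an algebraic integer. -/
theorem result {G : Type*} [Group G] [Finite G] (p q : ℕ) [Fact p.Prime] [Fact q.Prime] (hpq : p ≠ q) (Mp Mq : Ideal Cfsg.AlgInt) (hMp : Cfsg.IsPModular p Mp) (hMq : Cfsg.IsPModular q Mq) (hno : ∀ g : G, orderOf g ≠ p * q) (b : ℕ) (hb : (Nat.card G).factorization q = b) (Bp : Set (Cfsg.IrrCharacter G)) (hBp : Cfsg.IsPBlock Mp Bp) (Bq : Set (Cfsg.IrrCharacter G)) (hBq : Cfsg.IsPBlock Mq Bq) (y : G) (hy : p ∣ orderOf y) : ∃ ω : Cfsg.AlgInt, ∑ᶠ χ ∈ Bp ∩ Bq, (Cfsg.charDegree (χ : G → ℂ) : ℂ) * (χ : G → ℂ) y = (q : ℂ) ^ b *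 (ω : ℂ) := by
  classical
  have := Fintype.ofFinite G
  have := hMp.2.1
  have := hMq.2.1
  subst hb
  let θ : G → ℂ := ∑ χ ∈ H35.bF Bp, (χ : G → ℂ) y • (χ : G → ℂ)
  have hθ : H35.InB Bp θ := H35.inB_sum_bF _
  have hθ0 : ∀ x, q ∣ orderOf x → θ x = 0 := by
    intro x hx
    have h1 := H35.weak_orth hMp hBp (aux hMp.1 hMq.1 hpq hno hx) (y := y⁻¹) (by rwa [orderOf_inv])
    rw [← h1]
    simp only [θ, Finset.sum_apply, Pi.smul_apply, smul_eq_mul]
    refine Finset.sum_congr rfl fun χ _ => ?_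
    rw [χ.2.isCharacter.apply_inv, Complex.conj_conj, mul_comm]
  have hc : ∀ ψ : Cfsg.IrrCharacter G, Cfsg.classInner θ ψ = if ψ ∈ Bp then (ψ : G → ℂ) y else 0 := by
    intro ψ
    split_ifs with h
    · exact H35.classInner_sum_bF _ h
    · exact hθ.2 ψ h
  have hη : H35.InB Bq (Cfsg.blockPart Bq θ) := H35.inB_blockPart θ
  have h1 := H35.apply_one_div_mem hMq.1 (Cfsg.AlgInt).toSubring.toAddSubgroup hη.1 (fun ψ => by
    by_cases h : ψ ∈ Bq
    · rw [H35.classInner_blockPart _ h, hc]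
      split_ifs
      · exact ψ.2.isCharacter.isIntegral y
      · exact AddSubgroup.zero_mem _
    · rw [hη.2 ψ h]; exact AddSubgroup.zero_mem _)
    (H35.blockPart_eq_zero_of_sing hMq hBq hθ0)
  refine ⟨⟨_, h1⟩, ?_⟩
  have hq0 : (q : ℂ) ≠ 0 := Nat.cast_ne_zero.2 hMq.1.ne_zero
  have h2 : ∑ᶠ χ ∈ Bp ∩ Bq, (Cfsg.charDegree (χ : G → ℂ) : ℂ) * (χ : G → ℂ) y =
      Cfsg.blockPart Bq θ 1 := by
    rw [H35.blockPart_eq, H35.finsum_mem_eq_bF, Finset.sum_apply]
    have : H35.bF (Bp ∩ Bq) = (H35.bF Bq).filter (· ∈ Bp) := by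
      ext; simp [and_comm]
    rw [this, Finset.sum_filter]
    refine Finset.sum_congr rfl fun χ _ => ?_
    rw [Pi.smul_apply, hc, H35.coe_deg]
    split_ifs <;> simp [mul_comm]
  rw [h2]
  push_cast
  field_simp

end Cfsg.Agent.S4731
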