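import Cfsg.Statements.S4498
import Cfsg.Agent.H35.BSpan
import Cfsg.Agent.S4731
import Cfsg.Agent.H34.Block

set_option autoImplicit false
open Cfsg H28

namespace Cfsg.Agent.S4498

/-- Let p and q be distinct primes dividing the order of the finite group G, and suppose G has no element of order p·q. Fix maximal ideals M_p over p and M_q over q of the algebraic integers. Then the principal p-block and the principal q-block of G have a non-principal irreducible character in common. -/
theorem result {G : Type*} [Group G] [Finite G] (p q : ℕ) [Fact p.Prime] [Fact q.Prime] (hpq : p ≠ q) (hp : p ∣ Nat.card G) (hq : q ∣ Nat.card G) (hno : ∀ g : G, orderOf g ≠ p * q) (Mp Mq : Ideal Cfsg.AlgInt) (hMp : Cfsg.IsPModular p Mp) (hMq : Cfsg.IsPModular q Mq) : ∃ χ : Cfsg.IrrCharacter G, (χ : G → ℂ) ≠ (fun _ => 1) ∧ χ ∈ Cfsg.principalBlock Mp G ∧ χ ∈ Cfsg.principalBlock Mq G := by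
  have := hMp.2.1
  have := hMq.2.1
  by_contra hne
  push Not at hne
  obtain ⟨y, hy⟩ := exists_prime_orderOf_dvd_card' p hp
  obtain ⟨ω, hω⟩ := Cfsg.Agent.S4731.result p q hpq Mp Mq hMp hMq hno _ rfl _
    H34.isPBlock_principalBlock _ H34.isPBlock_principalBlock y (by rw [hy])
  have h1 : Cfsg.principalBlock Mp G ∩ Cfsg.principalBlock Mq G =
      {⟨fun _ => 1, isIrrCharacter_one⟩} := by
    ext χ
    constructor
    · rintro ⟨h1, h2⟩
      by_contra h
      exact hne χ (fun h' => h (Subtype.ext h')) h1 h2
    · rintro rfl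
      exact ⟨H34.one_mem_principalBlock, H34.one_mem_principalBlock⟩
  rw [h1, finsum_mem_singleton] at hω
  simp only [H35.charDegree_one, Nat.cast_one, mul_one] at hω
  have hb : (Nat.card G).factorization q ≠ 0 := by
    have := (hMq.1.dvd_iff_one_le_factorization (Nat.card_pos (α := G)).ne').1 hq
    omega
  apply H35.P_not_one (M := Mq)
  rw [hω, ← Nat.cast_pow]
  exact H35.P_mul_right ((H35.P_natCast_iff hMq).2 (dvd_pow_self _ hb)) (H35.algInt_mem_S ω)

end Cfsg.Agent.S4498
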