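import Cfsg.Statements.S4500
import Cfsg.Agent.H35.BF
import Cfsg.Agent.H29.Burnside

set_option autoImplicit false
open Cfsg H28

namespace Cfsg.Agent.S4500

theorem lin {G : Type*} [Group G] [Finite G] [Nontrivial G] [Group.IsSolvable G] :
    ∃ χ : Cfsg.IrrCharacter G, (χ : G → ℂ) ≠ (fun _ => 1) ∧ Cfsg.charDegree (χ : G → ℂ) = 1 := by
  have h1 : commutator G ≠ ⊤ := (Group.IsSolvable.commutator_lt_top_of_nontrivial G).ne
  obtain ⟨g, hg⟩ : ∃ g : G, g ∉ commutator G := by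
    by_contra h
    push Not at h
    exact h1 (eq_top_iff.2 fun g _ => h g)
  have hg' : (Abelianization.of g) ≠ 1 := fun h => hg ((QuotientGroup.eq_one_iff g).1 h)
  have : NeZero (Monoid.exponent (Abelianization G)) := ⟨Monoid.exponent_ne_zero_of_finite⟩
  obtain ⟨φ, hφ⟩ := CommGroup.exists_apply_ne_one_of_hasEnoughRootsOfUnity (Abelianization G) ℂ hg'
  refine ⟨⟨_, isIrrCharacter_of_hom (φ.comp Abelianization.of)⟩, fun h => hφ ?_,
    H35.charDegree_eq_of_eq (by simp)⟩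
  exact Units.ext (congrFun h g)

theorem aux {G : Type*} [Group G] [Finite G] (p q r a b c : ℕ) (hp : p.Prime) (hq : q.Prime)
    (hr : r.Prime) (hpq : p ≠ q) (hpr : p ≠ r) (ha : a ≤ 2) (ha0 : a ≠ 0)
    (hG : Nat.card G = p ^ a * q ^ b * r ^ c) : ∃ χ : Cfsg.IrrCharacter G,
      (χ : G → ℂ) ≠ (fun _ => 1) ∧ ∃ k : ℕ, Cfsg.charDegree (χ : G → ℂ) = q ^ k := by
  classical
  have := Fintype.ofFinite G
  have : Fact p.Prime := ⟨hp⟩
  obtain ⟨M, hM⟩ := H35.exists_isPModular p hp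
  obtain ⟨N, hN⟩ := H35.exists_isPModular r hr
  have := hM.2.1
  have := hN.2.1
  have hB : Cfsg.IsPBlock M (Cfsg.principalBlock M G) := H34.isPBlock_principalBlock
  have hν : (Nat.card G).factorization p = a := by
    rw [hG, mul_assoc, Nat.factorization_mul (pow_ne_zero _ hp.ne_zero)
      (mul_ne_zero (pow_ne_zero _ hq.ne_zero) (pow_ne_zero _ hr.ne_zero)), Finsupp.add_apply,
      hp.factorization_pow, Finsupp.single_eq_same, Nat.factorization_eq_zero_of_not_dvd, add_zero]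
    intro h
    rcases (Nat.Prime.dvd_mul hp).1 h with h | h
    · exact hpq ((Nat.prime_dvd_prime_iff_eq hp hq).1 (hp.dvd_of_dvd_pow h))
    · exact hpr ((Nat.prime_dvd_prime_iff_eq hp hr).1 (hp.dvd_of_dvd_pow h))
  obtain ⟨x, hx⟩ := exists_prime_orderOf_dvd_card' p (G := G)
    (by rw [hG, mul_assoc]; exact Dvd.dvd.mul_right (dvd_pow_self p ha0) _)
  have h1 := H35.weak_orth hM hB (x := 1) (y := x) (by simpa using hp.ne_one) (by rw [hx])
  have hone : (⟨fun _ => 1, isIrrCharacter_one⟩ : Cfsg.IrrCharacter G) ∈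
      Cfsg.principalBlock M G := H34.one_mem_principalBlock
  rw [← Finset.add_sum_erase _ _ (Finset.mem_filter.2 ⟨Finset.mem_univ _, hone⟩)] at h1
  by_contra hne
  push Not at hne
  apply H35.P_not_one (M := N)
  simp only [map_one, mul_one] at h1
  rw [eq_neg_of_add_eq_zero_left h1, H35.P_neg_iff]
  refine H35.P_sum _ _ fun χ hχ => ?_
  rw [Finset.mem_erase, Finset.mem_filter] at hχ
  refine H35.P_mul_right ?_ (H35.conj_mem_S_of_genChar χ.2.isGeneralizedCharacter x)
  rw [← H35.coe_deg, H35.P_natCast_iff hN]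
  by_contra hrd
  have hd : Cfsg.blockDefect p (Cfsg.principalBlock M G) ≤ 2 :=
    le_trans (H35.blockDefect_le _ _) (hν ▸ ha)
  have h0 := H35.height_eq_zero_of_defect_le_two hM hB hd hχ.2.2
  have h2 := H35.nu_eq_minNu_add p hχ.2.2
  have h3 := H35.minNu_le p hone
  simp only [H35.charDegree_one, Nat.factorization_one, Finsupp.coe_zero, Pi.zero_apply] at h3
  have hpd : ¬ p ∣ Cfsg.charDegree (χ : G → ℂ) := by
    rw [hp.dvd_iff_one_le_factorization (H35.deg_ne_zero χ)]; omega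
  have h4 := H35.charDegree_dvd_card χ.2
  rw [hG] at h4
  have h5 := Nat.Coprime.dvd_of_dvd_mul_right
    (Nat.Coprime.pow_right c ((Nat.Prime.coprime_iff_not_dvd hr).2 hrd).symm) h4
  have h6 := Nat.Coprime.dvd_of_dvd_mul_left
    (Nat.Coprime.pow_right a ((Nat.Prime.coprime_iff_not_dvd hp).2 hpd).symm) h5
  obtain ⟨k, -, hk⟩ := (Nat.dvd_prime_pow hq).1 h6
  exact hne χ (fun h => hχ.1 (Subtype.ext h)) k hk


/-- Let G be a non-trivial finite group of order p^a · q^b · r^c with p, q, r distinct primes and a ≤ 2. Then G has a non-principal irreducible character whose degree is a power of q, and a non-principal irreducible character whose degree is a power of r; the power may be the zeroth, so a non-principal linear character serves for both. -/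
theorem result {G : Type*} [Group G] [Finite G] [Nontrivial G] (p q r a b c : ℕ) (hp : p.Prime) (hq : q.Prime) (hr : r.Prime) (hpq : p ≠ q) (hpr : p ≠ r) (hqr : q ≠ r) (ha : a ≤ 2) (hG : Nat.card G = p ^ a * q ^ b * r ^ c) : (∃ χ : Cfsg.IrrCharacter G, (χ : G → ℂ) ≠ (fun _ => 1) ∧ ∃ k : ℕ, Cfsg.charDegree (χ : G → ℂ) = q ^ k) ∧ ∃ χ : Cfsg.IrrCharacter G, (χ : G → ℂ) ≠ (fun _ => 1) ∧ ∃ k : ℕ, Cfsg.charDegree (χ : G → ℂ) = r ^ k := by
  by_cases ha0 : a = 0
  · have : Group.IsSolvable G := H29.isSolvable_of_card_dvd_pow_mul_pow hq hr (a := b) (b := c)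
      (by rw [hG, ha0]; simp)
    obtain ⟨χ, h1, h2⟩ := lin (G := G)
    exact ⟨⟨χ, h1, 0, by simpa using h2⟩, ⟨χ, h1, 0, by simpa using h2⟩⟩
  · exact ⟨aux p q r a b c hp hq hr hpq hpr ha ha0 hG,
      aux p r q a c b hp hr hq hpr hpq ha ha0 (by rw [hG]; ring)⟩

end Cfsg.Agent.S4500
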