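import Cfsg.Statements.S4502
import Cfsg.Agent.H37.CycK
import Cfsg.Agent.H37.Cyc10

set_option autoImplicit false
open Cfsg

namespace Cfsg.Agent.S4502

open H28 H35 H37 H39

/-- Let G be a finite group whose order is divisible by the prime p exactly once, and let P be a Sylow p-subgroup. Then the number of irreducible characters of G of degree not divisible by p equals the number of conjugacy classes of the normalizer of P. -/
theorem result {G : Type*} [Group G] [Finite G] (p : ℕ) [Fact p.Prime] (hdiv : p ∣ Nat.card G) (hsq : ¬ p ^ 2 ∣ Nat.card G) (P : Sylow p G) : Nat.card {χ : Cfsg.IrrCharacter G // ¬ p ∣ Cfsg.charDegree (χ : G → ℂ)} = Nat.card (ConjClasses (Subgroup.normalizer ((P : Subgroup G) : Set G))) := by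
  classical
  have hp : p.Prime := Fact.out
  obtain ⟨M, hM⟩ := exists_isPModular p hp
  have := hM.2.1
  cases nonempty_fintype G
  have hf : (Nat.card G).factorization p = 1 := le_antisymm (by
    rw [hp.pow_dvd_iff_le_factorization Nat.card_pos.ne'] at hsq; omega)
    ((hp.dvd_iff_one_le_factorization Nat.card_pos.ne').1 hdiv)
  have hP : Nat.card (P : Subgroup G) = p := by rw [P.card_eq_multiplicity, hf, pow_one]
  have key : ∀ B : Set (IrrCharacter G), IsPBlock M B → ∀ χ ∈ B,
      (¬ p ∣ charDegree (χ : G → ℂ) ↔ IsDefectGroup p M B P) := fun B hB χ hχ => by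
    refine ⟨fun h => (H36.isDefectGroup_iff_sylow hM hB
      (H36.blockDefect_eq_of_not_dvd hχ h)).2 ⟨P, rfl⟩, fun h h1 => ?_⟩
    have h2 := H36.blockDefect_eq_of_card hM hB h (d := 1) (by rw [hP, pow_one])
    rw [defect_zero_of_vanish hM hB hχ (vanish_of_nu_eq hp (le_antisymm
      (deg_factorization_le p χ.2) (hf ▸ (hp.dvd_iff_one_le_factorization
        (deg_ne_zero χ)).1 h1)))] at h2
    exact zero_ne_one h2
  have hdef : ∀ b : Set (IrrCharacter (Nor (P : Subgroup G))), IsPBlock M b →
      IsDefectGroup p M b ((P : Subgroup G).subgroupOf (Nor (P : Subgroup G))) := fun b hb => by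
    obtain ⟨D, hD⟩ := H34.exists_isDefectGroup p hb
    rwa [(P.subtype (le_nor _)).is_maximal' (H36.isPGroup_of_isDefectGroup hD)
      (H36.le_of_normal_of_isDefectGroup (P := (P : Subgroup G).subgroupOf (Nor (P : Subgroup G)))
        hM hb hD P.isPGroup'.comap_subtype)] at hD
  have hind : ∀ b : Set (IrrCharacter (Nor (P : Subgroup G))), IsPBlock M b →
      ∃ B, IsInducedBlock M _ b B := fun b hb =>
    H36.inducedBlockDefined_of_le hM P.isPGroup' (le_nor _) (cen_le_nor _) le_rfl hb
  choose! f hf' using hind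
  have hfD : ∀ b, IsPBlock M b → IsDefectGroup p M (f b) P := fun b hb =>
    H36.isDefectGroup_of_induced_normalizer hM (hf' b hb)
      ((H36.isDefectGroup_subgroupOf_iff hM hb (le_nor _)).1 (hdef b hb))
  have h1 : Nat.card {χ : IrrCharacter G // ¬ p ∣ charDegree (χ : G → ℂ)} =
      ∑ B ∈ H34.blocks G M with IsDefectGroup p M B P, Nat.card B := by
    rw [Nat.card_eq_fintype_card, Fintype.card_subtype, Finset.card_filter,
      H34.sum_irr_eq_sum_blocks (M := M), Finset.sum_filter]
    refine Finset.sum_congr rfl fun B hB => ?_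
    rw [finsum_mem_eq_bF, Finset.sum_congr rfl fun χ hχ => by
      rw [if_congr (key B (H34.mem_blocks.1 hB) χ (mem_bF.1 hχ)) rfl rfl], Finset.sum_const,
      card_bF]
    split_ifs <;> simp
  have h2 : Nat.card (IrrCharacter (Nor (P : Subgroup G))) =
      ∑ b ∈ H34.blocks (Nor (P : Subgroup G)) M, Nat.card b := by
    rw [Nat.card_eq_fintype_card, ← Finset.card_univ, Finset.card_eq_sum_ones,
      H34.sum_irr_eq_sum_blocks (M := M)]
    exact Finset.sum_congr rfl fun b _ => by
      rw [finsum_mem_eq_bF, ← Finset.card_eq_sum_ones, card_bF]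
  rw [h1, ← card_irr_eq_card_conjClasses, h2]
  refine (Finset.sum_nbij f (fun b hb => ?_) (fun b hb b' hb' h => ?_) (fun B hB => ?_)
    fun b hb => ?_).symm
  · rw [H34.mem_blocks] at hb
    exact Finset.mem_filter.2 ⟨H34.mem_blocks.2 (hf' b hb).2.1, hfD b hb⟩
  · rw [Finset.mem_coe, H34.mem_blocks] at hb hb'
    refine H36.eS_inj hb hb' ?_
    rw [(H36.isInducedBlock_normalizer_iff hM (hf' b hb).2.1 (hfD b hb) hb).1 (hf' b hb),
      (H36.isInducedBlock_normalizer_iff hM (hf' b' hb').2.1 (hfD b' hb') hb').1 (hf' b' hb'), h]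
  · obtain ⟨h3, h4⟩ := Finset.mem_filter.1 hB
    rw [H34.mem_blocks] at h3
    obtain ⟨b, hb, h5⟩ := H36.exists_brauer_correspondent hM h3 h4
    exact ⟨b, H34.mem_blocks.2 hb, H36.induced_unique (hf' b hb)
      ((H36.isInducedBlock_normalizer_iff hM h3 h4 hb).2 h5)⟩
  · rw [H34.mem_blocks] at hb
    exact (perfect_nor cycK hM (hfD b hb) (isCyclic_of_prime_card hP) le_rfl hP (hdef b hb)
      (hf' b hb)).1

end Cfsg.Agent.S4502
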