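import Cfsg.Statements.S4506
import Cfsg.Agent.H35.GalB
import Cfsg.Agent.H35.DefCard

set_option autoImplicit false
open Cfsg H28

namespace Cfsg.Agent.S4506

variable {G : Type*} [Group G] [Finite G]

/-- The Galois action on irreducible characters. -/
@[reducible] def galAct : MulAction (ℂ ≃+* ℂ) (Cfsg.IrrCharacter G) where
  smul σ χ := H35.galIrr (σ : ℂ →+* ℂ) χ
  one_smul _ := rfl
  mul_smul _ _ _ := rfl

theorem fix_value {p : ℕ} (hp : p.Prime) (χ : Cfsg.IrrCharacter G) {k : ℕ}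
    (hr : Nat.card {ψ : Cfsg.IrrCharacter G // ∃ σ : ℂ ≃+* ℂ, σ (H35.etaP p G) = H35.etaP p G ∧
      (ψ : G → ℂ) = fun g => σ ((χ : G → ℂ) g)} = p ^ k) {u y : G} (hu : orderOf u = p)
    (hy : ¬ p ∣ orderOf y) (hc : Commute u y) (σ : ℂ ≃+* ℂ) (hσ : σ (H35.etaP p G) = H35.etaP p G) :
    σ ((χ : G → ℂ) (u * y)) = (χ : G → ℂ) (u * y) := by
  let _ := galAct (G := G)
  let Γ := MulAction.stabilizer (ℂ ≃+* ℂ) (H35.etaP p G)
  have hcomm : ∀ (a b : ℂ ≃+* ℂ) (ψ : Cfsg.IrrCharacter G), a • b • ψ = b • a • ψ := by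
    intro a b ψ
    obtain ⟨m, -, hm⟩ := H29.exists_pow_char_of_ringHom G (a : ℂ →+* ℂ)
    apply Subtype.ext
    ext g
    have h1 := hm _ (b • ψ).2.isCharacter g
    have h2 := hm _ ψ.2.isCharacter g
    change a (b ((ψ : G → ℂ) g)) = b (a ((ψ : G → ℂ) g))
    change a (b ((ψ : G → ℂ) g)) = b ((ψ : G → ℂ) (g ^ m)) at h1
    change a ((ψ : G → ℂ) g) = _ at h2
    rw [h1, h2]
  have hN : (MulAction.stabilizer Γ χ).Normal := by
    refine ⟨fun a ha b => ?_⟩
    rw [MulAction.mem_stabilizer_iff] at ha ⊢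
    rw [mul_smul, mul_smul]
    have := hcomm a (b⁻¹ : Γ) χ
    change a • b⁻¹ • χ = b⁻¹ • a • χ at this
    rw [this, ha, smul_inv_smul]
  have hidx : (MulAction.stabilizer Γ χ).index = p ^ k := by
    rw [MulAction.index_stabilizer, ← Nat.card_coe_set_eq, ← hr]
    refine Nat.card_congr (Equiv.subtypeEquivRight fun ψ => ?_)
    constructor
    · rintro ⟨a, rfl⟩
      exact ⟨a, a.2, rfl⟩
    · rintro ⟨a, ha, h⟩
      exact ⟨⟨a, ha⟩, Subtype.ext h.symm⟩
  set v := (χ : G → ℂ) (u * y) with hv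
  have h1 : σ ^ p ^ k ∈ MulAction.stabilizer (ℂ ≃+* ℂ) v := by
    have := (MulAction.stabilizer Γ χ).pow_index_mem ⟨σ, hσ⟩
    rw [hidx, MulAction.mem_stabilizer_iff] at this
    exact congrFun (congrArg Subtype.val this) (u * y)
  have h2 : σ ^ (p - 1) ∈ MulAction.stabilizer (ℂ ≃+* ℂ) v := by
    obtain ⟨m, hmc, hm⟩ := H29.exists_pow_of_ringHom (σ : ℂ →+* ℂ) (Nat.card_pos (α := G)).ne'
    have hm' : ∀ g : G, σ ((χ : G → ℂ) g) = (χ : G → ℂ) (g ^ m) := fun g =>
      H29.Cfsg.IsCharacter.ringHom_apply χ.2.isCharacter (σ : ℂ →+* ℂ) (Nat.card_pos (α := G)).ne'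
        hm g (pow_card_eq_one')
    have hη := H35.isPrimitiveRoot_etaP (p := p) (G := G)
    have hy' : y ^ m = y := by
      have h3 : H35.etaP p G ^ m = H35.etaP p G ^ 1 := by
        rw [pow_one, ← hm _ (hη.pow_eq_one_iff_dvd _ |>.2 (Nat.ordCompl_dvd _ _))]
        exact hσ
      have h4 : m ≡ 1 [MOD Nat.card G / p ^ (Nat.card G).factorization p] := by
        have hu := hη.isUnit H35.ordCompl_card_ne_zero
        obtain ⟨w, hw⟩ := hu
        rw [← hw] at h3 hη
        rw [(IsPrimitiveRoot.coe_units_iff.1 hη).eq_orderOf, ← pow_eq_pow_iff_modEq]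
        exact_mod_cast h3
      conv_rhs => rw [← pow_one y]
      rw [pow_eq_pow_iff_modEq]
      exact h4.of_dvd (orderOf_dvd_iff_pow_eq_one.2 (H35.pow_ordCompl_eq_one hp hy))
    have h5 : ∀ j : ℕ, (σ ^ j) v = (χ : G → ℂ) (u ^ m ^ j * y) := by
      intro j
      induction j with
      | zero => simp [hv]
      | succ j ih =>
        rw [pow_succ', RingAut.mul_apply, ih, hm', (hc.pow_left _).mul_pow, hy', ← pow_mul,
          ← pow_succ]
    have hpm : p.Coprime m := by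
      refine (Nat.Coprime.coprime_dvd_right ?_ hmc).symm
      rw [← hu]; exact orderOf_dvd_natCard u
    have h6 : u ^ m ^ (p - 1) = u := by
      conv_rhs => rw [← pow_one u]
      rw [pow_eq_pow_iff_modEq, hu]
      have := Nat.ModEq.pow_totient hpm.symm
      rwa [Nat.totient_prime hp] at this
    change (σ ^ (p - 1)) v = v
    rw [h5, h6]
  have hcop : (p ^ k).Coprime (p - 1) :=
    Nat.Coprime.pow_left _ ((Nat.coprime_self_sub_right hp.one_le).2 (Nat.coprime_one_right p))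
  have h3 : σ ∈ MulAction.stabilizer (ℂ ≃+* ℂ) v := by
    have h4 := (MulAction.stabilizer (ℂ ≃+* ℂ) v).mul_mem
      (Subgroup.zpow_mem _ h1 (Nat.gcdA (p ^ k) (p - 1)))
      (Subgroup.zpow_mem _ h2 (Nat.gcdB (p ^ k) (p - 1)))
    rwa [← zpow_natCast, ← zpow_natCast, ← zpow_mul, ← zpow_mul, ← zpow_add,
      ← Nat.gcd_eq_gcd_ab, hcop, Nat.cast_one, zpow_one] at h4
  exact h3


/-- Let G be a finite group, p a prime, p^a the p-part of the order of G and g′ its p′-part. Call two irreducible characters p-conjugate when one is obtained from the other by applying a field automorphism of ℂ that fixes the g′-th roots of unity, and let r be the number of characters p-conjugate to the irreducible character χ (χ included). Then the exponent of p in r·χ(1) is at most a; and if p^a divides r·χ(1) then p^a already divides χ(1). -/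
theorem result {G : Type*} [Group G] [Finite G] (p : ℕ) (hp : p.Prime) (χ : Cfsg.IrrCharacter G) (r : ℕ) (hr : Nat.card {ψ : Cfsg.IrrCharacter G // ∃ σ : ℂ ≃+* ℂ, σ (Complex.exp (2 * Real.pi * Complex.I / ((Nat.card G / p ^ (Nat.card G).factorization p) : ℕ))) = Complex.exp (2 * Real.pi * Complex.I / ((Nat.card G / p ^ (Nat.card G).factorization p) : ℕ)) ∧ (ψ : G → ℂ) = fun g => σ ((χ : G → ℂ) g)} = r) : (r * Cfsg.charDegree (χ : G → ℂ)).factorization p ≤ (Nat.card G).factorization p ∧ (p ^ (Nat.card G).factorization p ∣ r * Cfsg.charDegree (χ : G → ℂ) → p ^ (Nat.card G).factorization p ∣ Cfsg.charDegree (χ : G → ℂ)) := by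
  classical
  have := Fintype.ofFinite G
  obtain ⟨M, hM⟩ := H35.exists_isPModular p hp
  have := hM.2.1
  set O : Set (Cfsg.IrrCharacter G) := {ψ | ∃ σ : ℂ ≃+* ℂ, σ (H35.etaP p G) = H35.etaP p G ∧
      (ψ : G → ℂ) = fun g => σ ((χ : G → ℂ) g)} with hO
  have hr' : Nat.card O = r := hr
  have hχO : χ ∈ O := ⟨RingEquiv.refl ℂ, rfl, rfl⟩
  have hOreg : ∀ ψ ∈ O, Cfsg.pRegularPart p (ψ : G → ℂ) = Cfsg.pRegularPart p (χ : G → ℂ) := by
    rintro ψ ⟨σ, hσ, h⟩
    rw [h]
    exact H35.pReg_galIrr hp (σ := (σ : ℂ →+* ℂ)) hσ χ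
  have hr0 : r ≠ 0 := by
    rw [← hr', ← H35.card_bF]
    exact Finset.card_ne_zero.2 ⟨χ, H35.mem_bF.2 hχO⟩
  obtain ⟨k, hk⟩ := Nat.exists_eq_add_of_le (H35.deg_factorization_le p χ.2)
  have hη := H35.isGenChar_pow_sub_smul_pReg hp χ
  rw [hk, Nat.add_sub_cancel_left] at hη
  set η := ((p : ℂ) ^ k) • Cfsg.pRegularPart p (χ : G → ℂ) with hηdef
  choose n hn using fun ψ : Cfsg.IrrCharacter G => hη.classInner_int ψ.2.isGeneralizedCharacter
  have hnO : ∀ ψ ∈ O, n ψ = n χ := by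
    intro ψ hψ
    have : (n ψ : ℂ) = n χ := by
      rw [← hn, ← hn, hηdef, classInner_smul_left, classInner_smul_left,
        ← H35.classInner_pReg_pReg, hOreg ψ hψ, H35.classInner_pReg_pReg]
    exact_mod_cast this
  have hsum : ∑ ψ, n ψ ^ 2 = p ^ k * n χ := by
    have h1 := hη.classInner_self_eq_sum_sq hn
    have h2 : Cfsg.classInner η η = (p : ℂ) ^ k * n χ := by
      rw [← hn, hηdef, classInner_smul_right, classInner_smul_left, classInner_smul_left,
        H35.classInner_pReg_pReg]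
      simp
    rw [h2] at h1
    exact_mod_cast h1.symm
  have hn0 : n χ ≠ 0 := by
    intro h
    have h1 := hn χ
    rw [h, hηdef, classInner_smul_left, ← H35.classInner_pReg_pReg, Int.cast_zero, mul_eq_zero,
      classInner_self_eq_zero] at h1
    exact h1.elim (pow_ne_zero _ (Nat.cast_ne_zero.2 hp.ne_zero))
      (H35.pReg_ne_zero hp χ.2.apply_one_ne_zero)
  have hsplit : ∑ ψ, n ψ ^ 2 = r * n χ ^ 2 + ∑ ψ ∈ (H35.bF O)ᶜ, n ψ ^ 2 := by
    rw [← Finset.sum_add_sum_compl (H35.bF O),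
      Finset.sum_congr rfl (fun ψ hψ => by rw [hnO ψ (H35.mem_bF.1 hψ)]), Finset.sum_const,
      H35.card_bF, hr', nsmul_eq_mul]
  have hc0 : 0 ≤ ∑ ψ ∈ (H35.bF O)ᶜ, n ψ ^ 2 := Finset.sum_nonneg fun _ _ => sq_nonneg _
  have hnpos : 0 < n χ := by
    have h1 : 0 < (p : ℤ) ^ k * n χ := by
      rw [← hsum, hsplit]
      have : 0 < (r : ℤ) * n χ ^ 2 := by positivity
      linarith
    exact (pos_iff_pos_of_mul_pos h1).1 (pow_pos (by exact_mod_cast hp.pos) _)
  have hrle : r ≤ p ^ k := by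
    have h1 : (r : ℤ) * n χ * n χ ≤ p ^ k * n χ := by rw [← hsum, hsplit]; nlinarith
    have h2 := le_of_mul_le_mul_right h1 hnpos
    have h3 : (r : ℤ) ≤ p ^ k := by nlinarith [Int.natCast_nonneg r]
    exact_mod_cast h3
  have hνr : r.factorization p ≤ k := by
    have := (Nat.ordProj_le p hr0).trans hrle
    exact (Nat.pow_le_pow_iff_right hp.one_lt).1 this
  have hfac : (r * Cfsg.charDegree (χ : G → ℂ)).factorization p =
      r.factorization p + (Cfsg.charDegree (χ : G → ℂ)).factorization p := by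
    rw [Nat.factorization_mul hr0 (H35.deg_ne_zero χ), Finsupp.add_apply]
  refine ⟨by omega, fun hdvd => ?_⟩
  rw [hp.pow_dvd_iff_le_factorization (mul_ne_zero hr0 (H35.deg_ne_zero χ))] at hdvd
  rw [hp.pow_dvd_iff_le_factorization (H35.deg_ne_zero χ)]
  by_contra hlt
  have hk0 : k ≠ 0 := by omega
  have hrk : r = p ^ k := le_antisymm hrle (Nat.le_of_dvd (Nat.pos_of_ne_zero hr0)
    ((hp.pow_dvd_iff_le_factorization hr0).2 (by omega)))
  have hc1 : ∑ ψ ∈ (H35.bF O)ᶜ, n ψ ^ 2 = 0 := by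
    rw [hsplit, hrk] at hsum
    push_cast at hsum
    have : (0 : ℤ) < p ^ k := pow_pos (by exact_mod_cast hp.pos) _
    nlinarith [mul_nonneg this.le (mul_nonneg hnpos.le (show 0 ≤ n χ - 1 by omega))]
  have hin : H35.InB O η := ⟨hη.isClassFunction, fun ψ hψ => by
    have := (Finset.sum_eq_zero_iff_of_nonneg (fun _ _ => sq_nonneg _)).1 hc1 ψ (by simpa using hψ)
    rw [hn, pow_eq_zero_iff two_ne_zero |>.1 this, Int.cast_zero]⟩
  -- `χ` has height zero in its block
  have hB := H37.isPBlock_blockOf (M := M) χ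
  have hχB := H37.mem_blockOf_self (M := M) χ
  set B := Cfsg.blockOf M (χ : G → ℂ)
  obtain ⟨ξ, hξ, hξ0⟩ := H35.exists_height_zero p ⟨χ, hχB⟩
  have hξO : ξ ∈ O := by
    by_contra h
    have h1 := hin.2 ξ h
    rw [hηdef, classInner_smul_left, mul_eq_zero, H35.classInner_pReg_irr_comm] at h1
    exact h1.elim (pow_ne_zero _ (Nat.cast_ne_zero.2 hp.ne_zero))
      (H35.classInner_pReg_ne_zero_of_height_zero hM hB hξ hξ0 hχB)
  have h0 : Cfsg.blockHeight p B (χ : G → ℂ) = 0 := by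
    have h1 := congrFun (hOreg ξ hξO) 1
    rw [H35.pReg_one hp, H35.pReg_one hp] at h1
    rw [← hξ0, H35.blockHeight_eq, H35.blockHeight_eq, Cfsg.charDegree, Cfsg.charDegree, h1]
  have hd := H35.nu_add_blockDefect p hχB
  obtain ⟨y, hy⟩ := H34.exists_isDefectClass hB
  have hyreg := H35.not_dvd_orderOf_of_isDefectClass hM hB hy
  have hC := H35.factorization_centralizer_of_isDefectClass hM hB hy
  have : Fact p.Prime := ⟨hp⟩
  obtain ⟨u, hu⟩ := exists_prime_orderOf_dvd_card' p (G := Subgroup.centralizer ({y} : Set G))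
    ((hp.dvd_iff_one_le_factorization Nat.card_pos.ne').2 (by omega))
  have huc : Commute (u : G) y := Subgroup.mem_centralizer_singleton_iff.1 u.2
  have hu' : orderOf (u : G) = p := by rw [Subgroup.orderOf_coe, hu]
  have hsing : p ∣ orderOf ((u : G) * y) := by
    rw [huc.orderOf_mul_eq_mul_orderOf_of_coprime
      (by rw [hu']; exact (Nat.Prime.coprime_iff_not_dvd hp).2 hyreg), hu']
    exact dvd_mul_right _ _
  have h1 := hin.apply_eq_sum ((u : G) * y)
  rw [hηdef, Pi.smul_apply, H35.pReg_of_sing _ hsing, smul_zero, ← hηdef,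
    Finset.sum_congr rfl (g := fun _ => (n χ : ℂ) * (χ : G → ℂ) (u * y)) (fun ψ hψ => by
      rw [hn, hnO ψ (H35.mem_bF.1 hψ)]
      obtain ⟨σ, hσ, h⟩ := H35.mem_bF.1 hψ
      rw [h]
      exact congrArg _ (fix_value hp χ (hr.trans hrk) hu' hyreg huc σ hσ)),
    Finset.sum_const, H35.card_bF, hr', nsmul_eq_mul] at h1
  have h2 : (χ : G → ℂ) (u * y) = 0 := by
    simpa [hr0, hn0] using h1.symm
  have h3 := H35.P_char_mul_sub hM χ.2.isCharacter (u := u) (y := y) (k := 1)
    (by rw [pow_one, ← hu', pow_orderOf_eq_one]) huc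
  rw [h2, zero_sub, H35.P_neg_iff] at h3
  apply hy.2.2 χ hχB
  rw [H35.centralChar_eq_div, ← H35.coe_deg, ← Nat.cast_mul]
  refine H35.P_mul_left ?_ h3
  rw [H35.natCast_div_natCast_mem_S_iff hM Nat.card_pos.ne'
    (mul_ne_zero Nat.card_pos.ne' (H35.deg_ne_zero χ)),
    Nat.factorization_mul Nat.card_pos.ne' (H35.deg_ne_zero χ), Finsupp.add_apply]
  omega

end Cfsg.Agent.S4506
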