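import Cfsg.Statements.S4507
import Cfsg.Agent.H37.CycK
import Cfsg.Agent.H37.Cyc8
import Cfsg.Agent.H29.Gal

set_option autoImplicit false
open Cfsg

namespace Cfsg.Agent.S4507

open H28 H35 H37 H39

theorem aut_pow_fix {a b k : ℕ} (ha : a ≠ 0) (hb : b ≠ 0) (hab : a.Coprime b)
    (hk : k.Coprime a) : ∃ σ : ℂ ≃+* ℂ, (∀ z : ℂ, z ^ a = 1 → σ z = z ^ k) ∧
      ∀ z : ℂ, z ^ b = 1 → σ z = z := by
  obtain ⟨m, hm1, hm2⟩ := Nat.chineseRemainder hab k 1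
  have hma : m.Coprime a := by
    unfold Nat.Coprime at hk ⊢; rw [hm1.gcd_eq, hk]
  have hmb : m.Coprime b := by
    unfold Nat.Coprime; rw [hm2.gcd_eq, Nat.gcd_one_left]
  obtain ⟨σ, hσ⟩ := H29.exists_ringEquiv_pow (mul_ne_zero ha hb) (Nat.Coprime.mul_right hma hmb)
  refine ⟨σ, fun z hz => ?_, fun z hz => ?_⟩
  · rw [hσ z (by rw [pow_mul, hz, one_pow]), pow_eq_pow_mod m hz, hm1, ← pow_eq_pow_mod k hz]
  · rw [hσ z (by rw [mul_comm, pow_mul, hz, one_pow]), pow_eq_pow_mod m hz, hm2,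
      ← pow_eq_pow_mod 1 hz, pow_one]

theorem irr_pow {A : Type*} [Group A] [Finite A] {p : ℕ} (hp : p.Prime) (hA : Nat.card A = p)
    (l l' : IrrCharacter A) (h : ∃ a, (l : A → ℂ) a ≠ 1) (h' : ∃ a, (l' : A → ℂ) a ≠ 1) :
    ∃ k, k.Coprime p ∧ ∀ a, (l : A → ℂ) a ^ p = 1 ∧ (l' : A → ℂ) a = (l : A → ℂ) a ^ k := by
  have := Fact.mk hp
  have hc := isCyclic_of_prime_card hA
  have h1 := comm_iff_forall_irr_degree_one.1 hc.commGroup.mul_comm
  obtain ⟨f, hf⟩ := l.2.isCharacter.exists_hom (h1 l)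
  obtain ⟨f', hf'⟩ := l'.2.isCharacter.exists_hom (h1 l')
  obtain ⟨g, hg⟩ := IsCyclic.exists_monoid_generator (α := A)
  rw [hf] at h ⊢
  rw [hf'] at h' ⊢
  have h2 : ∀ (f : A →* ℂˣ) a, f a ^ p = 1 := fun f a => by
    rw [← map_pow, ← hA, pow_card_eq_one', map_one]
  have h3 : ∀ f : A →* ℂˣ, (∃ a, (f a : ℂ) ≠ 1) → f g ≠ 1 := fun f ⟨a, ha⟩ h4 => by
    obtain ⟨n, rfl⟩ := hg a
    simp [h4] at ha
  have h4 : IsPrimitiveRoot (f g : ℂ) p := by
    rw [IsPrimitiveRoot.coe_units_iff, ← orderOf_eq_prime (h2 f g) (h3 f h)]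
    exact IsPrimitiveRoot.orderOf _
  obtain ⟨k, hk, hk'⟩ := h4.eq_pow_of_pow_eq_one (ξ := (f' g : ℂ)) (congrArg Units.val (h2 f' g))
  refine ⟨k, ((Nat.Prime.coprime_iff_not_dvd hp).2 fun h5 => ?_).symm,
    fun a => ⟨congrArg Units.val (h2 f a), ?_⟩⟩
  · rw [Nat.eq_zero_of_dvd_of_lt h5 hk, pow_zero] at hk'
    exact h3 f' h' (Units.ext hk'.symm)
  · obtain ⟨n, rfl⟩ := hg a
    simp only [map_pow, Units.val_pow_eq_pow_val]
    rw [← hk', ← pow_mul, ← pow_mul, mul_comm]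

theorem fix_sub {G : Type*} [Group G] [Finite G] {p : ℕ} (C : Subgroup G) {σ : ℂ →+* ℂ}
    (hσ : σ (etaP p G) = etaP p G) : σ (etaP p C) = etaP p C :=
  map_eq_of_fix_etaP hσ ((isPrimitiveRoot_etaP.pow_eq_one_iff_dvd _).2
    (Nat.ordCompl_dvd_ordCompl_of_dvd (Subgroup.card_subgroup_dvd_card C) p))


/-- Let G be a finite group whose order g is divisible by the prime p exactly once, g′ = g/p, and fix a maximal ideal M of the algebraic integers containing p. Call two irreducible characters p-conjugate when a field automorphism of ℂ fixing the g′-th roots of unity carries one to the other. Let B be a p-block of positive defect (its defect group is a Sylow p-subgroup). Then B contains a subset Y (the exceptional family) such that: Y is a full p-conjugacy class (its members are pairwise p-conjugate and every p-conjugate of a member of Y lies in Y); every member of B outside Y is p-conjugate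 only to itself; the size t of Y divides p − 1 and B has exactly t + (p − 1)/t members; and there are signs δ_χ = ±1 (χ ∈ B) such that for every p-regular element x and every θ ∈ Y, Σ_{χ ∈ B ∖ Y} δ_χ χ(x) + δ_θ θ(x) = 0. -/
theorem result {G : Type*} [Group G] [Finite G] (p : ℕ) [Fact p.Prime] (M : Ideal Cfsg.AlgInt) (hM : Cfsg.IsPModular p M) (hdiv : p ∣ Nat.card G) (hsq : ¬ p ^ 2 ∣ Nat.card G) (B : Set (Cfsg.IrrCharacter G)) (hB : Cfsg.IsPBlock M B) (hd : 0 < Cfsg.blockDefect p B) : ∃ Y : Set (Cfsg.IrrCharacter G), Y ⊆ B ∧ Y.Nonempty ∧ (∀ θ ∈ Y, ∀ ψ : Cfsg.IrrCharacter G, (∃ σ : ℂ ≃+* ℂ, σ (Complex.exp (2 * Real.pi * Complex.I / ((Nat.card G / p ^ (Nat.card G).factorization p) : ℕ))) = Complex.exp (2 * Real.pi * Complex.I / ((Nat.card G / p ^ (Nat.card G).factorization p) : ℕ)) ∧ (ψ : G → ℂ) = fun g => σ ((θ : G → ℂ) g)) ↔ ψ ∈ Y) ∧ (∀ χ ∈ B, χ ∉ Y → ∀ ψ : Cfsg.IrrCharacter G, (∃ σ : ℂ ≃+*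 ℂ, σ (Complex.exp (2 * Real.pi * Complex.I / ((Nat.card G / p ^ (Nat.card G).factorization p) : ℕ))) = Complex.exp (2 * Real.pi * Complex.I / ((Nat.card G / p ^ (Nat.card G).factorization p) : ℕ)) ∧ (ψ : G → ℂ) = fun g => σ ((χ : G → ℂ) g)) → ψ = χ) ∧ Nat.card Y ∣ p - 1 ∧ Nat.card B = Nat.card Y + (p - 1) / Nat.card Y ∧ ∃ δ : Cfsg.IrrCharacter G → ℤ, (∀ χ ∈ B, δ χ = 1 ∨ δ χ = -1) ∧ ∀ x : G, ¬ p ∣ orderOf x → ∀ θ ∈ Y, (∑ᶠ χ ∈ B \ Y, (δ χ : ℂ) * (χ : G → ℂ) x) + (δ θ : ℂ) * (θ : G → ℂ) x = 0 := by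
  classical
  have := hM.2.1
  have hp : p.Prime := Fact.out
  cases nonempty_fintype G
  obtain ⟨P⟩ : Nonempty (Sylow p G) := inferInstance
  have hf : (Nat.card G).factorization p = 1 := le_antisymm (by
    rw [hp.pow_dvd_iff_le_factorization Nat.card_pos.ne'] at hsq; omega)
    ((hp.dvd_iff_one_le_factorization Nat.card_pos.ne').1 hdiv)
  have hP : Nat.card (P : Subgroup G) = p := by rw [P.card_eq_multiplicity, hf, pow_one]
  have hD := (H36.isDefectGroup_iff_sylow hM hB (le_antisymm (blockDefect_le p B)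
    (by omega))).2 ⟨P, rfl⟩
  obtain ⟨c, h⟩ := exists_cycS hM hB hD (isCyclic_of_prime_card hP) le_rfl hP
  obtain ⟨ζ₀, h0, hk⟩ := h.exists_ker
  obtain ⟨X, Y, δ, ε, th, hR⟩ := h.cycR_of cycK h0 fun x hx => ((h.mem_T_iff_ker h0 hk).1 hx).2
  have hg0 : ∀ σ : ℂ →+* ℂ, σ (etaP p G) = etaP p G → galIrr σ ζ₀ = ζ₀ := fun σ hσ =>
    h.eq_of_ker (galIrr_mem hM h.hc (fix_sub _ hσ) h0) h0 (fun z hz => by simp [hk z hz]) hk
  have hgX : ∀ σ : ℂ →+* ℂ, σ (etaP p G) = etaP p G → ∀ χ ∈ X, galIrr σ χ = χ :=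
    fun σ hσ χ hχ => Subtype.ext (funext fun g => by
      by_cases hg : p ∣ orderOf g
      · have h1 := congrArg σ (hR.val_X hχ hg)
        rw [← H33.indFun_ringHom, show (fun h => σ (ζ₀.1 h)) = ζ₀.1 from
          congrArg Subtype.val (hg0 σ hσ), ← hR.val_X hχ hg, map_mul, map_mul, map_natCast,
          map_intCast] at h1
        exact mul_left_cancel₀ (sign_ne_zero' (hR.sδ χ))
          (mul_left_cancel₀ (Nat.cast_ne_zero.2 hR.e_ne_zero) h1)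
      · exact map_char_of_fix_etaP hp hσ χ.2.isGeneralizedCharacter hg)
  have hgY : ∀ σ : ℂ →+* ℂ, σ (etaP p G) = etaP p G → ∀ ζ ∈ c, ζ ≠ ζ₀ →
      galIrr σ (th ζ) = th (galIrr σ ζ) ∧ th (galIrr σ ζ) ∈ Y := fun σ hσ ζ hζ hne => by
    have h1 := galIrr_mem hM h.hc (fix_sub _ hσ) hζ
    have h2 : galIrr σ ζ ≠ ζ₀ := fun h2 => hne (galIrr_injective σ (h2.trans (hg0 σ hσ).symm))
    refine ⟨Subtype.ext (funext fun g => ?_), hR.th_mem _ h1 h2⟩
    by_cases hg : p ∣ orderOf g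
    · have h3 := congrArg σ (hR.val_Y hζ hne hg)
      rw [← H33.indFun_ringHom, map_mul, map_intCast] at h3
      exact mul_left_cancel₀ (sign_ne_zero' hR.sε) (h3.trans (hR.val_Y h1 h2 hg).symm)
    · exact (map_char_of_fix_etaP hp hσ (th ζ).2.isGeneralizedCharacter hg).trans
        (hR.uni_Y (hR.th_mem _ hζ hne) (hR.th_mem _ h1 h2) hg)
  have htr : ∀ ζ ∈ c, ζ ≠ ζ₀ → ∀ ζ' ∈ c, ζ' ≠ ζ₀ → ∃ σ : ℂ ≃+* ℂ, σ (etaP p G) = etaP p G ∧
      galIrr σ ζ = ζ' := fun ζ hζ hne ζ' hζ' hne' => by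
    have hs := H41.sup_eq_top_of_le_center (subgroupOf_cen_le_center (P : Subgroup G))
    have hk' := (ζ₀.2.isCharacter.le_charKer_iff
      (H := (P : Subgroup G).subgroupOf (Cen (P : Subgroup G)))).2 hk
    obtain ⟨l, hl⟩ := H41.exists_secForm hM hs h.hc h.dc h0 hk' hζ
    obtain ⟨l', hl'⟩ := H41.exists_secForm hM hs h.hc h.dc h0 hk' hζ'
    have h1 := H41.secForm_self hM h.hc h.dc h0 hk'
    obtain ⟨k, hk1, hk2⟩ := irr_pow hp ((card_subgroupOf_eq h.Z_le).trans hP) l l'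
      (by_contra fun h2 => hne (Subtype.ext (hl.eq hp (by
        push Not at h2; rwa [show l.1 = fun _ => 1 from funext h2]))))
      (by_contra fun h2 => hne' (Subtype.ext (hl'.eq hp (by
        push Not at h2; rwa [show l'.1 = fun _ => 1 from funext h2]))))
    obtain ⟨σ, h2, h3⟩ := aut_pow_fix hp.ne_zero (ordCompl_card_ne_zero (G := G) (p := p))
      (Nat.coprime_ordCompl hp Nat.card_pos.ne') hk1
    have hσ : σ (etaP p G) = etaP p G := h3 _ isPrimitiveRoot_etaP.pow_eq_one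
    refine ⟨σ, hσ, Subtype.ext (H41.SecForm.eq hp ⟨fun y x hx => ?_, fun z hz => ?_⟩ hl')⟩
    · rw [galIrr_apply, hl.mul y x hx, map_mul, map_char_of_fix_etaP hp (fix_sub _ hσ)
        ζ₀.2.isGeneralizedCharacter hx, (hk2 y).2]
      exact congrArg (· * _) (h2 _ (hk2 y).1)
    · rw [galIrr_apply, hl.zero z hz, map_zero]
  have hc := hR.card_Y
  have hY0 := Finset.card_pos.2 hR.Y_nonempty
  have hc' : p - 1 = Y.card * X.card := by rw [hR.cardX]; omega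
  have hXY : B \ Y = X := by
    rw [hR.coe_union, Set.union_diff_right, (Finset.disjoint_coe.2 hR.disj).sdiff_eq_left]
  refine ⟨Y, fun θ hθ => hR.mem_Y hθ, hR.Y_nonempty, fun θ hθ ψ => ⟨?_, fun hψ => ?_⟩,
    fun χ hχ hχY ψ => ?_, ⟨X.card, by simpa using hc'⟩, ?_,
    fun χ => if χ ∈ X then δ χ else -ε, fun χ _ => ?_, fun x hx θ hθ => ?_⟩
  · rintro ⟨σ, hσ, h1⟩
    obtain ⟨ζ, hζ, hne, rfl⟩ := hR.th_surj θ hθ
    obtain ⟨h2, h3⟩ := hgY σ hσ ζ hζ hne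
    rw [show ψ = galIrr σ (th ζ) from Subtype.ext h1, h2]
    exact h3
  · obtain ⟨ζ, hζ, hne, rfl⟩ := hR.th_surj θ hθ
    obtain ⟨ζ', hζ', hne', rfl⟩ := hR.th_surj ψ hψ
    obtain ⟨σ, hσ, rfl⟩ := htr ζ hζ hne ζ' hζ' hne'
    exact ⟨σ, hσ, congrArg Subtype.val (hgY σ hσ ζ hζ hne).1.symm⟩
  · rintro ⟨σ, hσ, h1⟩
    exact (show ψ = galIrr σ χ from Subtype.ext h1).trans
      (hgX σ hσ χ (((hR.mem_iff χ).1 hχ).resolve_right hχY))
  · rw [hR.card_B, ← hR.card_Y', ← hR.cardX, hc']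
    simp [Nat.mul_div_cancel_left _ hY0, add_comm]
  · dsimp only
    split_ifs
    · exact hR.sδ χ
    · rcases hR.sε with h1 | h1 <;> simp [h1]
  · rw [hXY, finsum_mem_coe_finset, Finset.sum_congr rfl
      (g := fun χ => (δ χ : ℂ) * (χ : G → ℂ) x) fun χ hχ => by simp only [if_pos hχ],
      ← hR.reg_eq hθ hx]
    simp [Finset.disjoint_right.1 hR.disj hθ]

end Cfsg.Agent.S4507
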