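import Cfsg.Agent.Base
import Cfsg.Agent.H87.DegPm
import Cfsg.Statements.S4508

set_option autoImplicit false
open Cfsg

namespace Cfsg.Agent.S4508

/-- Let the finite group G contain an element x of prime order p with C_G(x) = ⟨x⟩, and let t be the number of conjugacy classes of elements of order p. If G has an irreducible character of degree p − 1, then t is even or the commutator subgroup has even index. -/
theorem result {G : Type*} [Group G] [Finite G] (p : ℕ) (hp : p.Prime) (x : G) (hx : orderOf x = p) (hC : Subgroup.centralizer ({x} : Set G) = Subgroup.zpowers x) (t : ℕ) (ht : Nat.card {C : ConjClasses G // ∃ g ∈ C.carrier, orderOf g = p} = t) (χ : Cfsg.IrrCharacter G) (hχ : Cfsg.charDegree (χ : G → ℂ) + 1 = p) : Even t ∨ Even (commutator G).index := by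
  rcases Nat.even_or_odd t with h | h
  · exact Or.inl h
  right
  rcases hp.eq_two_or_odd' with rfl | h2
  swap
  · exact H87.DP.main hp hx hC ht χ.2 hχ h2 h
  have hc : Nat.card (Subgroup.zpowers x) = 2 := by rw [Nat.card_zpowers, hx]
  obtain ⟨P, hP⟩ := (IsPGroup.of_card (n := 1) (hc.trans (pow_one 2).symm)).exists_le_sylow
  have := P.isPGroup'.isNilpotent
  have e : (P : Subgroup G) = Subgroup.zpowers x := le_antisymm
    ((H87.DP.isCC hp hx hC).le_of_isNilpotent (Subgroup.mem_zpowers x) (hP (Subgroup.mem_zpowers x))
      fun e => by simp [e] at hx) hP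
  have h3 : (Nat.card G).minFac = 2 := (Nat.minFac_eq_two_iff _).2 (hx ▸ orderOf_dvd_natCard x)
  have h4 := (IsCyclic.isComplement' h3 (P := P) (e ▸ inferInstance)).symm.index_eq_card.trans
    (show Nat.card P = 2 by rw [e, hc])
  refine even_iff_two_dvd.2 (h4 ▸ Subgroup.index_dvd_of_le (Subgroup.commutator_le.2 fun a _ b _ => ?_))
  simp only [commutatorElement_def, Subgroup.mul_mem_iff_of_index_two h4, Subgroup.inv_mem_iff]
  tauto

end Cfsg.Agent.S4508
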