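import Cfsg.Statements.S4509
import Cfsg.Agent.H37.SelfC

set_option autoImplicit false
open Cfsg

namespace Cfsg.Agent.S4509

/-- Let the finite group G contain an element x of prime order p with C_G(x) = ⟨x⟩; let t be the number of conjugacy classes of elements of order p and 1 + n·p the number of subgroups of order p. Then G has a normal subgroup of order 1 + n·p if and only if either t = p − 1, or t < p − 1 and G″ ≠ G′. Moreover, if t = p − 1 then G′ has order 1 + n·p and G/G′ is cyclic of order p; and if t < p − 1 and G″ ≠ G′ then G″ has order 1 + n·p and G′ has order p·(1 + n·p). -/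
theorem result {G : Type*} [Group G] [Finite G] (p : ℕ) (hp : p.Prime) (x : G) (hx : orderOf x = p) (hC : Subgroup.centralizer ({x} : Set G) = Subgroup.zpowers x) (t : ℕ) (ht : Nat.card {C : ConjClasses G // ∃ g ∈ C.carrier, orderOf g = p} = t) (n : ℕ) (hn : Nat.card {H : Subgroup G // Nat.card H = p} = 1 + n * p) : ((∃ S : Subgroup G, S.Normal ∧ Nat.card S = 1 + n * p) ↔ (t = p - 1 ∨ (t < p - 1 ∧ derivedSeries G 2 ≠ derivedSeries G 1))) ∧ (t = p - 1 → Nat.card (commutator G) = 1 + n * p ∧ IsCyclic (G ⧸ commutator G) ∧ (commutator G).index = p) ∧ (t < p - 1 → derivedSeries G 2 ≠ derivedSeries G 1 → Nat.card (derivedSeries G 2) = 1 + n * p ∧ Nat.card (commutator G) = p * (1 + n * p)) := by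
  have h : H37.SelfC p x := ⟨hp, hx, hC⟩
  have := Fact.mk hp
  rw [h.card_sub] at hn
  have hB : t = p - 1 → Nat.card (commutator G) = 1 + n * p ∧ IsCyclic (G ⧸ commutator G) ∧
      (commutator G).index = p := fun h1 => by
    have h2 := (h.t_eq_iff ht).1 h1
    have h3 := h.index_eq_of_le (fun h3 => h.mem_commutator_iff.1 (h.mem_of_dvd h3 h.pow_eq) h2)
      (le_refl (commutator G))
    refine ⟨?_, isCyclic_of_prime_card (p := p) h3, h3⟩
    have h4 := (commutator G).card_mul_index
    rw [← (Subgroup.zpowers x).card_mul_index, h.card_P, h3,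
      ← Subgroup.relIndex_mul_index (H39.le_nor (Subgroup.zpowers x)), h2, one_mul, hn,
      mul_comm] at h4
    exact Nat.eq_of_mul_eq_mul_left hp.pos h4
  have hD : derivedSeries G 2 = ⁅commutator G, commutator G⁆ := rfl
  have hC' : t < p - 1 → derivedSeries G 2 ≠ derivedSeries G 1 →
      Nat.card (derivedSeries G 2) = 1 + n * p ∧ Nat.card (commutator G) = p * (1 + n * p) :=
      fun h1 h2 => by
    have hx' := h.mem_commutator_iff.2 (mt (h.t_eq_iff ht).2 h1.ne)
    have hle : derivedSeries G 2 ≤ commutator G := hD ▸ Subgroup.commutator_le_left _ _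
    have h3 : ¬ p ∣ Nat.card (derivedSeries G 2) := fun h3 =>
      h2 (le_antisymm hle (h.commutator_le (h.mem_of_dvd h3 h.pow_eq)))
    have h4 : Nat.card ((derivedSeries G 2).subgroupOf (commutator G)) =
        Nat.card (derivedSeries G 2) := Nat.card_congr (Subgroup.subgroupOfEquivOfLe hle).toEquiv
    have h5 := (h.subgroup hx').index_eq_of_le (S := (derivedSeries G 2).subgroupOf _)
      (by rwa [h4]) (Subgroup.commutator_le.2 fun a _ b _ =>
        Subgroup.commutator_mem_commutator a.2 b.2)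
    have h6 : H39.Nor (Subgroup.zpowers x) ⊔ derivedSeries G 2 = ⊤ := by
      rw [eq_top_iff, ← h.frattini hx']
      refine sup_le le_sup_left fun g hg => ?_
      obtain ⟨k, hk⟩ := (h.quotient h3).mem_of_comm (g := (g : G ⧸ derivedSeries G 2)) (by
        rw [← QuotientGroup.mk_mul, ← QuotientGroup.mk_mul, QuotientGroup.eq]
        have := Subgroup.commutator_mem_commutator (inv_mem hx') (inv_mem hg)
        rwa [commutatorElement_def, inv_inv, inv_inv, ← mul_inv_rev, mul_assoc] at this)
      simp only [← QuotientGroup.mk_zpow, QuotientGroup.eq] at hk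
      rw [← mul_inv_cancel_left (x ^ k) g]
      exact mul_mem (Subgroup.mem_sup_left (H39.le_nor _ (Subgroup.zpow_mem_zpowers x k)))
        (Subgroup.mem_sup_right hk)
    have h7 := h.card_dvd h3
    rw [h6, Subgroup.index_top, mul_one, hn] at h7
    refine ⟨h7, ?_⟩
    rw [← ((derivedSeries G 2).subgroupOf (commutator G)).card_mul_index, h5, h4, h7, mul_comm]
  refine ⟨⟨fun ⟨S, hS, h1⟩ => ?_, fun h1 => h1.elim (fun h1 => ⟨_, inferInstance, (hB h1).1⟩)
    fun h1 => ⟨_, inferInstance, (hC' h1.1 h1.2).1⟩⟩, hB, hC'⟩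
  refine or_iff_not_imp_left.2 fun h2 => ⟨lt_of_le_of_ne ?_ h2, fun h3 => ?_⟩
  · rw [← h.t_mul ht]
    exact Nat.le_mul_of_pos_right _ (Nat.pos_of_ne_zero Subgroup.FiniteIndex.index_ne_zero)
  have h4 : ¬ p ∣ Nat.card S := fun h4 => hp.one_lt.ne' (Nat.dvd_one.1
    ((Nat.dvd_add_left (dvd_mul_left p n)).1 (h1 ▸ h4)))
  have h5 := h.card_dvd h4
  rw [h1, hn, mul_right_eq_self₀, Subgroup.index_eq_one] at h5
  replace h5 := h5.resolve_right (by omega)
  have h6 : ∀ g : G, (g : G ⧸ S) ∈ H39.Nor (Subgroup.zpowers (x : G ⧸ S)) := fun g => by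
    obtain ⟨a, ha, s, hs, rfl⟩ := Subgroup.mem_sup_of_normal_right.1 (h5 ▸ Subgroup.mem_top g)
    rw [QuotientGroup.mk_mul_of_mem a hs,
      ← show _ = Subgroup.zpowers (x : G ⧸ S) from MonoidHom.map_zpowers (QuotientGroup.mk' S) x]
    exact Subgroup.le_normalizer_map _ (Subgroup.mem_map_of_mem _ ha)
  have h7 : commutator G ≤ (Subgroup.zpowers (x : G ⧸ S)).comap (QuotientGroup.mk' S) :=
    Subgroup.commutator_le.2 fun a _ b _ => by
      rw [Subgroup.mem_comap, map_commutatorElement]
      exact (h.quotient h4).comm_mem (h6 a) (h6 b)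
  have h8 : derivedSeries G 2 ≤ S := Subgroup.commutator_le.2 fun a ha b hb => by
    obtain ⟨i, hi⟩ := h7 ha
    obtain ⟨j, hj⟩ := h7 hb
    rw [← QuotientGroup.eq_one_iff, ← QuotientGroup.mk'_apply, map_commutatorElement, ← hi, ← hj,
      commutatorElement_eq_one_iff_commute]
    exact Commute.zpow_zpow_self _ _ _
  exact h4 (h.dvd_card (h8 (h3 ▸ h.mem_commutator_iff.2 (mt (h.t_eq_iff ht).2 h2))))

end Cfsg.Agent.S4509
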