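import Cfsg.Statements.S4510
import Cfsg.Agent.H36.Count

set_option autoImplicit false
open Cfsg

namespace Cfsg.Agent.S4510

/-- Let G be a finite group, p a prime, M a maximal ideal of the algebraic integers containing p, and call the defect of a conjugacy class the exponent of p in the order of the centralizer of its elements. Two irreducible characters lying in p-blocks of defect exactly d lie in the same block if and only if their central characters (class size times χ(x)/χ(1)) agree modulo the local ideal at M at every p-regular element x whose class has defect exactly d. -/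
theorem result {G : Type*} [Group G] [Finite G] (p : ℕ) [Fact p.Prime] (M : Ideal Cfsg.AlgInt) (hM : Cfsg.IsPModular p M) (d : ℕ) (χ ψ : Cfsg.IrrCharacter G) (hχ : Cfsg.blockDefect p (Cfsg.blockOf M (χ : G → ℂ)) = d) (hψ : Cfsg.blockDefect p (Cfsg.blockOf M (ψ : G → ℂ)) = d) : Cfsg.SameBlock M (χ : G → ℂ) (ψ : G → ℂ) ↔ ∀ x : G, ¬ p ∣ orderOf x → (Nat.card (Subgroup.centralizer ({x} : Set G))).factorization p = d → Cfsg.MemLocalIdeal M (Cfsg.centralChar (χ : G → ℂ) x - Cfsg.centralChar (ψ : G → ℂ) x) := by
  have := hM.2.1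
  refine ⟨fun h x _ _ => h x, fun h => ?_⟩
  have hB := H34.isPBlock_blockOf (M := M) χ
  have hB' := H34.isPBlock_blockOf (M := M) ψ
  have hχ' := H34.self_mem_blockOf (M := M) χ
  have hψ' := H34.self_mem_blockOf (M := M) ψ
  have h1 : H34.lam M χ.1 (H34.eB M (Cfsg.blockOf M (χ : G → ℂ))) =
      H34.lam M ψ.1 (H34.eB M (Cfsg.blockOf M (χ : G → ℂ))) := by
    refine H36.linear_eq_of_cl (H36.inv_eB _ ⊤) fun x hx => ?_
    have h2 := H36.cdef_le_blockDefect' hM hB hx
    by_cases h3 : H36.cdef p x = d
    · rw [H36.lam_cl (H28.Cfsg.IsIrrCharacter.isClassFunction χ.2),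
        H36.lam_cl (H28.Cfsg.IsIrrCharacter.isClassFunction ψ.2)]
      exact H35.red_eq_of_P_sub (H34.centralChar_mem_S ψ.2 x)
        (h x (H36.not_dvd_orderOf_of_coeff_eB hM hB hx) h3)
    · have h4 : H34.lam M χ.1 (H36.cl (H35.F M) ⊤ x) = 0 := by
        by_contra h4
        have := H36.blockDefect_le_cdef' hM hB hχ' h4
        omega
      have h5 : H34.lam M ψ.1 (H36.cl (H35.F M) ⊤ x) = 0 := by
        by_contra h5
        have := H36.blockDefect_le_cdef' hM hB' hψ' h5
        omega
      rw [h4, h5]
  rw [H34.lam_eB_of_mem hB hχ', eq_comm, H34.lam_eB_eq_one_iff hB] at h1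
  exact h1

end Cfsg.Agent.S4510
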