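import Cfsg.Statements.S4512
import Cfsg.Agent.H36.DihCount

set_option autoImplicit false
open Cfsg

namespace Cfsg.Agent.S4512

/-- If G is a finite group with a Sylow 2-subgroup that is a Klein four-group and a single conjugacy class of involutions, then its principal 2-block (relative to a maximal ideal M of the algebraic integers containing 2) has 2-regular rank 3: the restrictions of its irreducible characters to the elements of odd order span a space of dimension 3 (it has three irreducible Brauer characters). -/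
theorem result {G : Type*} [Group G] [Finite G] (M : Ideal Cfsg.AlgInt) (hM : Cfsg.IsPModular 2 M) (P : Sylow 2 G)
    (hP : Nat.card P = 4) (hexp : ∀ x : P, x * x = 1)
    (hone : ∀ s t : G, orderOf s = 2 → orderOf t = 2 → IsConj s t) :
    Cfsg.blockRank 2 (Cfsg.principalBlock M G) = 3 := by
  classical
  have := hM.2.1
  have := Fintype.ofFinite G
  have hK : IsKleinFour (P : Subgroup G) := ⟨hP, (not_isCyclic_iff_exponent_eq_prime
    Nat.prime_two hP).1 fun hc => by
      obtain ⟨g, hg⟩ := hc.exists_ofOrder_eq_natCard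
      have := orderOf_dvd_of_pow_eq_one ((sq g).trans (hexp g))
      rw [hg, hP] at this
      omega⟩
  obtain ⟨⟨J, hJP⟩, hJ⟩ := exists_prime_orderOf_dvd_card' (G := P) 2 (by rw [hP]; norm_num)
  rw [Subgroup.orderOf_mk] at hJ
  obtain ⟨s, h⟩ := H36.exists_dih_of_klein hK hJP hJ
  have h1 := H36.card_principal_eq hM {J} (by simpa using ⟨H85.ord2_ne_one hJ, 1, hJ⟩)
    fun g hg1 hg => ⟨J, ⟨by simp, hone _ _ (H34.klein_orderOf_of_pow hK hg hg1) hJ⟩,
      fun y hy => Finset.mem_singleton.1 hy.1⟩
  rw [Finset.sum_singleton, (H41.blockRank_principal_eq_one_iff hM).2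
      (H83.hasNPC_centralizer_of_dih P h hJ (Subgroup.mem_zpowers J))] at h1
  obtain ⟨χ₁, χ₂, χ₃, ε, -, a1, a2, a3, a12, a13, a23, hB, -⟩ := H34.klein_block hM hK hone
  have h2 : principalBlock M G =
      (({⟨fun _ => 1, H28.isIrrCharacter_one⟩, χ₁, χ₂, χ₃} : Finset _) : Set _) := by
    ext χ
    simp [hB, Subtype.ext_iff]
  rw [Nat.card_coe_set_eq, h2, Set.ncard_coe_finset, ← h2,
    Finset.card_insert_of_notMem (by simp [Subtype.ext_iff, a1.symm, a2.symm, a3.symm]),
    Finset.card_insert_of_notMem (by simp [a12, a13]), Finset.card_pair a23] at h1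
  omega

end Cfsg.Agent.S4512
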