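import Cfsg.Statements.S4513
import Cfsg.Agent.H41.PrinRank

set_option autoImplicit false
open Cfsg

namespace Cfsg.Agent.S4513

/-- Blocks of defect one for p = 2. Let M be a maximal ideal of the algebraic integers containing 2, B a 2-block of the finite group G whose defect group is the subgroup generated by an involution x, C = C_G(x), b a block of C inducing B and θ a member of b taking the same value at x as at 1 (there is exactly one). Then B consists of exactly two irreducible characters, which agree on every element of odd order, and they can be labelled χ₁, χ₂ with signs ε₁, ε₂ = ±1, ε₁ε₂ = −1, such that χᵢ(x y) = εᵢ θ(y) for every element y of C of odd order. -/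
theorem result {G : Type*} [Group G] [Finite G] (M : Ideal Cfsg.AlgInt) (hM : Cfsg.IsPModular 2 M) (x : G) (hx : orderOf x = 2)
    (B : Set (Cfsg.IrrCharacter G)) (hB : Cfsg.IsPBlock M B) (hBD : Cfsg.IsDefectGroup 2 M B (Subgroup.zpowers x))
    (b : Set (Cfsg.IrrCharacter ↥(Subgroup.centralizer ({x} : Set G)))) (hb : Cfsg.IsInducedBlock M (Subgroup.centralizer ({x} : Set G)) b B)
    (θ : Cfsg.IrrCharacter ↥(Subgroup.centralizer ({x} : Set G))) (hθ : θ ∈ b)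
    (hθx : ∀ z : ↥(Subgroup.centralizer ({x} : Set G)), (z : G) = x → (θ : ↥(Subgroup.centralizer ({x} : Set G)) → ℂ) z = (θ : ↥(Subgroup.centralizer ({x} : Set G)) → ℂ) 1) :
    Nat.card B = 2 ∧ (∀ χ ∈ B, ∀ ψ ∈ B, ∀ g : G, ¬ 2 ∣ orderOf g → (χ : G → ℂ) g = (ψ : G → ℂ) g) ∧
      ∃ χ₁ ∈ B, ∃ χ₂ ∈ B, χ₁ ≠ χ₂ ∧ ∃ ε₁ ε₂ : ℤ, (ε₁ = 1 ∨ ε₁ = -1) ∧ (ε₂ = 1 ∨ ε₂ = -1) ∧ ε₁ * ε₂ = -1 ∧
        ∀ y : ↥(Subgroup.centralizer ({x} : Set G)), ¬ 2 ∣ orderOf y →
          (χ₁ : G → ℂ) (x * y) = (ε₁ : ℂ) * (θ : ↥(Subgroup.centralizer ({x} : Set G)) → ℂ) y ∧ (χ₂ : G → ℂ) (x * y) = (ε₂ : ℂ) * (θ : ↥(Subgroup.centralizer ({x} : Set G)) → ℂ) y := by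
  have := hM.2.1
  have hd : Cfsg.blockDefect 2 B = 1 :=
    H36.blockDefect_eq_of_card hM hB hBD (by rw [Nat.card_zpowers, hx, pow_one])
  have h := H41.isSec_centralizer (p := 2) (u := x) ⟨1, by rw [hx, pow_one]⟩
  refine ⟨H41.card_eq_two_of_defect_one hM hB hd, fun χ hχ ψ hψ g hg => ?_, ?_⟩
  · obtain ⟨χ', -, h1, h2, -⟩ := H41.exists_pair_of_defect_one hM hB hd hχ
    rcases (h1 ▸ hψ : ψ ∈ ({χ, χ'} : Set _)) with rfl | rfl
    · rfl
    · exact (h2 g hg).symm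
  · obtain ⟨χ, hχ⟩ := H34.block_nonempty hB
    obtain ⟨ψ, hne, h1, -, h2⟩ := H41.exists_pair_of_defect_one hM hB hd hχ
    obtain ⟨ε, h3, h4⟩ := h.exists_sign_of_defect_one hM hx hd hb hθ hχ
    refine ⟨χ, hχ, ψ, by simp [h1], hne, ε, -ε, h3, by omega, by rcases h3 with rfl | rfl <;> rfl,
      fun y hy => ⟨h4 y hy, ?_⟩⟩
    rw [h2, h4 y hy]
    · push_cast
      ring
    · by_contra h5
      have h6 := H41.isPPart_unique hM.1 (h.isPPart hy) (H41.isPPart_one_of_not_dvd h5)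
      simp [h6] at hx

end Cfsg.Agent.S4513
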