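import Cfsg.Statements.S4638
import Cfsg.Agent.H35.K4

set_option autoImplicit false
open Cfsg H28

namespace Cfsg.Agent.S4638

/-- Let B be a block of the finite group G relative to a maximal ideal M of the algebraic integers containing 2, with a Klein four defect group P, and let c be its Brauer correspondent: the block of N_G(P) with defect group P that induces B. Then there is a perfect isometry from c onto B. -/
theorem result {G : Type*} [Group G] [Finite G] (M : Ideal Cfsg.AlgInt) (hM : Cfsg.IsPModular 2 M) (B : Set (Cfsg.IrrCharacter G)) (hB : Cfsg.IsPBlock M B) (P : Subgroup G) (hPD : Cfsg.IsDefectGroup 2 M B P) (hV : IsKleinFour P) (c : Set (Cfsg.IrrCharacter (Subgroup.normalizer (P : Set G)))) (hcD : Cfsg.IsDefectGroup 2 M c (P.subgroupOf (Subgroup.normalizer (P : Set G)))) (hc : Cfsg.IsInducedBlock M (Subgroup.normalizer (P : Set G)) c B) : ∃ (I : Cfsg.IrrCharacter (Subgroup.normalizer (P : Set G)) → Cfsg.IrrCharacter G) (ε : Cfsg.IrrCharacter (Subgroup.normalizer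 (P : Set G)) → ℤ), Cfsg.IsPerfectIsometry 2 M c B I ε := by
  classical
  have := hM.2.1
  have := H35.charP_F hM
  have := Fintype.ofFinite G
  have := Fintype.ofFinite (H39.Nor P)
  have hp := H36.isPGroup_of_isDefectGroup hPD
  have hV' : IsKleinFour (P.subgroupOf (H39.Nor P)) :=
    have σ := Subgroup.subgroupOfEquivOfLe (H39.le_nor P)
    ⟨(Nat.card_congr σ.toEquiv).trans hV.card_four,
      (Monoid.exponent_eq_of_mulEquiv σ).trans hV.exponent_two⟩
  have hab : ∀ {G : Type u_1} [Group G] [Finite G] {P : Subgroup G}, IsKleinFour P → P ≤ H39.Cen P :=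
    fun hV => H39.le_cen_of_comm fun x hx y hy =>
      congrArg Subtype.val (mul_comm_of_exponent_two hV.exponent_two ⟨x, hx⟩ ⟨y, hy⟩)
  obtain ⟨e, he⟩ := H34.exists_bd hM hc.1 hcD
  obtain ⟨b, hb, rfl⟩ := he.hm.bp.blk.exists_eS'
  have hi := (H37.induced_iff_bp hM he.hm.bp.pQ (hab hV') hb hc.1).2 he.hm.bp
  have hb' := (H36.isPBlock_image_iff M (H37.cenEquiv P) b).2 hb
  have hi' : IsInducedBlock M (H39.Cen P) (H36.irrEquiv (H37.cenEquiv P) '' b) B := by
    refine (H36.isInducedBlock_trans_iff (H39.cen_le_nor P) ?_).2 hc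
    rw [H36.isInducedBlockIn_iff_br hM (H39.cen_le_nor P) hp (hab hV) inf_le_right
      (H39.cen_le_nor P) hb' hc.1, H37.eS_cenEquiv]
    have h1 := congrArg (H36.emb (H39.Nor P).subtype) he.hm.bp.mul
    rwa [map_mul, H36.emb_br (H39.Nor P).subtype_injective,
      Subgroup.map_subgroupOf_eq_of_le (H39.le_nor P)] at h1
  obtain ⟨h1, h2, h3⟩ := Cfsg.Agent.S4637.result M hM B hB P hPD hV _ hi' (H37.cycT M P _)
    (fun g => by rw [H39.nor_stabilizes_iff hb', top_inf_eq]; rfl) _ rfl
  obtain ⟨-, h4, h5⟩ := Cfsg.Agent.S4637.result M hM c hc.1 _ hcD hV' _ hi (H37.cycT M _ _)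
    (fun g => by rw [H39.nor_stabilizes_iff hb, top_inf_eq]; rfl) _ rfl
  exact H35.klein_perfect ⟨hM, hB, H39.maxP_of_induced hM hPD hi'⟩ hV h2 he hV' h4 (h3 ▸ h1)
    (h5.trans ((H37.e_cenEquiv b).trans h3.symm))

end Cfsg.Agent.S4638
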