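import Cfsg.Statements.S4640
import Cfsg.Agent.H39.StarEta
import Cfsg.Agent.H38.CoverS
import Cfsg.Agent.H40.Coset
import Cfsg.Agent.H83.AbChar

set_option autoImplicit false
open Cfsg

namespace Cfsg.Agent.S4640

open H39 H36 H35 H28 Cfsg

theorem exists_ne_zero {G : Type*} [Group G] [Fintype G] {p : ℕ} {M : Ideal AlgInt} [M.IsMaximal]
    (hM : IsPModular p M) {B : Set (IrrCharacter G)} (hB : IsPBlock M B) {P : Subgroup G}
    (hP : IsDefectGroup p M B P) {v : G} (hv : v ∈ P) (hc : v ∈ Cen P) {χ : IrrCharacter G}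
    (hχ : χ ∈ B) : ∃ y, ¬ p ∣ orderOf y ∧ χ.1 (v * y) ≠ 0 := by
  have := Fact.mk hM.1
  have := charP_F hM
  have := Fintype.ofFinite (Cen (Subgroup.zpowers v))
  have hD := (isDefectGroup_iff hM hB).1 hP
  obtain ⟨e, he⟩ := exists_bp le_rfl (blk_eB hB) hD.isPGroup le_top hD.br_ne
  have hm : MaxP p ⊤ (H34.eB M B) P e := ⟨blk_eB hB, he, hD⟩
  obtain ⟨ψ, hψ, h0⟩ := exists_height_zero p (H34.block_nonempty hB)
  obtain ⟨h3, b, -, hb, h5⟩ := hm.exists_sec hM hB hv
  by_contra! h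
  refine hm.mP_ne_zero_of_central hM hB hχ hψ h0 hv hc ?_
  rw [mP_eq hM χ.2.isClassFunction ψ.2.isClassFunction h3 hb h5, fsec, ← blockPart_pReg hM hb,
    show (pRegularPart p fun c : Cen (Subgroup.zpowers v) => χ.1 (v * c)) = 0 from funext fun y => by
      rw [pReg_apply]
      split_ifs with hy
      · rfl
      · exact h y (by simpa using hy), inB_zero.blockPart_eq_self, classInner_zero_left, mul_zero]

/-- Let N be a normal subgroup of the finite group G of index a power of the prime p, M a maximal ideal of the algebraic integers containing p, b a block of N stabilized by every element of G, and B a block of G covering b (some member of B has a member of b as a constituent of its restriction to N). Suppose that B has a commutative defect group P. Then G = NP and P ∩ N is a defect group of b; every member of B restricts to a member of b; every member of b is the restriction of exactly [G : N] members of B; B contains exactly [G : N] times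 as many irreducible characters as b; and B and b have the same p-regular rank. -/
theorem result {G : Type*} [Group G] [Fintype G] (p : ℕ) [Fact p.Prime] (M : Ideal Cfsg.AlgInt) (hM : Cfsg.IsPModular p M) (N : Subgroup G) [N.Normal] [Fintype N] (hNi : ∃ k : ℕ, N.index = p ^ k) (b : Set (Cfsg.IrrCharacter N)) (hb : Cfsg.IsPBlock M b) (hstab : ∀ g : G, Cfsg.StabilizesBlock N b g) (B : Set (Cfsg.IrrCharacter G)) (hB : Cfsg.IsPBlock M B) (hcov : ∃ χ ∈ B, ∃ θ ∈ b, Cfsg.classInner (fun n : N => (χ : G → ℂ) n) (θ : N → ℂ) ≠ 0) (P : Subgroup G) (hPD : Cfsg.IsDefectGroup p M B P) (hPab : ∀ x ∈ P, ∀ y ∈ P, x * y = y * x) : N ⊔ P = ⊤ ∧ Cfsg.IsDefectGroup p M b ((P ⊓ N).subgroupOf N) ∧ (∀ χ ∈ B, ∃ θ ∈ b, ∀ n : N, (χ : G → ℂ) n = (θ : N → ℂ) n) ∧ (∀ θ ∈ b, Nat.card {χ : Cfsg.IrrCharacter G // χ ∈ B ∧ ∀ n : N, (χ : G → ℂ) n = (θ : N → ℂ) n} = N.index) ∧ Nat.card B = N.index * Nat.card b ∧ Cfsg.blockRank p B = Cfsg.blockRank p b := by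
  have := hM.2.1
  have := charP_F hM
  obtain ⟨k, hk⟩ := hNi
  have hreg : ∀ g : G, ¬ p ∣ orderOf g → g ∈ N := fun g hg => H38.mem_of_index_eq_pow hM.1 hk hg
  have hi : Inv ⊤ (eS M N b) := inv_iff_le_stab.2 fun t _ =>
    (H38.stabilizesBlock_iff_of_normal hb).1 (hstab t)
  have hn := H38.nor_of_normal N ⊤
  have hD := (isDefectGroup_iff hM hB).1 hPD
  rw [(blk_eB hB).eq_of_mul_ne_zero (H38.blk_of_inv hM le_top hn (fun g _ => hreg g) (blk_eS hb) hi)
    ((H38.covers_iff_eS hB hb).1 hcov)] at hD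
  have hsup := H38.fong_sup_eq hM le_top hn (by rwa [Subgroup.relIndex_top_right]) (blk_eS hb) hi hD
  have hab : ∀ x y : G ⧸ N, x * y = y * x := by
    have : ∀ x : G ⧸ N, ∃ s ∈ P, x = s := fun x => by
      obtain ⟨g, rfl⟩ := QuotientGroup.mk_surjective x
      obtain ⟨s, hs, h⟩ := H38.exists_mul_of_mem_sup (H38.nor_of_normal N P)
        (hsup ▸ Subgroup.mem_top g)
      exact ⟨s, hs, (QuotientGroup.eq.2 h).symm⟩
    intro x y
    obtain ⟨s, hs, rfl⟩ := this x
    obtain ⟨t, ht, rfl⟩ := this y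
    rw [← QuotientGroup.mk_mul, hPab s hs t ht, QuotientGroup.mk_mul]
  have hmove : ∀ χ ∈ B, ∀ f : G →* ℂˣ, (∀ n : N, f n = 1) → (∀ x, f x * χ.1 x = χ.1 x) →
      f = 1 := fun χ hχ f h1 h2 => by
    refine MonoidHom.ker_eq_top_iff.1 (top_le_iff.1 (hsup ▸ sup_le (fun v hv => ?_)
      fun n hn => h1 ⟨n, hn⟩))
    obtain ⟨y, hy, h3⟩ := exists_ne_zero hM hB hPD hv (le_cen_of_comm hPab hv) hχ
    have := mul_right_cancel₀ h3 ((h2 _).trans (one_mul _).symm)
    rwa [map_mul, h1 ⟨y, hreg y hy⟩, mul_one, Units.val_eq_one] at this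
  have hrn : N.subtype.range.Normal := by rwa [Subgroup.range_subtype]
  have hirr : ∀ χ ∈ B, IsIrrCharacter N fun n => χ.1 n := fun χ hχ =>
    H40.irr_restrict_of_abelian_quot N.subtype N.subtype_injective (fun x y => by
      rw [Subgroup.range_subtype, ← QuotientGroup.eq_one_iff]
      simp [hab (x : G ⧸ N) y]) χ.2 (hmove χ hχ)
  have hres : ∀ χ ∈ B, ∃ θ ∈ b, ∀ n : N, χ.1 n = θ.1 n := fun χ hχ => by
    obtain ⟨θ, hθ, h⟩ := H38.Covers.exists_under (E := .ofNormal N) hB (H38.bcl_of_isPBlock hb)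
      hcov hχ
    exact ⟨θ, hθ, congrFun ((hirr χ hχ).eq_of_classInner_ne_zero θ.2 h)⟩
  have hext : ∀ θ ∈ b, ∃ χ ∈ B, ∀ n : N, χ.1 n = θ.1 n := fun θ hθ => by
    obtain ⟨χ, hχ, h⟩ := H38.Covers.exists_over hB hb hcov hθ
    exact ⟨χ, hχ, congrFun ((hirr χ hχ).eq_of_classInner_ne_zero θ.2 h)⟩
  have hfib : ∀ θ ∈ b, Nat.card {χ : IrrCharacter G // χ ∈ B ∧ ∀ n : N, χ.1 n = θ.1 n} =
      N.index := fun θ hθ => by
    obtain ⟨χ, hχ, h⟩ := hext θ hθ
    have := Fintype.ofFinite (G ⧸ N)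
    have h1 : ∀ (l : G ⧸ N →* ℂˣ) (n : N), l (n : G) = 1 := fun l n => by
      rw [(QuotientGroup.eq_one_iff _).2 n.2, map_one]
    refine Eq.trans (Nat.card_congr (Equiv.ofBijective (fun l : G ⧸ N →* ℂˣ =>
      ⟨⟨_, χ.2.mul_linear (isCharacter_of_hom (l.comp (QuotientGroup.mk' N))) (by simp)⟩,
        H34.mem_of_sameBlock hB hχ (sameBlock_of_pReg_eq hM (pReg_eq_pReg_iff.2 fun x hx => by
          simp [h1 l ⟨x, hreg x hx⟩])), fun n => by simp [h1 l n, h n]⟩)
      ⟨fun l l' hl => ?_, fun ψ => ?_⟩)).symm (H83.card_hom hab)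
    · have h2 := hmove χ hχ ((l * l'⁻¹).comp (QuotientGroup.mk' N)) (fun n => h1 (l * l'⁻¹) n) fun x => by
        have : χ.1 x * l x = χ.1 x * l' x := congrArg (fun y => y.1.1 x) hl
        simp only [MonoidHom.comp_apply, MonoidHom.mul_apply, MonoidHom.inv_apply, Units.val_mul,
          QuotientGroup.mk'_apply]
        rw [mul_right_comm, mul_comm _ (χ.1 x), this, Units.mul_inv_cancel_right]
      refine eq_of_mul_inv_eq_one (MonoidHom.ext fun x => ?_)
      obtain ⟨x, rfl⟩ := QuotientGroup.mk_surjective x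
      exact DFunLike.congr_fun h2 x
    · obtain ⟨f, h2, h3⟩ := H40.exists_linear_of_ext N.subtype N.subtype_injective hrn
        χ.2.isCharacter ψ.1.2.isCharacter (hirr χ hχ) fun n => (ψ.2.2 n).trans (h n).symm
      exact ⟨QuotientGroup.lift N f fun n hn => h2 ⟨n, hn⟩, Subtype.ext (Subtype.ext
        (funext fun x => (mul_comm _ _).trans (h3 x).symm))⟩
  refine ⟨by rw [sup_comm, hsup], (isDefectGroup_subgroupOf_iff hM hb inf_le_right).2
    (H38.fong_inf hn le_top (blk_eS hb) hD), hres, hfib, ?_, ?_⟩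
  · choose r h1 h2 using fun χ : B => hres χ.1 χ.2
    have := Fintype.ofFinite b
    rw [← Nat.card_congr (Equiv.sigmaFiberEquiv fun χ => (⟨r χ, h1 χ⟩ : b)), Nat.card_sigma,
      Finset.sum_congr rfl fun θ _ => (Nat.card_congr ?_).trans (hfib θ.1 θ.2)]
    · simp [mul_comm]
    · exact ⟨fun χ => ⟨χ.1.1, χ.1.2, fun n => (h2 _ n).trans
        (congrArg (fun x => x.1.1 n) χ.2)⟩, fun χ => ⟨⟨χ.1, χ.2.1⟩,
        Subtype.ext (Subtype.ext (funext fun n => (h2 _ n).symm.trans (χ.2.2 n)))⟩,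
        fun _ => rfl, fun _ => rfl⟩
  · have h1 : ∀ (χ : G → ℂ) (θ : N → ℂ), (∀ n : N, χ n = θ n) → pRegularPart p χ =
        Function.ExtendByZero.linearMap ℂ Subtype.val (pRegularPart p θ) := fun χ θ h => by
      ext x
      by_cases hx : x ∈ N
      · exact ((congrFun (pReg_res χ N) ⟨x, hx⟩).trans (by rw [funext h])).trans
          (Subtype.val_injective.extend_apply _ _ ⟨x, hx⟩).symm
      · exact (pReg_of_sing χ (by_contra fun h => hx (hreg x h))).trans
          (Function.extend_apply' (f := Subtype.val) _ (0 : G → ℂ) x (by simpa using hx)).symm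
    rw [blockRank, blockRank, (Submodule.equivMapOfInjective (Function.ExtendByZero.linearMap ℂ
      Subtype.val) (Function.extend_injective Subtype.val_injective _) _).finrank_eq,
      Submodule.map_span, Set.image_image]
    refine congrArg (fun s => Module.finrank ℂ (Submodule.span ℂ s)) (Set.Subset.antisymm ?_ ?_)
    · rintro _ ⟨χ, hχ, rfl⟩
      obtain ⟨θ, hθ, h⟩ := hres χ hχ
      exact ⟨θ, hθ, (h1 _ _ h).symm⟩
    · rintro _ ⟨θ, hθ, rfl⟩
      obtain ⟨χ, hχ, h⟩ := hext θ hθ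
      exact ⟨χ, hχ, h1 _ _ h⟩

end Cfsg.Agent.S4640
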