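import Cfsg.Statements.S4641
import Cfsg.Agent.H34.Pim
import Cfsg.Agent.H35.RankOne
import Cfsg.Agent.H36.DefectCard

set_option autoImplicit false
open Cfsg

namespace Cfsg.Agent.S4641

/-- Let B be a block of the finite group G relative to a maximal ideal M of the algebraic integers containing the prime p, let p^a be the p-part of the order of G and p^d the order of a defect group D of B, and let g be the greatest common divisor of the degrees of the members of B. Then the p-part of g is exactly p^(a−d), and writing g = p^(a−d)·u there is a positive integer v, prime to p and at least the p-regular rank of B (its number of irreducible Brauer characters), with Σ_{χ ∈ B} χ(1)² = p^(2a−d)·u²·v. -/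
theorem result {G : Type*} [Group G] [Finite G] (p : ℕ) [Fact p.Prime] (M : Ideal Cfsg.AlgInt) (hM : Cfsg.IsPModular p M) (B : Set (Cfsg.IrrCharacter G)) (hB : Cfsg.IsPBlock M B) (D : Subgroup G) (hD : Cfsg.IsDefectGroup p M B D) (a d : ℕ) (ha : (Nat.card G).factorization p = a) (hd : Nat.card D = p ^ d) (g : ℕ) (hg1 : ∀ χ ∈ B, g ∣ Cfsg.charDegree (χ : G → ℂ)) (hg2 : ∀ g' : ℕ, (∀ χ ∈ B, g' ∣ Cfsg.charDegree (χ : G → ℂ)) → g' ∣ g) : g.factorization p = a - d ∧ ∃ v : ℕ, 0 < v ∧ ¬ p ∣ v ∧ Cfsg.blockRank p B ≤ v ∧ ∑ᶠ χ ∈ B, Cfsg.charDegree (χ : G → ℂ) ^ 2 = p ^ (2 * a - d) * (g / p ^ (a - d)) ^ 2 * v := by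
  have := hM.2.1
  have := Fintype.ofFinite G
  have hne := H35.IsPBlock.nonempty' hB
  have hg : g = H35.gdeg B :=
    Nat.dvd_antisymm (H35.dvd_gdeg hg1) (hg2 _ fun χ h => H35.gdeg_dvd h)
  have hd' := H36.blockDefect_eq_of_card hM hB hD hd
  have h1 := H35.minNu_add_blockDefect p hne
  have h2 : g.factorization p = a - d := by rw [hg, H35.factorization_gdeg hM.1 hne]; omega
  obtain ⟨v, v1, v2⟩ := H34.Pim.exists_v hM hB
  have h3 := H35.factorization_sum_rdeg_sq hM hB
  have h4 := H35.sum_rdeg_sq_ne_zero hne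
  rw [v2] at h3 h4
  have hv : v ≠ 0 := right_ne_zero_of_mul h4
  rw [Nat.factorization_mul (left_ne_zero_of_mul h4) hv, Finsupp.add_apply, hM.1.factorization_pow,
    Finsupp.single_eq_same] at h3
  refine ⟨h2, v, Nat.pos_of_ne_zero hv, fun h => ?_, v1, ?_⟩
  · have := (hM.1.dvd_iff_one_le_factorization hv).1 h
    omega
  · rw [H35.finsum_mem_eq_bF, H35.sum_deg_sq_eq_gdeg, v2, ← hg, hd']
    obtain ⟨u, hu⟩ : p ^ (a - d) ∣ g := h2 ▸ Nat.ordProj_dvd g p
    rw [hu, Nat.mul_div_cancel_left _ (pow_pos hM.1.pos _),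
      show 2 * a - d = (a - d) * 2 + d by omega]
    ring

end Cfsg.Agent.S4641
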