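import Cfsg.Statements.S4642
import Cfsg.Agent.H38.PCon
import Cfsg.Agent.H39.NilDict

set_option autoImplicit false
open Cfsg

namespace Cfsg.Agent.S4642

/-- Let G be a finite group, p a prime, M a maximal ideal of the algebraic integers containing p, K the largest normal subgroup of G of order prime to p, and L the preimage in G of the largest normal p-subgroup of G/K. Let Q be a Sylow p-subgroup of L and suppose C_G(Q) ≤ L. Let θ be an irreducible character of K invariant under conjugation by every element of G, and let B be the set of irreducible characters of G whose restriction to K contains θ. Then B is a block of G, every Sylow p-subgroup of G is a defect group of B, and B is of principal type: for every p-subgroup R of G exactly one block of C_G(R) induces B. -/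
theorem result {G : Type*} [Group G] [Fintype G] (p : ℕ) [Fact p.Prime] (M : Ideal Cfsg.AlgInt) (hM : Cfsg.IsPModular p M) (K : Subgroup G) (hK : K = Cfsg.pPrimeCore p G) [Fintype K] (L : Subgroup G) (hL : L = Cfsg.pPrimePCore p G) (Q : Subgroup G) (hQL : Q ≤ L) (hQp : IsPGroup p Q) (hQS : ¬ p ∣ Q.relIndex L) (hCQ : Subgroup.centralizer (Q : Set G) ≤ L) (θ : Cfsg.IrrCharacter K) (hθ : ∀ g : G, Cfsg.IsConjCharOf K g (θ : K → ℂ) (θ : K → ℂ)) (B : Set (Cfsg.IrrCharacter G)) (hBdef : ∀ χ : Cfsg.IrrCharacter G, χ ∈ B ↔ Cfsg.classInner (fun k : K => (χ : G → ℂ) k) (θ : K → ℂ) ≠ 0) : Cfsg.IsPBlock M B ∧ (∀ S : Sylow p G, Cfsg.IsDefectGroup p M B S) ∧ ∀ R : Subgroup G, IsPGroup p R → ∃! f : Set (Cfsg.IrrCharacter (Subgroup.centralizer (R : Set G))), Cfsg.IsInducedBlock M (Subgroup.centralizer (R : Set G)) f B := by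
  have := hM.2.1
  have hKn : K.Normal := hK ▸ inferInstance
  have h : ∀ g, (H38.NEmb.ofNormal K).cjI g θ = θ := fun g =>
    Subtype.ext (funext fun k => hθ g k _ rfl)
  have hK' : ¬ p ∣ Nat.card K := hK ▸ H2.not_dvd_card_pPrimeCore p G
  have hG : IsPConstrained p G := H38.isPConstrained_of_sylow
    (hL ▸ H38.isSylowIn_of_not_dvd hQp hQL hQS) (hL ▸ hCQ)
  have hB := H38.isPBlock_above hM hG hK h
  obtain rfl : B = (H38.NEmb.ofNormal K).above {θ} :=
    Set.ext fun χ => (hBdef χ).trans H38.mem_above_singleton.symm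
  refine ⟨hB, fun P =>
    (H38.isDefectGroup_above_iff hM hK' h hB).2 (H37.sylow_isSylowIn_top P), fun R hR => ?_⟩
  have hb := H38.isPBlock_singleton_of_not_dvd hM hK' θ
  have h1 := H38.blk_br_cen_of_isPConstrained hM hG (hK ▸ H38.blk_eS hb)
    ((H38.gInv_iff_inv hb).1 (H38.gInv_singleton h)) hR
  rw [H38.eS_singleton_eq hM hK' h] at h1
  obtain ⟨f, hf, h2⟩ := H36.isPrim_iff_eS.1 h1
  simp only [H39.isInducedBlock_cen_iff hM hR, H36.isBrauerPairOf_iff hM]
  refine ⟨f, ⟨hR, hf, hB, by rw [← h2, h1.idem]⟩, fun f' ⟨_, hf', _, h3⟩ => ?_⟩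
  exact H36.eS_inj hf' hf ((h1.eq_of_mul_eq (H38.blk_eS hf') h3).symm.trans h2)

end Cfsg.Agent.S4642
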