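import Cfsg.Statements.S4644
import Cfsg.Agent.H39.AbDef

set_option autoImplicit false
open Cfsg

namespace Cfsg.Agent.S4644

open H39 H36 H35 H28 Cfsg

/-- Let B be a block of the finite group G relative to a maximal ideal M of the algebraic integers containing the prime p, with a commutative defect group P; let c be a block of C_G(P) inducing B and T the stabilizer of c in N_G(P). Let u be an element of P fixed under conjugation by every element of T, H = C_G(u) (so C_G(P) ≤ H), and f the block of H induced by c inside H. Then B and f have the same p-regular rank and the same number of irreducible characters. -/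
theorem result {G : Type*} [Group G] [Finite G] (p : ℕ) [Fact p.Prime] (M : Ideal Cfsg.AlgInt) (hM : Cfsg.IsPModular p M) (B : Set (Cfsg.IrrCharacter G)) (hB : Cfsg.IsPBlock M B) (P : Subgroup G) (hPD : Cfsg.IsDefectGroup p M B P) (hPab : ∀ x ∈ P, ∀ y ∈ P, x * y = y * x) (c : Set (Cfsg.IrrCharacter (Subgroup.centralizer (P : Set G)))) (hc : Cfsg.IsInducedBlock M (Subgroup.centralizer (P : Set G)) c B) (T : Subgroup G) (hT : ∀ g : G, g ∈ T ↔ (g ∈ Subgroup.normalizer (P : Set G) ∧ Cfsg.StabilizesBlock (Subgroup.centralizer (P : Set G)) c g)) (u : G) (hu : u ∈ P) (huT : ∀ g ∈ T, g * u * g⁻¹ = u) (H : Subgroup G) (hH : H = Subgroup.centralizer ({u} : Set G)) (f : Set (Cfsg.IrrCharacter H)) (hf : Cfsg.IsInducedBlockIn M H (Subgroup.centralizer (P : Set G)) c f) : Cfsg.blockRank p B = Cfsg.blockRank p f ∧ Nat.card B = Nat.card f := by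
  have := hM.2.1
  have := charP_F hM
  have := Fintype.ofFinite G
  have hm := maxP_of_induced hM hPD hc
  have hab := le_cen_of_comm hPab
  have hcb := ((bp_iff hM).1 ((isInducedBlock_cen_iff hM hm.bp.pQ).1 hc)).2.1
  obtain rfl : T = St ⊤ P (eS M _ c) := eq_stab_of_iff hcb hT
  obtain rfl : H = Cen (Subgroup.zpowers u) := hH.trans (cen_zpowers u).symm
  have hu' := Subgroup.zpowers_le.2 hu
  obtain ⟨hfb, hs⟩ := (isInducedBlockIn_cen_iff hM hm.bp.pQ hu' hab hcb).1 hf
  have h1 := hm.local_of_le_cen hs (hab.trans (cen_anti hu'))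
  have h2 : St ⊤ P (eS M _ c) ≤ Cen (Subgroup.zpowers u) := fun g hg => by
    rw [cen_zpowers, Subgroup.mem_centralizer_singleton_iff]
    exact mul_inv_eq_iff_eq_mul.1 (huT g hg)
  have h3 := hm.watanabe hM hab hu h2
  have h4 := hm.watanabe_card hM hab hu h2
  rw [top_inf_eq] at h1 h3 h4
  rw [bk_eq hM hfb h1.bp, hm.bk_top hM hB] at h3 h4
  rw [blockRank_image] at h3
  rw [Nat.card_image_equiv] at h4
  exact ⟨h3.symm, h4.symm⟩

end Cfsg.Agent.S4644
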