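import Cfsg.Statements.S4645
import Cfsg.Agent.H39.NilStar
import Cfsg.Agent.H39.Cyc

set_option autoImplicit false
open Cfsg

namespace Cfsg.Agent.S4645

open H39 H36 H35 H28 Cfsg

/-- Let B be a block of the finite group G relative to a maximal ideal M of the algebraic integers containing the prime p, with a nontrivial cyclic defect group P; let c be a block of C_G(P) inducing B and T the stabilizer of c in N_G(P). Let Q be a nontrivial subgroup of P (so C_G(P) ≤ C_G(Q)), f the block of C_G(Q) induced by c inside C_G(Q), and T' the stabilizer of f in N_G(Q). Then T' = T·C_G(Q), the index of C_G(Q) in T' equals the index of C_G(P) in T, f has p-regular rank 1, and f is a nilpotent block of C_G(Q). -/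
theorem result {G : Type*} [Group G] [Finite G] (p : ℕ) [Fact p.Prime] (M : Ideal Cfsg.AlgInt) (hM : Cfsg.IsPModular p M) (B : Set (Cfsg.IrrCharacter G)) (hB : Cfsg.IsPBlock M B) (P : Subgroup G) (hPD : Cfsg.IsDefectGroup p M B P) (hP1 : P ≠ ⊥) (hcyc : IsCyclic P) (c : Set (Cfsg.IrrCharacter (Subgroup.centralizer (P : Set G)))) (hc : Cfsg.IsInducedBlock M (Subgroup.centralizer (P : Set G)) c B) (T : Subgroup G) (hT : ∀ g : G, g ∈ T ↔ (g ∈ Subgroup.normalizer (P : Set G) ∧ Cfsg.StabilizesBlock (Subgroup.centralizer (P : Set G)) c g)) (Q : Subgroup G) (hQP : Q ≤ P) (hQ1 : Q ≠ ⊥) (f : Set (Cfsg.IrrCharacter (Subgroup.centralizer (Q : Set G)))) (hf : Cfsg.IsInducedBlockIn M (Subgroup.centralizer (Q : Set G)) (Subgroup.centralizer (P : Set G)) c f) (T' : Subgroup G) (hT' : ∀ g : G, g ∈ T' ↔ (g ∈ Subgroup.normalizer (Q : Set G) ∧ Cfsg.StabilizesBlock (Subgroup.centralizer (Q : Set G)) f g)) : T' = T ⊔ Subgroup.centralizer (Q : Set G) ∧ (Subgroup.centralizer (Q : Set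 G)).relIndex T' = (Subgroup.centralizer (P : Set G)).relIndex T ∧ Cfsg.blockRank p f = 1 ∧ Cfsg.IsNilpotentBlock p M f := by
  have := hM.2.1
  have := charP_F hM
  have := Fintype.ofFinite (Cen Q)
  have hm := maxP_of_induced hM hPD hc
  have hab := le_cen_of_isCyclic hcyc
  have hcb := ((bp_iff hM).1 ((isInducedBlock_cen_iff hM hm.bp.pQ).1 hc)).2.1
  obtain ⟨hfb, hs⟩ := (isInducedBlockIn_cen_iff hM hm.bp.pQ hQP hab hcb).1 hf
  obtain rfl : T = St ⊤ P (eS M _ c) := eq_stab_of_iff hcb hT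
  obtain rfl : T' = St ⊤ Q (eS M _ f) := eq_stab_of_iff hfb hT'
  have h1 := (le_inf le_rfl ((St_le_nor ⊤ P (eS M _ c)).trans
    (nor_le_nor_of_isCyclic hcyc hQP))).trans (hm.St_eq_inf hs)
  have h2 := fun x => hm.exists_St_mul hs (hab.trans (cen_anti hQP)) (x := x)
  have h3 : IsNilpotentBlock p M f := (isNilpotentBlock_iff_eS hM hfb).2 (by
    simpa using hm.nil_local_of_isCyclic hcyc hs hQ1)
  refine ⟨le_antisymm (fun x hx => ?_) (sup_le h1 (cen_le_St (blk_eS' hfb))), ?_,
    blockRank_of_nilpotent hM h3, h3⟩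
  · obtain ⟨y, hy, k, hk, rfl⟩ := h2 x hx
    exact Subgroup.mul_mem_sup hy hk.2
  · rw [relIndex_eq_of_subset_mul h1 fun u hu => ?_, ← Subgroup.inf_relIndex_right (Cen Q),
      ← Subgroup.inf_relIndex_right (Cen P)]
    · congr 1
      exact le_antisymm (le_inf ((inf_comm _ _).le.trans (hm.St_inf_cen_of_isCyclic hcyc hQP hQ1))
        inf_le_right) (inf_le_inf_right _ (cen_anti hQP))
    · obtain ⟨y, hy, k, hk, rfl⟩ := h2 u hu
      exact ⟨y, hy, by simpa using hk.2⟩

end Cfsg.Agent.S4645
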