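import Cfsg.Statements.S4691
import Cfsg.Agent.H39.NilDict
import Cfsg.Agent.H7.Frobenius

set_option autoImplicit false
open Cfsg

namespace Cfsg.Agent.S4691

open H39 H36

/-- Fix a prime p and a maximal ideal M of the algebraic integers containing p. A finite group G has a normal p-complement if and only if its principal p-block is nilpotent. -/
theorem result {G : Type*} [Group G] [Fintype G] (p : ℕ) [Fact p.Prime] (M : Ideal Cfsg.AlgInt) (hM : Cfsg.IsPModular p M) : Cfsg.HasNormalPComplement p G ↔ Cfsg.IsNilpotentBlock p M (Cfsg.principalBlock M G) := by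
  have := hM.2.1
  rw [isNilpotentBlock_iff hM, and_iff_right H34.isPBlock_principalBlock, nil_principal_iff hM]
  exact ⟨fun h Q hQ x hx hp => H7.mem_centralizer_of_hasNPC' h hQ hx (coprime_of_not_dvd hp),
    fun h => H7.hasNPC_of_normalizer_centralizer fun Q hQ x hx hp =>
      h Q hQ x hx (not_dvd_of_coprime hp)⟩

end Cfsg.Agent.S4691
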