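import Cfsg.Statements.S4647
import Cfsg.Agent.H34.MinDim

set_option autoImplicit false
open Cfsg

namespace Cfsg.Agent.S4647

/-- Let B be a block of the finite group G relative to a maximal ideal M of the algebraic integers containing the prime p, p^a the p-part of the order of G and p^d the order of a defect group D of B. If Σ_{χ ∈ B} χ(1)² = p^(2a−d) (the least possible value), then B is nilpotent. -/
theorem result {G : Type*} [Group G] [Finite G] (p : ℕ) [Fact p.Prime] (M : Ideal Cfsg.AlgInt) (hM : Cfsg.IsPModular p M) (B : Set (Cfsg.IrrCharacter G)) (hB : Cfsg.IsPBlock M B) (D : Subgroup G) (hD : Cfsg.IsDefectGroup p M B D) (a d : ℕ) (ha : (Nat.card G).factorization p = a) (hd : Nat.card D = p ^ d) (hmin : ∑ᶠ χ ∈ B, Cfsg.charDegree (χ : G → ℂ) ^ 2 = p ^ (2 * a - d)) : Cfsg.IsNilpotentBlock p M B := by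
  have := hM.2.1
  have := Fintype.ofFinite G
  have := H35.charP_F hM
  have hD' := (H36.isDefectGroup_iff hM hB).1 hD
  refine (H39.isNilpotentBlock_iff hM).2 ⟨hB, H34.MinDim.nil_of_rank (H34.eB_mul_self hB) (H36.inv_eB B ⊤)
    hD' ?_⟩
  have h := H37.card_dvd_pow_factorization hD'.isPGroup le_top
  rw [Subgroup.card_top, ha, hd, Nat.pow_dvd_pow_iff_le_right hM.1.one_lt] at h
  rw [H34.MinDim.finrank_eB hM hB, ← H35.finsum_mem_eq_bF, hmin, hd, ha, ← pow_add, ← pow_mul]
  congr 1
  omega

end Cfsg.Agent.S4647
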