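import Cfsg.Statements.S4649
import Cfsg.Agent.H37.CycK
import Cfsg.Agent.H37.Cyc8

set_option autoImplicit false
open Cfsg

namespace Cfsg.Agent.S4649

open H28 H35 H37 H39

/-- A block with cyclic defect group, of a finite group relative to a maximal ideal M of the algebraic integers containing the prime p, is nilpotent if and only if its p-regular rank is 1 (it has a unique irreducible Brauer character). -/
theorem result {G : Type*} [Group G] [Finite G] (p : ℕ) [Fact p.Prime] (M : Ideal Cfsg.AlgInt) (hM : Cfsg.IsPModular p M) (B : Set (Cfsg.IrrCharacter G)) (hB : Cfsg.IsPBlock M B) (P : Subgroup G) (hPD : Cfsg.IsDefectGroup p M B P) (hcyc : IsCyclic P) : Cfsg.IsNilpotentBlock p M B ↔ Cfsg.blockRank p B = 1 := by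
  have := hM.2.1
  have := charP_F hM
  cases nonempty_fintype G
  obtain ⟨e, he⟩ := exists_bp le_rfl (blk_eB hB) (H36.isPGroup_of_isDefectGroup hPD) le_top
    (H36.br_eB_ne_zero_of_le hM hB hPD le_rfl)
  obtain ⟨b, hb, rfl⟩ := he.blk.exists_eS'
  have hab := le_cen_of_isCyclic hcyc
  have hind := (induced_iff_bp hM he.pQ hab hb hB).2 he
  rw [isNilpotentBlock_iff hM, (maxP_of_induced hM hPD hind).nil_iff_of_abelian hab,
    and_iff_right hB, ← Subgroup.relIndex_eq_one]
  by_cases h0 : P = ⊥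
  · subst h0
    obtain ⟨χ, hχ⟩ := block_nonempty hB
    have h1 := (defect_zero_iff_card_eq_one hM hB).1 ((H36.isDefectGroup_bot_iff hM hB).1 hPD)
    refine iff_of_true (Subgroup.relIndex_eq_one.2 (le_top.trans cen_bot.ge))
      (le_antisymm (h1 ▸ blockRank_le_card) (blockRank_pos hM.1 ⟨χ, hχ⟩))
  obtain ⟨Z, hZ, hc⟩ := exists_order_p hM hPD h0
  obtain ⟨c, h, -, h1⟩ := exists_cycS_of_induced hM hPD hcyc hZ hc hind
  obtain ⟨ζ₀, X, Y, δ, ε, th, hR⟩ := h.cycR cycK
  rw [hR.rank, h1]

end Cfsg.Agent.S4649
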