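import Cfsg.Statements.S4648
import Cfsg.Agent.H35.BasicAlg
import Cfsg.Agent.H35.KW
import Cfsg.Agent.S4649
import Cfsg.Agent.S4637

set_option autoImplicit false
open Cfsg H28

namespace Cfsg.Agent.S4648

/-- Let B be a block of the finite group G relative to a maximal ideal M of the algebraic integers containing the prime p, with a nontrivial defect group D. If B has p-regular rank 1 and at most four irreducible characters, then B is nilpotent, D has exactly as many elements as B has irreducible characters, and p is 2 or 3. -/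
theorem result {G : Type*} [Group G] [Finite G] (p : ℕ) [Fact p.Prime] (M : Ideal Cfsg.AlgInt) (hM : Cfsg.IsPModular p M) (B : Set (Cfsg.IrrCharacter G)) (hB : Cfsg.IsPBlock M B) (D : Subgroup G) (hD : Cfsg.IsDefectGroup p M B D) (hD1 : D ≠ ⊥) (hl : Cfsg.blockRank p B = 1) (hk : Nat.card B ≤ 4) : Cfsg.IsNilpotentBlock p M B ∧ Nat.card D = Nat.card B ∧ (p = 2 ∨ p = 3) := by
  classical
  have := hM.2.1
  have := H35.charP_F hM
  have := Fintype.ofFinite G
  have hp := hM.1
  have hc := H35.card_defectGroup hM hB hD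
  have h1 := H35.card_eq_pow_of_le_four hM hB hl hk
  have hd : blockDefect p B ≠ 0 := fun h => hD1 (Subgroup.card_eq_one.1 (by rw [hc, h, pow_zero]))
  have h2 : p ≤ 4 := (Nat.le_self_pow hd p).trans (h1 ▸ hk)
  have h3 : p = 2 ∨ p = 3 := by
    have := hp.two_le
    interval_cases p
    · simp
    · simp
    · exact absurd hp (by norm_num)
  refine ⟨?_, hc.trans h1.symm, h3⟩
  by_cases hcyc : IsCyclic D
  · exact (Cfsg.Agent.S4649.result p M hM B hB D hD hcyc).2 hl
  have h4 : 2 ≤ blockDefect p B := by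
    by_contra! h
    exact hcyc (H35.isCyclic_of_card_le hp (Nat.lt_succ_iff.1 h) hc)
  have h5 : p ^ 2 ≤ 4 := (Nat.pow_le_pow_right hp.pos h4).trans (h1 ▸ hk)
  obtain rfl : p = 2 := by rcases h3 with rfl | rfl <;> omega
  have h6 : Nat.card D = 4 := le_antisymm (hc ▸ h1 ▸ hk) (hc ▸ Nat.pow_le_pow_right hp.pos h4)
  have hV : IsKleinFour D := by
    refine ⟨h6, ?_⟩
    have := Fintype.ofFinite D
    have : Nontrivial D := Finite.one_lt_card_iff_nontrivial.1 (by omega)
    exact (not_isCyclic_iff_exponent_eq_prime Nat.prime_two (by rw [h6]; norm_num)).1 hcyc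
  obtain ⟨e, he⟩ := H39.exists_bp le_rfl (H39.blk_eB hB) (H36.isPGroup_of_isDefectGroup hD) le_top
    (H36.br_eB_ne_zero_of_le hM hB hD le_rfl)
  obtain ⟨b, hb, rfl⟩ := he.blk.exists_eS'
  have hab : D ≤ H39.Cen D := H39.le_cen_of_comm fun x hx y hy =>
    congrArg Subtype.val (mul_comm_of_exponent_two hV.exponent_two (⟨x, hx⟩ : D) ⟨y, hy⟩)
  have hind := (H37.induced_iff_bp hM he.pQ hab hb hB).2 he
  rw [H39.isNilpotentBlock_iff hM, (H39.maxP_of_induced hM hD hind).nil_iff_of_abelian hab,
    and_iff_right hB, ← Subgroup.relIndex_eq_one]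
  exact (Cfsg.Agent.S4637.result M hM B hB D hD hV b hind _
    (fun g => (H39.nor_stabilizes_iff hb).symm) _ rfl).2.2.symm.trans hl

end Cfsg.Agent.S4648
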