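import Cfsg.Statements.S4650
import Cfsg.Agent.H39.NilDict

set_option autoImplicit false
open Cfsg

namespace Cfsg.Agent.S4650

open H39 H36

/-- Let B be a block of the finite group G relative to a maximal ideal M of the algebraic integers containing the prime p, with a nontrivial commutative defect group P; let c be a block of C_G(P) inducing B and T the stabilizer of c in N_G(P). Then T/C_G(P) acts freely on the non-identity elements of P (an element of T fixing a non-identity element of P under conjugation lies in C_G(P)) if and only if, for every nontrivial subgroup Q of P, the block of C_G(Q) induced by c inside C_G(Q) is a nilpotent block of C_G(Q). -/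
theorem result {G : Type*} [Group G] [Finite G] (p : ℕ) [Fact p.Prime] (M : Ideal Cfsg.AlgInt) (hM : Cfsg.IsPModular p M) (B : Set (Cfsg.IrrCharacter G)) (hB : Cfsg.IsPBlock M B) (P : Subgroup G) (hPD : Cfsg.IsDefectGroup p M B P) (hPab : ∀ x ∈ P, ∀ y ∈ P, x * y = y * x) (hP1 : P ≠ ⊥) (c : Set (Cfsg.IrrCharacter (Subgroup.centralizer (P : Set G)))) (hc : Cfsg.IsInducedBlock M (Subgroup.centralizer (P : Set G)) c B) (T : Subgroup G) (hT : ∀ g : G, g ∈ T ↔ (g ∈ Subgroup.normalizer (P : Set G) ∧ Cfsg.StabilizesBlock (Subgroup.centralizer (P : Set G)) c g)) : (∀ g ∈ T, ∀ x ∈ P, x ≠ 1 → g * x * g⁻¹ = x → g ∈ Subgroup.centralizer (P : Set G)) ↔ ∀ Q : Subgroup G, Q ≤ P → Q ≠ ⊥ → ∀ f : Set (Cfsg.IrrCharacter (Subgroup.centralizer (Q : Set G))), Cfsg.IsInducedBlockIn M (Subgroup.centralizer (Q : Set G)) (Subgroup.centralizer (P : Set G)) c f → Cfsg.IsNilpotentBlock p M f := by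
  have := hM.2.1
  have := H35.charP_F hM
  have h := maxP_of_induced hM hPD hc
  have hab := le_cen_of_comm hPab
  obtain rfl : T = St ⊤ P (eS M _ c) := eq_stab_of_iff hc.1 hT
  have key : ∀ (Q : Subgroup G) (hQ : Q ≤ P) (f : Set (IrrCharacter (Cen Q))),
      IsInducedBlockIn M (Cen Q) (Cen P) c f →
      (IsNilpotentBlock p M f ↔ St (⊤ ⊓ Cen Q) P (eS M _ c) ≤ Cen P) := fun Q hQ f hf => by
    obtain ⟨hf, hs⟩ := (isInducedBlockIn_cen_iff hM h.bp.pQ hQ hab hc.1).1 hf
    rw [isNilpotentBlock_iff_eS hM hf,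
      ← (h.local_of_le_cen hs (hab.trans (cen_anti hQ))).nil_iff_of_abelian hab, top_inf_eq]
  constructor
  · intro H Q hQ hQ1 f hf
    refine (key Q hQ f hf).2 fun g hg => ?_
    obtain ⟨⟨x, hx⟩, hx1⟩ := (Subgroup.ne_bot_iff_exists_ne_one).1 hQ1
    exact H g ⟨⟨trivial, hg.1.2⟩, hg.2⟩ x (hQ hx) (fun h => hx1 (Subtype.ext h))
      (cen_conj_eq hg.1.1.2 hx)
  · intro H g hg x hx hx1 hgx
    have hQ : Subgroup.zpowers x ≤ P := Subgroup.zpowers_le.2 hx
    obtain ⟨u, hu⟩ := h.exists_sub hQ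
    obtain ⟨f, hf, rfl⟩ := (hu.blk h.bp.blk).exists_eS'
    have hf' := (isInducedBlockIn_cen_iff hM h.bp.pQ hQ hab hc.1).2 ⟨hf, hu⟩
    refine (key _ hQ f hf').1 (H _ hQ (by simpa using hx1) f hf') ⟨⟨⟨trivial, ?_⟩, hg.1.2⟩, hg.2⟩
    refine H37.le_centralizer_singleton_iff.1 (Subgroup.zpowers_le.2 ?_)
    rw [Subgroup.mem_centralizer_singleton_iff]
    conv_lhs => rw [← hgx]
    group

end Cfsg.Agent.S4650
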