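import Cfsg.Statements.S4651
import Cfsg.Agent.H35.KR

set_option autoImplicit false
open Cfsg H28

namespace Cfsg.Agent.S4651

open Cfsg H28 H34 H35 H36 H39 in
theorem term_eq {G : Type*} [Group G] [Fintype G] {p : ℕ} {M : Ideal AlgInt} [M.IsMaximal]
    (hM : IsPModular p M) {b : Set (IrrCharacter G)} (hb : IsPBlock M b) {N T : Subgroup G}
    (hT : IsPGroup p T) (hTN : T ≤ N) (hCN : Cen T ≤ N) (hNT : N ≤ Nor T)
    [DecidablePred fun u : G => u ≠ 1 ∧ ∃ k : ℕ, orderOf u = p ^ k] [DecidablePred (· ∈ N)] :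
    (Nat.card N : ℂ) * ((Nat.card {ψ : IrrCharacter N | ∃ β : Set (IrrCharacter N),
        ψ ∈ β ∧ IsInducedBlock M N β b} : ℂ) - blockRank p {ψ : IrrCharacter N |
        ∃ β : Set (IrrCharacter N), ψ ∈ β ∧ IsInducedBlock M N β b}) =
      ∑ u : G with u ≠ 1 ∧ ∃ k : ℕ, orderOf u = p ^ k, if u ∈ N then
        RK p M (N ⊓ Subgroup.centralizer {u}) (br (T ⊔ Subgroup.zpowers u) (eB M b)) else 0 := by
  classical
  have hm := br_eB_mem_Fx (M := M) hCN hNT b
  have hi := br_eB_idem hM hT hb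
  have hA : {ψ : IrrCharacter N | ∃ β : Set (IrrCharacter N), ψ ∈ β ∧ IsInducedBlock M N β b} =
      {ψ : IrrCharacter N | lam M ψ.1 (pull N.subtype (br T (eB M b))) = 1} := by
    ext ψ
    simp only [Set.mem_ofPred_eq]
    rw [← lamS_apply]
    constructor
    · rintro ⟨β, hψ, hβ⟩
      exact (lamS_eq_one_iff hβ.1 hψ hm hi).2 ((isInducedBlock_iff_br hM hT hTN hCN hNT hβ.1 hb).1 hβ)
    · intro h
      exact ⟨_, self_mem_blockOf ψ, (isInducedBlock_iff_br hM hT hTN hCN hNT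
        (isPBlock_blockOf ψ) hb).2 ((lamS_eq_one_iff (isPBlock_blockOf ψ) (self_mem_blockOf ψ)
          hm hi).1 h)⟩
  obtain ⟨h1, h2⟩ := idem_eq_eB (M := M) hm.1.pull_subtype_mem_Z
    (by rw [← pull_subtype_mul hm.2, hi])
  rw [hA, card_mul_sub_eq hM N.subtype_injective h1 h2.symm]
  refine Finset.sum_congr rfl fun u _ => ?_
  simp only [Subgroup.range_subtype]
  split_ifs
  · refine RK_congr fun g hg => ?_
    rw [sup_comm, ← br_br, coeff_br_of_mem (P := Subgroup.zpowers u)]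
    rintro _ ⟨n, rfl⟩
    exact (Commute.zpow_left (show Commute u g from
      (Subgroup.mem_centralizer_singleton_iff.1 hg.2).symm) n).eq
  · rfl

/-- An alternating-sum identity over chains of p-subgroups (the character-count form behind the chain reformulation of Alperin's weight conjecture, which holds unconditionally for the difference k − l). Let b be a block of the finite group G relative to a maximal ideal M of the algebraic integers containing the prime p. Consider the nonempty chains s = {Q_0 < Q_1 < ⋯ < Q_m} of nontrivial p-subgroups of G in which every member is normal in the largest member; let N_G(s) be the intersection of the normalizers of the members (the stabilizer of the chain), and let b_s be the set of irreducible characters of N_G(s) lying in blocks of N_G(s) that induce b. Then #G · (k(b) − l(b)) equals the sum over all such chains s of (−1)^m · #N_G(s) · (k(b_s) − l(b_s)), where k counts irreducible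 characters and l is the p-regular rank; equivalently, k(b) − l(b) is the alternating sum of k(b_s) − l(b_s) over representatives of the conjugacy classes of such chains. -/
theorem result {G : Type*} [Group G] [Finite G] (p : ℕ) [Fact p.Prime] (M : Ideal Cfsg.AlgInt) (hM : Cfsg.IsPModular p M) (b : Set (Cfsg.IrrCharacter G)) (hb : Cfsg.IsPBlock M b) : (Nat.card G : ℤ) * ((Nat.card b : ℤ) - (Cfsg.blockRank p b : ℤ)) = ∑ᶠ s ∈ {s : Finset (Subgroup G) | s.Nonempty ∧ (∀ Q ∈ s, ∀ R ∈ s, Q ≤ R ∨ R ≤ Q) ∧ (∀ Q ∈ s, Q ≠ ⊥ ∧ IsPGroup p Q) ∧ ∃ T ∈ s, ∀ Q ∈ s, Q ≤ T ∧ T ≤ Subgroup.normalizer ((Q : Subgroup G) : Set G)}, (-1 : ℤ) ^ (s.card - 1) * (Nat.card (((⨅ Q ∈ s, Subgroup.normalizer ((Q : Subgroup G) : Set G) : Subgroup G))) : ℤ) * ((Nat.card {ψ : Cfsg.IrrCharacter (((⨅ Q ∈ s, Subgroup.normalizer ((Q : Subgroup G) : Set G) : Subgroup G))) | ∃ β : Set (Cfsg.IrrCharacter (((⨅ Q ∈ s, Subgroup.normalizer ((Q : Subgroup G) : Set G) : Subgroup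 G)))), ψ ∈ β ∧ Cfsg.IsInducedBlock M (((⨅ Q ∈ s, Subgroup.normalizer ((Q : Subgroup G) : Set G) : Subgroup G))) β b} : ℤ) - (Cfsg.blockRank p {ψ : Cfsg.IrrCharacter (((⨅ Q ∈ s, Subgroup.normalizer ((Q : Subgroup G) : Set G) : Subgroup G))) | ∃ β : Set (Cfsg.IrrCharacter (((⨅ Q ∈ s, Subgroup.normalizer ((Q : Subgroup G) : Set G) : Subgroup G)))), ψ ∈ β ∧ Cfsg.IsInducedBlock M (((⨅ Q ∈ s, Subgroup.normalizer ((Q : Subgroup G) : Set G) : Subgroup G))) β b} : ℤ)) := by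
  classical
  have := hM.2.1
  have := Fintype.ofFinite G
  have := Fintype.ofFinite (Subgroup G)
  let X : Finset (Finset (Subgroup G)) := Finset.univ.filter fun s =>
    (∀ Q ∈ s, ∀ R ∈ s, Q ≤ R ∨ R ≤ Q) ∧ (∀ Q ∈ s, Q ≠ ⊥ ∧ IsPGroup p Q) ∧
      ∀ Q ∈ s, s.sup id ≤ H39.Nor Q
  let t : G → Subgroup G → Subgroup G → ℂ := fun _ K W => H35.RK p M K (H36.br W (H34.eB M b))
  let w : Finset (Subgroup G) → ℂ := fun s =>
    ∑ u : G with u ≠ 1 ∧ ∃ k : ℕ, orderOf u = p ^ k, if u ∈ ⨅ Q ∈ s, H39.Nor Q then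
      t u ((⨅ Q ∈ s, H39.Nor Q) ⊓ Subgroup.centralizer {u}) (H35.chW u s) else 0
  have h0 : ∑ s ∈ X, (-1 : ℂ) ^ s.card * w s = 0 := by
    simp only [w, Finset.mul_sum]
    rw [Finset.sum_comm]
    refine Finset.sum_eq_zero fun u hu => ?_
    obtain ⟨hu1, hup⟩ := (Finset.mem_filter.1 hu).2
    simp only [mul_ite, mul_zero]
    rw [← Finset.sum_filter]
    refine H35.sum_chains_eq_zero (H41.isSec_centralizer hup).isPGroup hu1 (t u) _ fun s => ?_
    simp only [X, Finset.mem_filter, Finset.mem_univ, true_and, Subgroup.mem_iInf]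
    exact ⟨fun h => ⟨h.1.1, h.1.2.1, fun Q hQ => sup_le (h.1.2.2 Q hQ)
        (Subgroup.zpowers_le.2 (h.2 Q hQ))⟩,
      fun h => ⟨⟨h.cmp, h.pg, fun Q hQ => le_sup_left.trans (h.nor Q hQ)⟩,
        fun Q hQ => h.nor Q hQ H35.mem_chW⟩⟩
  have hE : (∅ : Finset (Subgroup G)) ∈ X := by simp [X]
  rw [← Finset.add_sum_erase _ _ hE] at h0
  have hw0 : w ∅ = (Nat.card G : ℂ) * ((Nat.card b : ℂ) - blockRank p b) := by
    rw [H35.card_mul_sub_eq hM (φ := MonoidHom.id G) Function.injective_id (H34.intC_fC hb)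
      (e := H34.eB M b) (H36.ga_ext fun _ => rfl)]
    refine Finset.sum_congr rfl fun u _ => ?_
    have e1 : (MonoidHom.id G).range = ⊤ := MonoidHom.range_eq_top.2 Function.surjective_id
    have e2 : (⨅ Q ∈ (∅ : Finset (Subgroup G)), H39.Nor Q) = ⊤ := by simp
    simp only [e1, e2, Subgroup.mem_top, if_true, t]
    refine H35.RK_congr fun g hg => ?_
    rw [H35.chW, Finset.sup_empty, bot_sup_eq, H36.coeff_br_of_mem]
    rintro _ ⟨n, rfl⟩
    exact (Commute.zpow_left (show Commute u g from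
      (Subgroup.mem_centralizer_singleton_iff.1 hg.2).symm) n).eq
  have hS : {s : Finset (Subgroup G) | s.Nonempty ∧ (∀ Q ∈ s, ∀ R ∈ s, Q ≤ R ∨ R ≤ Q) ∧ (∀ Q ∈ s, Q ≠ ⊥ ∧ IsPGroup p Q) ∧ ∃ T ∈ s, ∀ Q ∈ s, Q ≤ T ∧ T ≤ Subgroup.normalizer ((Q : Subgroup G) : Set G)} = ↑(X.erase ∅) := by
    ext s
    simp only [X, Set.mem_ofPred_eq, Finset.coe_erase, Set.mem_sdiff, Finset.mem_coe,
      Finset.mem_filter, Finset.mem_univ, true_and, Set.mem_singleton_iff]
    constructor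
    · rintro ⟨h1, h2, h3, T, hT, h4⟩
      exact ⟨⟨h2, h3, fun Q hQ => (Finset.sup_le fun R hR => (h4 R hR).1).trans (h4 Q hQ).2⟩,
        h1.ne_empty⟩
    · rintro ⟨⟨h2, h3, h4⟩, h1⟩
      have h1' := Finset.nonempty_iff_ne_empty.2 h1
      exact ⟨h1', h2, h3, _, H35.sup_mem_of_cmp h2 h1', fun Q hQ =>
        ⟨Finset.le_sup (f := id) hQ, h4 Q hQ⟩⟩
  rw [hS, finsum_mem_coe_finset]
  apply Int.cast_injective (α := ℂ)
  push_cast
  rw [← hw0]
  rw [Finset.card_empty, pow_zero, one_mul, add_eq_zero_iff_eq_neg, ← Finset.sum_neg_distrib] at h0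
  rw [h0]
  refine Finset.sum_congr rfl fun s hs => ?_
  obtain ⟨h1, h2⟩ := Finset.mem_erase.1 hs
  obtain ⟨h2, h3, h4⟩ := (Finset.mem_filter.1 h2).2
  have h1' := Finset.nonempty_iff_ne_empty.2 h1
  have hT := H35.sup_mem_of_cmp h2 h1'
  rw [mul_assoc, term_eq hM hb (h3 _ hT).2 (le_iInf₂ h4)
    (le_iInf₂ fun Q hQ => (H39.cen_anti (Finset.le_sup (f := id) hQ)).trans (H39.cen_le_nor Q))
    (iInf₂_le _ hT)]
  obtain ⟨n, hn⟩ := Nat.exists_eq_succ_of_ne_zero (Finset.card_ne_zero.2 h1')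
  rw [hn, Nat.succ_sub_one, pow_succ, mul_neg_one, neg_mul, neg_neg]
  rfl

end Cfsg.Agent.S4651
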