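import Cfsg.Statements.S4654
import Cfsg.Agent.H39.Lift

set_option autoImplicit false
open Cfsg

namespace Cfsg.Agent.S4654

open H39 H36

/-- Fix a prime p and a maximal ideal M of the algebraic integers containing p. Let P be a normal p-subgroup of the finite group G, B a p-block of G and e a p-block of C_G(P) such that (P, e) is a Brauer pair of B (as P is normal, this says that e occurs in the idempotent of B, which is supported on C_G(P)). Let T be the stabilizer of e in G under conjugation. Then the idempotent of e is a block idempotent of T: some block E of T has, at every element of T, the same idempotent coefficient as e (zero off C_G(P)); and the idempotent of B is the sum of the distinct G-conjugates of the idempotent of e: its coefficient at g is the sum over all x in G of the coefficient of e at x⁻¹ g x, divided by the order of T. -/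
theorem result {G : Type*} [Group G] [Fintype G] (p : ℕ) [Fact p.Prime] (M : Ideal Cfsg.AlgInt) (hM : Cfsg.IsPModular p M) (P : Subgroup G) [P.Normal] (hP : IsPGroup p P) (B : Set (Cfsg.IrrCharacter G)) (e : Set (Cfsg.IrrCharacter (Subgroup.centralizer (P : Set G)))) (hBe : Cfsg.IsBrauerPairOf p M B P e) (T : Subgroup G) (hT : ∀ x : G, x ∈ T ↔ Cfsg.StabilizesBlock (Subgroup.centralizer (P : Set G)) e x) : (∃ E : Set (Cfsg.IrrCharacter T), Cfsg.IsPBlock M E ∧ ∀ t : T, Cfsg.blockCoeff E t = Cfsg.subgroupBlockCoeff (Subgroup.centralizer (P : Set G)) e (t : G)) ∧ ∀ g : G, Cfsg.blockCoeff B g = (Nat.card T : ℂ)⁻¹ * ∑ x : G, Cfsg.subgroupBlockCoeff (Subgroup.centralizer (P : Set G)) e (x⁻¹ * g * x) := by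
  have := hM.2.1
  have := H35.charP_F hM
  obtain ⟨hB, he, h⟩ := (bp_iff hM).1 hBe
  have hN : Nor P = ⊤ := Subgroup.normalizer_eq_top P
  have hNC : Nor (Cen P) = ⊤ := top_le_iff.1 (hN ▸ nor_le_nor_cen P)
  have hT' : T = St ⊤ P (eS M _ e) := eq_stab_of_iff he fun y => by
    rw [hT, hN]; simp
  refine ⟨(exists_block_St hM he hP hT').imp fun E hE => ⟨hE.1, hE.2.2⟩, fun g => ?_⟩
  have h1 : IsPrim (Fx (H35.F M) ⊤ (Cen P)) (H34.eB M B) :=
    (isPrim_iff_of_centralizer_le hP le_rfl le_top hN.ge le_top inf_le_right).2 (blk_eB hB)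
  have h2 : H34.eB M B = orbSum ⊤ (eS M _ e) :=
    prim_eq_orbSum h1 le_top hNC.ge (blk_eS he) (by rw [← h1.mem.2.br_eq]; exact h.mul)
  obtain ⟨h3, h4, h5⟩ := orbSum_fS (N := ⊤) he hNC.ge
  have h6 : H34.fC B = orbSum ⊤ (fS _ e) :=
    idem_eq_of_redA (M := M) (fC_mem_Fx B) ⟨inv_orbSum _ _, supp_univ _⟩ (H34.fC_mul_self B) h5
      (H34.intC_fC hB) h3 (h2.trans h4.symm)
  have h7 : stab (fS _ e) = T := by
    have := stab_fS_inf he
    rw [hNC, top_inf_eq, top_inf_eq] at this
    rw [this, hT', St, hN, top_inf_eq, top_inf_eq]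
  have h8 := congrArg (fun a : MonoidAlgebra ℂ G => a.coeff g)
    (sum_cj_eq_card_smul_orbSum (fS _ e))
  simp only [MonoidAlgebra.coeff_sum, Finsupp.coe_finsetSum, Finset.sum_apply, coeff_cj, coeff_fS,
    h7, ← h6] at h8
  rw [h8, eq_inv_mul_iff_mul_eq₀ (Nat.cast_ne_zero.2 Nat.card_pos.ne'), ← Nat.cast_smul_eq_nsmul ℂ]
  rfl

end Cfsg.Agent.S4654
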