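import Cfsg.Statements.S4658
import Cfsg.Agent.H39.Dict

set_option autoImplicit false
open Cfsg

namespace Cfsg.Agent.S4658

open H39 H36

/-- Fix a prime p and a maximal ideal M of the algebraic integers containing p. Let (Q, f) ≤ (P, e) be Brauer pairs of the finite group G and B a p-block of G. Then (P, e) is a Brauer pair of B if and only if (Q, f) is. -/
theorem result {G : Type*} [Group G] [Fintype G] (p : ℕ) [Fact p.Prime] (M : Ideal Cfsg.AlgInt) (hM : Cfsg.IsPModular p M) (P Q : Subgroup G) (e : Set (Cfsg.IrrCharacter (Subgroup.centralizer (P : Set G)))) (f : Set (Cfsg.IrrCharacter (Subgroup.centralizer (Q : Set G)))) (hPe : Cfsg.IsBrauerPair p M P e) (hQf : Cfsg.IsBrauerPair p M Q f) (hle : Cfsg.SubpairLE p M Q f P e) (B : Set (Cfsg.IrrCharacter G)) (hB : Cfsg.IsPBlock M B) : Cfsg.IsBrauerPairOf p M B P e ↔ Cfsg.IsBrauerPairOf p M B Q f := by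
  have := hM.2.1
  have := H35.charP_F hM
  rw [bp_iff hM, bp_iff hM, and_iff_right hB, and_iff_right hB, and_iff_right hPe.2,
    and_iff_right hQf.2]
  exact ((subpairLE_sub hM hle).1.bp_iff le_rfl (blk_eB hB) (blk_eS' hPe.2) hPe.1 le_top).symm

end Cfsg.Agent.S4658
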