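import Cfsg.Statements.S4661
import Cfsg.Agent.H39.Dict

set_option autoImplicit false
open Cfsg

namespace Cfsg.Agent.S4661

open H39 H36

/-- Fix a prime p and a maximal ideal M of the algebraic integers containing p. Let (P, e) be a maximal Brauer pair of the p-block B of the finite group G, Q ≤ P, and f the p-block of C_G(Q) with (Q, f) ≤ (P, e). Then C_P(Q) is contained in a defect group of f (as a block of the group C_G(Q)); and for some x in G the conjugate pair (x Q x⁻¹, conjugate of f) again lies below (P, e) and C_P(x Q x⁻¹) is a defect group of the conjugate of f in C_G(x Q x⁻¹). -/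
theorem result {G : Type*} [Group G] [Fintype G] (p : ℕ) [Fact p.Prime] (M : Ideal Cfsg.AlgInt) (hM : Cfsg.IsPModular p M) (B : Set (Cfsg.IrrCharacter G)) (P Q : Subgroup G) (e : Set (Cfsg.IrrCharacter (Subgroup.centralizer (P : Set G)))) (f : Set (Cfsg.IrrCharacter (Subgroup.centralizer (Q : Set G)))) (hmax : Cfsg.IsMaximalBrauerPair p M B P e) (hQP : Q ≤ P) (hf : Cfsg.IsPBlock M f) (hle : Cfsg.SubpairLE p M Q f P e) : (∃ D : Subgroup (Subgroup.centralizer (Q : Set G)), Cfsg.IsDefectGroup p M f D ∧ (P ⊓ Subgroup.centralizer (Q : Set G)).subgroupOf (Subgroup.centralizer (Q : Set G)) ≤ D) ∧ ∃ x : G, Cfsg.SubpairLE p M (Q.map (MulAut.conj x).toMonoidHom) (Cfsg.conjBlock Q x f) P e ∧ Cfsg.IsDefectGroup p M (Cfsg.conjBlock Q x f) ((P ⊓ Subgroup.centralizer ((Q.map (MulAut.conj x).toMonoidHom) : Set G)).subgroupOf (Subgroup.centralizer ((Q.map (MulAut.conj x).toMonoidHom) : Set G))) := by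
  have := hM.2.1
  have := H35.charP_F hM
  obtain ⟨hB, he, hbp, hD⟩ := (max_iff hM).1 hmax
  have hs := (subpairLE_sub hM hle).1
  have hL : Cen Q ≤ ⊤ ⊓ Nor Q ⊓ stab (eS M _ f) :=
    (le_inf le_top le_rfl).trans (inf_cen_le_stab le_rfl (blk_eS' hf))
  constructor
  · obtain ⟨D, hD', hle'⟩ := hs.exists_isDef_ge (le_nor ⊤) hbp inf_le_right hL
    exact ⟨D.subgroupOf _, (isDefectGroup_subgroupOf_iff hM hf hD'.le).2 hD',
      Subgroup.subgroupOf_mono _ hle'⟩
  · obtain ⟨x, -, hx, hD'⟩ := BP.exists_cj_isDef le_rfl (le_nor ⊤) (blk_eB hB) hD hbp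
      (hbp.of_sub le_rfl (blk_eB hB) hs) inf_le_right hL
    refine ⟨x, (sub_conj_iff hM he hf x).2 hx, ?_⟩
    rw [isDefectGroup_subgroupOf_iff hM ((isPBlock_conjBlock_iff Q x f).2 hf) inf_le_right,
      eS_conjBlock]
    rwa [← cen_cS] at hD'

end Cfsg.Agent.S4661
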