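import Cfsg.Statements.S4662
import Cfsg.Agent.H39.Dict

set_option autoImplicit false
open Cfsg

namespace Cfsg.Agent.S4662

open H39 H36

/-- Fix a prime p and a maximal ideal M of the algebraic integers containing p. Let (P, e) be a maximal Brauer pair of the p-block B of the finite group G, Q ≤ P, and f the p-block of C_G(Q) with (Q, f) ≤ (P, e). Let T be the stabilizer of f in N_G(Q). Then the idempotent of f is a block idempotent of T, and N_P(Q) is contained in a defect group of that block of T; moreover for some x in G the conjugate pair (x Q x⁻¹, conjugate of f) again lies below (P, e) and, with T' the stabilizer of the conjugate of f in N_G(x Q x⁻¹), N_P(x Q x⁻¹) is a defect group of the block of T' whose idempotent is that of the conjugate of f. -/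
theorem result {G : Type*} [Group G] [Fintype G] (p : ℕ) [Fact p.Prime] (M : Ideal Cfsg.AlgInt) (hM : Cfsg.IsPModular p M) (B : Set (Cfsg.IrrCharacter G)) (P Q : Subgroup G) (e : Set (Cfsg.IrrCharacter (Subgroup.centralizer (P : Set G)))) (f : Set (Cfsg.IrrCharacter (Subgroup.centralizer (Q : Set G)))) (hmax : Cfsg.IsMaximalBrauerPair p M B P e) (hQP : Q ≤ P) (hf : Cfsg.IsPBlock M f) (hle : Cfsg.SubpairLE p M Q f P e) (T : Subgroup G) (hT : ∀ y : G, y ∈ T ↔ y ∈ Subgroup.normalizer (Q : Set G) ∧ Cfsg.StabilizesBlock (Subgroup.centralizer (Q : Set G)) f y) : (∃ F : Set (Cfsg.IrrCharacter T), Cfsg.IsPBlock M F ∧ (∀ t : T, Cfsg.blockCoeff F t = Cfsg.subgroupBlockCoeff (Subgroup.centralizer (Q : Set G)) f (t : G)) ∧ ∃ D : Subgroup T, Cfsg.IsDefectGroup p M F D ∧ (P ⊓ Subgroup.normalizer (Q : Set G)).subgroupOf T ≤ D) ∧ ∃ x : G, Cfsg.SubpairLE p M (Q.map (MulAut.conj x).toMonoidHom) (Cfsg.conjBlock Q x f) P e ∧ ∀ (T' : Subgroup G), (∀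 y : G, y ∈ T' ↔ y ∈ Subgroup.normalizer ((Q.map (MulAut.conj x).toMonoidHom) : Set G) ∧ Cfsg.StabilizesBlock (Subgroup.centralizer ((Q.map (MulAut.conj x).toMonoidHom) : Set G)) (Cfsg.conjBlock Q x f) y) → ∃ F' : Set (Cfsg.IrrCharacter T'), Cfsg.IsPBlock M F' ∧ (∀ t : T', Cfsg.blockCoeff F' t = Cfsg.subgroupBlockCoeff (Subgroup.centralizer ((Q.map (MulAut.conj x).toMonoidHom) : Set G)) (Cfsg.conjBlock Q x f) (t : G)) ∧ Cfsg.IsDefectGroup p M F' ((P ⊓ Subgroup.normalizer ((Q.map (MulAut.conj x).toMonoidHom) : Set G)).subgroupOf T') := by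
  have := hM.2.1
  have := H35.charP_F hM
  obtain ⟨hB, he, hbp, hD⟩ := (max_iff hM).1 hmax
  have key : ∀ {Q : Subgroup G} {f : Set (IrrCharacter (Cen Q))} {T : Subgroup G}, IsPBlock M f →
      Q ≤ P → T = ⊤ ⊓ Nor Q ⊓ stab (eS M _ f) →
      ∃ E : Set (IrrCharacter T), IsPBlock M E ∧ eS M T E = eS M _ f ∧
        ∀ t : T, blockCoeff E t = subgroupBlockCoeff (Cen Q) f (t : G) := by
    intro Q f T hf hQP hT
    exact exists_block_of_stable hM hf (hbp.pQ.to_le hQP)
      (hT ▸ self_le_stab le_top (blk_eS' hf)) (hT ▸ inf_le_left.trans inf_le_right)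
      (hT ▸ (le_inf le_top le_rfl).trans (inf_cen_le_stab le_rfl (blk_eS' hf)))
      (inv_iff_le_stab.2 (hT ▸ inf_le_right))
  have hs := (subpairLE_sub hM hle).1
  have hT' := eq_stab_of_iff hf hT
  constructor
  · obtain ⟨E, hE, h1, h2⟩ := key hf hQP hT'
    obtain ⟨D, hD', hle'⟩ := hs.exists_isDef_ge (L := T) (le_nor ⊤) hbp
      (hT' ▸ inf_cen_le_stab le_rfl (blk_eS' hf)) hT'.le
    refine ⟨E, hE, h2, D.subgroupOf _, (isDefectGroup_subgroupOf_iff hM hE hD'.le).2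
      (h1 ▸ hD'), Subgroup.subgroupOf_mono _ ?_⟩
    rwa [hT', hs.inf_stab_eq (le_nor ⊤) hbp] at hle'
  · obtain ⟨x, -, hx, hD'⟩ := BP.exists_cj_isDef le_rfl (le_nor ⊤) (blk_eB hB) hD hbp
      (hbp.of_sub le_rfl (blk_eB hB) hs) (inf_cen_le_stab le_rfl (blk_eS' hf)) le_rfl
    refine ⟨x, (sub_conj_iff hM he hf x).2 hx, fun T' hT' => ?_⟩
    have hf' := (isPBlock_conjBlock_iff Q x f).2 hf
    have hT'' := eq_stab_of_iff hf' hT'
    obtain ⟨E, hE, h1, h2⟩ := key hf' hx.le hT''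
    rw [cS_inf, cS_inf, cS_top, ← nor_cS, ← stab_cj, hx.inf_stab_eq (le_nor ⊤) hbp,
      ← eS_conjBlock, ← hT'', ← h1] at hD'
    exact ⟨E, hE, h2, (isDefectGroup_subgroupOf_iff hM hE hD'.le).2 hD'⟩

end Cfsg.Agent.S4662
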