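import Cfsg.Statements.S4664
import Cfsg.Agent.H35.GalB

set_option autoImplicit false
open Cfsg H28

namespace Cfsg.Agent.S4664

/-- Fix a prime p and a maximal ideal M of the algebraic integers containing p, and let B be a p-block of the finite group G. Let m be the p'-part of the order of G and η = exp(2πi/m). Then every coefficient of the idempotent of B lies in the cyclotomic field ℚ(η). -/
theorem result {G : Type*} [Group G] [Fintype G] (p : ℕ) [Fact p.Prime] (M : Ideal Cfsg.AlgInt) (hM : Cfsg.IsPModular p M) (B : Set (Cfsg.IrrCharacter G)) (hB : Cfsg.IsPBlock M B) (g : G) : Cfsg.blockCoeff B g ∈ IntermediateField.adjoin ℚ ({Complex.exp (2 * Real.pi * Complex.I / ((Nat.card G / p ^ (Nat.card G).factorization p : ℕ) : ℂ))} : Set ℂ) := by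
  have := hM.2.1
  set F := IntermediateField.adjoin ℚ ({H35.etaP p G} : Set ℂ) with hF
  change _ ∈ F
  have hint : IsIntegral ℚ (Cfsg.blockCoeff B g) := by
    rw [Cfsg.blockCoeff, H35.finsum_mem_eq_bF]
    refine IsIntegral.mul ?_ (IsIntegral.sum _ fun χ _ => IsIntegral.mul ?_ ?_)
    · have : ((Nat.card G : ℂ))⁻¹ = algebraMap ℚ ℂ ((Nat.card G : ℚ)⁻¹) := by simp
      rw [this]; exact isIntegral_algebraMap
    · exact (χ.2.isCharacter.isIntegral 1).tower_top
    · exact (χ.2.isCharacter.conj.isIntegral g).tower_top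
  obtain ⟨q, hq⟩ := H29.mem_range_of_forall_algEquiv_fixed (F := F) (hint.tower_top) (fun σ =>
    H35.map_blockCoeff hM hB (σ := (σ : ℂ →+* ℂ))
      (σ.commutes ⟨_, IntermediateField.subset_adjoin ℚ _ (Set.mem_singleton _)⟩) g)
  rw [← hq]
  exact q.2

end Cfsg.Agent.S4664
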