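import Cfsg.Statements.S4666
import Cfsg.Agent.H35.PRegInd

set_option autoImplicit false
open Cfsg H28

namespace Cfsg.Agent.S4666

/-- Fix a prime p and a maximal ideal M of the algebraic integers containing p, and a p-block B of the finite group G of defect d. For every integer combination χ of the irreducible characters in B, p^d times the function that agrees with χ on p-regular elements and vanishes elsewhere is again an integer combination of the irreducible characters in B. -/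
theorem result {G : Type*} [Group G] [Fintype G] (p : ℕ) [Fact p.Prime] (M : Ideal Cfsg.AlgInt) (hM : Cfsg.IsPModular p M) (B : Set (Cfsg.IrrCharacter G)) (hB : Cfsg.IsPBlock M B) (χ : G → ℂ) (hχ : (∃ n : Cfsg.IrrCharacter G → ℤ, ∀ g : G, χ g = ∑ᶠ ψ ∈ B, (n ψ : ℂ) * (ψ : G → ℂ) g)) : (∃ n : Cfsg.IrrCharacter G → ℤ, ∀ g : G, (p ^ Cfsg.blockDefect p B : ℂ) * Cfsg.pRegularPart p χ g = ∑ᶠ ψ ∈ B, (n ψ : ℂ) * (ψ : G → ℂ) g) := by
  have := hM.2.1
  obtain ⟨n, hn⟩ := hχ
  have h1 : χ = ∑ ψ ∈ H35.bF B, (n ψ : ℂ) • (ψ : G → ℂ) := by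
    ext g; rw [hn g, H35.finsum_mem_eq_bF]; simp [Finset.sum_apply]
  have h2 : Cfsg.IsGeneralizedCharacter G
      ((p ^ Cfsg.blockDefect p B : ℂ) • Cfsg.pRegularPart p χ) := by
    rw [h1, H35.pReg_sum, Finset.smul_sum]
    refine Finset.sum_induction _ _ (fun _ _ => H28.Cfsg.IsGeneralizedCharacter.add)
      isGeneralizedCharacter_zero fun ψ hψ => ?_
    rw [H35.pReg_smul, smul_comm]
    exact (H35.isGenChar_ctr hM.1 (H35.mem_bF.1 hψ)).intCast_smul _
  obtain ⟨m, -, -, h⟩ := (((H35.inB_of_eq_finsum hn).pReg hM hB).smul _).exists_int h2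
  exact ⟨m, h⟩

end Cfsg.Agent.S4666
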