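import Cfsg.Statements.S4668
import Cfsg.Agent.H39.Lift
import Cfsg.Agent.H37.Kernel
import Cfsg.Agent.H10.ModPPrime

set_option autoImplicit false
open Cfsg

namespace Cfsg.Agent.S4668

open H39 H36

/-- Fix a prime p and a maximal ideal M of the algebraic integers containing p. Let Q₀ < Q₁ < ⋯ < Q_m be a strictly increasing chain of p-subgroups of the finite group G and N the intersection of their normalizers. Then every block idempotent of N is supported on C_G(Q_m): for every p-block E of N, the idempotent coefficient of E vanishes at every element of N outside C_G(Q_m). -/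
theorem result {G : Type*} [Group G] [Fintype G] (p : ℕ) [Fact p.Prime] (M : Ideal Cfsg.AlgInt) (hM : Cfsg.IsPModular p M) (m : ℕ) (Q : Fin (m + 1) → Subgroup G) (hQ : StrictMono Q) (hQp : ∀ i, IsPGroup p (Q i)) (N : Subgroup G) (hN : ∀ g : G, g ∈ N ↔ ∀ i, g ∈ Subgroup.normalizer (Q i : Set G)) (E : Set (Cfsg.IrrCharacter N)) (hE : Cfsg.IsPBlock M E) (n : N) (hn : (n : G) ∉ Subgroup.centralizer (Q (Fin.last m) : Set G)) : Cfsg.blockCoeff E n = 0 := by
  have := hM.2.1
  by_contra h0
  have hreg : ¬ p ∣ orderOf (n : G) := fun h =>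
    h0 (H37.blockCoeff_eq_zero_of_sing hM hE (by rwa [Subgroup.orderOf_coe] at h))
  have hNn : ∀ i, N ≤ Nor (Q i) := fun i g hg => (hN g).1 hg i
  have hc : ∀ i, (n : G) ∈ Cen (Q i ⊓ N) := fun i =>
    ((supp_fS_cen hM hE (hQp i).to_inf_left inf_le_right
      fun x hx => mem_nor_inf (hNn i hx) (le_nor N hx)).mem (by rwa [coeff_fS_coe])).2
  have key : ∀ i, (n : G) ∈ Cen (Q i) := fun i => by
    induction i using Fin.induction with
    | zero =>
      refine cen_anti (le_inf le_rfl fun x hx => (hN x).2 fun j => ?_) (hc 0)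
      exact le_nor _ (hQ.monotone (Fin.zero_le j) hx)
    | succ i ih =>
      have hle : Q i.castSucc ≤ Q i.succ := (hQ Fin.castSucc_lt_succ).le
      refine H10.pxq_elem (hQp i.castSucc) (hQp i.succ) (hle.trans (le_nor _))
        ((Nat.Prime.coprime_iff_not_dvd Fact.out).2 hreg).symm (hNn _ n.2) ih fun x hx => ?_
      have hxN : x ∈ N := (hN x).2 fun j => by
        rcases lt_or_ge j i.succ with hj | hj
        · exact cen_le_nor _ (cen_anti (hQ.monotone (Fin.le_castSucc_iff.2 hj)) hx.2)
        · exact le_nor _ (hQ.monotone hj hx.1)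
      exact Subgroup.mem_centralizer_singleton_iff.2 (hc i.succ x ⟨hx.1, hxN⟩)
  exact hn (key _)

end Cfsg.Agent.S4668
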