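import Cfsg.Statements.S4670
import Cfsg.Agent.H39.Lift

set_option autoImplicit false
open Cfsg

namespace Cfsg.Agent.S4670

open H39 H36

/-- Fix a prime p and a maximal ideal M of the algebraic integers containing p. Let P be a p-subgroup of the finite group G and H a subgroup containing N_G(P). For every p-block B of G with defect group P there is exactly one p-block c of H with defect group P whose idempotent agrees with that of B, modulo the local ideal at M, at every element of C_G(P) (their Brauer-map images at P coincide); and every p-block c of H with defect group P arises in this way from exactly one such B. This is the Brauer correspondence over H. -/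
theorem result {G : Type*} [Group G] [Fintype G] (p : ℕ) [Fact p.Prime] (M : Ideal Cfsg.AlgInt) (hM : Cfsg.IsPModular p M) (P H : Subgroup G) (hP : IsPGroup p P) (hH : Subgroup.normalizer (P : Set G) ≤ H) : (∀ B : Set (Cfsg.IrrCharacter G), Cfsg.IsPBlock M B → Cfsg.IsDefectGroup p M B P → ∃! c : Set (Cfsg.IrrCharacter H), Cfsg.IsPBlock M c ∧ Cfsg.IsDefectGroup p M c (P.subgroupOf H) ∧ ∀ x : G, x ∈ Subgroup.centralizer (P : Set G) → Cfsg.MemLocalIdeal M (Cfsg.blockCoeff B x - Cfsg.subgroupBlockCoeff H c x)) ∧ (∀ c : Set (Cfsg.IrrCharacter H), Cfsg.IsPBlock M c → Cfsg.IsDefectGroup p M c (P.subgroupOf H) → ∃! B : Set (Cfsg.IrrCharacter G), Cfsg.IsPBlock M B ∧ Cfsg.IsDefectGroup p M B P ∧ ∀ x : G, x ∈ Subgroup.centralizer (P : Set G) → Cfsg.MemLocalIdeal M (Cfsg.blockCoeff B x - Cfsg.subgroupBlockCoeff H c x)) := by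
  have := hM.2.1
  have := H35.charP_F hM
  have hPH : P ≤ H := (le_nor P).trans hH
  have key : ∀ {B : Set (IrrCharacter G)} {c : Set (IrrCharacter H)}, IsPBlock M B →
      IsPBlock M c → ((∀ x : G, x ∈ Subgroup.centralizer (P : Set G) →
        MemLocalIdeal M (blockCoeff B x - subgroupBlockCoeff H c x)) ↔
        br P (H34.eB M B) = br P (eS M H c)) := fun {B c} hB hc => by
    refine ⟨fun h => ga_ext fun x => ?_, fun h x hx => ?_⟩
    · by_cases hx : x ∈ Cen P
      · rw [coeff_br_of_mem _ hx, coeff_br_of_mem _ hx, H34.coeff_eB, coeff_eS]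
        exact (H35.red_eq_red_iff (H34.blockCoeff_mem_S hB x)
          (subgroupBlockCoeff_mem_S hc x)).2 (h x hx)
      · rw [coeff_br_of_not_mem _ hx, coeff_br_of_not_mem _ hx]
    · rw [← H35.red_eq_red_iff (H34.blockCoeff_mem_S hB x) (subgroupBlockCoeff_mem_S hc x),
        ← H34.coeff_eB, ← coeff_eS, ← coeff_br_of_mem _ hx, h, coeff_br_of_mem _ hx]
  refine ⟨fun B hB hD => ?_, fun c hc hD => ?_⟩
  · rw [isDefectGroup_iff hM hB] at hD
    obtain ⟨h1, h2⟩ := (blk_eB hB).br_normalizer le_top hD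
    obtain ⟨u, hu, h3, h4⟩ := exists_prim_br_eq_of_normalizer_le hH h1 h2
    obtain ⟨c, hc, rfl⟩ := Blk.exists_eS hu
    refine ⟨c, ⟨hc, (isDefectGroup_subgroupOf_iff hM hc hPH).2 h3, (key hB hc).2 h4.symm⟩,
      fun c' ⟨hc', h5, h6⟩ => eS_inj hc' hc ?_⟩
    exact (blk_eS hc').eq_of_br_eq le_rfl hu hP hPH
      ((isDefectGroup_subgroupOf_iff hM hc' hPH).1 h5).br_ne (((key hB hc').1 h6).symm.trans h4.symm)
  · rw [isDefectGroup_subgroupOf_iff hM hc hPH] at hD
    obtain ⟨h1, h2⟩ := (blk_eS hc).br_normalizer hH hD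
    obtain ⟨u, hu, h3, h4⟩ := exists_prim_br_eq_of_normalizer_le le_top h1 h2
    obtain ⟨B, hB, rfl⟩ := Blk.exists_eB hu
    refine ⟨B, ⟨hB, (isDefectGroup_iff hM hB).2 h3, (key hB hc).2 h4⟩,
      fun B' ⟨hB', h5, h6⟩ => H34.eB_inj hB' hB ?_⟩
    exact (blk_eB hB').eq_of_br_eq le_rfl hu hP le_top
      ((isDefectGroup_iff hM hB').1 h5).br_ne (((key hB' hc).1 h6).trans h4.symm)

end Cfsg.Agent.S4670
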