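import Cfsg.Statements.S4672
import Cfsg.Agent.H38.CoverS

set_option autoImplicit false
open Cfsg

namespace Cfsg.Agent.S4672

/-- Fix a prime p and a maximal ideal M of the algebraic integers containing p. Let N be a normal subgroup of the finite group G of p-power index and c a p-block of N stable under conjugation by G. Then the idempotent of c is a block idempotent of G: there is a p-block B of G whose idempotent coefficients agree with those of c on N and vanish off N; and for every defect group P of such a block B, G = NP and P ∩ N is a defect group of c. -/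
theorem result {G : Type*} [Group G] [Fintype G] (p : ℕ) [Fact p.Prime] (M : Ideal Cfsg.AlgInt) (hM : Cfsg.IsPModular p M) (N : Subgroup G) [N.Normal] (hN : ∃ k : ℕ, N.index = p ^ k) (c : Set (Cfsg.IrrCharacter N)) (hc : Cfsg.IsPBlock M c) (hst : ∀ x : G, Cfsg.StabilizesBlock N c x) : (∃ B : Set (Cfsg.IrrCharacter G), Cfsg.IsPBlock M B ∧ ∀ g : G, Cfsg.blockCoeff B g = Cfsg.subgroupBlockCoeff N c g) ∧ ∀ B : Set (Cfsg.IrrCharacter G), Cfsg.IsPBlock M B → (∀ g : G, Cfsg.blockCoeff B g = Cfsg.subgroupBlockCoeff N c g) → ∀ P : Subgroup G, Cfsg.IsDefectGroup p M B P → N ⊔ P = ⊤ ∧ Cfsg.IsDefectGroup p M c ((P ⊓ N).subgroupOf N) := by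
  have := hM.2.1
  have := H35.charP_F hM
  obtain ⟨k, hk⟩ := hN
  have hi : H36.Inv ⊤ (H36.eS M N c) :=
    H39.inv_iff_le_stab.2 fun x _ => (H38.stabilizesBlock_iff_of_normal hc).1 (hst x)
  have hblk : H39.Blk ⊤ (H36.eS M N c) := H38.blk_of_inv hM le_top (H38.nor_of_normal N ⊤)
    (fun g _ hg => H38.mem_of_index_eq_pow hM.1 hk hg) (H38.blk_eS hc) hi
  constructor
  · classical
    obtain ⟨B, hB, h⟩ := H36.isPrim_top_iff.1 hblk
    have hG := (H38.gInv_iff_inv hc).2 hi
    have h1 := hG.push_eB (H38.bcl_of_isPBlock hc)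
    have h2 := hG.push_fC
    have h3 : (H38.NEmb.ofNormal N).above c = B := by
      have hcl := H38.NEmb.bcl_above (E := H38.NEmb.ofNormal N) (H38.bcl_of_isPBlock hc)
      ext χ
      rw [← hcl.lam_eB_eq_one_iff, ← H34.lam_eB_eq_one_iff hB, ← h, ← h1]
      rfl
    refine ⟨B, hB, fun g => ?_⟩
    rw [← H36.coeff_emb_fC, ← h3, ← H34.coeff_fC, ← h2]
    rfl
  · intro B hB h P hP
    have h1 : H34.eB M B = H36.eS M N c := H36.ga_ext fun g => by
      rw [H34.coeff_eB, H36.coeff_eS, h]
    rw [H36.isDefectGroup_iff hM hB, h1] at hP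
    refine ⟨?_, (H36.isDefectGroup_subgroupOf_iff hM hc inf_le_right).2
      (H38.fong_inf (H38.nor_of_normal N ⊤) le_top (H38.blk_eS hc) hP)⟩
    rw [sup_comm]
    exact H38.fong_sup_eq hM le_top (H38.nor_of_normal N ⊤) (k := k)
      (by rwa [Subgroup.relIndex_top_right]) (H38.blk_eS hc) hi hP

end Cfsg.Agent.S4672
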