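import Cfsg.Statements.S4673
import Cfsg.Agent.H38.CoverS
import Cfsg.Agent.H18.PiCore

set_option autoImplicit false
open Cfsg

namespace Cfsg.Agent.S4673

/-- Fix a prime p and a maximal ideal M of the algebraic integers containing p. Let N ≤ L be normal subgroups of the finite group G with L/N a p-group, let B be a p-block of G covering the p-block c of N (some member of B has a constituent in c on restriction to N), and suppose that N contains a defect group of B. Then the stabilizer T of c in G satisfies T ∩ L = N. -/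
theorem result {G : Type*} [Group G] [Fintype G] (p : ℕ) [Fact p.Prime] (M : Ideal Cfsg.AlgInt) (hM : Cfsg.IsPModular p M) (N L : Subgroup G) [N.Normal] [L.Normal] [Fintype N] (hNL : N ≤ L) (hLN : ∃ k : ℕ, (N.subgroupOf L).index = p ^ k) (B : Set (Cfsg.IrrCharacter G)) (hB : Cfsg.IsPBlock M B) (c : Set (Cfsg.IrrCharacter N)) (hc : Cfsg.IsPBlock M c) (hcov : (∃ χ ∈ B, ∃ θ ∈ c, Cfsg.classInner (fun n : N => (χ : G → ℂ) n) (θ : N → ℂ) ≠ 0)) (hD : ∃ D : Subgroup G, Cfsg.IsDefectGroup p M B D ∧ D ≤ N) (T : Subgroup G) (hT : ∀ x : G, x ∈ T ↔ Cfsg.StabilizesBlock N c x) : T ⊓ L = N := by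
  have := hM.2.1
  have := H35.charP_F hM
  obtain ⟨k, hk⟩ := hLN
  obtain ⟨D, hD, hDN⟩ := hD
  rw [H36.isDefectGroup_iff hM hB] at hD
  have hT' : T = H39.stab (H36.eS M N c) :=
    Subgroup.ext fun x => (hT x).trans (H38.stabilizesBlock_iff_of_normal hc)
  have he := H38.blk_eS hc
  have hE := H38.blk_eB hB
  have hcov' := (H38.covers_iff_eS hB hc).1 hcov
  have hNT : N ≤ T ⊓ L := le_inf (hT' ▸ H39.inv_iff_le_stab.1 he.inv) hNL
  have hi : H36.Inv (T ⊓ L) (H36.eS M N c) := H39.inv_iff_le_stab.2 (hT' ▸ inf_le_left)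
  obtain ⟨P, hP⟩ := H38.fong_exists_isDef (p := p) hNT he hi
  obtain ⟨j, -, hj⟩ := (Nat.dvd_prime_pow hM.1).1 ((H18.relIndex_dvd_of_le_right N
    (inf_le_right : T ⊓ L ≤ L)).trans (dvd_of_eq hk))
  have h1 := H38.fong_sup_eq hM hNT (H38.nor_of_normal N _) hj he hi hP
  have hu := H38.blk_orbSum hM hNL (H38.nor_of_normal N L)
    (fun g hg h => H38.mem_of_relIndex_eq_pow hM.1 (H38.nor_of_normal N L) hk hg h) he
  have hue := he.orbSum_mul_self (H38.nor_of_normal N L)
  have hPL : P ≤ L := hP.le.trans inf_le_right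
  have h2 : H36.br P (H39.orbSum L (H36.eS M N c)) ≠ 0 :=
    H38.br_ne_zero_left hP.isPGroup (hu.inv.mono hPL) (hi.mono hP.le) (by rw [hue]; exact hP.br_ne)
  have h3 := H38.br_ne_zero_of_mul_ne_zero le_top (H38.nor_of_normal L ⊤)
    (H38.blk_mem_Fx le_top hE) hE.idem hu (fun h0 => hcov' (by
      rw [← hue, ← mul_assoc, h0, zero_mul])) hP.isPGroup hPL h2
  obtain ⟨g, -, hg⟩ := hD.zd P le_top hP.isPGroup h3
  have h4 : P ≤ N := by
    have := H39.cS_le_iff.1 (hg.trans hDN)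
    rwa [H39.cS_eq_of_mem_nor (H38.nor_of_normal N ⊤ trivial)] at this
  rw [← h1, sup_eq_right.2 h4]

end Cfsg.Agent.S4673
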