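import Cfsg.Statements.S4674
import Cfsg.Agent.H38.HK

set_option autoImplicit false
open Cfsg

namespace Cfsg.Agent.S4674

/-- Fix a prime p and a maximal ideal M of the algebraic integers containing p. Let N be a normal subgroup of the finite group G, Q a p-subgroup of N, H = N_G(Q) and L = H ∩ N = N_N(Q). Let d be a p-block of N with defect group Q and e the p-block of L with defect group Q that induces d inside N (its Brauer correspondent). Then block induction from H to G is a bijection from the p-blocks of H covering e onto the p-blocks of G covering d: every block of H covering e induces exactly one block of G, and that block covers d; and every block of G covering d is induced by exactly one block of H covering e. -/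
theorem result {G : Type*} [Group G] [Fintype G] (p : ℕ) [Fact p.Prime] (M : Ideal Cfsg.AlgInt) (hM : Cfsg.IsPModular p M) (N : Subgroup G) [N.Normal] [Fintype N] (Q : Subgroup G) (hQ : IsPGroup p Q) (hQN : Q ≤ N) [Fintype ↥(Subgroup.normalizer (Q : Set G) ⊓ N)] (d : Set (Cfsg.IrrCharacter N)) (hd : Cfsg.IsPBlock M d) (hdQ : Cfsg.IsDefectGroup p M d (Q.subgroupOf N)) (e : Set (Cfsg.IrrCharacter ↥(Subgroup.normalizer (Q : Set G) ⊓ N))) (he : Cfsg.IsPBlock M e) (heQ : Cfsg.IsDefectGroup p M e (Q.subgroupOf (Subgroup.normalizer (Q : Set G) ⊓ N))) (hed : Cfsg.IsInducedBlockIn M N (Subgroup.normalizer (Q : Set G) ⊓ N) e d) : (∀ c : Set (Cfsg.IrrCharacter ↥(Subgroup.normalizer (Q : Set G))), Cfsg.IsPBlock M c → (∃ ψ ∈ c, ∃ ξ ∈ e, Cfsg.classInner (fun l : ↥(Subgroup.normalizer (Q : Set G) ⊓ N) => (ψ : ↥(Subgroup.normalizer (Q : Set G)) → ℂ) (Subgroup.inclusion inf_le_left l)) (ξ : ↥(Subgroup.normalizer (Q :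 Set G) ⊓ N) → ℂ) ≠ 0) → ∃! B : Set (Cfsg.IrrCharacter G), Cfsg.IsInducedBlock M (Subgroup.normalizer (Q : Set G)) c B ∧ (∃ χ ∈ B, ∃ θ ∈ d, Cfsg.classInner (fun n : N => (χ : G → ℂ) n) (θ : N → ℂ) ≠ 0)) ∧ (∀ B : Set (Cfsg.IrrCharacter G), Cfsg.IsPBlock M B → (∃ χ ∈ B, ∃ θ ∈ d, Cfsg.classInner (fun n : N => (χ : G → ℂ) n) (θ : N → ℂ) ≠ 0) → ∃! c : Set (Cfsg.IrrCharacter ↥(Subgroup.normalizer (Q : Set G))), (Cfsg.IsPBlock M c ∧ ∃ ψ ∈ c, ∃ ξ ∈ e, Cfsg.classInner (fun l : ↥(Subgroup.normalizer (Q : Set G) ⊓ N) => (ψ : ↥(Subgroup.normalizer (Q : Set G)) → ℂ) (Subgroup.inclusion inf_le_left l)) (ξ : ↥(Subgroup.normalizer (Q : Set G) ⊓ N) → ℂ) ≠ 0) ∧ Cfsg.IsInducedBlock M (Subgroup.normalizer (Q : Set G)) c B) := by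
  have := hM.2.1
  have := H35.charP_F hM
  have hQ' := (H36.isDefectGroup_subgroupOf_iff hM hd hQN).1 hdQ
  have h1 := H38.hk_eS_eq hM hQN hdQ hed
  have hK : H39.Nor Q ≤ H39.Nor (H39.Nor Q ⊓ N) := fun x hx =>
    H39.mem_nor_inf (H39.le_nor _ hx) (H38.nor_of_normal N ⊤ (Subgroup.mem_top x))
  have hbr := fun {c : Set (IrrCharacter (H39.Nor Q))} {B : Set (IrrCharacter G)}
    (hc : IsPBlock M c) (hB : IsPBlock M B) =>
    H36.isInducedBlock_iff_br hM hQ (H39.le_nor Q) (H39.cen_le_nor Q) le_rfl hc hB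
  have hcov := fun {c : Set (IrrCharacter (H39.Nor Q))} (hc : IsPBlock M c) =>
    H38.covers_le_iff_eS inf_le_left hK hc he
  rw [h1] at hcov
  refine ⟨fun c hc h => ?_, fun B hB h => ?_⟩
  · obtain ⟨B, hi⟩ := H36.inducedBlockDefined_of_le hM hQ (H39.le_nor Q) (H39.cen_le_nor Q)
      le_rfl hc
    refine ⟨B, ⟨hi, (H38.covers_iff_eS hi.2.1 hd).2 (H38.hk_mul_ne_zero (H36.inv_eB B ⊤)
      (H38.blk_eS hd) hQ hQN (H38.blk_eS hc).inv ((hbr hc hi.2.1).1 hi) ((hcov hc).1 h))⟩,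
      fun B' hB' => H36.induced_unique hB'.1 hi⟩
  · obtain ⟨c, hc, h2, h3⟩ := H38.hk_exists (H38.blk_eB hB) (H38.blk_eS hd) hQ'
      ((H38.covers_iff_eS hB hd).1 h)
    obtain ⟨c, hc', rfl⟩ := H36.isPrim_iff_eS.1 hc
    refine ⟨c, ⟨⟨hc', (hcov hc').2 h2⟩, (hbr hc' hB).2 h3⟩, fun c₁ ⟨⟨h4, h5⟩, h6⟩ => ?_⟩
    exact H36.eS_inj h4 hc' (H38.hk_unique (H38.blk_eB hB) (H38.blk_eS hd) hQ' (H38.blk_eS h4)
      hc ((hcov h4).1 h5) h2 ((hbr h4 hB).1 h6) h3)

end Cfsg.Agent.S4674
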