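import Cfsg.Statements.S4677
import Cfsg.Agent.H39.FusDict

set_option autoImplicit false
open Cfsg

namespace Cfsg.Agent.S4677

open H39 H36

/-- Fix a prime p and a maximal ideal M of the algebraic integers containing p, a p-block B of the finite group G and a maximal Brauer pair (P, e) of B. Then the fusion system of B on (P, e) exists and is saturated: there is a saturated fusion system over P, with ambient group G, whose maps with source a subgroup Q of P are exactly the conjugation maps by elements g of G that carry the Brauer pair (Q, e_Q) below (P, e) to a Brauer pair again below (P, e). -/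
theorem result {G : Type*} [Group G] [Fintype G] (p : ℕ) [Fact p.Prime] (M : Ideal Cfsg.AlgInt) (hM : Cfsg.IsPModular p M) (B : Set (Cfsg.IrrCharacter G)) (P : Subgroup G) (e : Set (Cfsg.IrrCharacter (Subgroup.centralizer (P : Set G)))) (hmax : Cfsg.IsMaximalBrauerPair p M B P e) : ∃ F : Cfsg.FusionSystem P, Cfsg.IsBlockFusionSystemOn p M B P e F ∧ F.IsSaturated p := by
  have := hM.2.1
  have := H35.charP_F hM
  obtain ⟨-, -, h⟩ := (maxP_iff hM).1 hmax
  obtain ⟨Φ, hΦ⟩ := h.exists_isFus
  exact ⟨Φ, (isBlockFusionSystemOn_iff hM).2 ⟨hmax, hΦ⟩, hΦ.saturated h⟩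

end Cfsg.Agent.S4677
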