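import Cfsg.Statements.S4681
import Cfsg.Agent.H39.NilDict

set_option autoImplicit false
open Cfsg

namespace Cfsg.Agent.S4681

open H39 H36

/-- Fix a prime p and a maximal ideal M of the algebraic integers containing p. Let B₀ be the principal p-block of the finite group G, P a Sylow p-subgroup and e₀ the principal p-block of C_G(P). Then (P, e₀) is a maximal Brauer pair of B₀, and the fusion system of B₀ on (P, e₀) is the fusion system of G on P: its maps from each subgroup of P are exactly the conjugation maps into P by elements of G. -/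
theorem result {G : Type*} [Group G] [Fintype G] (p : ℕ) [Fact p.Prime] (M : Ideal Cfsg.AlgInt) (hM : Cfsg.IsPModular p M) (S : Sylow p G) : Cfsg.IsMaximalBrauerPair p M (Cfsg.principalBlock M G) (S : Subgroup G) (Cfsg.principalBlock M (Subgroup.centralizer ((S : Subgroup G) : Set G))) ∧ ∀ F : Cfsg.FusionSystem (S : Subgroup G), Cfsg.IsBlockFusionSystemOn p M (Cfsg.principalBlock M G) (S : Subgroup G) (Cfsg.principalBlock M (Subgroup.centralizer ((S : Subgroup G) : Set G))) F → ∀ Q : Subgroup G, F.Hom Q = (Cfsg.groupFusionSystem (S : Subgroup G)).Hom Q := by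
  have := hM.2.1
  have := H35.charP_F hM
  have hmax : IsMaximalBrauerPair p M (principalBlock M G) (S : Subgroup G)
      (principalBlock M (Cen (S : Subgroup G))) :=
    (max_iff hM).2 ⟨H34.isPBlock_principalBlock, H34.isPBlock_principalBlock,
      (bp_principal_iff hM).2 ⟨S.isPGroup', rfl⟩,
      (isDefectGroup_iff hM H34.isPBlock_principalBlock).1
        ((isDefectGroup_principalBlock_iff hM).2 ⟨S, rfl⟩)⟩
  refine ⟨hmax, fun Φ hΦ Q => H92.hom_eq_of_mor fun φ => ?_⟩
  obtain ⟨-, -, h⟩ := (maxP_iff hM).1 hmax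
  rw [((isBlockFusionSystemOn_iff hM).1 hΦ).2, H92.mor_group_iff]
  constructor
  · rintro ⟨g, hg, h1⟩
    exact ⟨hg.le, fun x hx => h1 x hx ▸ hg.cS_le (conj_mem_cS.2 hx), g, h1⟩
  · rintro ⟨hQ, h2, g, h1⟩
    obtain ⟨f, hf⟩ := h.exists_sub hQ
    obtain ⟨f', hf'⟩ := h.exists_sub (Q := cS g Q)
      (by rw [← img_conj h1]; exact H92.img_le_iff.2 h2)
    refine ⟨g, (h.bmor_iff hf).2 ⟨trivial, ?_⟩, h1⟩
    rwa [((bp_principal_iff hM).1 (h.bp_of_sub hf)).2, cj_eS_principal_cen,
      ← ((bp_principal_iff hM).1 (h.bp_of_sub hf')).2]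

end Cfsg.Agent.S4681
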