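import Cfsg.Statements.S4682
import Cfsg.Agent.H39.NilDict

set_option autoImplicit false
open Cfsg

namespace Cfsg.Agent.S4682

open H39 H36

/-- Fix a prime p and a maximal ideal M of the algebraic integers containing p, a p-block B of the finite group G with maximal Brauer pair (P, e), P abelian, and a Brauer pair (Q, f) ≤ (P, e). Let T_Q be the stabilizer of f in N_G(Q) and T_P the stabilizer of e in N_G(P). Then every element of T_Q is a product of an element of T_P and an element of C_G(Q); and the index of C_G(Q) in T_Q equals the index of T_P ∩ C_G(Q) in T_P ∩ N_G(Q). -/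
theorem result {G : Type*} [Group G] [Fintype G] (p : ℕ) [Fact p.Prime] (M : Ideal Cfsg.AlgInt) (hM : Cfsg.IsPModular p M) (B : Set (Cfsg.IrrCharacter G)) (P : Subgroup G) (e : Set (Cfsg.IrrCharacter (Subgroup.centralizer (P : Set G)))) (hmax : Cfsg.IsMaximalBrauerPair p M B P e) (hab : ∀ x ∈ P, ∀ y ∈ P, x * y = y * x) (Q : Subgroup G) (f : Set (Cfsg.IrrCharacter (Subgroup.centralizer (Q : Set G)))) (hQP : Q ≤ P) (hf : Cfsg.IsPBlock M f) (hle : Cfsg.SubpairLE p M Q f P e) (TQ : Subgroup G) (hTQ : ∀ y : G, y ∈ TQ ↔ y ∈ Subgroup.normalizer (Q : Set G) ∧ Cfsg.StabilizesBlock (Subgroup.centralizer (Q : Set G)) f y) (TP : Subgroup G) (hTP : ∀ y : G, y ∈ TP ↔ y ∈ Subgroup.normalizer (P : Set G) ∧ Cfsg.StabilizesBlock (Subgroup.centralizer (P : Set G)) e y) : (∀ x ∈ TQ, ∃ y ∈ TP, ∃ c ∈ Subgroup.centralizer (Q : Set G), x = y * c) ∧ ((Subgroup.centralizer (Q : Set G)).subgroupOf TQ).index = ((TP ⊓ Subgroup.centralizer (Q : Set G)).subgroupOf (TP ⊓ Subgroup.normalizer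 (Q : Set G))).index := by
  have := hM.2.1
  have := H35.charP_F hM
  obtain ⟨-, he, h⟩ := (maxP_iff hM).1 hmax
  have hs := (subpairLE_sub hM hle).1
  obtain rfl : TQ = St ⊤ Q (eS M _ f) := eq_stab_of_iff hf hTQ
  obtain rfl : TP = St ⊤ P (eS M _ e) := eq_stab_of_iff he hTP
  have key := fun x => h.exists_St_mul hs ((le_cen_of_comm hab).trans (cen_anti hQP)) (x := x)
  refine ⟨fun x hx => ?_, ?_⟩
  · obtain ⟨y, hy, c, hc, rfl⟩ := key x hx
    exact ⟨y, hy, c, hc.2, rfl⟩
  · change (Cen Q).relIndex _ = Subgroup.relIndex _ _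
    rw [relIndex_eq_of_subset_mul (h.St_eq_inf hs) fun x hx => ?_]
    · rw [← Subgroup.inf_relIndex_right (Cen Q), ← Subgroup.inf_relIndex_right (_ ⊓ Cen Q)]
      congr 1
      ext x; simp only [Subgroup.mem_inf]; tauto
    · obtain ⟨y, hy, c, hc, rfl⟩ := key x hx
      exact ⟨y, ⟨hy, ((Nor Q).mul_mem_cancel_right (cen_le_nor Q hc.2)).1 hx.1.2⟩,
        by simpa using hc.2⟩

end Cfsg.Agent.S4682
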