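import Cfsg.Statements.S4683
import Cfsg.Agent.H41.SubsecOrth

set_option autoImplicit false
open Cfsg

namespace Cfsg.Agent.S4683

/-- Fix a prime p and a maximal ideal M of the algebraic integers containing p, a p-block B of the finite group G, a p-element u and a p-block e of C = C_G(u) such that (⟨u⟩, e) is a Brauer pair of B (a Brauer element of B). For χ ∈ B let χ_u be the e-part of the class function c ↦ χ(u c) on C and χ_u' the e-part of c ↦ χ(u⁻¹ c). Then the sum over χ ∈ B and over the p-regular elements s of C of χ_u(s)·χ_u'(s⁻¹) equals the order of C times the p-regular rank of e (the number of irreducible Brauer characters of e). -/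
theorem result {G : Type*} [Group G] [Fintype G] (p : ℕ) [Fact p.Prime] (M : Ideal Cfsg.AlgInt) (hM : Cfsg.IsPModular p M) (B : Set (Cfsg.IrrCharacter G)) (u : G) (hu : ∃ k : ℕ, orderOf u = p ^ k) (e : Set (Cfsg.IrrCharacter (Subgroup.centralizer (Subgroup.zpowers u : Set G)))) (hBe : Cfsg.IsBrauerPairOf p M B (Subgroup.zpowers u) e) : ∑ᶠ χ ∈ B, ∑ᶠ s : Subgroup.centralizer (Subgroup.zpowers u : Set G), Cfsg.pRegularPart p (Cfsg.blockPart e (fun c : Subgroup.centralizer (Subgroup.zpowers u : Set G) => (χ : G → ℂ) (u * c))) s * Cfsg.blockPart e (fun c : Subgroup.centralizer (Subgroup.zpowers u : Set G) => (χ : G → ℂ) (u⁻¹ * c)) s⁻¹ = (Nat.card (Subgroup.centralizer (Subgroup.zpowers u : Set G)) : ℂ) * (Cfsg.blockRank p e : ℂ) := by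
  classical
  have := hM.2.1
  have h := H41.isSec_centralizer_zpowers (p := p) hu
  obtain ⟨-, he, hB, hsub⟩ := H41.isBrauerPairOf_iff_subset.1 hBe
  rw [← H41.sum_pReg_bker hM he, H41.finsum_mem_irr]
  simp only [finsum_eq_sum_of_fintype]
  have key : ∀ s : Subgroup.centralizer (Subgroup.zpowers u : Set G),
      Cfsg.pRegularPart p (fun s => H41.bker e s s) s = ∑ χ : IrrCharacter G, if χ ∈ B then
      Cfsg.pRegularPart p (Cfsg.blockPart e (fun c : Subgroup.centralizer (Subgroup.zpowers u : Set G) => (χ : G → ℂ) (u * c))) s * Cfsg.blockPart e (fun c : Subgroup.centralizer (Subgroup.zpowers u : Set G) => (χ : G → ℂ) (u⁻¹ * c)) s⁻¹ else 0 := by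
    intro s
    by_cases hs : p ∣ orderOf s
    · simp [H35.pReg_of_sing _ hs]
    · have h1 := h.sum_blockPart_mul_blockPart hM (H34.intC_fC hB) (H34.intC_fC he)
        (H34.intC_fC he) hsub hs hs
      rw [Set.inter_self, H41.finsum_mem_irr] at h1
      rw [H35.pReg_of_reg _ hs, ← h1]
      refine Finset.sum_congr rfl fun χ _ => ?_
      rw [H35.pReg_of_reg _ hs,
        h.conj_blockPart e (H28.Cfsg.IsIrrCharacter.isCharacter χ.2)]
  simp only [key]
  rw [Finset.sum_comm]
  refine Finset.sum_congr rfl fun χ _ => ?_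
  split_ifs <;> simp

end Cfsg.Agent.S4683
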