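import Cfsg.Statements.S4684
import Cfsg.Agent.H39.StarEta
import Cfsg.Agent.H95.Transfer

set_option autoImplicit false
open Cfsg

namespace Cfsg.Agent.S4684

open H39 H36 H35 H28 Cfsg

/-- Fix a prime p and a maximal ideal M of the algebraic integers containing p, a p-block B of the finite group G with maximal Brauer pair (P, e) and fusion system F on P. Then the number of irreducible characters of height zero in B is divisible by the index in P of the focal subgroup of F. -/
theorem result {G : Type*} [Group G] [Fintype G] (p : ℕ) [Fact p.Prime] (M : Ideal Cfsg.AlgInt) (hM : Cfsg.IsPModular p M) (B : Set (Cfsg.IrrCharacter G)) (P : Subgroup G) (e : Set (Cfsg.IrrCharacter (Subgroup.centralizer (P : Set G)))) (hmax : Cfsg.IsMaximalBrauerPair p M B P e) (F : Cfsg.FusionSystem P) (hF : Cfsg.IsBlockFusionSystemOn p M B P e F) : (F.focalSubgroup.subgroupOf P).index ∣ Nat.card {χ : Cfsg.IrrCharacter G // χ ∈ B ∧ Cfsg.blockHeight p B (χ : G → ℂ) = 0} := by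
  have := hM.2.1
  have := charP_F hM
  obtain ⟨hB, -, hm⟩ := (maxP_iff hM).1 hmax
  have hΦ := ((isBlockFusionSystemOn_iff hM).1 hF).2
  exact hm.relIndex_dvd_card hM hB le_rfl (fun v g hg => H95.mem_focal
    ((hΦ _ fun x => g * x * g⁻¹).2 ⟨g, hg, fun _ _ => rfl⟩) (Subgroup.mem_zpowers v)) _
    (fun χ ψ h h' => by rw [← h', blockHeight, blockHeight, charDegree, charDegree, h])
    fun χ hχ h v hv => ⟨_, inB_irr hχ, hm.mP_ne_zero_of_height_zero hM hB hχ hχ h h hv⟩

end Cfsg.Agent.S4684
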