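import Cfsg.Statements.S4685
import Cfsg.Agent.H39.StarEta
import Cfsg.Agent.H95.Transfer

set_option autoImplicit false
open Cfsg

namespace Cfsg.Agent.S4685

open H39 H36 H35 H28 Cfsg

/-- Fix a prime p and a maximal ideal M of the algebraic integers containing p, a p-block B of the finite group G with maximal Brauer pair (P, e) and fusion system F on P. Then for every h the number of irreducible characters of height h in B is divisible by the index of Z(P) ∩ foc(F) in Z(P), where foc(F) is the focal subgroup of F. -/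
theorem result {G : Type*} [Group G] [Fintype G] (p : ℕ) [Fact p.Prime] (M : Ideal Cfsg.AlgInt) (hM : Cfsg.IsPModular p M) (B : Set (Cfsg.IrrCharacter G)) (P : Subgroup G) (e : Set (Cfsg.IrrCharacter (Subgroup.centralizer (P : Set G)))) (hmax : Cfsg.IsMaximalBrauerPair p M B P e) (F : Cfsg.FusionSystem P) (hF : Cfsg.IsBlockFusionSystemOn p M B P e F) (h : ℕ) : ((P ⊓ Subgroup.centralizer (P : Set G) ⊓ F.focalSubgroup).subgroupOf (P ⊓ Subgroup.centralizer (P : Set G))).index ∣ Nat.card {χ : Cfsg.IrrCharacter G // χ ∈ B ∧ Cfsg.blockHeight p B (χ : G → ℂ) = h} := by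
  have := hM.2.1
  have := charP_F hM
  obtain ⟨hB, -, hm⟩ := (maxP_iff hM).1 hmax
  have hΦ := ((isBlockFusionSystemOn_iff hM).1 hF).2
  obtain ⟨ψ, hψ, h0⟩ := exists_height_zero p (H34.block_nonempty hB)
  rw [Subgroup.inf_subgroupOf_left]
  exact hm.relIndex_dvd_card hM hB inf_le_left (fun v g hg => H95.mem_focal
    ((hΦ _ fun x => g * x * g⁻¹).2 ⟨g, hg, fun _ _ => rfl⟩) (Subgroup.mem_zpowers v)) _
    (fun χ ψ h h' => by rw [← h', blockHeight, blockHeight, charDegree, charDegree, h])
    fun χ hχ _ v hv => ⟨_, inB_irr hψ, hm.mP_ne_zero_of_central hM hB hχ hψ h0 hv.1 hv.2⟩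

end Cfsg.Agent.S4685
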