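import Cfsg.Statements.S4688
import Cfsg.Agent.H39.NilDict

set_option autoImplicit false
open Cfsg

namespace Cfsg.Agent.S4688

open H39 H36

/-- Fix a prime p and a maximal ideal M of the algebraic integers containing p, and a nilpotent p-block B of the finite group G with maximal Brauer pair (P, e). Then for every Brauer pair (Q, f) of B, f is a nilpotent block of C_G(Q); and if moreover (Q, f) ≤ (P, e), then C_P(Q) is a defect group of f as a block of C_G(Q). -/
theorem result {G : Type*} [Group G] [Fintype G] (p : ℕ) [Fact p.Prime] (M : Ideal Cfsg.AlgInt) (hM : Cfsg.IsPModular p M) (B : Set (Cfsg.IrrCharacter G)) (P : Subgroup G) (e : Set (Cfsg.IrrCharacter (Subgroup.centralizer (P : Set G)))) (hmax : Cfsg.IsMaximalBrauerPair p M B P e) (hnil : Cfsg.IsNilpotentBlock p M B) (Q : Subgroup G) (f : Set (Cfsg.IrrCharacter (Subgroup.centralizer (Q : Set G)))) (hQf : Cfsg.IsBrauerPairOf p M B Q f) : Cfsg.IsNilpotentBlock p M f ∧ (Cfsg.SubpairLE p M Q f P e → Cfsg.IsDefectGroup p M f ((P ⊓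 Subgroup.centralizer (Q : Set G)).subgroupOf (Subgroup.centralizer (Q : Set G)))) := by
  have := hM.2.1
  have := H35.charP_F hM
  obtain ⟨hB, he, h⟩ := (maxP_iff hM).1 hmax
  obtain ⟨-, hf, hQ⟩ := (bp_iff hM).1 hQf
  have hn := ((isNilpotentBlock_iff hM).1 hnil).2
  refine ⟨(isNilpotentBlock_iff_eS hM hf).2 ?_, fun hle => ?_⟩
  · have := hn.of_bp h.blk hQ
    rwa [top_inf_eq] at this
  · exact (isDefectGroup_cen_iff hM hf P).2 (h.isDef_cen_of_nil hn (subpairLE_sub hM hle).1)

end Cfsg.Agent.S4688
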