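import Cfsg.Statements.S4693
import Cfsg.Agent.H39.NilDict

set_option autoImplicit false
open Cfsg

namespace Cfsg.Agent.S4693

open H39 H36

/-- Fix a prime p and a maximal ideal M of the algebraic integers containing p, a p-block B of the finite group G with maximal Brauer pair (P, e) and fusion system F on P, and a Brauer pair (Q, f) ≤ (P, e) with Q centric in F. Suppose every element of G normalizes Q and stabilizes f. Then the idempotent of B agrees with that of f modulo M at every element of G, and f is the idempotent of a nilpotent block of Q·C_G(Q): some p-block of Q·C_G(Q) has the idempotent coefficients of f and is nilpotent. -/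
theorem result {G : Type*} [Group G] [Fintype G] (p : ℕ) [Fact p.Prime] (M : Ideal Cfsg.AlgInt) (hM : Cfsg.IsPModular p M) (B : Set (Cfsg.IrrCharacter G)) (P : Subgroup G) (e : Set (Cfsg.IrrCharacter (Subgroup.centralizer (P : Set G)))) (hmax : Cfsg.IsMaximalBrauerPair p M B P e) (F : Cfsg.FusionSystem P) (hF : Cfsg.IsBlockFusionSystemOn p M B P e F) (Q : Subgroup G) (f : Set (Cfsg.IrrCharacter (Subgroup.centralizer (Q : Set G)))) (hQP : Q ≤ P) (hf : Cfsg.IsPBlock M f) (hle : Cfsg.SubpairLE p M Q f P e) (hcen : F.IsCentric Q) (hG : ∀ x : G, x ∈ Subgroup.normalizer (Q : Set G) ∧ Cfsg.StabilizesBlock (Subgroup.centralizer (Q : Set G)) f x) : (∀ g : G, Cfsg.MemLocalIdeal M (Cfsg.blockCoeff B g - Cfsg.subgroupBlockCoeff (Subgroup.centralizer (Q : Set G)) f g)) ∧ ∃ F' : Set (Cfsg.IrrCharacter ↥(Q ⊔ Subgroup.centralizer (Q : Set G))), Cfsg.IsPBlock M F' ∧ (∀ t : ↥(Q ⊔ Subgroup.centralizer (Q : Set G)), Cfsg.blockCoeff F' t = Cfsg.subgroupBlockCoeff (Subgroup.centralizer (Q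 : Set G)) f (t : G)) ∧ Cfsg.IsNilpotentBlock p M F' := by
  have := hM.2.1
  have := H35.charP_F hM
  obtain ⟨hB, he, h⟩ := (maxP_iff hM).1 hmax
  have hs := (subpairLE_sub hM hle).1
  have hQ := h.bp_of_sub hs
  have hT : ⊤ ≤ St ⊤ Q (eS M _ f) := fun x _ => (nor_stabilizes_iff hf).1 (hG x)
  have hN : ⊤ ≤ Nor Q := hT.trans (St_le_nor _ _ _)
  have hi : Inv ⊤ (eS M _ f) := (inv_St _ _ _).mono hT
  constructor
  · intro g
    have h1 := hQ.mul
    rw [br_eq_self_of_idem hQ.pQ le_rfl le_top hN h.blk.mem h.blk.idem] at h1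
    have h2 : H34.eB M B = eS M _ f :=
      h.blk.eq_of_mul_eq (hQ.blk.of_stable hQ.pQ le_top hN le_top le_top hi) h1
    rw [← H35.red_eq_red_iff (H34.blockCoeff_mem_S hB g) (subgroupBlockCoeff_mem_S hf g),
      ← coeff_eS, ← h2, H34.coeff_eB]
  · obtain ⟨E, hE, h1, h2⟩ := exists_block_of_stable (L := Q ⊔ Cen Q) hM hf hQ.pQ le_sup_left
      (le_top.trans hN) le_sup_right (hi.mono le_top)
    refine ⟨E, hE, h2, (isNilpotentBlock_iff_eS hM hE).2 ?_⟩
    rw [h1]
    refine nil_of_isDef_of_le_sup (isDef_of_isDef_center hQ.blk hQ.pQ le_sup_left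
      (inf_le_right.trans le_sup_right) (by rw [top_inf_eq]) le_top ?_) le_rfl
    exact (((isBlockFusionSystemOn_iff hM).1 hF).2.centric_iff h hs).1 hcen

end Cfsg.Agent.S4693
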