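import Cfsg.Statements.S4694
import Cfsg.Agent.H39.Weight

set_option autoImplicit false
open Cfsg

namespace Cfsg.Agent.S4694

open H39 H36 H35 H28 Cfsg

/-- Fix a prime p and a maximal ideal M of the algebraic integers containing p, a p-block B of the finite group G and a Brauer pair (Q, e) of B. Let T be the stabilizer of e in N_G(Q) and suppose that (Q, e) carries a weight: the block of T whose idempotent is that of e contains an irreducible character χ that is constant on the cosets of Q and whose degree has p-part equal to the p-part of the index of Q in T. Then Z(Q) is a defect group of e as a block of C_G(Q), and Q is the largest normal p-subgroup of T: every p-subgroup of T normalized by T lies in Q. -/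
theorem result {G : Type*} [Group G] [Fintype G] (p : ℕ) [Fact p.Prime] (M : Ideal Cfsg.AlgInt) (hM : Cfsg.IsPModular p M) (B : Set (Cfsg.IrrCharacter G)) (Q : Subgroup G) (e : Set (Cfsg.IrrCharacter (Subgroup.centralizer (Q : Set G)))) (hQe : Cfsg.IsBrauerPairOf p M B Q e) (T : Subgroup G) (hT : ∀ y : G, y ∈ T ↔ y ∈ Subgroup.normalizer (Q : Set G) ∧ Cfsg.StabilizesBlock (Subgroup.centralizer (Q : Set G)) e y) (F' : Set (Cfsg.IrrCharacter T)) (hF' : Cfsg.IsPBlock M F') (hF'e : ∀ t : T, Cfsg.blockCoeff F' t = Cfsg.subgroupBlockCoeff (Subgroup.centralizer (Q : Set G)) e (t : G)) (χ : Cfsg.IrrCharacter T) (hχ : χ ∈ F') (hχQ : ∀ q : G, q ∈ Q → ∀ t : T, ∀ t' : T, (t' : G) = q * (t : G) → (χ : T → ℂ) t' = (χ : T → ℂ) t) (hdeg : (Cfsg.charDegree (χ : T → ℂ)).factorization p + (Nat.card Q).factorization p = (Nat.card T).factorization p) : Cfsg.IsDefectGroup p M e ((Q ⊓ Subgroup.centralizer (Q : Set G)).subgroupOf (Subgroup.centralizer (Q : Set G))) ∧ ∀ R : Subgroup G, R ≤ T → IsPGroup p R → (∀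 t ∈ T, t ∈ Subgroup.normalizer (R : Set G)) → R ≤ Q := by
  classical
  have := hM.2.1
  have := charP_F hM
  obtain ⟨-, he, hbp⟩ := (bp_iff hM).1 hQe
  have hTe := eq_stab_of_iff he hT
  have hQT : Q ≤ T := hTe ▸ self_le_stab le_top hbp.blk
  have hCT : Cen Q ≤ T := by
    have := inf_cen_le_stab (K := ⊤) le_rfl hbp.blk
    rwa [top_inf_eq, ← hTe] at this
  have hTN : T ≤ Nor Q := fun x hx => ((hT x).1 hx).1
  have hn : (Q.subgroupOf T).Normal := (Subgroup.normal_subgroupOf_iff_le_normalizer hQT).2 hTN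
  have hπ := QuotientGroup.mk'_surjective (Q.subgroupOf T)
  obtain ⟨η, rfl⟩ := H41.exists_infl_eq hπ (χ := χ) (by
    rw [QuotientGroup.ker_mk']
    exact fun q hq => mem_charKer_iff.2 fun t => hχQ q hq t _ rfl)
  have h0 : (charDegree η.1).factorization p = (Nat.card (T ⧸ Q.subgroupOf T)).factorization p := by
    have h1 := factorization_index_add (Q.subgroupOf T) p
    rw [Nat.card_congr (Subgroup.subgroupOfEquivOfLe hQT).toEquiv] at h1
    rw [H41.charDegree_infl] at hdeg
    change _ = (Q.subgroupOf T).index.factorization p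
    omega
  refine ⟨?_, fun R hRT hR hn' => ?_⟩
  · set ρ := (QuotientGroup.mk' (Q.subgroupOf T)).comp (Subgroup.inclusion hCT) with hρ
    have hN : ρ.range.Normal := ⟨by
      rintro _ ⟨c, rfl⟩ g
      obtain ⟨t, rfl⟩ := hπ g
      exact ⟨⟨t * c * t⁻¹, conj_mem_centralizer (hTN t.2) c.2⟩, by
        rw [hρ, MonoidHom.comp_apply, MonoidHom.comp_apply, ← map_inv, ← map_mul, ← map_mul]; rfl⟩⟩
    have := Fintype.ofFinite ρ.range
    obtain ⟨θ, hθ⟩ := H38.exists_under_irr ρ.range.subtype η
    have h1 := nu_eq_of_over hM hθ h0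
    have hs := ρ.rangeRestrict_surjective
    have h2 : H38.Over (Subgroup.inclusion hCT) (H41.infl hπ η).1 (H41.infl hs θ).1 := by
      unfold H38.Over at hθ ⊢
      rw [← classInner_comp_surjective _ hs] at hθ
      exact hθ
    have hb := H34.isPBlock_blockOf (M := M) (H41.infl hs θ)
    have h3 := (H38.covers_le_iff_eS hCT (hTN.trans (nor_le_nor_cen Q)) hF' hb).1
      ⟨_, hχ, _, H34.self_mem_blockOf _, h2⟩
    rw [(coeff_eq_iff_eS he hF' hCT (hTN.trans (nor_le_nor_cen Q))).1 hF'e] at h3
    have h4 := eS_inj he hb ((blk_eS he).eq_of_mul_ne_zero (blk_eS hb) h3)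
    refine H41.isDefectGroup_of_nu_eq hM (hbp.pQ.to_le inf_le_left).comap_subtype
      (center_subgroupOf_le Q) he (h4 ▸ H34.self_mem_blockOf _) ?_
    rw [H41.charDegree_infl, h1, ← Subgroup.index_ker]
    congr 3
    ext c
    simp [hρ, Subgroup.mem_subgroupOf]
  · have hn2 : (R.subgroupOf T).Normal := (Subgroup.normal_subgroupOf_iff_le_normalizer hRT).2 hn'
    have := hn2.map _ hπ
    have h1 := eq_bot_of_nu_eq (N := (R.subgroupOf T).map (QuotientGroup.mk' (Q.subgroupOf T))) hM
      (hR.comap_subtype.map _) h0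
    rw [Subgroup.map_eq_bot_iff, QuotientGroup.ker_mk'] at h1
    exact fun x hx => h1 (x := ⟨x, hRT hx⟩) hx

end Cfsg.Agent.S4694
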