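import Cfsg.Statements.S4697
import Cfsg.Agent.H35.KW

set_option autoImplicit false
open Cfsg H28

namespace Cfsg.Agent.S4697

theorem card_le_mul {H : Type*} [CommGroup H] [Finite H] (A B : Subgroup H) :
    Nat.card ↥(A ⊔ B) ≤ Nat.card A * Nat.card B := by
  rw [← Nat.card_prod]
  refine Nat.card_le_card_of_surjective
    (fun x : A × B => (⟨x.1 * x.2, Subgroup.mul_mem_sup x.1.2 x.2.2⟩ : ↥(A ⊔ B))) fun ⟨z, hz⟩ => ?_
  obtain ⟨a, ha, b, hb, rfl⟩ := Subgroup.mem_sup.1 hz
  exact ⟨(⟨a, ha⟩, ⟨b, hb⟩), rfl⟩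

open Cfsg H28 in
theorem aux {G : Type*} [Group G] [Fintype G] {p : ℕ} {M : Ideal AlgInt} [M.IsMaximal]
    (hM : IsPModular p M) {B : Set (IrrCharacter G)} (hB : IsPBlock M B) {D : Subgroup G}
    (hD : IsDefectGroup p M B D) (hab : IsMulCommutative D) {x y z : D}
    (h : Subgroup.closure {x, y, z} = ⊤) (hy : orderOf y ≤ orderOf x) (hz : orderOf z ≤ orderOf x) :
    Nat.card B ^ 3 ≤ Nat.card D ^ 5 := by
  obtain ⟨Q, _, _, c, E, φ, h1, h2, h3, h4, h5, -, h7, -⟩ := H35.exists_major_quot hM hB hD x.2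
    fun d hd => congrArg Subtype.val (hab.1.1 x ⟨d, hd⟩)
  have h8 := H35.card_le_of_quot_cyclic hM h1 h2 (φ y).2 (fun d hd => by
    obtain ⟨e, he⟩ := h3 ⟨d, hd⟩
    have := congrArg (fun t => (φ t : Q)) (hab.1.1 y e)
    simpa [he] using this) (φ z) (by
    rw [eq_top_iff, ← Subgroup.map_top_of_surjective φ h3, ← h, MonoidHom.map_closure,
      Subgroup.closure_le, Set.image_insert_eq, Set.image_pair, (h4 x).2 (Subgroup.mem_zpowers _)]
    rintro _ (rfl | ht)
    exacts [one_mem _, Subgroup.subset_closure ht])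
  have h9 : Nat.card D ≤ orderOf x ^ 3 := by
    let _ : CommGroup D := { (inferInstance : Group D) with mul_comm := hab.1.1 }
    rw [Set.insert_eq, Set.insert_eq, Subgroup.closure_union, Subgroup.closure_union,
      ← Subgroup.zpowers_eq_closure, ← Subgroup.zpowers_eq_closure,
      ← Subgroup.zpowers_eq_closure] at h
    rw [← Subgroup.card_top, ← h]
    refine (card_le_mul _ _).trans ((Nat.mul_le_mul_left _ (card_le_mul _ _)).trans ?_)
    simp only [Nat.card_zpowers]
    rw [pow_three]
    exact Nat.mul_le_mul_left _ (Nat.mul_le_mul hy hz)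
  have h10 := h7.trans (Nat.mul_le_mul_left _ (H35.blockRank_le_card.trans h8))
  rw [Subgroup.orderOf_coe] at h5
  refine Nat.le_of_mul_le_mul_left ?_ (Nat.card_pos (α := D))
  calc Nat.card D * Nat.card B ^ 3 ≤ orderOf x ^ 3 * (Nat.card D * Nat.card E) ^ 3 :=
        Nat.mul_le_mul h9 (Nat.pow_le_pow_left h10 3)
    _ = Nat.card D ^ 3 * (orderOf x * Nat.card E) ^ 3 := by ring
    _ = _ := by rw [← h5]; ring

/-- Let p be a prime, M a maximal ideal of the algebraic integers containing p, and B a p-block of the finite group G with an abelian defect group D of order p^d. If D has rank 2 (its least number of generators is 2) then B contains at most p^d irreducible characters; if D has rank 3 then the number k of irreducible characters in B satisfies k^3 ≤ p^(5d). -/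
theorem result {G : Type*} [Group G] [Finite G] (p : ℕ) [Fact p.Prime] (M : Ideal Cfsg.AlgInt) (hM : Cfsg.IsPModular p M) (B : Set (Cfsg.IrrCharacter G)) (hB : Cfsg.IsPBlock M B) (D : Subgroup G) (hBD : Cfsg.IsDefectGroup p M B D) (hab : IsMulCommutative D) (d : ℕ) (hDd : Nat.card D = p ^ d) : (Group.rank D = 2 → Nat.card B ≤ p ^ d) ∧ (Group.rank D = 3 → Nat.card B ^ 3 ≤ p ^ (5 * d)) := by
  classical
  have := hM.2.1
  have := Fintype.ofFinite G
  obtain ⟨T, hT, hc⟩ := Group.rank_spec D
  refine ⟨fun h => ?_, fun h => ?_⟩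
  · obtain ⟨x, y, -, rfl⟩ := Finset.card_eq_two.1 (hT.trans h)
    rw [← hDd]
    exact H35.card_le_of_quot_cyclic hM hB hBD x.2
      (fun d hd => congrArg Subtype.val (hab.1.1 x ⟨d, hd⟩)) y (by simpa using hc)
  · obtain ⟨x, y, z, -, -, -, rfl⟩ := Finset.card_eq_three.1 (hT.trans h)
    rw [mul_comm, pow_mul, ← hDd]
    simp only [Finset.coe_insert, Finset.coe_singleton] at hc
    rcases le_total (orderOf y) (orderOf x) with h1 | h1 <;>
      rcases le_total (orderOf z) (orderOf x) with h2 | h2 <;>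
      rcases le_total (orderOf z) (orderOf y) with h3 | h3 <;>
    first
      | exact aux hM hB hBD hab hc (by omega) (by omega)
      | exact aux hM hB hBD hab (Set.insert_comm x y _ ▸ hc) (by omega) (by omega)
      | exact aux hM hB hBD hab (x := z) (y := x) (z := y)
          (by rwa [Set.insert_comm z, Set.pair_comm z]) (by omega) (by omega)

end Cfsg.Agent.S4697
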