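import Cfsg.Statements.S4704
import Cfsg.Agent.H2.PrMain

set_option autoImplicit false
open Cfsg

namespace Cfsg.Agent.S4704

/-- Let G be a finite group with centre Z, p > 7 a prime, and suppose a Sylow p-subgroup of G has order p and is not normal. Let ζ be a faithful irreducible character of G and t the number of conjugacy classes of G consisting of elements of order p. Then one of the following holds: G/Z is isomorphic to PSL(2, p), ζ has degree (p + 1)/2 or (p − 1)/2 and t = 2; or ζ has degree at least p − 1; or ζ has degree at least p + 3/2 − √(p + 5/4) and p ≤ t^2 − 3t + 1. -/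
theorem result {G : Type*} [Group G] [Finite G] (p : ℕ) [Fact p.Prime] (hp : 7 < p) (P : Sylow p G) (hP : Nat.card P = p) (hnn : ¬ (P : Subgroup G).Normal) (ζ : G → ℂ) (hζ : Cfsg.IsIrrCharacter G ζ) (hfaith : ∀ g : G, ζ g = ζ 1 → g = 1) (t : ℕ) (ht : Nat.card {c : ConjClasses G // ∃ g : G, ConjClasses.mk g = c ∧ orderOf g = p} = t) : ((∃ (F : Type) (_ : Field F) (_ : Fintype F), Fintype.card F = p ∧ Nonempty (G ⧸ Subgroup.center G ≃* Matrix.ProjectiveSpecialLinearGroup (Fin 2) F)) ∧ (2 * Cfsg.charDegree ζ = p + 1 ∨ 2 * Cfsg.charDegree ζ = p - 1) ∧ t = 2) ∨ p - 1 ≤ Cfsg.charDegree ζ ∨ ((p : ℝ) + 3 / 2 - Real.sqrt ((p : ℝ) + 5 / 4) ≤ (Cfsg.charDegree ζ : ℝ) ∧ (p : ℤ) ≤ (t : ℤ) ^ 2 - 3 * t + 1) := by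
    by_cases hd : Cfsg.charDegree ζ + 1 < p
    swap
    · exact Or.inr (Or.inl (by omega))
    have h0 := H2.PR.t_mul hP
    rw [ht] at h0
    generalize he : (H39.Cen (P : Subgroup G)).relIndex (H39.Nor (P : Subgroup G)) = e at h0
    rcases H2.PR.cases hp hP hnn hζ (H28.charKer_eq_bot_of_forall hfaith) hd he with
        ⟨h1, h2, h3⟩ | ⟨s, h1, h2, h3, h4⟩
    · exact Or.inl ⟨⟨ZMod p, inferInstance, inferInstance, ZMod.card p, h1⟩, h2,
        Nat.eq_of_mul_eq_mul_right (show 0 < e by omega) (by omega)⟩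
    obtain rfl : s = t := Nat.eq_of_mul_eq_mul_left (show 0 < e by omega)
      (by rw [mul_comm e t]; omega)
    refine Or.inr (Or.inr ⟨?_, by nlinarith⟩)
    have h5 : (p : ℝ) = e * s + 1 := by exact_mod_cast h1
    have h6 : (Cfsg.charDegree ζ : ℝ) + e = p := by exact_mod_cast h2
    have h7 : (e : ℝ) + 3 ≤ s := by exact_mod_cast h3
    have h8 : (e : ℝ) + 3 / 2 ≤ Real.sqrt ((p : ℝ) + 5 / 4) :=
      Real.le_sqrt_of_sq_le (by nlinarith [mul_le_mul_of_nonneg_left h7 e.cast_nonneg])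
    linarith

end Cfsg.Agent.S4704
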