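import Cfsg.Statements.S4708
import Cfsg.Agent.H38.CoverS
import Cfsg.Agent.H41.Columns

set_option autoImplicit false
open Cfsg

namespace Cfsg.Agent.S4708

open H28 H35 H38 in
theorem sum_sq_le {N G : Type*} [Group N] [Group G] [Fintype N] (ι : N →* G)
    (χ : IrrCharacter G) [DecidablePred fun θ : IrrCharacter N => Over ι χ.1 θ.1] :
    ∑ θ : IrrCharacter N with Over ι χ.1 θ.1, charDegree θ.1 ^ 2 ≤ charDegree χ.1 ^ 2 := by
  obtain ⟨a, ha, h⟩ := (χ.2.isCharacter.comp ι).exists_nat_coeffs
  have h1 : charDegree χ.1 = ∑ θ : IrrCharacter N, a θ * charDegree θ.1 := by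
    have h2 := congrFun h 1
    simp only [map_one, Finset.sum_apply, Pi.smul_apply, smul_eq_mul, ← coe_deg] at h2
    exact_mod_cast h2
  refine (Finset.sum_sq_le_sq_sum_of_nonneg fun _ _ => Nat.zero_le _).trans
    (Nat.pow_le_pow_left ?_ 2)
  rw [h1]
  refine (Finset.sum_le_sum fun θ hθ => ?_).trans
    (Finset.sum_le_sum_of_subset (Finset.filter_subset _ _))
  refine Nat.le_mul_of_pos_left _ (Nat.pos_of_ne_zero fun h0 => (Finset.mem_filter.1 hθ).2 ?_)
  rw [ha, h0, Nat.cast_zero]

open H28 H35 in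
theorem card_mul_blockCoeff {G : Type*} [Group G] [Finite G] (A : Set (IrrCharacter G)) :
    (Nat.card G : ℂ) * blockCoeff A 1 = ((∑ᶠ χ ∈ A, charDegree (χ : G → ℂ) ^ 2 : ℕ) : ℂ) := by
  classical
  rw [blockCoeff, mul_inv_cancel_left₀ (card_ne_zero' G), H41.finsum_mem_irr, H41.finsum_mem_irr]
  push_cast
  refine Finset.sum_congr rfl fun χ _ => ?_
  split_ifs
  · rw [χ.2.isCharacter.conj_apply_one, coe_deg, sq]
  · rfl

/-- Let p be a prime, M a maximal ideal of the algebraic integers containing p, G a finite group and H a normal subgroup. Write λ(X) for the sum of the squares of the degrees of the irreducible characters in the principal p-block of a group X. Then λ(H) ≤ λ(G) ≤ [G : H]·λ(H). -/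
theorem result {G : Type*} [Group G] [Finite G] (p : ℕ) [Fact p.Prime] (M : Ideal Cfsg.AlgInt) (hM : Cfsg.IsPModular p M) (H : Subgroup G) [H.Normal] : (∑ᶠ θ ∈ Cfsg.principalBlock M H, Cfsg.charDegree (θ : H → ℂ) ^ 2) ≤ (∑ᶠ χ ∈ Cfsg.principalBlock M G, Cfsg.charDegree (χ : G → ℂ) ^ 2) ∧ (∑ᶠ χ ∈ Cfsg.principalBlock M G, Cfsg.charDegree (χ : G → ℂ) ^ 2) ≤ H.index * ∑ᶠ θ ∈ Cfsg.principalBlock M H, Cfsg.charDegree (θ : H → ℂ) ^ 2 := by
  classical
  have := hM.2.1
  have := Fintype.ofFinite H
  have hc : H38.Covers H.subtype (principalBlock M G) (principalBlock M H) :=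
    ⟨_, H34.one_mem_principalBlock, _, H34.one_mem_principalBlock, H38.over_one⟩
  constructor
  · rw [H41.finsum_mem_irr, H41.finsum_mem_irr]
    calc _ ≤ ∑ θ : IrrCharacter H, ∑ χ : IrrCharacter G,
          if χ ∈ principalBlock M G ∧ H38.Over H.subtype χ.1 θ.1 then charDegree θ.1 ^ 2
            else 0 := by
          refine Finset.sum_le_sum fun θ _ => ?_
          split_ifs with hθ
          · obtain ⟨χ, h1, h2⟩ := hc.exists_over H34.isPBlock_principalBlock
              H34.isPBlock_principalBlock hθ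
            refine le_trans ?_ (Finset.single_le_sum (fun _ _ => Nat.zero_le _) (Finset.mem_univ χ))
            rw [if_pos ⟨h1, h2⟩]
          · exact Nat.zero_le _
      _ ≤ _ := by
          rw [Finset.sum_comm]
          refine Finset.sum_le_sum fun χ _ => ?_
          split_ifs with hχ
          · simp only [hχ, true_and]
            rw [← Finset.sum_filter]
            exact sum_sq_le H.subtype χ
          · simp [hχ]
  · have hinv : (H38.NEmb.ofNormal H).GInv (principalBlock M H) := fun g θ hθ =>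
      ((H38.NEmb.ofNormal H).sameBlock_cjI g (θ := ⟨_, H28.isIrrCharacter_one⟩)).2 hθ
    have h1 := congrArg (fun a => a.coeff ((H38.NEmb.ofNormal H).ι 1)) hinv.push_fC
    simp only [H38.coeff_push_apply (H38.NEmb.ofNormal H).inj, H34.coeff_fC] at h1
    rw [map_one] at h1
    have h2 : ∑ᶠ χ ∈ (H38.NEmb.ofNormal H).above (principalBlock M H),
        charDegree (χ : G → ℂ) ^ 2 =
        H.index * ∑ᶠ θ ∈ principalBlock M H, charDegree (θ : H → ℂ) ^ 2 := by
      have h3 := card_mul_blockCoeff ((H38.NEmb.ofNormal H).above (principalBlock M H))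
      rw [← h1, ← H.index_mul_card, Nat.cast_mul, mul_assoc, card_mul_blockCoeff] at h3
      exact_mod_cast h3.symm
    rw [← h2, H41.finsum_mem_irr, H41.finsum_mem_irr]
    refine Finset.sum_le_sum fun χ _ => ?_
    split_ifs with h4 h5
    · exact le_rfl
    · exact absurd ((H38.NEmb.covers_iff_subset (E := H38.NEmb.ofNormal H)
        H34.isPBlock_principalBlock (H38.bcl_of_isPBlock H34.isPBlock_principalBlock)).1 hc h4) h5
    · exact Nat.zero_le _
    · exact le_rfl

end Cfsg.Agent.S4708
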