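import Cfsg.Statements.S4711
import Cfsg.Agent.H44.CD6
import Cfsg.Agent.H38.PrinCov
import Cfsg.Agent.H38.CoverS
import Cfsg.Agent.H18.PSolv
import Cfsg.Agent.H18.Elt

set_option autoImplicit false
open Cfsg

namespace Cfsg.Agent.S4711

open H28 H37 H38 Subgroup

section
variable {R Q : Type*} [Group R] [Fintype R] [Group Q] [Fintype Q] {p : ℕ} {M : Ideal AlgInt}
  [M.IsMaximal]

theorem sum_pReg (hM : IsPModular p M) (ι : Q →* R) (hι : Function.Injective ι) (hQ : IsPGroup p Q)
    (h : ∀ ψ ∈ principalBlock M R, Over ι ψ.1 (fun _ => 1) → ψ.1 = fun _ => 1)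
    {ψ : IrrCharacter R} (hψ : ψ ∈ principalBlock M R) :
    ψ.1 1 = (Nat.card R : ℂ)⁻¹ * (∑ y, pRegularPart p ψ.1 y) * Nat.card Q := by
  classical
  have := Fact.mk hM.1
  have e1 := blockPart_pRegularPart hM (isPBlock_principalBlock (M := M) (G := R)) ψ.1
  rw [blockPart_irr, if_pos hψ, blockPart_eq_sum'] at e1
  have e2 : ∑ x : Q, pRegularPart p ψ.1 (ι x) = ψ.1 1 := by
    rw [Finset.sum_eq_single (1 : Q) (fun x _ hx => ?_) (by simp), map_one]
    · exact if_pos (by rw [IsPRegular, orderOf_one]; exact hM.1.not_dvd_one)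
    · refine if_neg fun k => k ?_
      rw [orderOf_injective ι hι]
      exact hQ.dvd_orderOf hx
  rw [← e2]
  conv_lhs => rw [← e1]
  simp only [Finset.sum_apply, Pi.smul_apply, smul_eq_mul]
  rw [Finset.sum_comm, Finset.sum_eq_single (⟨fun _ => 1, isIrrCharacter_one⟩ : IrrCharacter R)
    (fun χ hχ hne => ?_) (fun k => absurd (by simpa using one_mem_principalBlock) k)]
  · simp [classInner, mul_comm]
  · have : classInner (fun n => χ.1 (ι n)) (fun _ => 1) = 0 := by_contra fun k =>
      hne (Subtype.ext (h χ (by simpa using hχ) k))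
    rw [← Finset.mul_sum]
    refine mul_eq_zero_of_right _ ?_
    simpa [classInner] using this

theorem mem_core (hM : IsPModular p M) (ι : Q →* R) (hι : Function.Injective ι) (hQ : IsPGroup p Q)
    (h : ∀ ψ ∈ principalBlock M R, Over ι ψ.1 (fun _ => 1) → ψ.1 = fun _ => 1)
    {y : R} (hy : ¬ p ∣ orderOf y) : y ∈ pPrimeCore p R := by
  classical
  rw [← blockKerSub_principalBlock hM, mem_blockKerSub]
  intro ψ hψ
  have e1 := sum_pReg hM ι hι hQ h hψ
  have e2 := sum_pReg hM ι hι hQ h one_mem_principalBlock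
  have n1 : (Nat.card R : ℂ) ≠ 0 := Nat.cast_ne_zero.2 Nat.card_pos.ne'
  have n2 : (Nat.card Q : ℂ) ≠ 0 := Nat.cast_ne_zero.2 Nat.card_pos.ne'
  have e3 : ∑ y, (ψ.1 1 * pRegularPart p (fun _ => 1) y - pRegularPart p ψ.1 y) = 0 := by
    rw [Finset.sum_sub_distrib, ← Finset.mul_sum]
    simp only at e2
    field_simp at e1 e2
    exact mul_left_cancel₀ n2 (by linear_combination e1 - ψ.1 1 * e2)
  have e4 := congrArg Complex.re e3
  rw [Complex.re_sum, Complex.zero_re, Finset.sum_eq_zero_iff_of_nonneg fun y _ => by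
    unfold pRegularPart
    split_ifs
    · simpa using ψ.2.isCharacter.re_le y
    · simp] at e4
  have e5 := e4 y (Finset.mem_univ y)
  rw [pRegularPart, pRegularPart, if_pos (show IsPRegular p y from hy),
    if_pos (show IsPRegular p y from hy), mul_one, Complex.sub_re, sub_eq_zero] at e5
  exact ψ.2.isCharacter.mem_charKer_iff_re.2 e5.symm

end

/-- Let p be a prime, M a maximal ideal of the algebraic integers containing p, G a finite group, P a Sylow p-subgroup and N = N_G(P). Then G has p-length 1 (G = O_{p',p,p'}(G)) if and only if every irreducible character in the principal p-block of G restricts to an irreducible character of N. -/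
theorem result {G : Type*} [Group G] [Finite G] (p : ℕ) [Fact p.Prime] (M : Ideal Cfsg.AlgInt) (hM : Cfsg.IsPModular p M) (P : Sylow p G) : Cfsg.PLengthLE p 1 G ↔ ∀ χ ∈ Cfsg.principalBlock M G, Cfsg.IsIrrCharacter ↥(Subgroup.normalizer ((P : Subgroup G) : Set G)) (fun n : ↥(Subgroup.normalizer ((P : Subgroup G) : Set G)) => (χ : G → ℂ) n) := by
  classical
  have := hM.2.1
  refine ⟨fun h χ hχ => H44.irr_res_of_sup χ.2 (eq_top_iff.2 ?_), fun h => ?_⟩
  · rw [H18.pLengthLE_succ_iff, H18.pLengthLE_zero_iff, ← index_eq_card] at h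
    have : (pPrimePCore p G).Normal := by unfold pPrimePCore; infer_instance
    obtain ⟨Q, hQ⟩ := H18.exists_sylow_le_of_not_dvd (hM.1.coprime_iff_not_dvd.1 h.symm)
    obtain ⟨g, rfl⟩ := MulAction.exists_smul_eq G P Q
    have h1 : (P : Subgroup G) ≤ pPrimePCore p G := fun x hx => by
      simpa [mul_assoc] using this.conj_mem _ (hQ (smul_mem_pointwise_smul x (MulAut.conj g) _ hx)) g⁻¹
    rw [← P.normalizer_sup_eq_top' h1]
    refine sup_le le_sup_right ?_
    have h2 : pCore p (G ⧸ pPrimeCore p G) ≤ (P : Subgroup G).map (QuotientGroup.mk' _) :=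
      (H38.isPGroup_pCore p _).le_sylow_of_normal (P.mapSurjective (QuotientGroup.mk'_surjective _))
    refine (comap_mono h2).trans ?_
    rw [comap_map_eq, QuotientGroup.ker_mk']
    exact sup_le (le_normalizer.trans le_sup_right) ((pPrimeCore_le_charKer hM hχ).trans le_sup_left)
  · have := Fintype.ofFinite G
    have hPR : (P : Subgroup G) ≤ normalClosure (P : Subgroup G) := le_normalClosure
    have key : ∀ y : normalClosure ((P : Subgroup G) : Set G), ¬ p ∣ orderOf y → y ∈ pPrimeCore p _ :=
      fun y hy => mem_core hM (inclusion hPR) (inclusion_injective hPR) P.isPGroup' (fun ψ hψ ho => by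
        obtain ⟨χ, hχ, hov⟩ := Covers.exists_over (isPBlock_principalBlock (M := M))
          isPBlock_principalBlock (covers_principal _) hψ
        have h1 := Over.trans χ.2.isCharacter ψ.2 isIrrCharacter_one.isCharacter hov ho
        have h2 := (h χ hχ).le_charKer_of_classInner_ne_zero
          ((P : Subgroup G).subgroupOf (normalizer ((P : Subgroup G) : Set G))) (by
            have := (over_trI (subgroupOfEquivOfLe (le_normalizer (H := (P : Subgroup G))))).2 h1
            exact this)
        rw [χ.2.isCharacter.charKer_restrict] at h2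
        have := χ.2.charKer_normal
        have h3 : normalClosure ((P : Subgroup G) : Set G) ≤ charKer χ.1 :=
          normalClosure_le_normal fun x hx => h2 (x := ⟨x, le_normalizer hx⟩) hx
        refine ψ.2.charKer_eq_top_iff.1 (eq_top_iff.2 (le_trans ?_
          ((χ.2.isCharacter.restrict _).charKer_le_of_constituent ψ.2 hov)))
        rw [χ.2.isCharacter.charKer_restrict]
        exact fun x _ => h3 x.2) hy
    refine H18.pLengthLE_of_index_coprime (normalClosure ((P : Subgroup G) : Set G))
      (hM.1.coprime_iff_not_dvd.2 fun k => P.not_dvd_index (k.trans (index_dvd_of_le hPR))).symm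
      (H18.pLengthLE_of_quotient_coprime (pPrimeCore p _) (H2.coprime_card_pPrimeCore p _)
        (H18.pLengthLE_one_of_isPGroup fun x => ?_))
    obtain ⟨x, rfl⟩ := QuotientGroup.mk_surjective x
    refine ⟨(orderOf x).factorization p, ?_⟩
    rw [← QuotientGroup.mk_pow, QuotientGroup.eq_one_iff]
    refine key _ ?_
    rw [orderOf_pow_of_dvd (pow_pos hM.1.pos _).ne' (Nat.ordProj_dvd _ _)]
    exact Nat.not_dvd_ordCompl hM.1 (orderOf_pos x).ne'

end Cfsg.Agent.S4711
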