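import Cfsg.Statements.S4712
import Cfsg.Agent.H34.PRat

set_option autoImplicit false
open Cfsg

namespace Cfsg.Agent.S4712

/-- Let p be an odd prime, M a maximal ideal of the algebraic integers containing p, G a finite group of order n with p-part p^a, and B a p-block of G. Call an irreducible character χ p-rational when χ(g^k) = χ(g) for every g and every k coprime to n with k ≡ 1 modulo n/p^a (χ is fixed by the Galois automorphisms fixing the roots of unity of order prime to p). Then the number of p-rational irreducible characters in B is at least the p-regular rank of B (the number of irreducible Brauer characters in B). -/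
theorem result {G : Type*} [Group G] [Finite G] (p : ℕ) [Fact p.Prime] (hodd : p ≠ 2) (M : Ideal Cfsg.AlgInt) (hM : Cfsg.IsPModular p M) (B : Set (Cfsg.IrrCharacter G)) (hB : Cfsg.IsPBlock M B) : Cfsg.blockRank p B ≤ Nat.card {χ : Cfsg.IrrCharacter G // χ ∈ B ∧ ∀ k : ℕ, Nat.Coprime k (Nat.card G) → k ≡ 1 [MOD Nat.card G / p ^ (Nat.card G).factorization p] → ∀ g : G, (χ : G → ℂ) (g ^ k) = (χ : G → ℂ) g} := by
  classical
  have := hM.2.1
  have := Fintype.ofFinite G
  have hp : p.Prime := Fact.out
  set n := Nat.card G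
  set a := n.factorization p
  set m := n / p ^ a with hm
  have n0 : n ≠ 0 := Nat.card_pos.ne'
  have hn : p ^ a * m = n := Nat.ordProj_mul_ordCompl_eq_self n p
  have hc : (p ^ a).Coprime m := (Nat.coprime_ordCompl hp n0).pow_left a
  have : NeZero (p ^ a) := ⟨pow_ne_zero _ hp.ne_zero⟩
  obtain ⟨ζ, hζ⟩ := (ZMod.isCyclic_units_of_prime_pow p hp hodd a).exists_monoid_generator
  obtain ⟨k, k1, k2⟩ := Nat.chineseRemainder hc (ζ : ZMod (p ^ a)).val 1
  have hk : k.Coprime n := by
    rw [← hn]
    refine Nat.Coprime.mul_right ?_ ?_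
    · rw [Nat.Coprime, k1.gcd_eq]; exact ZMod.val_coe_unit_coprime ζ
    · rw [Nat.Coprime, k2.gcd_eq]; exact Nat.gcd_one_left _
  refine (H34.Pim.rank_le_fixed hM hB hk fun y hy => ?_).trans (le_of_eq (Nat.card_congr
    (Equiv.subtypeEquivRight fun χ => and_congr_right fun _ => ⟨fun h l l1 l2 g => ?_,
      fun h => h k hk k2⟩)))
  · have h1 : orderOf y ∣ m := (((hp.coprime_iff_not_dvd.2 hy).pow_left a).symm).dvd_of_dvd_mul_left
      (hn ▸ orderOf_dvd_natCard y)
    rw [pow_eq_pow_iff_modEq.2 (k2.of_dvd h1), pow_one]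
  · obtain ⟨j, hj⟩ := hζ (ZMod.unitOfCoprime l (l1.coprime_dvd_right ⟨m, hn.symm⟩))
    have h1 : k ^ j ≡ l [MOD n] := by
      rw [← hn, ← Nat.modEq_and_modEq_iff_modEq_mul hc]
      refine ⟨?_, by simpa using (k2.pow j).trans (by simpa using l2.symm)⟩
      rw [← ZMod.natCast_eq_natCast_iff, Nat.cast_pow, (ZMod.natCast_eq_natCast_iff _ _ _).2 k1,
        ZMod.natCast_zmod_val, ← Units.val_pow_eq_pow_val]
      exact congrArg Units.val hj
    rw [← pow_eq_pow_iff_modEq.2 (h1.of_dvd (orderOf_dvd_natCard g))]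
    clear hj h1
    induction j with
    | zero => simp
    | succ j ih => rw [pow_succ, pow_mul, h, ih]

end Cfsg.Agent.S4712
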