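import Cfsg.Statements.S4714
import Cfsg.Agent.H41.CenDef

set_option autoImplicit false
open Cfsg

namespace Cfsg.Agent.S4714

/-- Let p be a prime, M a maximal ideal of the algebraic integers containing p, D a p-subgroup of the finite group G with G = D·C_G(D), and B a p-block with defect group D. Let χ be a member of B having D in its kernel (there is exactly one, the canonical character of B). Then the irreducible characters in B are exactly the functions θ on G for which there is an irreducible character ζ of D such that θ(yx) = ζ(y)χ(x) whenever y ∈ D, x has order prime to p and x commutes with y, and θ(z) = 0 whenever the p-part of z does not lie in D. -/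
theorem result {G : Type*} [Group G] [Finite G] (p : ℕ) [Fact p.Prime] (M : Ideal Cfsg.AlgInt) (hM : Cfsg.IsPModular p M) (D : Subgroup G) (hD : IsPGroup p D) (hG : D ⊔ Subgroup.centralizer (D : Set G) = ⊤) (B : Set (Cfsg.IrrCharacter G)) (hB : Cfsg.IsPBlock M B) (hBD : Cfsg.IsDefectGroup p M B D) (χ : Cfsg.IrrCharacter G) (hχ : χ ∈ B) (hχD : ∀ y ∈ D, (χ : G → ℂ) y = (χ : G → ℂ) 1) : (∀ θ : Cfsg.IrrCharacter G, θ ∈ B ↔ ∃ ζ : Cfsg.IrrCharacter D, (∀ (y : D) (x : G), ¬ p ∣ orderOf x → Commute (y : G) x → (θ : G → ℂ) ((y : G) * x) = (ζ : D → ℂ) y * (χ : G → ℂ) x) ∧ (∀ z : G, (∀ y : G, Cfsg.IsPPart p z y → y ∉ D) → (θ : G → ℂ) z = 0)) ∧ ∀ ζ : Cfsg.IrrCharacter D, ∃ θ ∈ B, (∀ (y : D) (x : G), ¬ p ∣ orderOf x → Commute (y : G) x → (θ : G → ℂ) ((y : G) * x) = (ζ : D → ℂ) y * (χ : G → ℂ) x) ∧ (∀ z : G, (∀ y : G, Cfsg.IsPPart p z y → y ∉ D) → (θ : G → ℂ) z = 0) := by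
  have := hM.2.1
  have hk : D ≤ H28.charKer (χ : G → ℂ) :=
    (H28.Cfsg.IsCharacter.le_charKer_iff (H28.Cfsg.IsIrrCharacter.isCharacter χ.2)).2 hχD
  refine ⟨fun θ => ⟨fun hθ => ?_, ?_⟩, fun ζ => ?_⟩
  · obtain ⟨ζ, h⟩ := H41.exists_secForm hM hG hB hBD hχ hk hθ
    exact ⟨ζ, fun y x hx _ => h.mul y x hx, h.zero⟩
  · rintro ⟨ζ, h1, h2⟩
    obtain ⟨θ', hθ', h⟩ := H41.exists_mem_secForm hM hG hB hBD hχ hk ζ
    have h3 : H41.SecForm p D θ ζ χ := ⟨fun y x hx => h1 y x hx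
      (H41.mem_centralizer_of_sup_eq_top hM.1 hD hG hx y y.2), h2⟩
    rwa [Subtype.ext (h3.eq hM.1 h)]
  · obtain ⟨θ, hθ, h⟩ := H41.exists_mem_secForm hM hG hB hBD hχ hk ζ
    exact ⟨θ, hθ, fun y x hx _ => h.mul y x hx, h.zero⟩

end Cfsg.Agent.S4714
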