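import Cfsg.Statements.S4715
import Cfsg.Agent.H34.HeightBd

set_option autoImplicit false
open Cfsg

namespace Cfsg.Agent.S4715

/-- Let p be a prime, M a maximal ideal of the algebraic integers containing p, B a p-block of the finite group G with defect group D of order p^d, H = D·C_G(D), b a block of H inducing B, T the stabilizer of b in N_G(D) and e = [T : H] the inertial index of B; let n be the integer with p^n ≤ e < p^(n+1) and p^c the order of the centre of D. Then every irreducible character in B has height h with h + c ≤ n + d. -/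
theorem result {G : Type*} [Group G] [Finite G] (p : ℕ) [Fact p.Prime] (M : Ideal Cfsg.AlgInt) (hM : Cfsg.IsPModular p M) (B : Set (Cfsg.IrrCharacter G)) (hB : Cfsg.IsPBlock M B) (D : Subgroup G) (hBD : Cfsg.IsDefectGroup p M B D) (d : ℕ) (hDd : Nat.card D = p ^ d) (H : Subgroup G) (hH : H = D ⊔ Subgroup.centralizer (D : Set G)) (b : Set (Cfsg.IrrCharacter H)) (hind : Cfsg.IsInducedBlock M H b B) (T : Subgroup G) (hT : ∀ g : G, g ∈ T ↔ (g ∈ Subgroup.normalizer (D : Set G) ∧ ∀ θ ∈ b, ∀ θ' : Cfsg.IrrCharacter H, (∀ h h' : H, (h' : G) = g * h * g⁻¹ → (θ' : H → ℂ) h' = (θ : H → ℂ) h) → θ' ∈ b)) (e : ℕ) (he : H.relIndex T = e) (n : ℕ) (hn : p ^ n ≤ e ∧ e < p ^ (n + 1)) (c : ℕ) (hc : Nat.card (Subgroup.center D) = p ^ c) : ∀ χ ∈ B, Cfsg.blockHeight p B (χ : G → ℂ) + c ≤ n + d := by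
  have := hM.2.1
  have := H35.charP_F hM
  have := Fintype.ofFinite G
  have hp : p.Prime := hM.1
  subst hH
  intro χ hχ
  have hDp := H36.isPGroup_of_isDefectGroup hBD
  have hmax : H39.MaxP p ⊤ (H34.eB M B) D (H36.eS M _ b) :=
    ⟨H39.blk_eB hB, ⟨hDp, le_top, (H36.isPrim_sup_cen_iff' hDp).1 (H36.isPrim_eS hind.1),
      (H36.isInducedBlock_iff_br hM hDp le_sup_left le_sup_right (H36.sup_cen_le_nor _) hind.1
        hB).1 hind⟩, (H36.isDefectGroup_iff hM hB).1 hBD⟩
  have hTe : T = H39.St ⊤ D (H36.eS M _ b) := by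
    ext g
    rw [hT]
    exact ⟨fun h => ⟨⟨trivial, h.1⟩,
      (H38.stab_cond_iff' (H36.nor_le_nor_sup_cen D h.1) hind.1).1 h.2⟩,
      fun h => ⟨h.1.2, (H38.stab_cond_iff' (H36.nor_le_nor_sup_cen D h.1.2) hind.1).2 h.2⟩⟩
  have h1 := H34.card_center_mul_le hM hB hmax hχ
  have h2 : Nat.card ↥(D ⊓ H39.Cen D) = p ^ c := by
    rw [← hc, ← Subgroup.card_map_of_injective (K := Subgroup.center D) D.subtype_injective]
    congr 2
    ext x
    constructor
    · rintro ⟨h1, h2⟩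
      exact ⟨⟨x, h1⟩, Subgroup.mem_center_iff.2 fun g => Subtype.ext (h2 g g.2), rfl⟩
    · rintro ⟨y, hy, rfl⟩
      exact ⟨y.2, fun g hg => congrArg Subtype.val (Subgroup.mem_center_iff.1 hy ⟨g, hg⟩)⟩
  rw [← hTe, he, h2, ← H36.card_of_isDefectGroup hM hB hBD, hDd, ← pow_add] at h1
  have h3 : p ^ (c + blockHeight p B (χ : G → ℂ)) < p ^ (n + 1 + d) := by
    rw [pow_add p (n + 1)]
    exact h1.trans_lt (Nat.mul_lt_mul_of_pos_right hn.2 (pow_pos hp.pos _))
  have := (Nat.pow_lt_pow_iff_right hp.one_lt).1 h3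
  omega

end Cfsg.Agent.S4715
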