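import Cfsg.Statements.S4717
import Cfsg.Agent.H41.LocDefect
import Cfsg.Agent.H37.ThirdMain

set_option autoImplicit false
open Cfsg

namespace Cfsg.Agent.S4717

/-- Let p be a prime, M a maximal ideal of the algebraic integers containing p, and r a natural number; say that a finite group X has deficiency class r when X has no non-principal p-block of defect ≥ r. If G has deficiency class r then so does the centralizer of every p-element of G; conversely, if r > 0 and the centralizer of every element of order p has deficiency class r, then G has deficiency class r. -/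
theorem result {G : Type*} [Group G] [Finite G] (p : ℕ) [Fact p.Prime] (M : Ideal Cfsg.AlgInt) (hM : Cfsg.IsPModular p M) (r : ℕ) : ((∀ B' : Set (Cfsg.IrrCharacter G), Cfsg.IsPBlock M B' → B' ≠ Cfsg.principalBlock M G → Cfsg.blockDefect p B' < r) → ∀ y : G, (∃ k : ℕ, orderOf y = p ^ k) → (∀ B' : Set (Cfsg.IrrCharacter ↥(Subgroup.centralizer ({y} : Set G))), Cfsg.IsPBlock M B' → B' ≠ Cfsg.principalBlock M ↥(Subgroup.centralizer ({y} : Set G)) → Cfsg.blockDefect p B' < r)) ∧ (0 < r → (∀ y : G, orderOf y = p → (∀ B' : Set (Cfsg.IrrCharacter ↥(Subgroup.centralizer ({y} : Set G))), Cfsg.IsPBlock M B' → B' ≠ Cfsg.principalBlock M ↥(Subgroup.centralizer ({y} : Set G)) → Cfsg.blockDefect p B' < r)) → (∀ B' : Set (Cfsg.IrrCharacter G), Cfsg.IsPBlock M B' → B' ≠ Cfsg.principalBlock M G → Cfsg.blockDefect p B' < r)) := by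
  have := hM.2.1
  refine ⟨fun h y hy b hb hne => ?_, fun hr h B hB hne => ?_⟩
  · obtain ⟨B, hB⟩ := (H41.isSec_centralizer hy).exists_isInducedBlock hM hb
    refine (H41.blockDefect_le_of_induced hM hB).trans_lt (h B hB.2.1 ?_)
    rintro rfl
    exact hne ((H37.third_main hM _ ⟨_, hB⟩).1 hB)
  · obtain ⟨D, hD⟩ := H34.exists_isDefectGroup p hB
    by_cases hD1 : D = ⊥
    · rwa [(H36.blockDefect_eq_zero_iff hM hB hD).2 hD1]
    obtain ⟨y, hyD, hy, hc⟩ :=
      H41.exists_central_orderOf_eq (H36.isPGroup_of_isDefectGroup hD) hD1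
    have hs := H41.isSec_centralizer (p := p) (u := y) ⟨1, by rw [hy, pow_one]⟩
    obtain ⟨b, hb, hbD⟩ := hs.exists_induced_isDef hM hB hD hyD
      fun d hd => (hs.mem_iff d).2 (hc d hd)
    have h1 := H41.isDef_card_eq hM hb.1 hbD
    rw [H36.card_of_isDefectGroup hM hB hD] at h1
    rw [Nat.pow_right_injective hM.1.two_le h1]
    refine h y hy b hb.1 ?_
    rintro rfl
    exact hne (H36.induced_unique hb ((H37.third_main hM _ ⟨_, hb⟩).2 rfl))

end Cfsg.Agent.S4717
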