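import Cfsg.Statements.S4719
import Cfsg.Agent.H41.FourBound
import Cfsg.Agent.S4717
import Cfsg.Agent.H41.CenQuot
import Cfsg.Agent.H41.Landau
import Cfsg.Agent.H35.BF
import Cfsg.Agent.H36.DefectCard

set_option autoImplicit false
universe u
open Cfsg

namespace Cfsg.Agent.S4719

/-- For every natural number a there is a bound N with the following property. Let G be a finite group with Sylow 2-subgroups of order 2^a and r ≥ 0 such that G has no non-principal 2-block (relative to a maximal ideal of the algebraic integers containing 2) of defect ≥ r, and suppose a Sylow 2-subgroup of G contains an elementary abelian subgroup of order 2^(r+1). Then the order of G is at most N. -/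
theorem result (a : ℕ) : ∃ N : ℕ, ∀ (G : Type u) [Group G] [Finite G] (M : Ideal Cfsg.AlgInt) (r : ℕ) (P : Sylow 2 G), Cfsg.IsPModular 2 M → Nat.card P = 2 ^ a → (∀ B : Set (Cfsg.IrrCharacter G), Cfsg.IsPBlock M B → B ≠ Cfsg.principalBlock M G → Cfsg.blockDefect 2 B < r) → (∃ E : Subgroup G, E ≤ (P : Subgroup G) ∧ IsMulCommutative E ∧ (∀ x ∈ E, x * x = 1) ∧ Nat.card E = 2 ^ (r + 1)) → Nat.card G ≤ N := by
  have key : ∀ a : ℕ, ∃ N : ℕ, ∀ (G : Type u) [Group G] [Finite G] (M : Ideal Cfsg.AlgInt) (r : ℕ)
      (E : Subgroup G), IsPModular 2 M → (Nat.card G).factorization 2 ≤ a →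
      (∀ B : Set (IrrCharacter G), IsPBlock M B → B ≠ principalBlock M G → blockDefect 2 B < r) →
      (∀ x ∈ E, ∀ y ∈ E, x * y = y * x) → (∀ x ∈ E, x * x = 1) → Nat.card E = 2 ^ (r + 1) →
      Nat.card G ≤ N := by
    intro a
    induction a with
    | zero =>
      refine ⟨0, fun G _ _ M r E _ ha _ _ _ hE => ?_⟩
      have := (Nat.prime_two.pow_dvd_iff_le_factorization (Nat.card_pos (α := G)).ne').1
        (hE ▸ E.card_subgroup_dvd_card)
      omega
    | succ a ih =>
      obtain ⟨N, hN⟩ := ih
      obtain ⟨N₀, hN₀⟩ := H41.landau.{u} (2 ^ (2 * (a + 1)) + 4)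
      obtain ⟨N₁, hN₁⟩ := H41.four_bound.{u} (N * 2) (a + 1)
      refine ⟨N₀ + N₁, fun G _ _ M r E hM ha h hc h2 hE => ?_⟩
      have := hM.2.1
      have := Fintype.ofFinite G
      rcases r with _ | r
      · refine (hN₀ G ?_).trans (Nat.le_add_right _ _)
        have h1 := H35.four_mul_card_le hM (H34.isPBlock_principalBlock (G := G))
        have h3 : principalBlock M G = Set.univ := Set.eq_univ_of_forall fun χ => by
          by_contra hχ
          refine Nat.not_lt_zero _ (h _ (H34.isPBlock_blockOf χ) fun e => hχ ?_)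
          exact e ▸ H34.self_mem_blockOf χ
        rw [H36.blockDefect_principalBlock hM.1, h3, Nat.card_univ,
          H28.card_irr_eq_card_conjClasses] at h1
        have := Nat.pow_le_pow_right two_pos (Nat.mul_le_mul_left 2 ha)
        omega
      have hcen : ∀ v ∈ E, orderOf v = 2 →
          Nat.card (Subgroup.centralizer ({v} : Set G)) ≤ N * 2 := by
        intro v hv hv2
        set C := Subgroup.centralizer ({v} : Set G) with hC
        have hEC : E ≤ C := fun x hx => Subgroup.mem_centralizer_singleton_iff.2 (hc x hx v hv)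
        set Z := Subgroup.zpowers (⟨v, hEC hv⟩ : C) with hZ
        have hZc : Z ≤ Subgroup.center C := by
          rw [hZ, Subgroup.zpowers_le, Subgroup.mem_center_iff]
          exact fun g => Subtype.ext (Subgroup.mem_centralizer_singleton_iff.1 g.2)
        have : Z.Normal := ⟨fun z hz g => by
          rwa [Subgroup.mem_center_iff.1 (hZc hz) g, mul_inv_cancel_right]⟩
        have hZ2 : Nat.card Z = 2 := by rw [hZ, Nat.card_zpowers, Subgroup.orderOf_mk, hv2]
        have hq := H41.pcq_of_le_center (p := 2) (IsPGroup.of_card (n := 1) hZ2) hZc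
        have h5 := Subgroup.card_eq_card_quotient_mul_card_subgroup Z
        rw [hZ2] at h5
        have h6 := (Nat.factorization_le_iff_dvd Nat.card_pos.ne' Nat.card_pos.ne').2
          C.card_subgroup_dvd_card 2
        have h7 := (S4717.result 2 M hM (r + 1)).1 h v ⟨1, hv2⟩
        rw [h5]
        refine Nat.mul_le_mul_right 2 (hN (C ⧸ Z) M r ((E.subgroupOf C).map (QuotientGroup.mk' Z))
          hM ?_ ?_ ?_ ?_ ?_)
        · rw [h5, Nat.factorization_mul Nat.card_pos.ne' two_ne_zero, Finsupp.add_apply,
            Nat.prime_two.factorization_self] at h6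
          omega
        · intro b hb hne
          obtain ⟨B, hB, rfl⟩ := hq.exists_qb_eq hM hb
          have h8 := h7 B hB (by rintro rfl; exact hne (hq.qb_principalBlock hM))
          rw [hq.blockDefect_eq hM hB, QuotientGroup.ker_mk', hZ2,
            Nat.prime_two.factorization_self] at h8
          omega
        · rintro _ ⟨x, hx, rfl⟩ _ ⟨y, hy, rfl⟩
          rw [← map_mul, ← map_mul]
          exact congrArg _ (Subtype.ext (hc x hx y hy))
        · rintro _ ⟨x, hx, rfl⟩
          rw [← map_mul, ← map_one (QuotientGroup.mk' Z)]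
          exact congrArg _ (Subtype.ext (h2 x hx))
        · have h8 := H41.card_comap_of_surjective (QuotientGroup.mk'_surjective Z)
            ((E.subgroupOf C).map (QuotientGroup.mk' Z))
          rw [Subgroup.comap_map_eq, QuotientGroup.ker_mk', sup_eq_left.2 (by
            rw [hZ, Subgroup.zpowers_le]; exact hv), hZ2,
            Nat.card_congr (Subgroup.subgroupOfEquivOfLe hEC).toEquiv, hE, pow_succ] at h8
          omega
      have h3 : 2 < Nat.card E := by
        rw [hE, pow_succ, pow_succ]
        have := Nat.one_le_two_pow (n := r)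
        omega
      have := Fintype.ofFinite E
      obtain ⟨x, y, z, hxy, hxz, hyz⟩ := Fintype.two_lt_card_iff.1 (Nat.card_eq_fintype_card (α := E) ▸ h3)
      have o : ∀ a b : E, a ≠ b → orderOf ((a : G) * b) = 2 := fun a b hab =>
        H85.ord2_iff.2 ⟨h2 _ (E.mul_mem a.2 b.2), fun e => hab (Subtype.ext
          (mul_left_cancel (a := (a : G)) (by rw [e, h2 a a.2])))⟩
      have e : (x : G) * y * (y * z) = x * z := by
        rw [mul_assoc, ← mul_assoc (y : G), h2 y y.2, one_mul]
      refine (hN₁ G (x * y) (y * z) ha ⟨o x y hxy, o y z hyz, e ▸ o x z hxz,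
        hcen _ (E.mul_mem x.2 y.2) (o x y hxy), hcen _ (E.mul_mem y.2 z.2) (o y z hyz),
        e ▸ hcen _ (E.mul_mem x.2 z.2) (o x z hxz)⟩).trans (Nat.le_add_left _ _)
  obtain ⟨N, hN⟩ := key a
  refine ⟨N, fun G _ _ M r P hM hP h ⟨E, _, hc, h2, hE⟩ => hN G M r E hM ?_ h
    (fun x hx y hy => Subgroup.mul_comm_of_mem_isMulCommutative E hx hy) h2 hE⟩
  rw [P.card_eq_multiplicity] at hP
  exact (Nat.pow_right_injective le_rfl hP).le

end Cfsg.Agent.S4719
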