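import Cfsg.Statements.S4720
import Cfsg.Agent.H41.Columns
import Cfsg.Agent.H33.Ind

set_option autoImplicit false
open Cfsg

namespace Cfsg.Agent.S4720

/-- Let p be a prime, M a maximal ideal of the algebraic integers containing p, P a p-subgroup of the finite group G, N a subgroup with P ≤ N ≤ N_G(P), and U a nonempty subset of P normalized by N such that an element of U and an element of P that are conjugate in G are already conjugate in N, and such that λ(C_G(y)) = w·#C_N(y) for every y ∈ U with one rational number w, where λ(X) denotes the sum of the squares of the degrees of the irreducible characters in the principal p-block of X. For a complex function θ on P and χ in the principal block of G put a_χ(θ) = #P⁻¹ Σ_{y ∈ P} χ(y) θ(y⁻¹). Then for generalized characters θ, η of P with θ vanishing outside U, Σ_χ a_χ(θ)·conj(a_χ(η)) = (w/#P²)·Σ_{y ∈ P} θ(y)·conj(Σ_{x ∈ N} η(x y x⁻¹)) (η extended by zero off P; the conjugates lie in P),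 the first sum over the principal p-block of G. -/
theorem result {G : Type*} [Group G] [Finite G] (p : ℕ) [Fact p.Prime] (M : Ideal Cfsg.AlgInt) (hM : Cfsg.IsPModular p M) (P : Subgroup G) (hP : IsPGroup p P) (N : Subgroup G) (hPN : P ≤ N) (hNN : N ≤ Subgroup.normalizer (P : Set G)) (U : Set G) (hUne : U.Nonempty) (hUP : U ⊆ (P : Set G)) (hUN : ∀ n ∈ N, ∀ u ∈ U, n * u * n⁻¹ ∈ U) (hfus : ∀ u ∈ U, ∀ g : G, g * u * g⁻¹ ∈ (P : Set G) → ∃ n ∈ N, n * u * n⁻¹ = g * u * g⁻¹) (w : ℚ) (hw : ∀ y ∈ U, ((∑ᶠ ψ ∈ Cfsg.principalBlock M ↥(Subgroup.centralizer ({y} : Set G)), Cfsg.charDegree (ψ : ↥(Subgroup.centralizer ({y} : Set G)) → ℂ) ^ 2) : ℚ) = w * Nat.card ↥(N ⊓ Subgroup.centralizer ({y} : Set G))) (θ η : ↥P → ℂ) (hθ : Cfsg.IsGeneralizedCharacter ↥P θ) (hη : Cfsg.IsGeneralizedCharacter ↥P η) (hθU : ∀ y : ↥P, (y : G) ∉ U → θ y = 0) : ∑ᶠ χ ∈ Cfsg.principalBlock M G, ((Nat.card ↥P : ℂ)⁻¹ * ∑ᶠ y : ↥P, (χ : G → ℂ) (y : G) * θ y⁻¹) * (starRingEnd ℂ) ((Nat.card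 ↥P : ℂ)⁻¹ * ∑ᶠ y : ↥P, (χ : G → ℂ) (y : G) * η y⁻¹) = ((w : ℂ) / ((Nat.card ↥P : ℂ) ^ 2)) * ∑ᶠ y : ↥P, θ y * (starRingEnd ℂ) (∑ᶠ x : ↥N, Cfsg.extendByZero P η ((x : G) * (y : G) * (x : G)⁻¹)) := by
  classical
  have := hM.2.1
  have := Fintype.ofFinite G
  have key : ∀ y : P, (y : G) ∈ U → ∀ y' : P, H41.bker (principalBlock M G) y' y =
      w * (Nat.card {x : N // (x : G) * y * (x : G)⁻¹ = y'} : ℂ) := by
    intro y hy y'
    have ho := H41.exists_orderOf_eq_of_mem hP y.2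
    have ho' := H41.exists_orderOf_eq_of_mem hP y'.2
    by_cases hc : IsConj (y : G) y'
    · obtain ⟨g, hg⟩ := isConj_iff.1 hc
      obtain ⟨n, hn, he⟩ := hfus y hy g (by rw [hg]; exact y'.2)
      rw [H41.card_conj_in ⟨n, hn, he.trans hg⟩, H41.bker_congr _ hc.symm (IsConj.refl _),
        H41.bker_prin_self hM ho, H41.bker_one_one, hw y hy]
      push_cast
      rfl
    · have : IsEmpty {x : N // (x : G) * y * (x : G)⁻¹ = y'} :=
        ⟨fun x => hc (isConj_iff.2 ⟨_, x.2⟩)⟩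
      rw [Nat.card_of_isEmpty, Nat.cast_zero, mul_zero]
      exact H41.bker_eq_zero_of_coeff_mem hM (H34.blockCoeff_mem_S H34.isPBlock_principalBlock)
        (H41.isPPart_self hM.1 ho') (H41.isPPart_self hM.1 ho) fun h => hc h.symm
  have h1 := H41.sum_col_mul (principalBlock M G) P θ
    (fun χ => (starRingEnd ℂ) (H41.col P η χ))
  refine h1.trans ?_
  rw [finsum_eq_sum_of_fintype, Finset.mul_sum, Finset.mul_sum]
  refine Finset.sum_congr rfl fun y _ => ?_
  by_cases hy : (y : G) ∈ U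
  swap
  · rw [hθU y hy]; simp
  have h2 := H41.sum_col_mul (principalBlock M G) P η (fun χ => (χ : G → ℂ) y)
  have h3 : ∑ᶠ χ ∈ principalBlock M G, (starRingEnd ℂ) (H41.col P η χ) * (χ : G → ℂ) (y : G)⁻¹ =
      (starRingEnd ℂ) (∑ᶠ χ ∈ principalBlock M G, H41.col P η χ * (χ : G → ℂ) y) := by
    rw [H41.finsum_mem_irr, H41.finsum_mem_irr, map_sum]
    refine Finset.sum_congr rfl fun χ _ => ?_
    split_ifs
    · rw [map_mul, H28.Cfsg.IsCharacter.apply_inv (H28.Cfsg.IsIrrCharacter.isCharacter χ.2)]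
    · simp
  have h4 : ∑ᶠ x : N, extendByZero P η ((x : G) * (y : G) * (x : G)⁻¹) =
      ∑ y' : P, η y' * (Nat.card {x : N // (x : G) * y * (x : G)⁻¹ = y'} : ℂ) := by
    rw [finsum_eq_sum_of_fintype]
    simp only [Nat.card_eq_fintype_card, Fintype.card_subtype, Finset.card_filter, Nat.cast_sum,
      Finset.mul_sum]
    rw [Finset.sum_comm]
    refine Finset.sum_congr rfl fun x _ => ?_
    have hx : (x : G) * y * (x : G)⁻¹ ∈ P :=
      (Subgroup.mem_normalizer_iff.1 (hNN x.2) _).1 y.2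
    rw [H33.ext0_of_mem P η hx, Finset.sum_eq_single ⟨_, hx⟩]
    · simp
    · intro b _ hb
      rw [if_neg fun h => hb (Subtype.ext h.symm)]; simp
    · simp
  rw [h3, h2, h4]
  simp only [← H41.bker_eq_inv]
  have h5 : ∀ y' : P, H41.bker (principalBlock M G) y y' =
      w * (Nat.card {x : N // (x : G) * y * (x : G)⁻¹ = y'} : ℂ) := by
    intro y'
    rw [← H41.conj_bker, key y hy y']
    simp
  simp only [h5, map_mul, map_inv₀, map_natCast, map_sum, map_ratCast, Finset.mul_sum]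
  refine Finset.sum_congr rfl fun y' _ => ?_
  ring

end Cfsg.Agent.S4720
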