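import Cfsg.Statements.S4721
import Cfsg.Agent.H36.FrobThree
import Cfsg.Agent.H31.NormThree

set_option autoImplicit false
open Cfsg

namespace Cfsg.Agent.S4721

theorem arith {a₂ a₃ ε : ℤ} {x₂ x₃ x₄ : ℕ} {v₂ v₃ v₄ : ℤ} (h₂ : a₂ = 1 ∨ a₂ = -1)
    (h₃ : a₃ = 1 ∨ a₃ = -1) (h₄ : ε = 1 ∨ ε = -1) (p₂ : x₂ ≠ 0) (p₃ : x₃ ≠ 0) (p₄ : x₄ ≠ 0)
    (r0 : (1 + (a₂ * x₂ + a₃ * x₃) + ((0 - ε : ℤ) : ℂ) * x₄ : ℂ) = 0)
    (r1 : (1 + (a₂ * v₂ + a₃ * v₃) + ((0 - ε : ℤ) : ℂ) * v₄ : ℂ) = 0)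
    (r2 : (1 + (a₂ * (v₂ ^ 2 / x₂) + a₃ * (v₃ ^ 2 / x₃)) + ((0 - ε : ℤ) : ℂ) * (v₄ ^ 2 / x₄) : ℂ)
      = 0) (hv : v₃ ≠ x₃) :
    (if a₂ = -1 then 1 else 0) + (if a₃ = -1 then 1 else 0) + (if ε = 1 then 1 else 0) = 2 ∧
      IsSquare (x₄ * (x₂ * x₃)) := by
  have s0 : 1 + a₂ * x₂ + a₃ * x₃ + -ε * x₄ = 0 := by
    have : ((1 + a₂ * x₂ + a₃ * x₃ + -ε * x₄ : ℤ) : ℂ) = 0 := by
      push_cast at r0 ⊢; linear_combination r0
    exact_mod_cast this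
  have s1 : 1 + a₂ * v₂ + a₃ * v₃ + -ε * v₄ = 0 := by
    have : ((1 + a₂ * v₂ + a₃ * v₃ + -ε * v₄ : ℤ) : ℂ) = 0 := by
      push_cast at r1 ⊢; linear_combination r1
    exact_mod_cast this
  have hs := H36.isSquare_of_rel (y₂ := a₂ * x₂) (y₃ := a₃ * x₃) (y₄ := -ε * x₄)
    (by rcases h₂ with rfl | rfl <;> simpa) (by rcases h₃ with rfl | rfl <;> simpa)
    (by rcases h₄ with rfl | rfl <;> simpa) s0 s1
    (by rw [← r2]
        rcases h₂ with rfl | rfl <;> rcases h₃ with rfl | rfl <;> rcases h₄ with rfl | rfl <;>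
          push_cast <;> ring)
    (by rcases h₃ with rfl | rfl <;> simpa)
  have hp : (0 : ℤ) < x₂ * x₃ * x₄ := by positivity
  have hn := hs.nonneg
  have h5 : a₂ * a₃ * -ε = 1 := by
    rcases h₂ with rfl | rfl <;> rcases h₃ with rfl | rfl <;> rcases h₄ with rfl | rfl <;>
      first | rfl | nlinarith
  refine ⟨?_, Int.isSquare_natCast_iff.1 ?_⟩
  · rcases h₂ with rfl | rfl <;> rcases h₃ with rfl | rfl <;> rcases h₄ with rfl | rfl <;>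
      first | rfl | omega
  · convert hs using 1
    push_cast
    linear_combination (-x₂ * x₃ * x₄ : ℤ) * h5

/-- Let p be a prime, M a maximal ideal of the algebraic integers containing p, and G a finite group with a nontrivial abelian Sylow p-subgroup P, N = N_G(P), C = C_G(P), such that N/C is cyclic of order 3, #P > 4, and C_G(y) ∩ N = C for every non-identity y ∈ P. Then the principal p-block is the disjoint union of a set X of exactly 3 characters containing the principal character and a set Y of (#P − 1)/3 characters, with signs a_χ = ±1 (χ ∈ X, a = 1 at the principal character) and δ = ±1 such that every χ ∈ X takes the value a_χ at every element whose p-part is a non-identity element of P, and there is a map ζ from the non-principal linear characters of P onto Y, constant on N-conjugacy classes, with ζ_ψ(z) = δ·Σ ψ'(y) over the N-orbit of ψ, for z with p-part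 y ≠ 1 in P. If moreover G has an involution lying in no proper normal subgroup of G, then exactly two of the three numbers −δ and a_χ (χ ∈ X non-principal) equal −1, and the product of the degrees of the two non-principal members of X and of any member of Y is a perfect square. -/
theorem result {G : Type*} [Group G] [Finite G] (p : ℕ) [Fact p.Prime] (M : Ideal Cfsg.AlgInt) (hM : Cfsg.IsPModular p M) (P : Sylow p G) (hab : IsMulCommutative P) (hP1 : Nat.card P ≠ 1) (hCN : (Subgroup.centralizer ((P : Subgroup G) : Set G)).relIndex (Subgroup.normalizer ((P : Subgroup G) : Set G)) = 3) (hcyc : ∃ g : G, g ∈ Subgroup.normalizer ((P : Subgroup G) : Set G) ∧ Subgroup.centralizer ((P : Subgroup G) : Set G) ⊔ Subgroup.zpowers g = Subgroup.normalizer ((P : Subgroup G) : Set G)) (hm2 : 3 + 1 < Nat.card P) (hfrob : ∀ y : G, y ∈ (P : Subgroup G) → y ≠ 1 → Subgroup.centralizer ({y}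 : Set G) ⊓ Subgroup.normalizer ((P : Subgroup G) : Set G) = Subgroup.centralizer ((P : Subgroup G) : Set G)) : ∃ (X Y : Set (Cfsg.IrrCharacter G)), Cfsg.principalBlock M G = X ∪ Y ∧ Disjoint X Y ∧ Nat.card X = 3 ∧ Nat.card Y = (Nat.card P - 1) / 3 ∧ (∃ χ₁ ∈ X, (χ₁ : G → ℂ) = fun _ => 1) ∧ ∃ (a : Cfsg.IrrCharacter G → ℤ) (δ : ℤ) (ζ : (↥(P : Subgroup G) →* ℂˣ) → Cfsg.IrrCharacter G), (δ = 1 ∨ δ = -1) ∧ (∀ χ ∈ X, (a χ = 1 ∨ a χ = -1) ∧ ∀ z y : G, Cfsg.IsPPart p z y → y ∈ (P : Subgroup G) → y ≠ 1 → (χ : G → ℂ) z = (a χ : ℂ)) ∧ (∀ ψ : ↥(P : Subgroup G) →* ℂˣ, ψ ≠ 1 → ζ ψ ∈ Y) ∧ (∀ η ∈ Y, ∃ ψ : ↥(P : Subgroup G) →* ℂˣ, ψ ≠ 1 ∧ ζ ψ = η) ∧ (∀ ψ ψ' : ↥(P : Subgroup G) →* ℂˣ, ψ ≠ 1 → (∃ n : G, n ∈ Subgroup.normalizer ((P : Subgroup G) : Set G) ∧ ∀ w w' : ↥(P : Subgroup G), (w' : G) = n * w * n⁻¹ → ψ' w' = ψ w) → ζ ψ' = ζ ψ) ∧ (∀ ψ : ↥(P : Subgroup G) →* ℂˣ, ψ ≠ 1 → ∀ (z : G) (y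 : ↥(P : Subgroup G)), Cfsg.IsPPart p z (y : G) → (y : G) ≠ 1 → (ζ ψ : G → ℂ) z = (δ : ℂ) * ∑ᶠ ψ' ∈ {ψ' : ↥(P : Subgroup G) →* ℂˣ | ∃ n : G, n ∈ Subgroup.normalizer ((P : Subgroup G) : Set G) ∧ ∀ w w' : ↥(P : Subgroup G), (w' : G) = n * w * n⁻¹ → ψ' w' = ψ w}, ((ψ' y : ℂˣ) : ℂ)) ∧ ((∃ t : G, orderOf t = 2 ∧ ∀ K : Subgroup G, K.Normal → t ∈ K → K = ⊤) → Nat.card {χ : Cfsg.IrrCharacter G // χ ∈ X ∧ (χ : G → ℂ) ≠ (fun _ => 1) ∧ a χ = -1} + (if δ = 1 then 1 else 0) = 2 ∧ ∀ η ∈ Y, IsSquare (Cfsg.charDegree (η : G → ℂ) * ∏ᶠ χ ∈ {χ : Cfsg.IrrCharacter G | χ ∈ X ∧ (χ : G → ℂ) ≠ fun _ => 1}, Cfsg.charDegree (χ : G → ℂ))) := by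
  classical
  have := hM.2.1
  have := Fintype.ofFinite G
  have hf : H36.FreeAb P := ⟨hab, hfrob⟩
  have h := hf.frobCol hM
  have hE := (H36.card_range_normalizerMonoidHom (P : Subgroup G)).trans hCN
  have hlt := hE ▸ hm2
  obtain ⟨ζ, ε, hx, hd⟩ := hf.exists_exc_zero hM hE hm2
  obtain ⟨t, ht, htK⟩ : ∃ t : G, t * t = 1 ∧ ((∃ t : G, orderOf t = 2 ∧ ∀ K : Subgroup G,
      K.Normal → t ∈ K → K = ⊤) → ∀ K : Subgroup G, K.Normal → t ∈ K → K = ⊤) := by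
    by_cases h0 : ∃ t : G, orderOf t = 2 ∧ ∀ K : Subgroup G, K.Normal → t ∈ K → K = ⊤
    · obtain ⟨t, ht, hK⟩ := h0
      exact ⟨t, by rw [← pow_two, ← ht, pow_orderOf_eq_one], fun _ => hK⟩
    · exact ⟨1, mul_one 1, fun h => (h0 h).elim⟩
  obtain ⟨ψ₀, h0, hψ₀⟩ := hf.exists_hom_trivial hM hE hm2 ht
  have hr := h.card_exc_mul hx
  rw [hE] at hr
  set Y := ζ '' {ψ | ψ ≠ 1} with hY
  have hr' : (Nat.card P - 1) / 3 = Nat.card Y :=
    Nat.div_eq_of_eq_mul_left (by omega) (by omega)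
  have hX : ∀ χ ∈ principalBlock M G \ Y, ∀ y ∈ (P : Subgroup G), y ≠ 1 → (χ : G → ℂ) y =
      ((H36.mult (P : Subgroup G) χ 1 - H36.mult (P : Subgroup G) χ ψ₀ : ℤ) : ℂ) :=
    fun χ hχ y hy hy1 => h.apply_of_not_exc hx hχ.1 (fun ψ hψ e => hχ.2 ⟨ψ, hψ, e.symm⟩) h0
      (a := ⟨y, hy⟩) (by simpa using hy1)
  have hX0 : ∀ χ ∈ principalBlock M G \ Y,
      H36.mult (P : Subgroup G) χ 1 - H36.mult (P : Subgroup G) χ ψ₀ ≠ 0 := fun χ hχ e => by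
    have : Nontrivial (P : Subgroup G) := Finite.one_lt_card_iff_nontrivial.1 (by omega)
    obtain ⟨y, hy⟩ := exists_ne (1 : (P : Subgroup G))
    have hy' : (y : G) ≠ 1 := by simpa using hy
    exact hf.apply_ne_zero hM hχ.1 y.2 hy' (by rw [hX χ hχ y y.2 hy', e, Int.cast_zero])
  let χ₁ : IrrCharacter G := ⟨_, H28.isIrrCharacter_one⟩
  have h1 : χ₁ ∈ principalBlock M G \ Y := ⟨H34.one_mem_principalBlock, fun ⟨ψ, hψ, e⟩ =>
    H36.one_not_mem_exc h hlt hx hψ (congrArg Subtype.val e)⟩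
  have ha1 : H36.mult (P : Subgroup G) χ₁ 1 - H36.mult (P : Subgroup G) χ₁ ψ₀ = 1 := by
    rw [H36.mult_of_eq_one rfl, H36.mult_of_eq_one rfl, if_pos rfl, if_neg h0, sub_zero]
  have hn := (h.sum_col hx hd h0 fun c _ => c ^ 2).symm.trans (h.norm_col h0)
  have r0 := (h.sum_col hx hd h0 fun c χ => (c : ℂ) * (χ : G → ℂ) 1).symm.trans
    (H36.sum_mult_sub_mul_reg hM h.pg h.blk 1 ψ₀ (by simpa using hM.1.ne_one))
  have r1 := (h.sum_col hx hd h0 fun c χ => (c : ℂ) * (χ : G → ℂ) t).symm.trans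
    (hf.sum_col_invol hM hE ht hψ₀).1
  have r2 := (h.sum_col hx hd h0 fun c χ => (c : ℂ) * ((χ : G → ℂ) t ^ 2 / (χ : G → ℂ) 1)).symm.trans
    (hf.sum_col_invol hM hE ht hψ₀).2
  rw [← hY, ← Finset.add_sum_erase _ _ (H35.mem_bF.2 h1), ha1] at hn r0 r1 r2
  set a := fun χ => H36.mult (P : Subgroup G) χ 1 - H36.mult (P : Subgroup G) χ ψ₀ with ha
  set S := (H35.bF (principalBlock M G \ Y)).erase χ₁ with hS
  have hε : (0 - ε) ^ 2 = 1 := by rcases hx.sign with h | h <;> simp [h]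
  have hn' : ∑ χ ∈ S, a χ ^ 2 = 2 := by
    rw [hε, hE, Finset.sum_const, smul_eq_zero_of_right _ (by simp)] at hn
    simp only [ha]
    omega
  have hS1 : ∀ χ ∈ S, a χ = 1 ∨ a χ = -1 := fun χ hχ => by
    have h2 := Finset.single_le_sum (fun χ _ => sq_nonneg (a χ)) hχ
    have h3 : a χ ≠ 0 := hX0 χ (H35.mem_bF.1 (Finset.mem_of_mem_erase hχ))
    have h4 : -2 < a χ := by nlinarith
    have h5 : a χ < 2 := by nlinarith
    omega
  have hS2 : S.card = 2 := by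
    rw [Finset.sum_congr rfl (g := fun _ => 1) fun χ hχ => by
      rcases hS1 χ hχ with h | h <;> simp [h], Finset.sum_const, nsmul_eq_mul] at hn'
    omega
  have hS3 : ∀ χ, χ ∈ S ↔ χ ∈ principalBlock M G \ Y ∧ (χ : G → ℂ) ≠ fun _ => 1 := fun χ => by
    rw [hS, Finset.mem_erase, H35.mem_bF, and_comm, Ne, Subtype.ext_iff]
  refine ⟨principalBlock M G \ Y, Y, ?_, Set.disjoint_sdiff_left, ?_, hr'.symm, ⟨χ₁, h1, rfl⟩,
    a, ε, ζ, hx.sign, fun χ hχ => ⟨?_, fun z y hz hy hy1 => ?_⟩, fun ψ hψ => ⟨ψ, hψ, rfl⟩,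
    fun η hη => hη, fun ψ ψ' hψ hψ' => ?_, fun ψ hψ z y hz hy1 => ?_, fun hK => ?_⟩
  · exact (Set.sdiff_union_of_subset (by rintro _ ⟨ψ, hψ, rfl⟩; exact hx.mem ψ hψ)).symm
  · rw [← H35.card_bF, ← Finset.card_erase_add_one (H35.mem_bF.2 h1), hS2]
  · by_cases h2 : χ = χ₁
    · exact Or.inl (h2 ▸ ha1)
    · exact hS1 χ (Finset.mem_erase.2 ⟨h2, H35.mem_bF.2 hχ⟩)
  · rw [H36.prin_apply_of_isPPart hM (hf.hasNPC hy hy1) hχ.1 hz, hX χ hχ y hy hy1]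
  · have h1 := H36.eRel_range_iff.2 hψ'
    exact ((hx.eq_iff _ _ hψ (h1.ne_one hψ)).2 h1).symm
  · rw [H36.prin_apply_of_isPPart hM (hf.hasNPC y.2 hy1) (hx.mem ψ hψ) hz,
      h.apply_exc hx hd hψ (by simpa using hy1), Int.cast_zero, zero_add]
    simp only [H36.eRel_range_iff]
  obtain ⟨χ₂, χ₃, hne, hS4⟩ := Finset.card_eq_two.1 hS2
  have m2 : χ₂ ∈ S := by simp [hS4]
  have m3 : χ₃ ∈ S := by simp [hS4]
  choose v hv using fun χ : IrrCharacter G =>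
    H31.exists_int_of_mul_self (H28.Cfsg.IsIrrCharacter.isCharacter χ.2) ht
  rw [hS4, Finset.sum_pair hne] at r0 r1 r2
  simp only [Int.cast_zero, zero_mul, Finset.sum_const_zero, add_zero, Int.cast_one, χ₁, one_pow,
    div_one, mul_one] at r0 r1 r2
  simp only [hv, ← H35.coe_deg] at r0 r1 r2
  obtain ⟨e1, e2⟩ := arith (hS1 _ m2) (hS1 _ m3) hx.sign (H35.deg_ne_zero χ₂) (H35.deg_ne_zero χ₃)
    (H35.deg_ne_zero (ζ ψ₀)) r0 r1 r2 fun e => ((hS3 _).1 m3).2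
      ((H28.Cfsg.IsIrrCharacter.charKer_eq_top_iff χ₃.2).1 (htK hK _
        (H28.Cfsg.IsIrrCharacter.charKer_normal χ₃.2) (by
          rw [H28.Cfsg.IsIrrCharacter.mem_charKer χ₃.2, hv, e, Int.cast_natCast, H35.coe_deg])))
  refine ⟨?_, ?_⟩
  · rw [Nat.subtype_card (S.filter fun χ => a χ = -1) fun χ => by
      rw [Finset.mem_filter, hS3, and_assoc], Finset.card_filter, hS4, Finset.sum_pair hne, e1]
  · rintro _ ⟨ψ, hψ, rfl⟩
    rw [show {χ : IrrCharacter G | χ ∈ principalBlock M G \ Y ∧ (χ : G → ℂ) ≠ fun _ => 1} =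
      {χ₂, χ₃} from Set.ext fun χ => by rw [Set.mem_ofPred_eq, ← hS3, hS4]; simp,
      finprod_mem_pair hne, show charDegree (ζ ψ : G → ℂ) = charDegree (ζ ψ₀ : G → ℂ) by
        have := h.exc_reg hx hψ h0 (g := 1) (by simpa using hM.1.ne_one)
        rw [← H35.coe_deg, ← H35.coe_deg] at this
        exact_mod_cast this]
    exact e2

end Cfsg.Agent.S4721
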