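import Cfsg.Statements.S4722
import Cfsg.Agent.H41.Columns

set_option autoImplicit false
open Cfsg

namespace Cfsg.Agent.S4722

/-- Let M be a maximal ideal of the algebraic integers containing 2, P a 2-subgroup of the finite group G, U a subset of P, and t an involution of G such that no element of U is inverted by any conjugate of t. Let θ be a generalized character of P vanishing outside U, and for χ in the principal 2-block B₀ put a_χ = #P⁻¹ Σ_{y ∈ P} χ(y) θ(y⁻¹). Then Σ_{χ ∈ B₀} a_χ χ(t)^2/χ(1) = 0, Σ_{χ ∈ B₀} a_χ χ(1) = 0 and Σ_{χ ∈ B₀} a_χ χ(t) = 0. If moreover #P⁻¹ Σ_{y ∈ P} θ(y) ≠ 0, then either at least two of the a_χ have positive real part and at least two have negative real part, or G has a proper normal subgroup containing O_2'(G) and t. -/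
theorem result {G : Type*} [Group G] [Finite G] (M : Ideal Cfsg.AlgInt) (hM : Cfsg.IsPModular 2 M) (P : Subgroup G) (hP : IsPGroup 2 P) (U : Set G) (hUP : U ⊆ (P : Set G)) (t : G) (ht : orderOf t = 2) (hinv : ∀ u ∈ U, ∀ g : G, (g * t * g⁻¹) * u * (g * t * g⁻¹)⁻¹ ≠ u⁻¹) (θ : ↥P → ℂ) (hθ : Cfsg.IsGeneralizedCharacter ↥P θ) (hθU : ∀ y : ↥P, (y : G) ∉ U → θ y = 0) : (∑ᶠ χ ∈ Cfsg.principalBlock M G, ((Nat.card ↥P : ℂ)⁻¹ * ∑ᶠ y : ↥P, (χ : G → ℂ) (y : G) * θ y⁻¹) * (χ : G → ℂ) t ^ 2 / (χ : G → ℂ) 1 = 0) ∧ (∑ᶠ χ ∈ Cfsg.principalBlock M G, ((Nat.card ↥P : ℂ)⁻¹ * ∑ᶠ y : ↥P, (χ : G → ℂ) (y : G) * θ y⁻¹) * (χ : G → ℂ) 1 = 0) ∧ (∑ᶠ χ ∈ Cfsg.principalBlock M G, ((Nat.card ↥P : ℂ)⁻¹ * ∑ᶠ y : ↥P, (χ : G → ℂ) (y : G) * θ y⁻¹) * (χ : G → ℂ) t = 0) ∧ ((Nat.card ↥P : ℂ)⁻¹ * ∑ᶠ y : ↥P, θ y ≠ 0 → (2 ≤ Nat.card {χ : Cfsg.IrrCharacter G // χ ∈ Cfsg.principalBlock M G ∧ 0 < (((Nat.card ↥P : ℂ)⁻¹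 * ∑ᶠ y : ↥P, (χ : G → ℂ) (y : G) * θ y⁻¹)).re} ∧ 2 ≤ Nat.card {χ : Cfsg.IrrCharacter G // χ ∈ Cfsg.principalBlock M G ∧ (((Nat.card ↥P : ℂ)⁻¹ * ∑ᶠ y : ↥P, (χ : G → ℂ) (y : G) * θ y⁻¹)).re < 0}) ∨ ∃ K : Subgroup G, K.Normal ∧ K ≠ ⊤ ∧ Cfsg.pPrimeCore 2 G ≤ K ∧ t ∈ K) := by
  classical
  have := hM.2.1
  have := Fintype.ofFinite G
  have : Fact (Nat.Prime 2) := ⟨Nat.prime_two⟩
  have htt : t * t = 1 := by rw [← pow_two, ← ht, pow_orderOf_eq_one]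
  have hB := H34.blockCoeff_mem_S (H34.isPBlock_principalBlock (M := M) (G := G))
  have hz : ∀ c : IrrCharacter G → ℂ, (∀ y ∈ U, ∑ᶠ χ ∈ principalBlock M G,
      c χ * (χ : G → ℂ) y⁻¹ = 0) → ∑ᶠ χ ∈ principalBlock M G, H41.col P θ χ * c χ = 0 := by
    intro c hc
    rw [H41.sum_col_mul, Finset.sum_eq_zero, mul_zero]
    intro y _
    by_cases hy : (y : G) ∈ U
    · rw [hc y hy, mul_zero]
    · rw [hθU y hy, zero_mul]
  have hpp : ∀ y ∈ U, IsPPart 2 y y := fun y hy =>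
    H41.isPPart_self Nat.prime_two (H41.exists_orderOf_eq_of_mem hP (hUP hy))
  have e2 : ∑ᶠ χ ∈ principalBlock M G, H41.col P θ χ *
      ((χ : G → ℂ) t * (χ : G → ℂ) t / (χ : G → ℂ) 1) = 0 := by
    refine hz _ fun y hy => H41.sum_invol_eq_zero hM hB htt htt (x := y⁻¹) (fun g h => ?_)
      (H41.isPPart_inv (hpp y hy)) (IsConj.refl _)
    apply hinv y hy g
    have h' := congrArg (·⁻¹) h
    simp only [inv_inv] at h'
    rw [← h']
    group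
  have e0 : ∑ᶠ χ ∈ principalBlock M G, H41.col P θ χ * (χ : G → ℂ) 1 = 0 := by
    refine hz _ fun y hy => ?_
    rw [← H41.bker_eq_inv]
    refine H41.bker_eq_zero_of_coeff_mem hM hB (H41.isPPart_one_of_not_dvd (by simp)) (hpp y hy)
      fun h => hinv y hy 1 ?_
    obtain rfl := isConj_one_right.1 h
    simp
  have e1 : ∑ᶠ χ ∈ principalBlock M G, H41.col P θ χ * (χ : G → ℂ) t = 0 := by
    refine hz _ fun y hy => ?_
    rw [← H41.bker_eq_inv]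
    refine H41.bker_eq_zero_of_coeff_mem hM hB (H41.isPPart_self Nat.prime_two ⟨1, by simpa⟩)
      (hpp y hy) fun h => ?_
    obtain ⟨g, rfl⟩ := isConj_iff.1 h
    apply hinv _ hy g
    rw [mul_inv_cancel_right, eq_inv_iff_mul_eq_one,
      show g * t * g⁻¹ * (g * t * g⁻¹) = g * (t * t) * g⁻¹ by group, htt]
    group
  refine ⟨?_, e0, e1, fun hne => ?_⟩
  · rw [← e2]
    refine finsum_congr fun χ => ?_
    rw [mul_div_assoc, pow_two]
    rfl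
  rw [or_iff_not_imp_left]
  intro hcon
  choose a ha using fun χ : IrrCharacter G =>
    H41.col_int P hθ (H28.Cfsg.IsIrrCharacter.isGeneralizedCharacter χ.2)
  have hch := fun χ : IrrCharacter G => H28.Cfsg.IsIrrCharacter.isCharacter χ.2
  obtain ⟨v, hv⟩ : ∃ v : IrrCharacter G → ℝ, ∀ χ : IrrCharacter G, (χ : G → ℂ) t = v χ :=
    ⟨fun χ => ((χ : G → ℂ) t).re, fun χ =>
      (Complex.conj_eq_iff_re.1 (H41.char_conj_of_mul_self (hch χ) htt)).symm⟩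
  obtain ⟨d, hd⟩ : ∃ d : IrrCharacter G → ℝ, ∀ χ : IrrCharacter G,
      (χ : G → ℂ) 1 = d χ ∧ 0 < d χ :=
    ⟨fun χ => charDegree (χ : G → ℂ), fun χ => ⟨by simp [H35.coe_deg],
      Nat.cast_pos.2 (Nat.pos_of_ne_zero (H35.deg_ne_zero χ))⟩⟩
  set s := (Set.toFinite (principalBlock M G)).toFinset with hs
  rw [finsum_mem_eq_finite_toFinset_sum _ (Set.toFinite _)] at e0 e1 e2
  simp only [ha, hv, fun χ => (hd χ).1] at e0 e1 e2
  have r0 : ∑ χ ∈ s, (a χ : ℝ) * d χ = 0 := by exact_mod_cast e0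
  have r1 : ∑ χ ∈ s, (a χ : ℝ) * v χ = 0 := by exact_mod_cast e1
  have r2 : ∑ χ ∈ s, (a χ : ℝ) * v χ ^ 2 / d χ = 0 := by
    simp only [pow_two, mul_div_assoc] at e2 ⊢
    exact_mod_cast e2
  let χ₀ : IrrCharacter G := ⟨fun _ => 1, H28.isIrrCharacter_one⟩
  have h0 : χ₀ ∈ s := (Set.Finite.mem_toFinset _).2 H34.one_mem_principalBlock
  have ha0 : (a χ₀ : ℝ) ≠ 0 := by
    intro h
    apply hne
    have h1 := ha χ₀
    rw [show a χ₀ = 0 by exact_mod_cast h, H41.col] at h1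
    rw [finsum_eq_sum_of_fintype] at h1 ⊢
    rw [← Equiv.sum_comp (Equiv.inv P)]
    simpa [χ₀] using h1
  have hv0 : v χ₀ = d χ₀ := by
    have := (hv χ₀).symm.trans (hd χ₀).1
    exact_mod_cast this
  have hsub : ∀ q : IrrCharacter G → Prop, ¬ 2 ≤ Nat.card {χ // χ ∈ principalBlock M G ∧ q χ} →
      ∀ i ∈ s, ∀ j ∈ s, q i → q j → i = j := by
    intro q hq i hi j hj hqi hqj
    have := Finite.card_le_one_iff_subsingleton.1 (Nat.lt_succ_iff.1 (not_le.1 hq))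
    exact congrArg Subtype.val (this.elim ⟨i, (Set.Finite.mem_toFinset _).1 hi, hqi⟩
      ⟨j, (Set.Finite.mem_toFinset _).1 hj, hqj⟩)
  have hre : ∀ χ : IrrCharacter G, ((Nat.card P : ℂ)⁻¹ *
      ∑ᶠ y : P, (χ : G → ℂ) (y : G) * θ y⁻¹).re = a χ := fun χ => by
    have := ha χ
    rw [H41.col] at this
    rw [this, Complex.intCast_re]
  simp only [hre] at hcon
  obtain ⟨χ, hχ, hne1, hχt⟩ : ∃ i ∈ s, i ≠ χ₀ ∧ v i = d i := by
    rcases not_and_or.1 hcon with h | h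
    · refine H41.exists_ker_of_relations s (fun χ => -(a χ : ℝ)) d v (fun χ => (hd χ).2)
        ?_ ?_ ?_ (fun i hi j hj h1 h2 => hsub _ h i hi j hj (neg_lt_zero.1 h1) (neg_lt_zero.1 h2))
        h0 (neg_ne_zero.2 ha0) hv0
      · simp only [neg_mul, neg_div, Finset.sum_neg_distrib, r2, neg_zero]
      · simp only [neg_mul, Finset.sum_neg_distrib, r0, neg_zero]
      · simp only [neg_mul, Finset.sum_neg_distrib, r1, neg_zero]
    · exact H41.exists_ker_of_relations s (fun χ => (a χ : ℝ)) d v (fun χ => (hd χ).2)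
        r2 r0 r1 (hsub _ h) h0 ha0 hv0
  refine ⟨H28.charKer (χ : G → ℂ), H28.Cfsg.IsIrrCharacter.charKer_normal χ.2, fun h => hne1 ?_,
    H37.pPrimeCore_le_charKer hM ((Set.Finite.mem_toFinset _).1 hχ), ?_⟩
  · exact Subtype.ext ((H28.Cfsg.IsIrrCharacter.charKer_eq_top_iff χ.2).1 h)
  · rw [H28.Cfsg.IsIrrCharacter.mem_charKer χ.2, hv, (hd χ).1, hχt]

end Cfsg.Agent.S4722
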