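import Cfsg.Statements.S4725
import Cfsg.Agent.H37.ThirdMain

set_option autoImplicit false
open Cfsg

namespace Cfsg.Agent.S4725

/-- Let p be a prime, M a maximal ideal of the algebraic integers containing p, H a subgroup of the finite group G, and b a p-block of H inducing the p-block B of G, with b and B of the same defect. Then for every height-zero ζ ∈ b there is a height-zero χ ∈ B whose multiplicity in the character induced from ζ is not divisible by p. -/
theorem result {G : Type*} [Group G] [Fintype G] (p : ℕ) [Fact p.Prime] (M : Ideal Cfsg.AlgInt) (hM : Cfsg.IsPModular p M) (H : Subgroup G) (b : Set (Cfsg.IrrCharacter ↥H)) (B : Set (Cfsg.IrrCharacter G)) (hind : Cfsg.IsInducedBlock M H b B) (hdef : Cfsg.blockDefect p b = Cfsg.blockDefect p B) (ζ : Cfsg.IrrCharacter ↥H) (hζ : ζ ∈ b) (hζ0 : Cfsg.blockHeight p b (ζ : ↥H → ℂ) = 0) : ∃ χ ∈ B, Cfsg.blockHeight p B (χ : G → ℂ) = 0 ∧ ∃ a : ℕ, Cfsg.classInner (Cfsg.indFun H (ζ : ↥H → ℂ)) (χ : G → ℂ) = (a : ℂ) ∧ ¬ p ∣ a := by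
  have := hM.2.1
  obtain ⟨χ, hχ, a, ha, ha0, hle⟩ := H37.exists_mem_induced_over hM H hind hζ
  have h1 := H37.factorization_add_blockDefect hζ hζ0
  have h2 := H37.factorization_add_blockDefect' (p := p) hχ
  have h3 : (Nat.card G).factorization p = (Nat.card H).factorization p + H.index.factorization p := by
    rw [← H.card_mul_index, Nat.factorization_mul Nat.card_pos.ne'
      Subgroup.FiniteIndex.index_ne_zero, Finsupp.add_apply]
  refine ⟨χ, hχ, by omega, a, ha, fun hd => ?_⟩
  have := (hM.1.dvd_iff_one_le_factorization ha0).1 hd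
  omega

end Cfsg.Agent.S4725
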