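import Cfsg.Statements.S4726
import Cfsg.Agent.H36.Extended

set_option autoImplicit false
open Cfsg

namespace Cfsg.Agent.S4726

/-- Let p be a prime, M a maximal ideal of the algebraic integers containing p, H a subgroup of the finite group G and b a p-block of H with defect group D₀ such that C_G(D₀) ≤ H. Then b induces a block of G, and for every block B of G induced by b there is a defect group D of B with Z(D) ≤ Z(D₀) ≤ D₀ ≤ D (as subgroups of G). In particular, if the defect groups of B are abelian then D₀ is a defect group of B. -/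
theorem result {G : Type*} [Group G] [Finite G] (p : ℕ) [Fact p.Prime] (M : Ideal Cfsg.AlgInt) (hM : Cfsg.IsPModular p M) (H : Subgroup G) (b : Set (Cfsg.IrrCharacter ↥H)) (hb : Cfsg.IsPBlock M b) (D₀ : Subgroup ↥H) (hD₀ : Cfsg.IsDefectGroup p M b D₀) (hC : Subgroup.centralizer ((D₀.map H.subtype : Subgroup G) : Set G) ≤ H) : Cfsg.InducedBlockDefined M H b ∧ ∀ B : Set (Cfsg.IrrCharacter G), Cfsg.IsInducedBlock M H b B → (∃ D : Subgroup G, Cfsg.IsDefectGroup p M B D ∧ (Subgroup.center ↥D).map D.subtype ≤ ((Subgroup.center ↥D₀).map D₀.subtype).map H.subtype ∧ ((Subgroup.center ↥D₀).map D₀.subtype).map H.subtype ≤ D₀.map H.subtype ∧ D₀.map H.subtype ≤ D) ∧ (∀ D : Subgroup G, Cfsg.IsDefectGroup p M B D → IsMulCommutative ↥D → Cfsg.IsDefectGroup p M B (D₀.map H.subtype)) := by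
  have := hM.2.1
  have hQ := (H36.isDefectGroup_iff_eS hM hb).1 hD₀
  refine ⟨H36.inducedBlockDefined_of_centralizer_le hM hb hQ.isPGroup hQ.le hC hQ.br_ne,
    fun B hB => ?_⟩
  obtain ⟨D, hD, h1, h2⟩ := H36.exists_isDefectGroup_selfCentralizing hM hB hQ hC
  refine ⟨⟨D, hD, ?_, Subgroup.map_mono (Subgroup.map_subtype_le _), h1⟩, fun E hE hab => ?_⟩
  · rintro _ ⟨x, hx, rfl⟩
    have hc : ∀ w ∈ D₀.map H.subtype, w * x = x * w := fun w hw =>
      congrArg Subtype.val (Subgroup.mem_center_iff.1 hx ⟨w, h1 hw⟩)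
    obtain ⟨y, hy, hyx⟩ := h2 ⟨x.2, Subgroup.mem_centralizer_iff.2 hc⟩
    refine ⟨y, ⟨⟨y, hy⟩, Subgroup.mem_center_iff.2 fun w => Subtype.ext (Subtype.ext ?_), rfl⟩, hyx⟩
    have := hc w ⟨w, w.2, rfl⟩
    rwa [← show (y : G) = x from hyx] at this
  · obtain ⟨t, rfl⟩ := H36.isDefectGroup_exists_conj hM hB.2.1 hE hD
    have : E.map (MulAut.conj t).toMonoidHom ≤ D₀.map H.subtype := fun x hx =>
      h2 ⟨hx, Subgroup.mem_centralizer_iff.2 fun w hw =>
        congrArg Subtype.val (mul_comm' (⟨w, h1 hw⟩ : E.map (MulAut.conj t).toMonoidHom) ⟨x, hx⟩)⟩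
    rwa [le_antisymm h1 this]

end Cfsg.Agent.S4726
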