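import Cfsg.Statements.S4729
import Cfsg.Agent.H41.RealBlock
import Cfsg.Agent.H29.Eigen

set_option autoImplicit false
open Cfsg

namespace Cfsg.Agent.S4729

/-- Let p be a prime, M a maximal ideal of the algebraic integers containing p, G a finite perfect group and P a Sylow p-subgroup. If the principal p-block of G contains a faithful irreducible character of degree less than 2p, then the centralizer of P is a p-group. -/
theorem result {G : Type*} [Group G] [Finite G] (p : ℕ) [Fact p.Prime] (M : Ideal Cfsg.AlgInt) (hM : Cfsg.IsPModular p M) (hperf : commutator G = ⊤) (P : Sylow p G) (χ : Cfsg.IrrCharacter G) (hχ : χ ∈ Cfsg.principalBlock M G) (hfaith : ∀ g : G, (χ : G → ℂ) g = (χ : G → ℂ) 1 → g = 1) (hdeg : Cfsg.charDegree (χ : G → ℂ) < 2 * p) : IsPGroup p ↥(Subgroup.centralizer ((P : Subgroup G) : Set G)) := by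
  open H28 H34 H35 in
  classical
  have := hM.2.1
  have hp := hM.1
  refine IsPGroup.of_card (n := _) (Nat.eq_prime_pow_of_unique_prime_dvd Nat.card_pos.ne'
    fun {q} hq hd => ?_)
  by_contra hqp
  have := Fact.mk hq
  obtain ⟨⟨y, hy⟩, hyq⟩ := exists_prime_orderOf_dvd_card' q hd
  rw [Subgroup.orderOf_mk] at hyq
  have hpq : ¬ p ∣ q := fun h => hqp ((Nat.prime_dvd_prime_iff_eq hp hq).1 h).symm
  have h1 : ∀ m : ℕ, MemLocalIdeal M ((χ : G → ℂ) 1 - (χ : G → ℂ) (y ^ m)) := fun m => by
    have hidx : ¬ p ∣ (Subgroup.centralizer ({y ^ m} : Set G)).index := fun h =>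
      P.not_dvd_index (h.trans (Subgroup.index_dvd_of_le fun x hx =>
        mem_centralizer_singleton.2 (pow_mem hy m x hx)))
    have h5 : ((Subgroup.centralizer ({y ^ m} : Set G)).index : ℂ) ≠ 0 :=
      Nat.cast_ne_zero.2 Subgroup.index_ne_zero_of_finite
    have h6 := χ.2.apply_one_ne_zero
    convert P_mul_right (P_mul_left (inv_natCast_mem_S hM hidx) (hχ (y ^ m)))
      (char_mem_S χ.2.isCharacter 1) using 1
    simp only [centralChar]
    field_simp
  obtain ⟨d, ρ, hρ, hχρ⟩ := χ.2
  rw [← hχρ] at h1 hdeg hfaith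
  rw [charDegree_rep] at hdeg
  obtain ⟨ε, h2, h3, h4, -⟩ := H29.exists_char_pow_eq_sum ρ y (isOfFinOrder_of_finite y)
  rw [hyq] at h2
  have hgeom : ∀ z : ℂ, z ^ q = 1 → ∑ m ∈ Finset.range q, z ^ m = if z = 1 then (q : ℂ) else 0 :=
    fun z hz => by
      split_ifs with h
      · simp [h]
      · exact mul_right_cancel₀ (sub_ne_zero.2 h) (by rw [geom_sum_mul, hz]; simp)
  have h5 : ∀ ω : ℂ, ω ^ q = 1 → ω ≠ 1 → p ∣ (Finset.univ.filter fun i => ε i = ω).card := by
    intro ω hω hω1
    have hω0 : ω ≠ 0 := by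
      rintro rfl
      simp [hq.ne_zero] at hω
    have hω' : ω⁻¹ ^ q = 1 := by rw [inv_pow, hω, inv_one]
    have h6 := P_sum (Finset.range q) _ fun m _ =>
      P_mul_left (pow_mem (mem_S_of_pow_eq_one (M := M) hq.ne_zero hω') m) (h1 m)
    have h7 : ∑ m ∈ Finset.range q, ω⁻¹ ^ m * (ρ.character 1 - ρ.character (y ^ m)) =
        -((q * (Finset.univ.filter fun i => ε i = ω).card : ℕ) : ℂ) := by
      simp only [mul_sub, Finset.sum_sub_distrib, ← Finset.sum_mul, h3, Finset.mul_sum, ← mul_pow]
      rw [hgeom _ hω', if_neg (by simpa using hω1), zero_mul, zero_sub, Finset.sum_comm,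
        Finset.sum_congr rfl fun i _ => hgeom _ (by rw [mul_pow, hω', h2, mul_one])]
      simp [mul_inv_eq_one₀ hω0, Finset.sum_ite, mul_comm]
    rw [h7, P_neg_iff, P_natCast_iff hM] at h6
    exact (hp.dvd_mul.1 h6).resolve_left hpq
  obtain ⟨i, hi⟩ : ∃ i, ε i ≠ 1 := by
    by_contra! h
    have := hfaith y (by simpa [h] using h3 1)
    simp [this] at hyq
    exact hq.ne_one hyq.symm
  have h6 : ∀ j, ε j ≠ 1 → p ≤ (Finset.univ.filter fun k => ε k = ε j).card := fun j hj =>
    Nat.le_of_dvd (Finset.card_pos.2 ⟨j, by simp⟩) (h5 _ (h2 j) hj)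
  have h7 : ∀ j, ε j ≠ ε i → ε j = 1 := fun j hj => by
    by_contra h
    have h8 := Finset.card_le_univ ((Finset.univ.filter fun k => ε k = ε j) ∪
      (Finset.univ.filter fun k => ε k = ε i))
    rw [Finset.card_union_of_disjoint (Finset.disjoint_filter.2 fun k _ (h1 : ε k = ε j) (h2 : ε k = ε i) => hj (h1 ▸ h2)),
      Fintype.card_fin] at h8
    have := h6 j h
    have := h6 i hi
    omega
  have h8 : (Finset.univ.filter fun k => ε k = ε i).card = p := by
    obtain ⟨c, hc⟩ := h5 _ (h2 i) hi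
    have h9 := Finset.card_le_univ (Finset.univ.filter fun k => ε k = ε i)
    have h10 := h6 i hi
    rw [Fintype.card_fin] at h9
    rw [hc] at h9 h10 ⊢
    have : c = 1 := by
      rcases c with _ | _ | c
      · exact absurd h10 (by simpa using hp.ne_zero)
      · rfl
      · nlinarith
    rw [this, mul_one]
  have h9 : LinearMap.det (ρ y) = 1 := by
    have := Abelianization.commutator_subset_ker (LinearMap.det.comp ρ).toHomUnits
      (hperf ▸ Subgroup.mem_top y)
    simpa using congrArg Units.val this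
  have h10 := h4 1
  simp only [pow_one, h9] at h10
  rw [← Finset.prod_filter_mul_prod_filter_not _ fun k => ε k = ε i,
    Finset.prod_eq_one (s := Finset.univ.filter fun k => ¬ ε k = ε i)
      fun k hk => h7 k (by simpa using hk), mul_one,
    Finset.prod_congr rfl fun k hk => (Finset.mem_filter.1 hk).2, Finset.prod_const, h8] at h10
  exact hi ((pow_eq_one_iff_of_coprime ((Nat.coprime_primes hp hq).2 (Ne.symm hqp))).1
    ⟨h10.symm, h2 i⟩)

end Cfsg.Agent.S4729
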