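import Cfsg.Statements.S4732
import Cfsg.Agent.H41.JordanLin
import Cfsg.Agent.H29.GalChar

set_option autoImplicit false
universe u v
open Cfsg

namespace Cfsg.Agent.S4732

/-- Let p be a prime. There is a function f of two natural-number arguments such that every finite group G admitting a faithful representation of degree n over a field of characteristic p, with Sylow p-subgroups of order p^m, has a normal abelian subgroup A with [G : A] < f(m, n). -/
theorem result (p : ℕ) [Fact p.Prime] : ∃ f : ℕ → ℕ → ℕ, ∀ (G : Type u) [Group G] [Finite G] (F : Type v) [Field F] [CharP F p] (n : ℕ) (ρ : Representation F G (Fin n → F)), Function.Injective ρ → ∀ m : ℕ, (Nat.card G).factorization p = m → ∃ A : Subgroup G, A.Normal ∧ IsMulCommutative A ∧ A.index < f m n := by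
  choose N hN using H41.exists_jBound.{u, v, v} p
  refine ⟨fun m n => (N m n).factorial + 1, fun G _ _ F _ _ n ρ hρ m hm => ?_⟩
  obtain ⟨A, h1, h2⟩ := hN m n (AlgebraicClosure F) G (Fin n → AlgebraicClosure F)
    (H29.galRep (algebraMap F (AlgebraicClosure F)) ρ) (fun a b h => hρ
      (LinearMap.toMatrix'.injective (Matrix.map_injective (algebraMap F _).injective
        (Matrix.toLin'.injective h)))) (by simp) hm.le
  refine ⟨A.normalCore, inferInstance, ⟨⟨fun a b => Subtype.ext
    (h1 (A.normalCore_le b.2) _ (A.normalCore_le a.2))⟩⟩, Nat.lt_succ_of_le ?_⟩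
  refine le_trans ?_ (Nat.factorial_le h2)
  rw [Subgroup.normalCore_eq_ker, Subgroup.index_ker, Subgroup.index_eq_card, ← Nat.card_perm]
  exact Nat.card_le_card_of_injective _ Subtype.val_injective

end Cfsg.Agent.S4732
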