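import Cfsg.Statements.S4735
import Cfsg.Agent.H38.Quot
import Cfsg.Agent.H41.BlockPart
import Cfsg.Agent.H2.PrimeCore

set_option autoImplicit false
open Cfsg

namespace Cfsg.Agent.S4735

open H28 H29 H35 H41 in
open scoped ComplexConjugate in
theorem cast_sum {G : Type*} [Group G] [Finite G] (B : Set (IrrCharacter G)) (x : G) :
    ((∑ᶠ χ ∈ B, Complex.normSq ((χ : G → ℂ) x) : ℝ) : ℂ) = bker B x x := by
  classical
  rw [bker_eq_sum, finsum_mem_irr]
  push_cast
  refine Finset.sum_congr rfl fun χ _ => ?_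
  split_ifs
  · rw [Complex.mul_conj]
  · simp

/-- Let p be a prime, M a maximal ideal of the algebraic integers containing p, G a finite group, H = O_p'(G) and Ḡ = G/H. For x ∈ G write λ(G, x) for the sum of |χ(x)|^2 over the irreducible characters χ in the principal p-block of G. Then λ(G, x) is a positive integer, λ(G, x) = λ(Ḡ, x̄) where x̄ is the image of x, and λ(G, x) ≤ #C_Ḡ(x̄). Moreover λ(G, 1) = [G : H] if and only if the principal block is the only p-block of Ḡ. -/
theorem result {G : Type*} [Group G] [Finite G] (p : ℕ) [Fact p.Prime] (M : Ideal Cfsg.AlgInt) (hM : Cfsg.IsPModular p M) (x : G) : (∃ n : ℕ, 0 < n ∧ ∑ᶠ χ ∈ Cfsg.principalBlock M G, Complex.normSq ((χ : G → ℂ) x) = n) ∧ ∑ᶠ χ ∈ Cfsg.principalBlock M G, Complex.normSq ((χ : G → ℂ) x) = ∑ᶠ ψ ∈ Cfsg.principalBlock M (G ⧸ Cfsg.pPrimeCore p G), Complex.normSq ((ψ : G ⧸ Cfsg.pPrimeCore p G → ℂ) (QuotientGroup.mk x)) ∧ ∑ᶠ χ ∈ Cfsg.principalBlock M G, Complex.normSq ((χ : G → ℂ) x) ≤ (Nat.card ↥(Subgroup.centralizer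 ({(QuotientGroup.mk x : G ⧸ Cfsg.pPrimeCore p G)} : Set (G ⧸ Cfsg.pPrimeCore p G))) : ℝ) ∧ ((∑ᶠ χ ∈ Cfsg.principalBlock M G, Cfsg.charDegree (χ : G → ℂ) ^ 2) = (Cfsg.pPrimeCore p G).index ↔ ∀ B : Set (Cfsg.IrrCharacter (G ⧸ Cfsg.pPrimeCore p G)), Cfsg.IsPBlock M B → B = Cfsg.principalBlock M (G ⧸ Cfsg.pPrimeCore p G)) := by
  classical
  have := hM.2.1
  have hπ := QuotientGroup.mk'_surjective (pPrimeCore p G)
  have hk : ¬ p ∣ Nat.card (QuotientGroup.mk' (pPrimeCore p G)).ker := by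
    rw [QuotientGroup.ker_mk']
    exact H2.not_dvd_card_pPrimeCore p G
  have himg := H38.image_infl_principalBlock hM hπ hk
  have h2 : ∑ᶠ χ ∈ principalBlock M G, Complex.normSq ((χ : G → ℂ) x) =
      ∑ᶠ ψ ∈ principalBlock M (G ⧸ pPrimeCore p G),
        Complex.normSq ((ψ : G ⧸ pPrimeCore p G → ℂ) (QuotientGroup.mk x)) := by
    rw [← himg, finsum_mem_image (H38.infl_injective hπ).injOn]
    rfl
  refine ⟨?_, h2, ?_, ?_⟩
  · have h3 : IsIntegral ℤ (H41.bker (principalBlock M G) x x) := by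
      rw [H41.bker_eq_inv, H41.finsum_mem_irr]
      refine IsIntegral.sum _ fun χ _ => ?_
      split_ifs
      · exact (H28.Cfsg.IsCharacter.isIntegral (H28.Cfsg.IsIrrCharacter.isCharacter χ.2) _).mul
          (H28.Cfsg.IsCharacter.isIntegral (H28.Cfsg.IsIrrCharacter.isCharacter χ.2) _)
      · exact isIntegral_zero
    obtain ⟨z, hz⟩ := H29.exists_int_of_forall_fixed h3 fun σ => by
      rw [H41.bker_eq_inv, H41.finsum_mem_irr, map_sum]
      refine Fintype.sum_bijective (H35.galIrr σ.toRingHom)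
        (Finite.injective_iff_bijective.1 (H35.galIrr_injective _)) _ _ fun χ => ?_
      simp only [H38.galIrr_mem_principalBlock_iff hM]
      split_ifs <;> simp
    rw [← cast_sum] at hz
    have h4 : ∑ᶠ χ ∈ principalBlock M G, Complex.normSq ((χ : G → ℂ) x) = z := by
      exact_mod_cast hz
    have h5 : (0 : ℝ) < z := by
      rw [← h4, H41.finsum_mem_irr]
      refine Finset.sum_pos' (fun χ _ => ?_) ⟨⟨_, H28.isIrrCharacter_one⟩, Finset.mem_univ _, ?_⟩
      · split_ifs
        · exact Complex.normSq_nonneg _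
        · exact le_rfl
      · rw [if_pos H34.one_mem_principalBlock]
        simp
    have h6 : 0 < z := by exact_mod_cast h5
    refine ⟨z.toNat, by omega, ?_⟩
    rw [h4, ← Int.cast_natCast, Int.toNat_of_nonneg h6.le]
  · rw [h2]
    have h3 := cast_sum (Set.univ : Set (IrrCharacter (G ⧸ pPrimeCore p G))) (QuotientGroup.mk x)
    rw [H41.bker_univ] at h3
    have h4 : Nat.card {y : G ⧸ pPrimeCore p G // y * QuotientGroup.mk x * y⁻¹ =
        QuotientGroup.mk x} = Nat.card (Subgroup.centralizer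
          ({(QuotientGroup.mk x : G ⧸ pPrimeCore p G)} : Set (G ⧸ pPrimeCore p G))) :=
      Nat.card_congr (Equiv.subtypeEquivRight fun y => by
        rw [Subgroup.mem_centralizer_singleton_iff, mul_inv_eq_iff_eq_mul])
    rw [h4] at h3
    have h5 : ∑ᶠ χ ∈ (Set.univ : Set (IrrCharacter (G ⧸ pPrimeCore p G))),
        Complex.normSq ((χ : G ⧸ pPrimeCore p G → ℂ) (QuotientGroup.mk x)) =
        Nat.card (Subgroup.centralizer
          ({(QuotientGroup.mk x : G ⧸ pPrimeCore p G)} : Set (G ⧸ pPrimeCore p G))) := by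
      exact_mod_cast h3
    rw [← h5, H41.finsum_mem_irr, H41.finsum_mem_irr]
    refine Finset.sum_le_sum fun χ _ => ?_
    rw [if_pos (Set.mem_univ χ)]
    split_ifs
    · exact le_rfl
    · exact Complex.normSq_nonneg _
  · rw [← himg, finsum_mem_image (H38.infl_injective hπ).injOn]
    simp only [H38.charDegree_infl]
    rw [Subgroup.index, ← H28.sum_charDegree_sq, H41.finsum_mem_irr]
    constructor
    · intro h B hB
      obtain ⟨χ, hχ⟩ := H34.block_nonempty hB
      refine H34.block_eq_of_mem hB H34.isPBlock_principalBlock hχ ?_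
      by_contra hn
      refine h.not_lt (Finset.sum_lt_sum (fun ψ _ => ?_) ⟨χ, Finset.mem_univ _, ?_⟩)
      · split_ifs
        · exact le_rfl
        · exact Nat.zero_le _
      · rw [if_neg hn]
        exact pow_pos (Nat.pos_of_ne_zero (H35.deg_ne_zero χ)) 2
    · intro h
      refine Finset.sum_congr rfl fun χ _ => if_pos ?_
      rw [← h _ (H34.isPBlock_blockOf χ)]
      exact H34.self_mem_blockOf χ

end Cfsg.Agent.S4735
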