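import Cfsg.Statements.S4736
import Cfsg.Agent.H38.Ito
import Cfsg.Agent.S4439

set_option autoImplicit false
open Cfsg

namespace Cfsg.Agent.S4736

/-- Let p be a prime, M a maximal ideal of the algebraic integers containing p, and G a finite p-solvable group with Sylow p-subgroup P. Then P is abelian if and only if every irreducible character in the principal p-block of G has height zero. -/
theorem result {G : Type*} [Group G] [Finite G] (p : ℕ) [Fact p.Prime] (M : Ideal Cfsg.AlgInt) (hM : Cfsg.IsPModular p M) (hsolv : Cfsg.IsPSolvable p G) (P : Sylow p G) : IsMulCommutative P ↔ ∀ χ ∈ Cfsg.principalBlock M G, Cfsg.blockHeight p (Cfsg.principalBlock M G) (χ : G → ℂ) = 0 := by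
  have := hM.2.1
  have hB := H34.isPBlock_principalBlock (G := G) (M := M)
  constructor
  · intro h χ hχ
    have h1 := S4439.result p M hM hsolv _ hB P
      ((H36.isDefectGroup_principalBlock_iff hM).2 ⟨P, rfl⟩) χ hχ
    rw [Subgroup.center_eq_top, Subgroup.index_top, Nat.factorization_one] at h1
    exact Nat.le_zero.1 h1
  · intro h
    have hπ := QuotientGroup.mk'_surjective (pPrimeCore p G)
    have h1 : ∀ η : IrrCharacter (G ⧸ pPrimeCore p G), ¬ p ∣ charDegree η.1 := fun η hd => by
      have h2 : H38.infl hπ η ∈ principalBlock M G :=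
        (H38.mem_principalBlock_iff_of_isPConstrained hM
          (H38.isPConstrained_of_isPSolvable hsolv)).2 (H28.le_charKer_inflate _ _)
      have h3 := H35.nu_add_blockDefect p h2
      rw [h _ h2, H36.blockDefect_principalBlock hM.1, H38.charDegree_infl] at h3
      have := (hM.1.dvd_iff_one_le_factorization (H35.deg_ne_zero η)).1 hd
      omega
    have h2 := H38.isMulCommutative_pCore_of_not_dvd h1
    rw [← H38.sylow_eq_pCore_of_not_dvd (H18.isPSolvable_quotient hsolv _) h1
      (P.mapSurjective hπ)] at h2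
    refine ⟨⟨fun a b => Subtype.ext ?_⟩⟩
    have h3 := congrArg Subtype.val (h2.1.1 ⟨_, a, a.2, rfl⟩ ⟨_, b, b.2, rfl⟩)
    have h4 : (b * a : G)⁻¹ * (a * b) ∈ pPrimeCore p G :=
      QuotientGroup.eq.1 (by rw [QuotientGroup.mk_mul, QuotientGroup.mk_mul]; exact h3.symm)
    have h5 := Subgroup.disjoint_def.1 (H2.disjoint_pPrimeCore_of_isPGroup P.isPGroup')
      ((b * a)⁻¹ * (a * b)).2 h4
    exact (inv_mul_eq_one.1 h5).symm

end Cfsg.Agent.S4736
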