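import Cfsg.Statements.S4963
import Cfsg.Agent.H36.K63Fin
import Cfsg.Agent.H31.KgvAsm

set_option autoImplicit false
open Cfsg

namespace Cfsg.Agent.S4963

/-- Let p be a prime, M a maximal ideal of the algebraic integers containing p, and B a p-block of the finite group G whose defect group D is normal in G. Then B contains at most as many irreducible characters as D has elements, and at most as many irreducible characters of height zero as the index of the derived subgroup of D in D. (No solvability hypothesis on G; derived from the k(GV) Theorem.) -/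
theorem result {G : Type*} [Group G] [Finite G] (p : ℕ) [Fact p.Prime] (M : Ideal Cfsg.AlgInt) (hM : Cfsg.IsPModular p M) (B : Set (Cfsg.IrrCharacter G)) (hB : Cfsg.IsPBlock M B) (D : Subgroup G) [D.Normal] (hD : Cfsg.IsDefectGroup p M B D) : Nat.card B ≤ Nat.card D ∧ Nat.card {χ : Cfsg.IrrCharacter G // χ ∈ B ∧ Cfsg.blockHeight p B (χ : G → ℂ) = 0} ≤ (commutator ↥D).index := by
  exact H36.K63.of_kgv (fun q hq X _ _ V _ h1 h2 h3 =>
    have := Fact.mk hq
    H31.Kgv.kgvSt X q V h1 h2 h3) p M hM B hB D hD

end Cfsg.Agent.S4963
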