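import Cfsg.Statements.S4964
import Cfsg.Agent.H38.Quot
import Cfsg.Agent.H1.Coprime2
import Cfsg.Agent.H3.FrattiniP

set_option autoImplicit false
open Cfsg

namespace Cfsg.Agent.S4964

/-- Let D be a normal p-subgroup of the finite group G, let D′ be its commutator subgroup (normal in G), and fix a maximal ideal M of the algebraic integers containing p. Then (i) two irreducible characters of G ⧸ D′ lie in the same p-block if and only if their inflations to G do, and (ii) every p-block of G contains the inflation of some irreducible character of G ⧸ D′; so inflation induces a bijection between the p-blocks of G ⧸ D′ and the p-blocks of G. -/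
theorem result {G : Type*} [Group G] [Finite G] (p : ℕ) [Fact p.Prime] (M : Ideal Cfsg.AlgInt) (hM : Cfsg.IsPModular p M) (D : Subgroup G) [D.Normal] (hD : IsPGroup p D) : (∀ χ ψ : Cfsg.IrrCharacter (G ⧸ ⁅D, D⁆), Cfsg.SameBlock M (χ : G ⧸ ⁅D, D⁆ → ℂ) (ψ : G ⧸ ⁅D, D⁆ → ℂ) ↔ Cfsg.SameBlock M ((χ : G ⧸ ⁅D, D⁆ → ℂ) ∘ QuotientGroup.mk) ((ψ : G ⧸ ⁅D, D⁆ → ℂ) ∘ QuotientGroup.mk)) ∧ ∀ B : Set (Cfsg.IrrCharacter G), Cfsg.IsPBlock M B → ∃ χ : Cfsg.IrrCharacter (G ⧸ ⁅D, D⁆), ∃ θ ∈ B, (θ : G → ℂ) = (χ : G ⧸ ⁅D, D⁆ → ℂ) ∘ QuotientGroup.mk := by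
  have := hM.2.1
  have hπ := QuotientGroup.mk'_surjective ⁅D, D⁆
  have hD' : IsPGroup p (⁅D, D⁆ : Subgroup G) := hD.to_le (Subgroup.commutator_le_left D D)
  refine ⟨fun χ ψ => ⟨H38.sameBlock_comp hπ χ.2 ψ.2, fun h => ?_⟩, fun B hB => ?_⟩
  · have : (D.map (QuotientGroup.mk' ⁅D, D⁆)).Normal := Subgroup.Normal.map inferInstance _ hπ
    refine H38.sameBlock_of_comp_of_lift hM hπ (by rwa [QuotientGroup.ker_mk'])
      (hD.map (QuotientGroup.mk' ⁅D, D⁆))
      (fun x hx hc => ?_) h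
    rw [QuotientGroup.ker_mk']
    refine H39.cen_anti (Subgroup.commutator_le_left D D) ?_
    refine H1.le_centralizer_of_commutator_le_frattini (A := Subgroup.zpowers x)
      (H38.nor_of_normal D _) ?_ ?_ (Subgroup.mem_zpowers x)
    · obtain ⟨k, hk⟩ := IsPGroup.iff_card.1 hD
      rw [hk, Nat.card_zpowers]
      exact ((Nat.Prime.coprime_iff_not_dvd hM.1).2 hx).symm.pow_right k
    · refine le_trans ?_ ((Subgroup.map_subtype_commutator D).ge.trans
        (Subgroup.map_mono (H3.commutator_le_frattini_pgroup hD)))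
      refine Subgroup.commutator_le.2 fun u hu y hy => ?_
      have hy' : QuotientGroup.mk' ⁅D, D⁆ y ∈ H39.Cen (D.map (QuotientGroup.mk' ⁅D, D⁆)) := by
        obtain ⟨n, rfl⟩ := Subgroup.mem_zpowers_iff.1 hy
        rw [map_zpow]
        exact Subgroup.zpow_mem _ hc n
      rw [← QuotientGroup.ker_mk' ⁅D, D⁆, MonoidHom.mem_ker, map_commutatorElement,
        commutatorElement_eq_one_iff_mul_comm]
      exact hy' _ ⟨u, hu, rfl⟩
  · obtain ⟨θ, hθ, hle⟩ := H34.exists_mem_le_charKer hM _ hD' hB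
    obtain ⟨η, hη, he⟩ := H28.Cfsg.IsIrrCharacter.exists_quotient θ.2 _ hle
    exact ⟨⟨η, hη⟩, θ, hθ, funext fun g => (he g).symm⟩

end Cfsg.Agent.S4964
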