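import Cfsg.Statements.S5014
import Cfsg.Agent.Base
import Cfsg.Agent.H70.RankOne

set_option autoImplicit false
open Cfsg

namespace Cfsg.Agent.S5014

/-- Let X = ⟨A, B⟩ be a rank one group with unipotent subgroups A and B and let Ω be the set of conjugates of A under X. Then Ω has at least three members, X acts doubly transitively on Ω by conjugation (any two ordered pairs of distinct members are carried to one another by a single element of X), and A acts regularly on Ω with A removed: for C, D in Ω different from A there is exactly one element of A conjugating C to D. -/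
theorem result {G : Type*} [Group G] {A B : Subgroup G} (h : Cfsg.IsRankOnePair A B) :
    (∃ C₁ ∈ Cfsg.unipotentSubgroups A B, ∃ C₂ ∈ Cfsg.unipotentSubgroups A B, ∃ C₃ ∈ Cfsg.unipotentSubgroups A B,
      C₁ ≠ C₂ ∧ C₁ ≠ C₃ ∧ C₂ ≠ C₃) ∧
    (∀ C₁ ∈ Cfsg.unipotentSubgroups A B, ∀ C₂ ∈ Cfsg.unipotentSubgroups A B, ∀ D₁ ∈ Cfsg.unipotentSubgroups A B,
      ∀ D₂ ∈ Cfsg.unipotentSubgroups A B, C₁ ≠ C₂ → D₁ ≠ D₂ →
        ∃ x ∈ A ⊔ B, Cfsg.conjBy C₁ x = D₁ ∧ Cfsg.conjBy C₂ x = D₂) ∧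
    (∀ C ∈ Cfsg.unipotentSubgroups A B, ∀ D ∈ Cfsg.unipotentSubgroups A B, C ≠ A → D ≠ A →
      ∃! a : G, a ∈ A ∧ Cfsg.conjBy C a = D) := by
  refine ⟨?_, ?_, ?_⟩
  · obtain ⟨a, ha, ha1⟩ := H70.exists_mem_ne_one (H70.r1_left_ne_bot h)
    refine ⟨A, H70.left_mem_unip A B, B, H70.r1_right_mem_unip h, conjBy B a,
      H70.conj_mem_unip (H70.r1_right_mem_unip h) (Subgroup.mem_sup_left ha), h.ne, ?_, ?_⟩
    · intro e
      rw [eq_comm, H70.conjBy_eq_iff, H70.conjBy_of_mem (A.inv_mem ha)] at e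
      exact h.ne e.symm
    · intro e
      exact ha1 (H70.r1_eq_one_of_norm h ha e.symm)
  · intro C₁ hC₁ C₂ hC₂ D₁ hD₁ D₂ hD₂ hC hD
    obtain ⟨x, hx, rfl, rfl⟩ := H70.r1_pair_conj h hC₁ hC₂ hC
    obtain ⟨y, hy, rfl, rfl⟩ := H70.r1_pair_conj h hD₁ hD₂ hD
    refine ⟨y * x⁻¹, Subgroup.mul_mem _ hy (Subgroup.inv_mem _ hx), ?_, ?_⟩ <;>
    · rw [H70.conjBy_conjBy]; congr 1; group
  · intro C hC D hD hCA hDA
    obtain ⟨c, hc, rfl⟩ := ((H70.r1_mem_unip_iff h).1 hC).resolve_left hCA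
    obtain ⟨d, hd, rfl⟩ := ((H70.r1_mem_unip_iff h).1 hD).resolve_left hDA
    refine ⟨d * c⁻¹, ⟨A.mul_mem hd (A.inv_mem hc), ?_⟩, fun a ⟨ha, e⟩ => ?_⟩
    · rw [H70.conjBy_conjBy]; congr 1; group
    · rw [H70.conjBy_conjBy] at e
      have := H70.r1_conj_inj h (A.mul_mem ha hc) hd e
      rw [← this]; group

end Cfsg.Agent.S5014
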