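import Cfsg.Statements.S5015
import Cfsg.Agent.Base
import Cfsg.Agent.H70.RankOne2

set_option autoImplicit false
open Cfsg

namespace Cfsg.Agent.S5015

/-- Let a group Y act doubly transitively on a set Ω with at least three points, and suppose that the stabilizer of a point α contains a nilpotent subgroup A, normalized by that stabilizer, which acts regularly on the points other than α. Then for any y in Y moving α, the subgroups A and y A y⁻¹ are the unipotent subgroups of a rank one group, and the normal closure of A in Y (the subgroup generated by all conjugates of A) is generated by A and y A y⁻¹ alone. -/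
theorem result {Y Ω : Type*} [Group Y] [MulAction Y Ω]
    (h2 : MulAction.IsMultiplyPretransitive Y Ω 2) (hΩ : 3 ≤ ENat.card Ω) (α : Ω) (A : Subgroup Y)
    (hA : A ≤ MulAction.stabilizer Y α) (hAn : ∀ y ∈ MulAction.stabilizer Y α, Cfsg.conjBy A y = A)
    (hnil : Group.IsNilpotent A) (hreg : ∀ β γ : Ω, β ≠ α → γ ≠ α → ∃! a : Y, a ∈ A ∧ a • β = γ)
    (y : Y) (hy : y ∉ MulAction.stabilizer Y α) :
    Cfsg.IsRankOnePair A (Cfsg.conjBy A y) ∧ Subgroup.normalClosure (A : Set Y) = A ⊔ Cfsg.conjBy A y := by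
  have hst : ∀ g g' : Y, g • α = g' • α → conjBy A g = conjBy A g' := by
    intro g g' e
    rw [H70.conjBy_eq_conjBy_iff, ← H70.conjBy_eq_self_iff]
    apply hAn
    rw [MulAction.mem_stabilizer_iff, mul_smul, e, inv_smul_smul]
  have hregc : ∀ (g : Y) (β γ : Ω), β ≠ g • α → γ ≠ g • α → ∃! a : Y, a ∈ conjBy A g ∧ a • β = γ := by
    intro g β γ hβ hγ
    obtain ⟨a, ⟨ha, e⟩, hu⟩ := hreg (g⁻¹ • β) (g⁻¹ • γ) (fun e => hβ (by rw [← e, smul_inv_smul]))
      (fun e => hγ (by rw [← e, smul_inv_smul]))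
    refine ⟨g * a * g⁻¹, ⟨H70.conj_mem_conjBy g ha, by rw [mul_smul, mul_smul, e, smul_inv_smul]⟩,
      fun a' ⟨ha', e'⟩ => ?_⟩
    have := hu (g⁻¹ * a' * g) ⟨H70.mem_conjBy.1 ha', by rw [mul_smul, mul_smul, smul_inv_smul, e']⟩
    rw [← this]; group
  have hfix : ∀ (g : Y), ∀ a ∈ conjBy A g, a • g • α = g • α := by
    intro g a ha
    have := hA (H70.mem_conjBy.1 ha)
    rw [MulAction.mem_stabilizer_iff, mul_smul, mul_smul, inv_smul_eq_iff] at this
    exact this
  have hcond : ∀ g g' : Y, g • α ≠ g' • α → RankOneCondition (conjBy A g) (conjBy A g') := by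
    intro g g' hne a ha ha1
    have h1 : a⁻¹ • g' • α ≠ g' • α := by
      intro e
      obtain ⟨c, -, hu⟩ := hregc g (g' • α) (g' • α) hne.symm hne.symm
      have e1 := hu a⁻¹ ⟨Subgroup.inv_mem _ ha, e⟩
      have e2 := hu 1 ⟨Subgroup.one_mem _, one_smul _ _⟩
      exact ha1 (inv_eq_one.1 (e1.trans e2.symm))
    obtain ⟨b, ⟨hb, e⟩, -⟩ := hregc g' (g • α) (a⁻¹ • g' • α) hne h1
    refine ⟨b⁻¹, Subgroup.inv_mem _ hb, ?_, ?_⟩
    · intro hb1
      rw [inv_eq_one.1 hb1, one_smul, eq_inv_smul_iff, hfix g a ha] at e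
      exact hne e
    · rw [inv_inv, H70.conjBy_conjBy, H70.conjBy_conjBy]
      apply hst
      rw [mul_smul, mul_smul, e]
  have hy' : y • α ≠ α := hy
  have hthird : ∃ γ : Ω, γ ≠ α ∧ γ ≠ y • α := by
    by_contra hc
    push Not at hc
    have hsub : (Set.univ : Set Ω) ⊆ {α, y • α} := fun γ _ => by
      by_cases e : γ = α
      · exact Or.inl e
      · exact Or.inr (hc γ e)
    have h1 := Set.encard_le_encard hsub
    have h2 : ({α, y • α} : Set Ω).encard ≤ 2 := by
      rw [Set.encard_pair hy'.symm]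
    rw [Set.encard_univ] at h1
    have : (3 : ℕ∞) ≤ 2 := hΩ.trans (h1.trans h2)
    norm_num at this
  have hne : A ≠ conjBy A y := by
    intro e
    obtain ⟨γ, hγ1, hγ2⟩ := hthird
    obtain ⟨a, ⟨ha, e'⟩, -⟩ := hreg (y • α) γ hy' hγ1
    rw [e] at ha
    exact hγ2 (e'.symm.trans (hfix y a ha))
  refine ⟨⟨hne, hnil, H70.isNilpotent_conjBy hnil y, ?_, ?_⟩, le_antisymm ?_ ?_⟩
  · have := hcond 1 y (by rw [one_smul]; exact hy'.symm)
    rwa [H70.conjBy_one] at this
  · have := hcond y 1 (by rw [one_smul]; exact hy')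
    rwa [H70.conjBy_one] at this
  · rw [Subgroup.normalClosure, Subgroup.closure_le]
    intro x hx
    obtain ⟨a, ha, hc⟩ := Group.mem_conjugatesOfSet_iff.1 hx
    obtain ⟨g, rfl⟩ := isConj_iff.1 hc
    have hmem : g * a * g⁻¹ ∈ conjBy A g := H70.conj_mem_conjBy g ha
    by_cases e : g • α = α
    · rw [hAn g e] at hmem
      exact Subgroup.mem_sup_left hmem
    · obtain ⟨c, ⟨hc, e'⟩, -⟩ := hreg (y • α) (g • α) hy' e
      rw [hst g (c * y) (by rw [mul_smul, e']), ← H70.conjBy_conjBy] at hmem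
      exact H70.conjBy_le_of_le le_sup_right (Subgroup.mem_sup_left hc) hmem
  · refine sup_le Subgroup.subset_normalClosure ?_
    rintro _ ⟨a, ha, rfl⟩
    exact Subgroup.normalClosure_normal.conj_mem a (Subgroup.subset_normalClosure ha) y

end Cfsg.Agent.S5015
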