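import Cfsg.Statements.S5017
import Cfsg.Agent.Base
import Cfsg.Agent.H70.RankOne2

set_option autoImplicit false
open Cfsg

namespace Cfsg.Agent.S5017

/-- Let X be a rank one group with unipotent subgroups A and B and N a normal subgroup of X. Then either X = N A or N lies in the centre of X. Consequently a perfect rank one group is quasisimple. -/
theorem result {X : Type*} [Group X] {A B : Subgroup X} (h : Cfsg.IsRankOneGroup X A B) :
    (∀ N : Subgroup X, N.Normal → N ⊔ A = ⊤ ∨ N ≤ Subgroup.center X) ∧
    (Group.IsPerfect X → Cfsg.IsQuasisimple X) := by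
  refine ⟨H70.r1g_dichotomy h, fun hp => ⟨hp, ?_⟩⟩
  have hnt : Nontrivial (X ⧸ Subgroup.center X) :=
    QuotientGroup.nontrivial_iff.2 (H70.r1g_center_ne_top h)
  refine ⟨fun N hN => ?_⟩
  rcases H70.r1g_dichotomy h (N.comap (QuotientGroup.mk' _)) inferInstance with e | e
  · right
    set M := N.comap (QuotientGroup.mk' (Subgroup.center X)) with hM
    have hsurj : Function.Surjective ((QuotientGroup.mk' M).comp A.subtype) := by
      intro y
      obtain ⟨x, rfl⟩ := QuotientGroup.mk'_surjective M y
      have hx : x ∈ M ⊔ A := e ▸ Subgroup.mem_top x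
      obtain ⟨m, hm, a, ha, rfl⟩ := Subgroup.mem_sup_of_normal_left.1 hx
      refine ⟨⟨a, ha⟩, ?_⟩
      have : QuotientGroup.mk' M m = 1 := (QuotientGroup.eq_one_iff m).2 hm
      rw [map_mul, this, one_mul]; rfl
    have := h.2.nilpotent_left
    have hnil : Group.IsNilpotent (X ⧸ M) := Group.nilpotent_of_surjective _ hsurj
    have hM : M = ⊤ := by
      by_contra hne
      have : Nontrivial (X ⧸ M) := QuotientGroup.nontrivial_iff.2 hne
      exact Group.IsPerfect.not_isNilpotent (X ⧸ M) hnil
    rw [eq_top_iff]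
    intro y _
    obtain ⟨x, rfl⟩ := QuotientGroup.mk'_surjective _ y
    have : x ∈ M := hM ▸ Subgroup.mem_top x
    exact this
  · left
    rw [eq_bot_iff]
    intro y hy
    obtain ⟨x, rfl⟩ := QuotientGroup.mk'_surjective _ y
    exact (QuotientGroup.eq_one_iff x).2 (e hy)

end Cfsg.Agent.S5017
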