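import Cfsg.Statements.S5020
import Cfsg.Agent.Base
import Cfsg.Agent.H70.SpR1

set_option autoImplicit false
open Cfsg

namespace Cfsg.Agent.S5020

open H70 in
theorem eq_zpowers {X : Type*} [Group X] {A : Subgroup X} (h3 : ENat.card A ≤ 3) {a : X} (ha : a ∈ A) (a1 : a ≠ 1) :
    A = Subgroup.zpowers a ∧ (a ^ 2 = 1 ∨ a ^ 3 = 1) := by
  have hfin : Finite A := by
    rw [← ENat.card_lt_top]; exact h3.trans_lt (ENat.natCast_lt_top 3)
  have hc : Nat.card A ≤ 3 := by
    rw [ENat.card_eq_coe_natCard] at h3; exact_mod_cast h3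
  have hnt : Nontrivial A := ⟨⟨⟨a, ha⟩, 1, fun e => a1 (congrArg Subtype.val e)⟩⟩
  have h1 : 1 < Nat.card A := Finite.one_lt_card
  have hp : (Nat.card A).Prime := by interval_cases Nat.card A <;> norm_num
  have hpow : a ^ Nat.card A = 1 := congrArg Subtype.val (pow_card_eq_one' (x := (⟨a, ha⟩ : A)))
  refine ⟨?_, by interval_cases Nat.card A <;> simp [hpow]⟩
  have : Fact (Nat.card A).Prime := ⟨hp⟩
  refine (Subgroup.eq_of_le_of_card_ge ((Subgroup.zpowers_le).2 ha) ?_).symm
  rw [Nat.card_zpowers, orderOf_eq_prime hpow a1]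

/-- Let X be a special rank one group with abelian unipotent subgroups A and B, and H = N(A) ∩ N(B) its diagonal subgroup. Then either A has at most three elements and X is isomorphic to SL₂(2), SL₂(3) or PSL₂(3); or X = X' A with the commutator subgroup X' quasisimple and the commutator subgroup ⁅A, H⁆ having more than three elements. -/
theorem result {X : Type*} [Group X] {A B : Subgroup X} (h : Cfsg.IsRankOneGroup X A B)
    (hs : Cfsg.IsSpecialRankOnePair A B) (hab : Cfsg.HasAbelianUnipotents A B) :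
    (ENat.card A ≤ 3 ∧ (Nonempty (X ≃* Matrix.SpecialLinearGroup (Fin 2) (ZMod 2)) ∨
        Nonempty (X ≃* Matrix.SpecialLinearGroup (Fin 2) (ZMod 3)) ∨
        Nonempty (X ≃* Matrix.ProjectiveSpecialLinearGroup (Fin 2) (ZMod 3)))) ∨
    (commutator X ⊔ A = ⊤ ∧ Cfsg.IsQuasisimple (commutator X) ∧
      3 < ENat.card ↥(⁅A, Cfsg.rankOneDiagonal A B⁆ : Subgroup X)) := by
  have hs' := H70.sp_of hs hab
  by_cases h3 : ENat.card A ≤ 3
  · left
    refine ⟨h3, ?_⟩
    obtain ⟨a, ha, a1⟩ := H70.exists_mem_ne_one (H70.r1_left_ne_bot h.2)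
    obtain ⟨b, hb⟩ := H70.r1_exists_ptn h.2 ha a1
    obtain ⟨x, -, hx⟩ := H70.r1_exists_conj h.2
    obtain ⟨eA, hp⟩ := eq_zpowers h3 ha a1
    obtain ⟨eB, -⟩ := eq_zpowers (A := B) (by rw [hx, H70.encard_conjBy]; exact h3) hb.hb hb.b1
    have e : Subgroup.closure ({a, b} : Set X) = ⊤ := by
      rw [← h.1, eA, eB, Subgroup.zpowers_eq_closure, Subgroup.zpowers_eq_closure, ← Subgroup.closure_union]; rfl
    have f : ↥(Subgroup.closure ({a, b} : Set X)) ≃* X := (MulEquiv.subgroupCongr e).trans Subgroup.topEquiv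
    rcases hp with hp | hp
    · obtain ⟨φ, e', hk, -⟩ := hs'.exists_hom hb hp
      have : φ.ker = ⊥ := by
        rw [eq_bot_iff]
        intro g hg
        rcases H61.sl_mem_center_iff.1 (hk hg) with rfl | rfl
        · exact Subgroup.one_mem _
        · rw [Subgroup.mem_bot]; decide
      exact Or.inl ⟨f.symm.trans ((MulEquiv.subgroupCongr e'.symm).trans
        (MonoidHom.ofInjective ((MonoidHom.ker_eq_bot_iff φ).1 this)).symm)⟩
    · have : Fact (Nat.Prime 3) := ⟨Nat.prime_three⟩
      rcases hs'.closure_iso hb hp with ⟨⟨g⟩⟩ | ⟨⟨g⟩⟩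
      · exact Or.inr (Or.inl ⟨f.symm.trans g⟩)
      · exact Or.inr (Or.inr ⟨f.symm.trans g⟩)
  · right
    rw [not_le] at h3
    have hp := hs'.perfect h3
    rw [h.1] at hp
    have hc : commutator X = ⊤ := hp
    refine ⟨by rw [hc, top_sup_eq], ?_, h3.trans_le ?_⟩
    · rw [hc]
      refine H70.isQuasisimple_of_subgroup hp (fun e => H70.r1_left_ne_bot h.2 (eq_bot_iff.2 (e ▸ le_top))) ?_
      intro N _ hN
      have hn : N.Normal := ⟨fun n hn g => hN g trivial ▸ H70.conj_mem_conjBy g hn⟩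
      rcases H70.r1g_dichotomy h N hn with e | e
      · left
        have := H70.commutator_sup_le_of_abelian (N := N) hs'.cA (by rw [Subgroup.normalizer_eq_top]; exact le_top)
        rwa [sup_comm, e, hp, top_le_iff] at this
      · right
        exact H70.commutator_eq_bot_iff.2 fun a ha b _ => (Subgroup.mem_center_iff.1 (e ha) b).symm
    · exact Set.encard_le_encard (hs'.le_commutator h3)

end Cfsg.Agent.S5020
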