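import Cfsg.Statements.S5023
import Cfsg.Agent.Base
import Cfsg.Agent.H70.QuadMod

set_option autoImplicit false
open Cfsg

namespace Cfsg.Agent.S5023

/-- Let X be a rank one group with unipotent subgroups A and B that acts faithfully on an abelian group V (written additively) with A acting quadratically: a' • (a • v − v) = a • v − v for all a, a' in A and v in V. Then A is either torsion-free or an elementary abelian p-group for some prime p. -/
theorem result {X : Type*} [Group X] {A B : Subgroup X} (h : Cfsg.IsRankOneGroup X A B)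
    {V : Type*} [AddCommGroup V] [DistribMulAction X V] (hf : ∀ x : X, (∀ v : V, x • v = v) → x = 1)
    (hq : ∀ a ∈ A, ∀ a' ∈ A, ∀ v : V, a' • (a • v - v) = a • v - v) :
    (∀ a ∈ A, a ≠ 1 → ¬ IsOfFinOrder a) ∨ ∃ p : ℕ, p.Prime ∧ Cfsg.IsElementaryAbelian p A := by
  have hX : ∃ x y : X, ∃ n : V, y • (x • n - n) ≠ x • n - n := by
    by_contra hc
    push Not at hc
    apply H70.r1_not_comm h.2
    intro x _ y _
    have key : ∀ x y : X, ∀ v : V, (y * x) • v = x • v + y • v - v := by
      intro x y v
      have := hc x y v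
      rw [smul_sub, sub_eq_iff_eq_add] at this
      rw [mul_smul, this]; abel
    have : (y * x)⁻¹ * (x * y) = 1 := hf _ fun v => by
      rw [mul_smul, key y x, add_comm, ← key x y, inv_smul_smul]
    exact (inv_mul_eq_one.1 this).symm
  by_cases hfin : ∀ a ∈ A, a ≠ 1 → ¬ IsOfFinOrder a
  · exact Or.inl hfin
  · right
    push Not at hfin
    obtain ⟨a, ha, ha1, hfin⟩ := hfin
    have ho : orderOf a ≠ 1 := by simpa using ha1
    obtain ⟨p, hp, hdvd⟩ := Nat.exists_prime_and_dvd ho
    have hop := orderOf_pow_orderOf_div hfin.orderOf_pos.ne' hdvd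
    refine ⟨p, hp, H70.isMulCommutative_iff.2 fun x hx y hy => ?_, fun c hc => ?_⟩
    · have key : ∀ x ∈ A, ∀ y ∈ A, ∀ v : V, (y * x) • v = x • v + y • v - v := by
        intro x hx y hy v
        have := hq x hx y hy v
        rw [smul_sub, sub_eq_iff_eq_add] at this
        rw [mul_smul, this]; abel
      have : (y * x)⁻¹ * (x * y) = 1 := hf _ fun v => by
        rw [mul_smul, key y hy x hx, add_comm, ← key x hx y hy, inv_smul_smul]
      exact (inv_mul_eq_one.1 this).symm
    · refine H70.quad_pow_eq_one h hq hX (A.pow_mem ha (orderOf a / p)) ?_ ?_ hc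
      · intro e
        rw [e, orderOf_one] at hop
        exact hp.one_lt.ne hop
      · have := pow_orderOf_eq_one (a ^ (orderOf a / p))
        rwa [hop] at this

end Cfsg.Agent.S5023
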