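import Cfsg.Statements.S5026
import Cfsg.Agent.Base
import Cfsg.Agent.H70.Root1

set_option autoImplicit false
open Cfsg

namespace Cfsg.Agent.S5026

theorem mem_cent {G : Type*} [Group G] {S : Set (Subgroup G)} {x : G} {E : Subgroup G} :
    E ∈ Cfsg.centralizingMembers S (Subgroup.zpowers x) ↔ E ∈ S ∧ ∀ e ∈ E, e * x = x * e := by
  refine and_congr_right fun _ => ⟨fun h e he => ?_, fun h e he => ?_⟩
  · exact (Subgroup.mem_centralizer_iff.1 (h he) x (Subgroup.mem_zpowers x)).symm
  · refine Subgroup.mem_centralizer_iff.2 ?_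
    rintro _ ⟨n, rfl⟩
    exact (Commute.zpow_right (h e he) n).symm

theorem key {G : Type*} [Group G] {S : Set (Subgroup G)} (hS : Cfsg.IsRootSubgroupSet S)
    (hdeg : Cfsg.IsDegenerateRootSet S) {a b : G} (ha : a ∈ Cfsg.rootElements S)
    (hb : b ∈ Cfsg.rootElements S) (hab : a * b = b * a) (hab1 : a * b ≠ 1) {E : Subgroup G}
    (hE : E ∈ S) (h : ∀ e ∈ E, e * (a * b) = a * b * e) : ∀ e ∈ E, e * a = a * e := by
  obtain ⟨ha1, A, hA, haA⟩ := ha
  obtain ⟨hb1, B, hB, hbB⟩ := hb
  rcases hS.pair A hA E hE with h1 | h1 | h1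
  · exact fun e he => (H70.commutator_eq_bot_iff.1 h1 a haA e he).symm
  · exfalso
    have e1 : conjBy E b⁻¹ = conjBy E a := by
      rw [H70.conjBy_eq_conjBy_iff, ← mul_inv_rev, ← hab]
      exact Subgroup.inv_mem _ (Subgroup.centralizer_le_normalizer _
        (Subgroup.mem_centralizer_iff.2 h))
    obtain ⟨-, h2⟩ := H70.rs_mem_unip_of_conj_eq hS hA hE hB h1 haA ha1 (B.inv_mem hbB) e1
    by_cases hAB : A = B
    · subst hAB
      exact hab1 (H70.r1_eq_one_of_commute h1 (A.mul_mem haA hbB) fun e he => (h e he).symm)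
    · exact H70.r1_not_commute (H70.r1_of_mem_unip h1 (H70.left_mem_unip A E) h2 hAB).1 haA ha1
        hbB hb1 hab
  · exact absurd h1 (hdeg A hA E hE)

/-- Let S be a degenerate set of abstract root subgroups of G (a set of abstract transvection groups) and let a, b be commuting non-identity elements of members of S with a b ≠ 1. Then the members of S centralizing a b are exactly those centralizing both a and b. -/
theorem result {G : Type*} [Group G] {S : Set (Subgroup G)} (hS : Cfsg.IsRootSubgroupSet S) (hdeg : Cfsg.IsDegenerateRootSet S)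
    {a b : G} (ha : a ∈ Cfsg.rootElements S) (hb : b ∈ Cfsg.rootElements S) (hab : a * b = b * a) (hab1 : a * b ≠ 1) :
    Cfsg.centralizingMembers S (Subgroup.zpowers (a * b)) =
      Cfsg.centralizingMembers S (Subgroup.zpowers a) ∩ Cfsg.centralizingMembers S (Subgroup.zpowers b) := by
  ext E
  simp only [Set.mem_inter_iff, mem_cent]
  constructor
  · rintro ⟨hE, h⟩
    exact ⟨⟨hE, key hS hdeg ha hb hab hab1 hE h⟩,
      ⟨hE, key hS hdeg hb ha hab.symm (hab ▸ hab1) hE (hab ▸ h)⟩⟩
  · rintro ⟨⟨hE, h1⟩, -, h2⟩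
    refine ⟨hE, fun e he => ?_⟩
    rw [← mul_assoc, h1 e he, mul_assoc, h2 e he, mul_assoc]

end Cfsg.Agent.S5026
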