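import Cfsg.Statements.S5027
import Cfsg.Agent.Base
import Cfsg.Agent.H70.Root1

set_option autoImplicit false
open Cfsg

namespace Cfsg.Agent.S5027

/-- Let S be a set of abstract root subgroups of G such that every member of S has a rank one partner in S (the graph of rank one pairs on S has no isolated vertex). Then the second centre of G equals its centre. -/
theorem result {G : Type*} [Group G] {S : Set (Subgroup G)} (hS : Cfsg.IsRootSubgroupSet S)
    (hF : ∀ A ∈ S, ¬ Cfsg.IsIsolatedIn (Cfsg.FAdj S) S A) : Subgroup.upperCentralSeries G 2 = Subgroup.center G := by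
  refine le_antisymm (fun z hz => ?_) ?_
  · rw [Subgroup.mem_upperCentralSeries_succ_iff] at hz
    simp only [Subgroup.upperCentralSeries_one] at hz
    have : (⨆ A ∈ S, A) ≤ Subgroup.centralizer {z} := by
      refine iSup₂_le fun A hA a ha => ?_
      rw [Subgroup.mem_centralizer_singleton_iff]
      obtain ⟨B, hB, hAB⟩ := (H70.not_isolated_iff hA).1 (hF A hA)
      by_contra hne
      have ha1 : a ≠ 1 := by rintro rfl; simp at hne
      have hc := Subgroup.mem_center_iff.1 (hz a)
      refine H70.rs_not_rootElement hS hA hB hAB (z := z * a * z⁻¹ * a⁻¹) (fun x _ => (hc x).symm)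
        (fun x _ => (hc x).symm) ?_ ha ha1 ?_
      · intro e
        exact hne (commutatorElement_eq_one_iff_mul_comm.1 e).symm
      · have e : z * a * z⁻¹ * a⁻¹ * a = z * a * z⁻¹ := by group
        rw [e]
        exact ⟨by simpa using ha1, conjBy A z, hS.conj_mem A hA z, H70.conj_mem_conjBy z ha⟩
    rw [hS.generates] at this
    exact Subgroup.mem_center_iff.2 fun g =>
      Subgroup.mem_centralizer_singleton_iff.1 (this (Subgroup.mem_top g))
  · rw [← Subgroup.upperCentralSeries_one]
    exact Subgroup.upperCentralSeries_mono G (by norm_num)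

end Cfsg.Agent.S5027
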