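import Cfsg.Statements.S5029
import Cfsg.Agent.Base
import Cfsg.Agent.H70.Root2

set_option autoImplicit false
open Cfsg

namespace Cfsg.Agent.S5029

/-- Let S be a set of abstract root subgroups of G, A ∈ S having a rank one partner in S, and B ∈ S with C = ⁅A, B⁆ ∈ S. Then the members of S contained in AC are the conjugates of A by elements of B together with C, they partition AC, the members of S inside AC partition AC so that A is a line partner of C, and for every non-identity a ∈ A the map b ↦ a⁻¹ b⁻¹ a b is an isomorphism from B onto C. -/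
theorem result {G : Type*} [Group G] {S : Set (Subgroup G)} (hS : Cfsg.IsRootSubgroupSet S)
    {A B : Subgroup G} (hA : ¬ Cfsg.IsIsolatedIn (Cfsg.FAdj S) S A) (hAS : A ∈ S) (hB : B ∈ S) (hC : ⁅A, B⁆ ∈ S) :
    Cfsg.membersIn S (A ⊔ ⁅A, B⁆) = (fun b : G => Cfsg.conjBy A b) '' (B : Set G) ∪ {⁅A, B⁆} ∧
    Cfsg.IsSubgroupPartition (A ⊔ ⁅A, B⁆) (Cfsg.membersIn S (A ⊔ ⁅A, B⁆)) ∧
    A ∈ Cfsg.linePartners S ⁅A, B⁆ ∧
    ∀ a ∈ A, a ≠ 1 → ∃ φ : ↥B ≃* ↥⁅A, B⁆, ∀ b : ↥B, (φ b : G) = a⁻¹ * (b : G)⁻¹ * a * b := by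
  obtain ⟨D, hD, hAD⟩ := (H70.not_isolated_iff hAS).1 hA
  have h := H70.rs_cc_of_mem hS hAS hB hC
  refine ⟨H70.cc_membersIn hS hAS hD hAD h, H70.cc_partition hS hAS hD hAD h,
    H70.cc_left_mem_linePartners hS hAS hD hAD h, fun a ha ha1 => ?_⟩
  have hm : ∀ b ∈ B, a⁻¹ * b⁻¹ * a * b ∈ ⁅A, B⁆ := fun b hb => by
    simpa using H70.comm_mem_commutator (A.inv_mem ha) (B.inv_mem hb)
  let f : B →* ↥⁅A, B⁆ := MonoidHom.mk' (fun b => ⟨a⁻¹ * (b : G)⁻¹ * a * b, hm b b.2⟩) (by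
    intro b b'
    apply Subtype.ext
    have h1 := H70.cc_comm_right h (hm b b.2) b'.2
    have h2 := H70.cc_comm_left h (hm b b.2) ha
    have h3 := H70.rs_comm hS hC (hm b b.2) (hm b' b'.2)
    show a⁻¹ * ((b : G) * b')⁻¹ * a * (b * b') = a⁻¹ * (b : G)⁻¹ * a * b * (a⁻¹ * (b' : G)⁻¹ * a * b')
    rw [h3]
    calc a⁻¹ * ((b : G) * b')⁻¹ * a * (b * b') = a⁻¹ * (b' : G)⁻¹ * a * (a⁻¹ * (b : G)⁻¹ * a * b * b') := by
          group
      _ = _ := by rw [h1]; group)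
  refine ⟨MulEquiv.ofBijective f ⟨?_, ?_⟩, fun b => rfl⟩
  · rw [injective_iff_map_eq_one]
    intro b hb
    have e : a⁻¹ * (b : G)⁻¹ * a * b = 1 := congrArg Subtype.val hb
    apply Subtype.ext
    refine H70.cc_eq_one_of_commute hS hAS hD hAD h ha ha1 b.2 ?_
    calc a * b = b * a * (a⁻¹ * (b : G)⁻¹ * a * b) := by group
      _ = _ := by rw [e, mul_one]
  · intro c
    obtain ⟨b, hb, e⟩ := H70.cc_surj h (A.inv_mem ha) (by simpa using ha1) c.2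
    refine ⟨⟨b⁻¹, B.inv_mem hb⟩, Subtype.ext ?_⟩
    show a⁻¹ * b⁻¹⁻¹ * a * b⁻¹ = c
    rw [e]; group

end Cfsg.Agent.S5029
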