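import Cfsg.Statements.S5030
import Cfsg.Agent.Base
import Cfsg.Agent.H70.Root2

set_option autoImplicit false
open Cfsg

namespace Cfsg.Agent.S5030

theorem abelian_of {G : Type*} [Group G] {S : Set (Subgroup G)} (hS : Cfsg.IsRootSubgroupSet S)
    {A B C : Subgroup G} (hA : A ∈ S) (hC : C ∈ S) (hAB : RootCommutatorCase S A B)
    (hCB : RootCommutatorCase S C B) (hAC : ∀ a ∈ A, ∀ c ∈ C, a * c = c * a) {b : G} (hb : b ∈ B)
    (hb1 : b ≠ 1) (h : IsMulCommutative ↥(A ⊔ conjBy C b)) : IsMulCommutative ↥(C ⊔ conjBy A b) := by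
  rw [H70.isMulCommutative_iff] at h ⊢
  have h1 : ∀ a ∈ A, ∀ x ∈ C ⊔ ⁅C, B⁆, a * x = x * a := by
    intro a ha
    rw [← H70.cc_sup_conjBy hCB hb hb1]
    exact H70.commute_sup (hAC a ha) fun x hx =>
      h a (Subgroup.mem_sup_left ha) x (Subgroup.mem_sup_right hx)
  have h2 : ∀ c ∈ C, ∀ y ∈ conjBy A b, c * y = y * c := by
    intro c hc y hy
    have := h1 _ (H70.mem_conjBy.1 hy) _ (H70.conjBy_le_sup_commutator (B.inv_mem hb)
      (H70.conj_mem_conjBy b⁻¹ hc))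
    have := congrArg (fun z => b * z * b⁻¹) this
    simpa [mul_assoc] using this.symm
  intro x hx
  refine H70.commute_sup (fun c hc => ?_) (fun y hy => ?_)
  · exact (H70.commute_sup (fun c' hc' => H70.rs_comm hS hC hc hc') (h2 c hc) x hx).symm
  · exact (H70.commute_sup (fun c hc => (h2 c hc y hy).symm)
      (fun y' hy' => H70.rs_comm hS (hS.conj_mem A hA b) hy hy') x hx).symm

theorem class_two {G : Type*} [Group G] {X : Subgroup G}
    (h : ∀ x ∈ X, ∀ y ∈ X, ∀ z ∈ X, x * y * x⁻¹ * y⁻¹ * z = z * (x * y * x⁻¹ * y⁻¹)) :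
    ⁅⁅X, X⁆, X⁆ = ⊥ := by
  rw [Subgroup.commutator_eq_bot_iff_le_centralizer, Subgroup.commutator_le]
  intro x hx y hy
  exact Subgroup.mem_centralizer_iff.2 fun z hz => (h x hx y hy z hz).symm

/-- Let S be a set of abstract root subgroups of G and A, B, C ∈ S with ⁅A, B⁆ ∈ S and ⁅B, C⁆ ∈ S, where A and C are different and commute. For a non-identity b ∈ B put X = ⟨A, b⁻¹ C b⟩ and Y = ⟨b⁻¹ A b, C⟩ and R = ⟨A, B, C⟩. Then X and Y are either both abelian or both nilpotent of class exactly two; X and Y commute elementwise; XY is normal in R with R = (XY) B; and R is nilpotent. -/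
theorem result {G : Type*} [Group G] {S : Set (Subgroup G)} (hS : Cfsg.IsRootSubgroupSet S)
    {A B C : Subgroup G} (hA : A ∈ S) (hB : B ∈ S) (hC : C ∈ S) (hAB : ⁅A, B⁆ ∈ S) (hBC : ⁅B, C⁆ ∈ S)
    (hAC : C ∈ Cfsg.commutingPartners S A)
    {b : G} (hb : b ∈ B) (hb1 : b ≠ 1) :
    ((IsMulCommutative ↥(A ⊔ Cfsg.conjBy C b⁻¹) ∧ IsMulCommutative ↥(Cfsg.conjBy A b⁻¹ ⊔ C)) ∨
      ((¬ IsMulCommutative ↥(A ⊔ Cfsg.conjBy C b⁻¹) ∧
          ⁅⁅A ⊔ Cfsg.conjBy C b⁻¹, A ⊔ Cfsg.conjBy C b⁻¹⁆, A ⊔ Cfsg.conjBy C b⁻¹⁆ = ⊥) ∧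
        (¬ IsMulCommutative ↥(Cfsg.conjBy A b⁻¹ ⊔ C) ∧
          ⁅⁅Cfsg.conjBy A b⁻¹ ⊔ C, Cfsg.conjBy A b⁻¹ ⊔ C⁆, Cfsg.conjBy A b⁻¹ ⊔ C⁆ = ⊥))) ∧
    ⁅A ⊔ Cfsg.conjBy C b⁻¹, Cfsg.conjBy A b⁻¹ ⊔ C⁆ = ⊥ ∧
    (∀ r ∈ A ⊔ B ⊔ C, Cfsg.conjBy ((A ⊔ Cfsg.conjBy C b⁻¹) ⊔ (Cfsg.conjBy A b⁻¹ ⊔ C)) r =
      (A ⊔ Cfsg.conjBy C b⁻¹) ⊔ (Cfsg.conjBy A b⁻¹ ⊔ C)) ∧
    ((A ⊔ Cfsg.conjBy C b⁻¹) ⊔ (Cfsg.conjBy A b⁻¹ ⊔ C)) ⊔ B = A ⊔ B ⊔ C ∧
    Group.IsNilpotent ↥(A ⊔ B ⊔ C) := by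
  have hAB' := H70.rs_cc_of_mem hS hA hB hAB
  have hCB := H70.cc_symm (H70.rs_cc_of_mem hS hB hC hBC)
  have hAC' := H70.commutator_eq_bot_iff.1 hAC.2.2
  have hCA : ∀ c ∈ C, ∀ a ∈ A, c * a = a * c := fun c hc a ha => (hAC' a ha c hc).symm
  have hb' := B.inv_mem hb
  have hb1' : b⁻¹ ≠ 1 := by simpa using hb1
  have hX := class_two (H70.cc_class_two hS hA (hS.conj_mem C hC b⁻¹)
    (H70.triple_class_two hS hA hC hAB' hCB hAC' hb' hb1'))
  have hY := class_two (H70.cc_class_two hS hC (hS.conj_mem A hA b⁻¹)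
    (H70.triple_class_two hS hC hA hCB hAB' hCA hb' hb1'))
  rw [sup_comm C] at hY
  refine ⟨?_, H70.commutator_eq_bot_iff.2 (H70.triple_commute hS hA hC hAB' hCB hAC' hb'), ?_, ?_,
    H70.triple_nilpotent hS hA hB hC hAB' hCB hAC'⟩
  · by_cases h : IsMulCommutative ↥(A ⊔ conjBy C b⁻¹)
    · left
      refine ⟨h, ?_⟩
      rw [sup_comm]
      exact abelian_of hS hA hC hAB' hCB hAC' hb' hb1' h
    · right
      refine ⟨⟨h, hX⟩, fun h' => h ?_, hY⟩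
      rw [sup_comm] at h'
      exact abelian_of hS hC hA hCB hAB' hCA hb' hb1' h'
  · rw [H70.triple_sup_eq hAB' hCB hb' hb1']
    intro r hr
    rw [H70.conjBy_eq_self_iff]
    refine (sup_le (sup_le ?_ ?_) ?_ : A ⊔ B ⊔ C ≤ _) hr
    · exact (le_sup_left.trans le_sup_left).trans Subgroup.le_normalizer
    · intro x hx
      rw [← H70.conjBy_eq_self_iff, H70.conjBy_sup, H70.conjBy_sup, H70.conjBy_sup,
        H70.cc_commutator_conj hAB' hx, H70.cc_commutator_conj hCB hx, H70.cc_conjBy_sup hAB' hx,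
        H70.cc_conjBy_sup hCB hx]
    · exact (le_sup_left.trans le_sup_right).trans Subgroup.le_normalizer
  · rw [H70.triple_sup_eq hAB' hCB hb' hb1']
    refine le_antisymm (sup_le (sup_le (sup_le (le_sup_left.trans le_sup_left)
      ((Subgroup.commutator_le_sup A B).trans le_sup_left)) (sup_le le_sup_right
      ((Subgroup.commutator_le_sup C B).trans (sup_le le_sup_right (le_sup_right.trans le_sup_left)))))
      (le_sup_right.trans le_sup_left)) (sup_le (sup_le ?_ le_sup_right) ?_)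
    · exact (le_sup_left.trans le_sup_left).trans le_sup_left
    · exact (le_sup_left.trans le_sup_right).trans le_sup_left

end Cfsg.Agent.S5030
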