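import Cfsg.Statements.S5032
import Cfsg.Agent.Base
import Cfsg.Agent.H70.Root4

set_option autoImplicit false
open Cfsg

namespace Cfsg.Agent.S5032

/-- Let S be a set of abstract root subgroups of G with more than one member. Then the graph of rank one pairs on S is connected if and only if S is a single conjugacy class of G and some member of S has a rank one partner in S. -/
theorem result {G : Type*} [Group G] {S : Set (Subgroup G)} (hS : Cfsg.IsRootSubgroupSet S) (h2 : ∃ A ∈ S, ∃ B ∈ S, A ≠ B) :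
    Cfsg.IsConnectedFamily (Cfsg.FAdj S) S ↔
      (Cfsg.IsConjClassOfSubgroups S ∧ ∃ A ∈ S, ¬ Cfsg.IsIsolatedIn (Cfsg.FAdj S) S A) := by
  obtain ⟨A, hA, B, hB, hne⟩ := h2
  constructor
  · intro hc
    refine ⟨⟨⟨A, hA⟩, fun C hC D hD => H70.fpath_isConj (hc C hC D hD)⟩, A, hA, ?_⟩
    exact (H70.not_isolated_iff hA).2 (H70.exists_r1_of_fpath (hc A hA B hB) hne.symm)
  · rintro ⟨hc, C, hC, hi⟩ E hE F hF
    obtain ⟨D, hD, hCD⟩ := (H70.not_isolated_iff hC).1 hi
    obtain ⟨E', hE', hEE⟩ := H70.class_not_isolated hS hc hC hD hCD E hE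
    obtain ⟨g, rfl⟩ := hc.2 E hE F hF
    exact H70.fpath_conj_any hS hE hE' hEE g

end Cfsg.Agent.S5032
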