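import Cfsg.Statements.S5033
import Cfsg.Agent.Base
import Cfsg.Agent.H70.SpR1
import Cfsg.Agent.H70.Root6

set_option autoImplicit false
open Cfsg

namespace Cfsg.Agent.S5033

open H70

variable {G : Type*} [Group G] {S : Set (Subgroup G)}

theorem ker_trivial {H : Type*} [Group H] (hS : IsRootSubgroupSet S) (hc : IsConnectedFamily (FAdj S) S)
    (f : G →* H) {A : Subgroup G} (hA : A ∈ S) {a : G} (ha : a ∈ A) (ha1 : a ≠ 1) (hfa : f a = 1) :
    commutator G ≤ f.ker := by
  have key : ∀ B, Relation.ReflTransGen (FAdj S) A B → B.map f = A.map f := by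
    intro B hB
    induction hB with
    | refl => rfl
    | @tail C D hC h ih =>
      rw [← ih]
      obtain ⟨g, hg⟩ := fpath_isConj hC
      have hc1 : g * a * g⁻¹ ∈ C := hg ▸ conj_mem_conjBy g ha
      have hk : f (g * a * g⁻¹) = 1 := by simp [hfa]
      rcases r1_dichotomy h.2.2 (N := f.ker ⊓ (C ⊔ D)) inf_le_right (fun x hx n hn =>
        ⟨f.normal_ker.conj_mem n hn.1 x, Subgroup.mul_mem _ (Subgroup.mul_mem _ hx hn.2)
          (Subgroup.inv_mem _ hx)⟩) with e | e
      · have h1 : (C ⊔ D).map f = C.map f := by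
          rw [← e, Subgroup.map_sup, (Subgroup.map_eq_bot_iff _).2 inf_le_left, bot_sup_eq]
        obtain ⟨x, hx, e2⟩ := r1_right_mem_unip h.2.2
        rw [e2, conjBy_map]
        exact conjBy_of_mem (h1 ▸ Subgroup.mem_map_of_mem f hx)
      · exfalso
        have := r1_eq_one_of_commute h.2.2 hc1 fun b hb =>
          e _ ⟨hk, Subgroup.mem_sup_left hc1⟩ b (Subgroup.mem_sup_right hb)
        exact ha1 (by simpa using this)
  have htop : (⊤ : Subgroup G).map f ≤ A.map f := by
    rw [← hS.generates, Subgroup.map_iSup]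
    refine iSup_le fun B => ?_
    rw [Subgroup.map_iSup]
    exact iSup_le fun hB => (key B (hc A hA B hB)).le
  rw [← Subgroup.map_eq_bot_iff, commutator_def, Subgroup.map_commutator, eq_bot_iff]
  refine (Subgroup.commutator_mono htop htop).trans ?_
  rw [← Subgroup.map_commutator, rs_commutator_self hS hA, Subgroup.map_bot]

/-- Quasisimplicity criterion for groups generated by abstract root subgroups. Let S be a set of abstract root subgroups of G with more than one member such that: the graph of rank one pairs on S is connected; no two different members of S have the same set of commuting members of S; if S is degenerate then every member of S has more than three elements; and every rank one pair in S is special. Then for every A ∈ S one has G = G' A with A ∩ G' ≠ 1, and the commutator subgroup G' is quasisimple. Moreover G is perfect if S is non-degenerate, or if some rank one pair A, B in S generates a perfect group. -/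
theorem result {G : Type*} [Group G] {S : Set (Subgroup G)} (hS : Cfsg.IsRootSubgroupSet S) (h2 : ∃ A ∈ S, ∃ B ∈ S, A ≠ B)
    (h1 : Cfsg.IsConnectedFamily (Cfsg.FAdj S) S)
    (h2' : ∀ A ∈ S, ∀ C ∈ S, A ≠ C → Cfsg.centralizingMembers S A ≠ Cfsg.centralizingMembers S C)
    (h3 : Cfsg.IsDegenerateRootSet S → ∀ A ∈ S, 3 < ENat.card A)
    (h4 : ∀ A ∈ S, ∀ B ∈ Cfsg.rankOnePartners S A, Cfsg.IsSpecialRankOnePair A B) :
    (∀ A ∈ S, commutator G ⊔ A = ⊤ ∧ A ⊓ commutator G ≠ ⊥) ∧ Cfsg.IsQuasisimple ↥(commutator G) ∧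
    (Cfsg.IsNondegenerateRootSet S → commutator G = ⊤) ∧
    ((∃ A ∈ S, ∃ B ∈ Cfsg.rankOnePartners S A, Group.IsPerfect ↥(A ⊔ B)) → commutator G = ⊤) := by
  have hcl : IsConjClassOfSubgroups S := by
    obtain ⟨A, hA, -⟩ := h2
    exact ⟨⟨A, hA⟩, fun C hC D hD => fpath_isConj (h1 C hC D hD)⟩
  have hF : ∀ C ∈ S, ∃ D ∈ S, IsRankOnePair C D := by
    obtain ⟨A, hA, B, hB, hne⟩ := h2
    obtain ⟨C, hC, hAC⟩ := exists_r1_of_fpath (h1 A hA B hB) hne.symm
    exact class_not_isolated hS hcl hA hC hAC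
  have hperf : IsDegenerateRootSet S → ∀ A ∈ S, ∀ B ∈ S, IsRankOnePair A B → A ≤ ⁅A, B⁆ := by
    intro hd A hA B hB hAB
    have hs : SP A B := ⟨h4 A hA B ⟨hB, hAB⟩, fun _ ha _ hb => rs_comm hS hA ha hb,
      fun _ ha _ hb => rs_comm hS hB ha hb⟩
    have := hs.le_commutator_sup (h3 hd A hA)
    rwa [commutator_sup_self_of_abelian hs.cA hs.cB] at this
  have hlp : ¬ IsDegenerateRootSet S → ∀ A ∈ S, ∃ E ∈ S, ∃ F ∈ S, RootCommutatorCase S E F ∧ ⁅E, F⁆ = A := by
    intro hd A hA
    simp only [IsDegenerateRootSet, not_forall, not_not] at hd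
    obtain ⟨E, hE, F, hF, h⟩ := hd
    obtain ⟨g, hg⟩ := hcl.2 _ h.1 A hA
    exact ⟨_, hS.conj_mem E hE g, _, hS.conj_mem F hF g, rs_cc_conj hS h hE hF g, by
      rw [hg, conjBy_commutator]⟩
  have hp : commutator G = ⊤ := by
    rw [eq_top_iff, ← hS.generates]
    refine iSup₂_le fun A hA => ?_
    by_cases hd : IsDegenerateRootSet S
    · obtain ⟨B, hB, hAB⟩ := hF A hA
      exact (hperf hd A hA B hB hAB).trans (Subgroup.commutator_mono le_top le_top)
    · obtain ⟨E, -, F, -, -, e⟩ := hlp hd A hA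
      exact e ▸ Subgroup.commutator_mono le_top le_top
  refine ⟨fun A hA => ⟨by rw [hp, top_sup_eq], by rw [hp, inf_top_eq]; exact hS.ne_bot A hA⟩, ?_,
    fun _ => hp, fun _ => hp⟩
  rw [hp]
  obtain ⟨A₀, hA₀, -⟩ := h2
  refine isQuasisimple_of_subgroup hp (fun e => hS.ne_bot A₀ hA₀ (eq_bot_iff.2 (e ▸ le_top))) ?_
  intro N _ hN
  have hn : N.Normal := ⟨fun n hn g => hN g trivial ▸ conj_mem_conjBy g hn⟩
  refine or_iff_not_imp_left.2 fun hNt => ?_
  set f := QuotientGroup.mk' N with hf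
  have hk : f.ker = N := QuotientGroup.ker_mk' N
  have ha : ∀ A ∈ S, ∀ a ∈ A, a ∈ N → a = 1 := fun A hA a ha haN => by
    by_contra a1
    have := ker_trivial hS h1 f hA ha a1 (by rwa [← MonoidHom.mem_ker, hk])
    rw [hp, hk, top_le_iff] at this
    exact hNt this
  have ha' : ∀ A ∈ S, ¬ A ≤ N := fun A hA hle =>
    hS.ne_bot A hA (eq_bot_iff.2 fun a h => ha A hA a h (hle h))
  have hle : ∀ {A B : Subgroup G}, ⁅A, B⁆ ≤ N ↔ ⁅A.map f, B.map f⁆ = ⊥ := by
    intro A B
    rw [← Subgroup.map_commutator, Subgroup.map_eq_bot_iff, hk]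
  have hb : ∀ A ∈ S, ∀ B ∈ S, IsRankOnePair A B → ¬ ⁅A, B⁆ ≤ N := by
    intro A hA B hB hAB hc
    by_cases hd : IsDegenerateRootSet S
    · exact ha' A hA ((hperf hd A hA B hB hAB).trans hc)
    rcases r1_dichotomy hAB (N := N ⊓ (A ⊔ B)) inf_le_right (fun x hx n hn' =>
        ⟨hn.conj_mem n hn'.1 x, Subgroup.mul_mem _ (Subgroup.mul_mem _ hx hn'.2)
          (Subgroup.inv_mem _ hx)⟩) with e | e
    · obtain ⟨E, hE, F, hF', h, e'⟩ := hlp hd A hA
      obtain ⟨D, hD, hED⟩ := hF E hE
      obtain ⟨T, hT, hTB, -⟩ := lp_exists_linePartner_cc hS hA (e' ▸ cc_left_mem_linePartners hS hE hD hED h) hB hAB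
      refine ha' _ hTB.1 (hle.2 (eq_bot_iff.2 ?_))
      have h1 : B.map f ≤ A.map f := by
        refine (Subgroup.map_mono (le_sup_right.trans e.ge)).trans ?_
        rw [Subgroup.map_sup, (Subgroup.map_eq_bot_iff _).2 (inf_le_left.trans hk.ge), bot_sup_eq]
      refine (Subgroup.commutator_mono le_rfl h1).trans ?_
      rw [← Subgroup.map_commutator, Subgroup.commutator_comm, hT.1.2.2, Subgroup.map_bot]
    · refine r1_not_comm hAB fun x hx => r1_second_center hAB hx fun y hy => e _ ?_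
      have := comm_mem_of_abelian (fun _ ha _ hb => rs_comm hS hA ha hb) (fun _ ha _ hb => rs_comm hS hB ha hb)
        x hx y hy
      exact ⟨hc this, Subgroup.commutator_le_sup _ _ this⟩
  have hc : ∀ A ∈ S, ∀ B ∈ S, ⁅A, B⁆ ≤ N → ⁅A, B⁆ = ⊥ := fun A hA B hB h =>
    (hS.pair A hA B hB).elim id fun h' => h'.elim (fun h' => absurd h (hb A hA B hB h'))
      fun h' => absurd h (ha' _ h'.1)
  have hd : ∀ A ∈ S, ∀ C ∈ S, A.map f = C.map f → centralizingMembers S A ⊆ centralizingMembers S C := by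
    intro A hA C hC e B hB
    rw [mem_centralizingMembers] at hB ⊢
    refine ⟨hB.1, hc B hB.1 C hC (hle.2 ?_)⟩
    rw [← e, ← Subgroup.map_commutator, hB.2, Subgroup.map_bot]
  have he : ∀ A ∈ S, ∀ n ∈ N, conjBy A n = A := by
    intro A hA n hnN
    by_contra hne
    have e : (conjBy A n).map f = A.map f := by
      rw [conjBy_map, show f n = 1 by rwa [← MonoidHom.mem_ker, hk], conjBy_one]
    exact h2' _ (hS.conj_mem A hA n) A hA hne
      (Set.Subset.antisymm (hd _ (hS.conj_mem A hA n) A hA e) (hd A hA _ (hS.conj_mem A hA n) e.symm))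
  rw [← hS.generates, Subgroup.commutator_eq_bot_iff_le_centralizer, ← Subgroup.le_centralizer_iff]
  refine iSup₂_le fun A hA => fun a haA => Subgroup.mem_centralizer_iff.2 fun n hnN => ?_
  have := ha A hA (n * a * n⁻¹ * a⁻¹) (A.mul_mem (he A hA n hnN ▸ conj_mem_conjBy n haA) (A.inv_mem haA))
    (by simpa [mul_assoc] using N.mul_mem hnN (hn.conj_mem _ (N.inv_mem hnN) a))
  rwa [mul_inv_eq_one, mul_inv_eq_iff_eq_mul] at this

end Cfsg.Agent.S5033
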