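import Cfsg.Statements.S5035
import Cfsg.Agent.Base
import Cfsg.Agent.H70.Root4

set_option autoImplicit false
open Cfsg

namespace Cfsg.Agent.S5035

/-- Let S be a set of abstract root subgroups of G whose graph of rank one pairs is connected, and f a homomorphism from G onto a group H. Then either the images of the members of S form a set of abstract root subgroups of H whose graph of rank one pairs is again connected, or H equals the image of a member of S. -/
theorem result {G H : Type*} [Group G] [Group H] {S : Set (Subgroup G)} (hS : Cfsg.IsRootSubgroupSet S)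
    (hc : Cfsg.IsConnectedFamily (Cfsg.FAdj S) S) (f : G →* H) (hf : Function.Surjective f) :
    (Cfsg.IsRootSubgroupSet ((fun A : Subgroup G => A.map f) '' S) ∧
      Cfsg.IsConnectedFamily (Cfsg.FAdj ((fun A : Subgroup G => A.map f) '' S)) ((fun A : Subgroup G => A.map f) '' S)) ∨
    ∃ A ∈ S, A.map f = ⊤ := by
  by_cases hN : ∀ A ∈ S, ∀ a ∈ A, f a = 1 → a = 1
  · left
    have hr1 : ∀ A ∈ S, ∀ B ∈ S, IsRankOnePair A B →
        A.map f = B.map f ∨ IsRankOnePair (A.map f) (B.map f) := by
      intro A hA B hB h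
      by_cases e : A.map f = B.map f
      · exact Or.inl e
      · exact Or.inr (H70.r1_map_of_injOn f h (hN A hA) (hN B hB) e)
    have hcomm : ∀ A ∈ S, IsMulCommutative (A.map f) := by
      intro A hA
      rw [H70.isMulCommutative_iff]
      rintro _ ⟨a, ha, rfl⟩ _ ⟨b, hb, rfl⟩
      rw [← map_mul, ← map_mul, H70.rs_comm hS hA ha hb]
    have hcl : ∀ {A B : Subgroup G}, RootCommutatorCase S A B → ∀ a ∈ A.map f, a ≠ 1 →
        Subgroup.closure ((fun b : H => a * b * a⁻¹ * b⁻¹) '' (B.map f : Set H)) = ⁅A.map f, B.map f⁆ := by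
      rintro A B h _ ⟨a, ha, rfl⟩ ha1
      rw [← Subgroup.map_commutator, ← h.2.2.1 a ha (fun e => ha1 (by rw [e, map_one])),
        MonoidHom.map_closure, Subgroup.coe_map, Set.image_image, Set.image_image]
      simp
    refine ⟨⟨?_, ?_, ?_, ?_, ?_⟩, ?_⟩
    · rintro _ ⟨A, hA, rfl⟩
      exact hcomm A hA
    · rintro _ ⟨A, hA, rfl⟩ e
      obtain ⟨a, ha, ha1⟩ := H70.exists_mem_ne_one (hS.ne_bot A hA)
      have : f a ∈ A.map f := ⟨a, ha, rfl⟩
      simp only at e
      rw [e] at this
      exact ha1 (hN A hA a ha this)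
    · rw [iSup_image, eq_top_iff, ← Subgroup.map_top_of_surjective f hf, ← hS.generates,
        Subgroup.map_iSup]
      refine iSup_mono fun A => ?_
      rw [Subgroup.map_iSup]
    · rintro _ ⟨A, hA, rfl⟩ g
      obtain ⟨g, rfl⟩ := hf g
      exact ⟨_, hS.conj_mem A hA g, H70.conjBy_map f A g⟩
    · rintro _ ⟨A, hA, rfl⟩ _ ⟨B, hB, rfl⟩
      rcases hS.pair A hA B hB with h | h | h
      · left; rw [← Subgroup.map_commutator, h, Subgroup.map_bot]
      · rcases hr1 A hA B hB h with e | e
        · left
          simp only [e]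
          exact Subgroup.commutator_self_eq_bot_iff.2 (hcomm B hB)
        · exact Or.inr (Or.inl e)
      · right; right
        refine ⟨⟨_, h.1, Subgroup.map_commutator _ _ _⟩, ?_, hcl h, fun b hb hb1 => ?_⟩
        · rw [← Subgroup.map_commutator, ← Subgroup.map_sup]
          rintro _ ⟨c, hc, rfl⟩ _ ⟨x, hx, rfl⟩
          rw [← map_mul, ← map_mul, h.2.1 c hc x hx]
        · rw [Subgroup.commutator_comm, ← hcl (H70.cc_symm h) b hb hb1]
          exact H70.closure_image_inv _ _ _ fun x => by group
    · rintro _ ⟨A, hA, rfl⟩ _ ⟨B, hB, rfl⟩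
      have := hc A hA B hB
      clear hB
      induction this with
      | refl => exact Relation.ReflTransGen.refl
      | tail _ h ih =>
        rcases hr1 _ h.1 _ h.2.1 h.2.2 with e | e
        · simp only [← e]; exact ih
        · exact ih.tail ⟨⟨_, h.1, rfl⟩, ⟨_, h.2.1, rfl⟩, e⟩
  · right
    push Not at hN
    obtain ⟨A, hA, a, ha, hfa, ha1⟩ := hN
    refine ⟨A, hA, ?_⟩
    have key : ∀ B, Relation.ReflTransGen (FAdj S) A B → B.map f = A.map f := by
      intro B hB
      induction hB with
      | refl => rfl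
      | @tail C D hC h ih =>
        rw [← ih]
        obtain ⟨g, hg⟩ := H70.fpath_isConj hC
        have hc1 : g * a * g⁻¹ ∈ C := hg ▸ H70.conj_mem_conjBy g ha
        have hk : f (g * a * g⁻¹) = 1 := by simp [hfa]
        rcases H70.r1_dichotomy h.2.2 (N := f.ker ⊓ (C ⊔ D)) inf_le_right (fun x hx n hn =>
          ⟨f.normal_ker.conj_mem n hn.1 x, Subgroup.mul_mem _ (Subgroup.mul_mem _ hx hn.2)
            (Subgroup.inv_mem _ hx)⟩) with e | e
        · have h1 : (C ⊔ D).map f = C.map f := by
            rw [← e, Subgroup.map_sup, (Subgroup.map_eq_bot_iff _).2 inf_le_left, bot_sup_eq]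
          obtain ⟨x, hx, e2⟩ := H70.r1_right_mem_unip h.2.2
          rw [e2, H70.conjBy_map]
          exact H70.conjBy_of_mem (h1 ▸ Subgroup.mem_map_of_mem f hx)
        · exfalso
          have := H70.r1_eq_one_of_commute h.2.2 hc1 fun b hb =>
            e _ ⟨hk, Subgroup.mem_sup_left hc1⟩ b (Subgroup.mem_sup_right hb)
          exact ha1 (by simpa using this)
    rw [eq_top_iff, ← Subgroup.map_top_of_surjective f hf, ← hS.generates, Subgroup.map_iSup]
    refine iSup_le fun B => ?_
    rw [Subgroup.map_iSup]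
    exact iSup_le fun hB => (key B (hc A hA B hB)).le

end Cfsg.Agent.S5035
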