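import Cfsg.Statements.S5036
import Cfsg.Agent.Base
import Cfsg.Agent.H70.Root5

set_option autoImplicit false
open Cfsg

namespace Cfsg.Agent.S5036

theorem inf_cent {G : Type*} [Group G] {S : Set (Subgroup G)} (hS : Cfsg.IsRootSubgroupSet S)
    {A B D : Subgroup G} (hB : B ∈ S) (hD : D ∈ S) (hBD : IsRankOnePair B D)
    (h : RootCommutatorCase S A B) :
    (A ⊔ ⁅A, B⁆) ⊓ Subgroup.centralizer (B : Set G) = ⁅A, B⁆ := by
  refine le_antisymm ?_ (le_inf le_sup_right fun c hc =>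
    Subgroup.mem_centralizer_iff.2 fun b hb => (H70.cc_comm_right h hc hb).symm)
  rintro x ⟨hx, hx'⟩
  obtain ⟨a, ha, c, hc, rfl⟩ := (H70.cc_mem_line_iff h).1 hx
  obtain ⟨b, hb, hb1⟩ := H70.exists_mem_ne_one (hS.ne_bot B hB)
  have h1 := Subgroup.mem_centralizer_iff.1 hx' b hb
  have h2 : b * a = a * b := by
    rw [mul_assoc, H70.cc_comm_right h hc hb, ← mul_assoc, ← mul_assoc] at h1
    exact mul_right_cancel h1
  rw [H70.cc_eq_one_of_commute hS hB hD hBD (H70.cc_symm h) hb hb1 ha h2, one_mul]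
  exact hc

/-- Let S be a set of abstract root subgroups of G, A, B ∈ S with C = ⁅A, B⁆ ∈ S, and D ∈ S with ⁅D, C⁆ = A. Put X = ⟨B, D⟩ and N = AC. Then B, D form a rank one pair; the conjugates of A under X are the conjugates of C under X, namely the conjugates of A by elements of B together with C, equally the conjugates of C by elements of D together with A, and they partition N; and the centralizer of N in X is central in X. -/
theorem result {G : Type*} [Group G] {S : Set (Subgroup G)} (hS : Cfsg.IsRootSubgroupSet S)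
    {A B D : Subgroup G} (hA : A ∈ S) (hB : B ∈ S) (hC : ⁅A, B⁆ ∈ S) (hD : D ∈ S) (hDC : ⁅D, ⁅A, B⁆⁆ = A) :
    Cfsg.IsRankOnePair B D ∧
    {E | ∃ x ∈ B ⊔ D, E = Cfsg.conjBy A x} = {E | ∃ x ∈ B ⊔ D, E = Cfsg.conjBy ⁅A, B⁆ x} ∧
    {E | ∃ x ∈ B ⊔ D, E = Cfsg.conjBy A x} = (fun b : G => Cfsg.conjBy A b) '' (B : Set G) ∪ {⁅A, B⁆} ∧
    {E | ∃ x ∈ B ⊔ D, E = Cfsg.conjBy A x} = (fun d : G => Cfsg.conjBy ⁅A, B⁆ d) '' (D : Set G) ∪ {A} ∧
    Cfsg.IsSubgroupPartition (A ⊔ ⁅A, B⁆) {E | ∃ x ∈ B ⊔ D, E = Cfsg.conjBy A x} ∧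
    ∀ x ∈ (B ⊔ D) ⊓ Subgroup.centralizer ((A ⊔ ⁅A, B⁆ : Subgroup G) : Set G), ∀ y ∈ B ⊔ D, x * y = y * x := by
  have hAB := H70.rs_cc_of_mem hS hA hB hC
  have hBD := H70.r1_of_cc_cc hS hA hB hD hAB hDC
  have hCD := H70.cc_symm (H70.rs_cc_of_mem hS hD hC (hDC.symm ▸ hA))
  have hCD' : ⁅⁅A, B⁆, D⁆ = A := by rw [Subgroup.commutator_comm, hDC]
  set C := ⁅A, B⁆ with hCdef
  set N := A ⊔ C with hN
  have hNB : N ⊓ Subgroup.centralizer (B : Set G) = C := inf_cent hS hB hD hBD hAB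
  have hND : N ⊓ Subgroup.centralizer (D : Set G) = A := by
    have := inf_cent hS hD hB (H70.r1_symm hBD) hCD
    rwa [hCD', sup_comm] at this
  have hnorm : ∀ x ∈ B ⊔ D, conjBy N x = N := by
    intro x hx
    rw [H70.conjBy_eq_self_iff]
    refine (sup_le ?_ ?_ : B ⊔ D ≤ _) hx
    · intro b hb
      exact H70.conjBy_eq_self_iff.1 (H70.cc_normalizes_line hAB hb)
    · intro d hd
      have := H70.cc_normalizes_line hCD hd
      rw [hCD', sup_comm C A] at this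
      exact H70.conjBy_eq_self_iff.1 this
  let φ : Subgroup G → Subgroup G := fun U => N ⊓ Subgroup.centralizer (U : Set G)
  have hφ : ∀ U, ∀ x ∈ B ⊔ D, conjBy (φ U) x = φ (conjBy U x) := by
    intro U x hx
    simp only [φ]
    rw [H70.conjBy_inf, hnorm x hx, H70.conjBy_centralizer]
  have hφB : φ B = C := hNB
  have hφD : φ D = A := hND
  have e1 : {E | ∃ x ∈ B ⊔ D, E = conjBy A x} = φ '' unipotentSubgroups B D := by
    rw [H70.r1_unip_symm hBD]
    ext E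
    constructor
    · rintro ⟨x, hx, rfl⟩
      exact ⟨conjBy D x, ⟨x, sup_comm B D ▸ hx, rfl⟩, by rw [← hφ D x hx, hφD]⟩
    · rintro ⟨_, ⟨x, hx, rfl⟩, rfl⟩
      exact ⟨x, sup_comm D B ▸ hx, by rw [← hφ D x (sup_comm D B ▸ hx), hφD]⟩
  have e2 : {E | ∃ x ∈ B ⊔ D, E = conjBy C x} = φ '' unipotentSubgroups B D := by
    ext E
    constructor
    · rintro ⟨x, hx, rfl⟩
      exact ⟨conjBy B x, ⟨x, hx, rfl⟩, by rw [← hφ B x hx, hφB]⟩
    · rintro ⟨_, ⟨x, hx, rfl⟩, rfl⟩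
      exact ⟨x, hx, by rw [← hφ B x hx, hφB]⟩
  have e3 : {E | ∃ x ∈ B ⊔ D, E = conjBy A x} = (fun b : G => conjBy A b) '' (B : Set G) ∪ {C} := by
    rw [e1]
    ext E
    constructor
    · rintro ⟨U, hU, rfl⟩
      rcases (H70.r1_mem_unip_iff hBD).1 hU with rfl | ⟨b, hb, rfl⟩
      · exact Or.inr hφB
      · exact Or.inl ⟨b, hb, by rw [← hφ D b (Subgroup.mem_sup_left hb), hφD]⟩
    · rintro (⟨b, hb, rfl⟩ | rfl)
      · exact ⟨conjBy D b, (H70.r1_mem_unip_iff hBD).2 (Or.inr ⟨b, hb, rfl⟩),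
          by rw [← hφ D b (Subgroup.mem_sup_left hb), hφD]⟩
      · exact ⟨B, H70.left_mem_unip B D, hφB⟩
  have e4 : {E | ∃ x ∈ B ⊔ D, E = conjBy A x} = (fun d : G => conjBy C d) '' (D : Set G) ∪ {A} := by
    rw [e1, H70.r1_unip_symm hBD]
    ext E
    constructor
    · rintro ⟨U, hU, rfl⟩
      rcases (H70.r1_mem_unip_iff (H70.r1_symm hBD)).1 hU with rfl | ⟨b, hb, rfl⟩
      · exact Or.inr hφD
      · exact Or.inl ⟨b, hb, by rw [← hφ B b (Subgroup.mem_sup_right hb), hφB]⟩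
    · rintro (⟨b, hb, rfl⟩ | rfl)
      · exact ⟨conjBy B b, (H70.r1_mem_unip_iff (H70.r1_symm hBD)).2 (Or.inr ⟨b, hb, rfl⟩),
          by rw [← hφ B b (Subgroup.mem_sup_right hb), hφB]⟩
      · exact ⟨D, H70.left_mem_unip D B, hφD⟩
  have hinf : A ⊓ C = ⊥ := by
    rw [Subgroup.eq_bot_iff_forall]
    rintro x ⟨hxA, hxC⟩
    obtain ⟨b, hb, hb1⟩ := H70.exists_mem_ne_one (hS.ne_bot B hB)
    exact H70.cc_eq_one_of_commute hS hB hD hBD (H70.cc_symm hAB) hb hb1 hxA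
      (H70.cc_comm_right hAB hxC hb).symm
  refine ⟨hBD, e1.trans e2.symm, e3, e4, ⟨?_, ?_, ?_⟩, ?_⟩
  · rintro _ ⟨x, hx, rfl⟩
    rw [← hnorm x hx]
    exact H70.conjBy_mono le_sup_left x
  · intro x hx _
    rw [e3]
    rcases H70.cc_mem_line hAB hx with h | ⟨b, hb, h⟩
    · exact ⟨C, Or.inr rfl, h⟩
    · exact ⟨_, Or.inl ⟨b, hb, rfl⟩, h⟩
  · rw [e1]
    rintro _ ⟨U, hU, rfl⟩ _ ⟨V, hV, rfl⟩ hne
    obtain ⟨x, hx, rfl, rfl⟩ := H70.r1_pair_conj hBD hU hV (fun e => hne (by rw [e]))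
    rw [← hφ B x hx, ← hφ D x hx, ← H70.conjBy_inf, hφB, hφD, inf_comm, hinf, H70.conjBy_bot]
  · rcases H70.r1_dichotomy hBD (N := (B ⊔ D) ⊓ Subgroup.centralizer (N : Set G)) inf_le_left
      (fun x hx n hn => ⟨Subgroup.mul_mem _ (Subgroup.mul_mem _ hx hn.1) (Subgroup.inv_mem _ hx), by
        have := H70.conj_mem_conjBy x hn.2
        rwa [H70.conjBy_centralizer, hnorm x hx] at this⟩) with e | e
    · exfalso
      have h1 : D ≤ Subgroup.centralizer (C : Set G) := by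
        refine le_sup_right.trans (e.symm.le.trans (sup_le (inf_le_right.trans
          (Subgroup.centralizer_le (show (C : Set G) ⊆ N from le_sup_right (a := A)))) ?_))
        intro b hb
        exact Subgroup.mem_centralizer_iff.2 fun c hc => H70.cc_comm_right hAB hc hb
      rw [← Subgroup.commutator_eq_bot_iff_le_centralizer, hDC] at h1
      exact hS.ne_bot A hA h1
    · exact e

end Cfsg.Agent.S5036
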