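import Cfsg.Statements.S5037
import Cfsg.Agent.Base
import Cfsg.Agent.H70.Root6

set_option autoImplicit false
open Cfsg

namespace Cfsg.Agent.S5037

/-- Let S be a class of abstract root subgroups of G that is either degenerate or non-degenerate (so either the commutator case never occurs, or all three cases occur), and A ≠ C members of S. If every member of S commuting with A commutes with C, then A and C have the same commuting members of S; and if every rank one partner of A is a rank one partner of C, then A and C commute and have the same rank one partners. -/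
theorem result {G : Type*} [Group G] {S : Set (Subgroup G)} (hS : Cfsg.IsRootSubgroupClass S)
    (hdn : Cfsg.IsDegenerateRootSet S ∨ Cfsg.IsNondegenerateRootSet S)
    {A C : Subgroup G} (hA : A ∈ S) (hC : C ∈ S) (hAC : A ≠ C) :
    (Cfsg.centralizingMembers S A ⊆ Cfsg.centralizingMembers S C →
      Cfsg.centralizingMembers S A = Cfsg.centralizingMembers S C) ∧
    (Cfsg.rankOnePartners S A ⊆ Cfsg.rankOnePartners S C →
      ⁅A, C⁆ = ⊥ ∧ Cfsg.rankOnePartners S A = Cfsg.rankOnePartners S C) := by
  have hF : ∀ C ∈ S, ∃ D ∈ S, IsRankOnePair C D := by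
    rcases hdn with h | h
    · exact H70.deg_not_isolated hS.1 hS.2 h hA hC hAC
    · exact H70.nd_not_isolated hS.1 hS.2 h
  obtain ⟨E, hE, hCE⟩ := hF C hC
  exact ⟨fun h => Set.Subset.antisymm h (H70.cent_subset_symm hS.1 hA hC hE hCE h),
    fun h => ⟨H70.commute_of_opp_subset hS.1 hF hA hC h,
      Set.Subset.antisymm h (H70.opp_subset_symm hS.1 hF hA hC h)⟩⟩

end Cfsg.Agent.S5037
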