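import Cfsg.Statements.S5038
import Cfsg.Agent.Base
import Cfsg.Agent.H70.Root4

set_option autoImplicit false
open Cfsg

namespace Cfsg.Agent.S5038

/-- Let S be a set of abstract root subgroups of G in which every member has a rank one partner, A ∈ S and B a line partner of A. Then the subgroup generated by the members of S normalizing AB permutes the members of S inside AB doubly transitively by conjugation. -/
theorem result {G : Type*} [Group G] {S : Set (Subgroup G)} (hS : Cfsg.IsRootSubgroupSet S)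
    (hF : ∀ A ∈ S, ¬ Cfsg.IsIsolatedIn (Cfsg.FAdj S) S A) {A B : Subgroup G} (hA : A ∈ S) (hB : B ∈ Cfsg.linePartners S A) :
    ∀ C₁ ∈ Cfsg.membersIn S (A ⊔ B), ∀ C₂ ∈ Cfsg.membersIn S (A ⊔ B), ∀ D₁ ∈ Cfsg.membersIn S (A ⊔ B),
      ∀ D₂ ∈ Cfsg.membersIn S (A ⊔ B), C₁ ≠ C₂ → D₁ ≠ D₂ →
        ∃ x ∈ ⨆ E ∈ Cfsg.normalizingMembers S (A ⊔ B), E, Cfsg.conjBy C₁ x = D₁ ∧ Cfsg.conjBy C₂ x = D₂ := by
  intro C₁ h1 C₂ h2 D₁ h3 D₂ h4 hC hD
  obtain ⟨T, -, D, -, -, -, -, h⟩ := H70.lp_two_transitive hS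
    (fun A hA => (H70.not_isolated_iff hA).1 (hF A hA)) hA hB
  obtain ⟨x, hx, rfl, rfl⟩ := h C₁ h1 C₂ h2 hC
  obtain ⟨y, hy, rfl, rfl⟩ := h D₁ h3 D₂ h4 hD
  refine ⟨y * x⁻¹, Subgroup.mul_mem _ hy (Subgroup.inv_mem _ hx), ?_, ?_⟩ <;>
  · rw [H70.conjBy_conjBy]; congr 1; group

end Cfsg.Agent.S5038
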