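import Cfsg.Statements.S5039
import Cfsg.Agent.Base
import Cfsg.Agent.H70.Tri
import Cfsg.Agent.S5034

set_option autoImplicit false
universe u
open Cfsg

namespace Cfsg.Agent.S5039

/-- Let S be a class of abstract root subgroups of G containing two different commuting members. Suppose that, in case S is degenerate and every element of every member of S has order at most 3, the following holds: for every A ∈ S and every rank one partner B of A there are subgroups A₀ ≤ A and B₀ ≤ B generating an image of SL₂(k) with central kernel, k a field with at least four elements, A₀ and B₀ being the images of the unitriangular subgroups. Then every rank one pair A, B in S is special. -/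
theorem result {G : Type u} [Group G] {S : Set (Subgroup G)} (hS : Cfsg.IsRootSubgroupClass S)
    (hcomm : ∃ A ∈ S, ∃ C ∈ S, A ≠ C ∧ ⁅A, C⁆ = ⊥)
    (hH : Cfsg.IsDegenerateRootSet S → (∀ A ∈ S, ∀ a ∈ A, 0 < orderOf a ∧ orderOf a ≤ 3) →
      ∀ A ∈ S, ∀ B ∈ Cfsg.rankOnePartners S A, ∃ A₀ B₀ : Subgroup G, A₀ ≤ A ∧ B₀ ≤ B ∧
        ∃ (k : Type u) (_ : Field k), 3 < ENat.card k ∧ Cfsg.IsPSL2PairOver k A₀ B₀)
    {A B : Subgroup G} (hA : A ∈ S) (hB : B ∈ Cfsg.rankOnePartners S A) : Cfsg.IsSpecialRankOnePair A B := by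
  open H70 in
  by_cases hd : IsDegenerateRootSet S
  swap
  · refine (S5034.result hS ⟨hcomm, ⟨A, hA, B, hB.1, hB.2⟩, ?_⟩ hA hB).2
    simpa only [IsDegenerateRootSet, not_forall, not_not, exists_prop] using hd
  by_cases ht : ∃ C ∈ S, Tri A B C
  · obtain ⟨C, -, h⟩ := ht
    exact h.special
  exfalso
  push Not at ht
  have e := eqv_of_no_tri hS.1 hd hB.1 hB.2 ht
  obtain ⟨C, hC, hne, hAC⟩ : ∃ C ∈ S, A ≠ C ∧ ⁅A, C⁆ = ⊥ := by
    obtain ⟨A', hA', C', hC', hne, hc⟩ := hcomm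
    obtain ⟨g, rfl⟩ := hS.2.2 A' hA' A hA
    exact ⟨_, hS.1.conj_mem C' hC' g, fun e => hne (conjBy_inj.1 e), by rw [← conjBy_commutator, hc, conjBy_bot]⟩
  obtain ⟨D, hD, h⟩ := deg_exists_tri hS.1 hS.2 hd hA hC hne hAC
  by_cases ho : ∀ A ∈ S, ∀ a ∈ A, 0 < orderOf a ∧ orderOf a ≤ 3
  · obtain ⟨A₀, B₀, h1, h2, k, _, hk, hp⟩ := hH hd ho A hA B hB
    obtain ⟨a, ha, a1⟩ := exists_mem_ne_one (r1_left_ne_bot (psl2Pair_r1 hp))
    exact a1 (eqv_inf_commutator hS.1 hd hA hB.1 hC hD e h (h1 ha)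
      (Subgroup.commutator_mono (sup_le_sup h1 h2) (sup_le_sup h1 h2) (psl2Pair_le_commutator hk hp ha)))
  · push Not at ho
    obtain ⟨A', hA', a', ha', ho⟩ := ho
    obtain ⟨g, rfl⟩ := hS.2.2 A' hA' A hA
    have hk : ∀ k : ℕ, 0 < k → k ≤ 3 → (g * a' * g⁻¹) ^ k ≠ 1 := fun k h1 h2 e => by
      rw [conj_pow, mul_inv_eq_one, mul_eq_left] at e
      have := orderOf_le_of_pow_eq_one h1 e
      have := ho (isOfFinOrder_iff_pow_eq_one.2 ⟨k, h1, e⟩).orderOf_pos
      omega
    have := h.cubic (fun _ ha _ hb => rs_comm hS.1 hA ha hb) (fun _ ha _ hb => rs_comm hS.1 hD ha hb)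
      (conj_mem_conjBy g ha') (by simpa using hk 1 one_pos (by norm_num)) (hk 2 two_pos (by norm_num))
      (hk 3 three_pos le_rfl) (K := Subgroup.centralizer (B : Set G)) fun x h1 h2 =>
        Subgroup.commutator_eq_bot_iff_le_centralizer.1 ((e _ (rc_mem hS.1 hA x)).1 ⟨h1, h2⟩).2
    exact hk 1 one_pos (by norm_num) (by
      rw [pow_one]
      exact r1_eq_one_of_commute hB.2 (conj_mem_conjBy g ha') fun b hb =>
        (Subgroup.mem_centralizer_iff.1 this b hb).symm)

end Cfsg.Agent.S5039
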