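import Cfsg.Statements.S5040
import Cfsg.Agent.Base
import Cfsg.Agent.H70.Root5

set_option autoImplicit false
open Cfsg

namespace Cfsg.Agent.S5040

/-- the stabilizer of a family of subgroups under conjugation. -/
def famStab {G : Type*} [Group G] (Δ : Set (Subgroup G)) : Subgroup G where
  carrier := {g | (fun A => conjBy A g) '' Δ = Δ}
  one_mem' := by
    show (fun A => conjBy A 1) '' Δ = Δ
    simp only [H70.conjBy_one, Set.image_id']
  mul_mem' := by
    intro a b ha hb
    show (fun A => conjBy A (a * b)) '' Δ = Δ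
    have ha' : (fun A => conjBy A a) '' Δ = Δ := ha
    have hb' : (fun A => conjBy A b) '' Δ = Δ := hb
    conv_rhs => rw [← ha', ← hb', Set.image_image]
    simp only [H70.conjBy_conjBy]
  inv_mem' := by
    intro a ha
    show (fun A => conjBy A a⁻¹) '' Δ = Δ
    have ha' : (fun A => conjBy A a) '' Δ = Δ := ha
    conv_lhs => rw [← ha', Set.image_image]
    simp only [H70.conjBy_inv_cancel, Set.image_id']

/-- Let S be a non-degenerate class of abstract root subgroups of G and Δ a weak TI-subset of S. Then the members of Δ commute with one another elementwise. -/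
theorem result {G : Type*} [Group G] {S : Set (Subgroup G)} (hS : Cfsg.IsRootSubgroupClass S) (hnd : Cfsg.IsNondegenerateRootSet S)
    {Δ : Set (Subgroup G)} (hΔ : Cfsg.IsWeakTISubset S Δ) : Cfsg.IsAbelianFamily Δ := by
  obtain ⟨hsub, -, hne, hti⟩ := hΔ
  have hF := H70.nd_not_isolated hS.1 hS.2 hnd
  have hst : ∀ A ∈ Δ, ∀ E ∈ S, ⁅A, E⁆ = ⊥ → E ≤ famStab Δ := by
    intro A hA E hE h e he
    by_cases he1 : e = 1
    · rw [he1]; exact Subgroup.one_mem _
    refine (hti e ⟨he1, E, hE, he⟩).resolve_right fun hd => ?_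
    refine Set.disjoint_left.1 hd ⟨A, hA, ?_⟩ hA
    exact H70.conjBy_eq_self_iff.2 (Subgroup.centralizer_le_normalizer _
      (Subgroup.mem_centralizer_iff.2 fun a ha => H70.commutator_eq_bot_iff.1 h a ha e he))
  have hmem : ∀ A ∈ Δ, ∀ g ∈ famStab Δ, conjBy A g ∈ Δ := by
    intro A hA g hg
    have hg' : (fun A => conjBy A g) '' Δ = Δ := hg
    rw [← hg']
    exact ⟨A, hA, rfl⟩
  have hno : ∀ A ∈ Δ, ∀ B ∈ Δ, ¬ IsRankOnePair A B := by
    intro A hA B hB h
    have htop := H70.nd_generation hS.1 hS.2 hnd (hsub hA) (hsub hB) h (H := famStab Δ)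
      (fun C hC => hst A hA C hC.1.1 hC.1.2.2) (hst B hB B (hsub hB) (H70.rs_commutator_self hS.1 (hsub hB)))
    refine hne (Set.Subset.antisymm hsub fun E hE => ?_)
    obtain ⟨g, rfl⟩ := hS.2.2 A (hsub hA) E hE
    exact hmem A hA g (htop ▸ Subgroup.mem_top g)
  intro A hA B hB
  rcases hS.1.pair A (hsub hA) B (hsub hB) with h | h | h
  · exact H70.commutator_eq_bot_iff.1 h
  · exact absurd h (hno A hA B hB)
  · exfalso
    obtain ⟨E, hE, h1, h2⟩ := H70.cc_exists_r1_commute hS.1 hF (hsub hA) (hsub hB) h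
    obtain ⟨e, he, he1⟩ := H70.exists_mem_ne_one (hS.1.ne_bot E hE)
    exact hno A hA _ (hmem A hA e (hst B hB E hE h2 he)) (H70.r1_of_conj_ne h1
      (Subgroup.mem_sup_right he) fun e' => he1 (H70.r1_eq_one_of_norm (H70.r1_symm h1) he e')).1

end Cfsg.Agent.S5040
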