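import Cfsg.Statements.S5043
import Cfsg.Agent.Base
import Cfsg.Agent.H70.SqSL

set_option autoImplicit false
open Matrix
open Cfsg

namespace Cfsg.Agent.S5043

/-- Let k be a field and n a natural number. In SL_{n+3}(k) (so in every dimension at least 3) the conjugates of the root subgroup of elementary transvections 1 + c E₁₂ (c ∈ k) — that is, the groups of transvections attached to an incident point–hyperplane pair — form a non-degenerate class of abstract k-root subgroups of SL_{n+3}(k) whose graph of rank one pairs is connected. -/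
theorem result (k : Type*) [Field k] (n : ℕ) :
    Cfsg.IsRootSubgroupClass {A : Subgroup (Matrix.SpecialLinearGroup (Fin (n + 3)) k) |
        ∃ g : Matrix.SpecialLinearGroup (Fin (n + 3)) k,
          A = Cfsg.conjBy (Subgroup.closure {t : Matrix.SpecialLinearGroup (Fin (n + 3)) k |
            ∃ c : k, (t : Matrix (Fin (n + 3)) (Fin (n + 3)) k) = Matrix.transvection 0 1 c}) g} ∧
    Cfsg.IsNondegenerateRootSet {A : Subgroup (Matrix.SpecialLinearGroup (Fin (n + 3)) k) |
        ∃ g : Matrix.SpecialLinearGroup (Fin (n + 3)) k,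
          A = Cfsg.conjBy (Subgroup.closure {t : Matrix.SpecialLinearGroup (Fin (n + 3)) k |
            ∃ c : k, (t : Matrix (Fin (n + 3)) (Fin (n + 3)) k) = Matrix.transvection 0 1 c}) g} ∧
    Cfsg.IsKRootSubgroupSet k {A : Subgroup (Matrix.SpecialLinearGroup (Fin (n + 3)) k) |
        ∃ g : Matrix.SpecialLinearGroup (Fin (n + 3)) k,
          A = Cfsg.conjBy (Subgroup.closure {t : Matrix.SpecialLinearGroup (Fin (n + 3)) k |
            ∃ c : k, (t : Matrix (Fin (n + 3)) (Fin (n + 3)) k) = Matrix.transvection 0 1 c}) g} ∧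
    Cfsg.IsConnectedFamily (Cfsg.FAdj {A : Subgroup (Matrix.SpecialLinearGroup (Fin (n + 3)) k) |
        ∃ g : Matrix.SpecialLinearGroup (Fin (n + 3)) k,
          A = Cfsg.conjBy (Subgroup.closure {t : Matrix.SpecialLinearGroup (Fin (n + 3)) k |
            ∃ c : k, (t : Matrix (Fin (n + 3)) (Fin (n + 3)) k) = Matrix.transvection 0 1 c}) g})
      {A : Subgroup (Matrix.SpecialLinearGroup (Fin (n + 3)) k) |
        ∃ g : Matrix.SpecialLinearGroup (Fin (n + 3)) k,
          A = Cfsg.conjBy (Subgroup.closure {t : Matrix.SpecialLinearGroup (Fin (n + 3)) k |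
            ∃ c : k, (t : Matrix (Fin (n + 3)) (Fin (n + 3)) k) = Matrix.transvection 0 1 c}) g} := by
  have h01 : (0 : Fin (n + 3)) ≠ 1 := Fin.zero_ne_one
  have h02 : (0 : Fin (n + 3)) ≠ 2 := fun e => by
    have := congrArg Fin.val e
    simp [Nat.mod_eq_of_lt (show 2 < n + 3 by omega)] at this
  have h12 : (1 : Fin (n + 3)) ≠ 2 := fun e => by
    have := congrArg Fin.val e
    simp [Nat.mod_eq_of_lt (show 2 < n + 3 by omega)] at this
  have hc : IsConjClassOfSubgroups {A : Subgroup (Matrix.SpecialLinearGroup (Fin (n + 3)) k) |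
        ∃ g : Matrix.SpecialLinearGroup (Fin (n + 3)) k,
          A = Cfsg.conjBy (Subgroup.closure {t : Matrix.SpecialLinearGroup (Fin (n + 3)) k |
            ∃ c : k, (t : Matrix (Fin (n + 3)) (Fin (n + 3)) k) = Matrix.transvection 0 1 c}) g} := by
    refine ⟨⟨_, 1, rfl⟩, ?_⟩
    rintro _ ⟨g, rfl⟩ _ ⟨h, rfl⟩
    exact ⟨h * g⁻¹, by rw [H70.conjBy_conjBy, inv_mul_cancel_right]⟩
  rw [H70.sl_class_eq h01] at hc ⊢
  have hS := (H70.slSZ (ι := Fin (n + 3)) (k := k)).rootSet H70.sl_gen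
  have hr := H70.slSZ.fadj (H70.single_mem_slN h01) (H70.single_mem_slN h01.symm) (one_ne_zero (α := k))
    (by simp) (by simp)
  refine ⟨⟨hS, hc⟩, ⟨⟨_, ⟨_, H70.single_mem_slN h01, rfl⟩, _, ⟨_, H70.single_mem_slN h02, rfl⟩, fun e => ?_,
    H70.slSZ.commute (H70.single_mem_slN h01) (H70.single_mem_slN h02) (by simp [h01.symm, h02.symm])⟩,
    ⟨_, hr.1, _, hr.2.1, hr.2.2⟩, ⟨_, ⟨_, H70.single_mem_slN h01, rfl⟩, _, ⟨_, H70.single_mem_slN h12, rfl⟩,
      H70.slSZ.cc (H70.single_mem_slN h01) (H70.single_mem_slN h12) (by simp [h02.symm]) (by simp [h02.symm])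
      (by simpa [h02.symm] using H70.single_mem_slN h02)⟩⟩, H70.slSZ.kRootSet H70.sl_gen, fun A hA B hB => ?_⟩
  · obtain ⟨g, hg⟩ := H70.slSZ.ex _ (H70.single_mem_slN (k := k) h01) 1
    obtain ⟨c, hc⟩ := (H70.slSZ.mem (H70.single_mem_slN h02)).1
      (e ▸ (H70.slSZ.mem (H70.single_mem_slN h01)).2 ⟨1, hg⟩)
    rw [hg, add_right_inj] at hc
    simpa [h12.symm] using congrFun (congrFun hc 0) 1
  · obtain ⟨E, hE, hAE⟩ := H70.class_not_isolated hS hc hr.1 hr.2.1 hr.2.2 A hA
    obtain ⟨g, rfl⟩ := hc.2 A hA B hB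
    exact H70.fpath_conj_any hS hA hE hAE g

end Cfsg.Agent.S5043
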