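import Cfsg.Statements.S5046
import Cfsg.Agent.Base
import Cfsg.Agent.H70.RI2

set_option autoImplicit false
open Cfsg

namespace Cfsg.Agent.S5046

/-- Let G be a finite group generated by a set D of root involutions whose odd-order-product graph is connected, and d ∈ D. Then the members e of D with the same commuting members as d are exactly those for which the union of the commuting members of d and the members whose product with d has order 4 equals the corresponding union for e. -/
theorem result {G : Type*} [Group G] [Finite G] {D : Set G} (hD : Cfsg.IsRootInvolutionSet D)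
    (hc : Cfsg.IsConnectedSet (Cfsg.OddAdj D) D) {d : G} (hd : d ∈ D) :
    Cfsg.sameCommutingClass D d =
      {e | e ∈ D ∧ Cfsg.commutingMembers D d ∪ Cfsg.fourPartners D d = Cfsg.commutingMembers D e ∪ Cfsg.fourPartners D e} := by
  have key : ∀ u ∈ D, ∀ x ∈ D, x ∈ Cfsg.commutingMembers D u ∪ Cfsg.fourPartners D u ↔ ¬ H70.IOpp u x := by
    intro u hu x hx
    refine ⟨?_, fun h => ?_⟩
    · rintro (h | h) o
      · exact o.not_commute (H70.ri_sq hD hu) (H70.ri_sq hD hx) h.2.symm
      · exact o.not_four h.2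
    · rcases H70.ri_tri hD hu hx with h' | h' | h'
      · exact Or.inl ⟨hx, h'.symm⟩
      · exact absurd h' h
      · exact Or.inr ⟨hx, h'⟩
  ext e
  refine ⟨fun ⟨he, h⟩ => ⟨he, Set.ext fun x => ?_⟩, fun ⟨he, h⟩ => ⟨he, ?_⟩⟩
  · by_cases hx : x ∈ D
    · rw [key d hd x hx, key e he x hx, not_iff_not]
      exact ⟨H70.opp_of_comm_subset hD hd he (fun y hy c => ((h.ge ⟨hy, c.symm⟩).2).symm) hx,
        H70.opp_of_comm_subset hD he hd (fun y hy c => ((h.le ⟨hy, c.symm⟩).2).symm) hx⟩
    · exact ⟨fun h => absurd (h.elim (·.1) (·.1)) hx, fun h => absurd (h.elim (·.1) (·.1)) hx⟩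
  · by_cases hde : d = e
    · rw [hde]
    have R := H70.ric_of_connected hD hc hd he hde
    have e1 : ∀ x ∈ D, H70.IOpp d x ↔ H70.IOpp e x := fun x hx => by
      rw [← not_iff_not, ← key d hd x hx, ← key e he x hx, h]
    exact Set.ext fun y => ⟨fun hy => ⟨hy.1, (R.comm_of_opp_eq hd he e1 hy.1 hy.2.symm).symm⟩,
      fun hy => ⟨hy.1, (R.comm_of_opp_eq he hd (fun x hx => (e1 x hx).symm) hy.1 hy.2.symm).symm⟩⟩

end Cfsg.Agent.S5046
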