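import Cfsg.Statements.S5047
import Cfsg.Agent.Base
import Cfsg.Agent.H70.RI2

set_option autoImplicit false
open Cfsg

namespace Cfsg.Agent.S5047

/-- Let G be a finite group generated by a set D of root involutions whose odd-order-product graph is connected, a ∈ D, and b a member of D different from a, commuting with a, with ab ∈ D, but not having the same commuting members as a. Then some member x of D with bx of order 4 has ax of order 3. -/
theorem result {G : Type*} [Group G] [Finite G] {D : Set G} (hD : Cfsg.IsRootInvolutionSet D)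
    (hc : Cfsg.IsConnectedSet (Cfsg.OddAdj D) D) {a b : G} (ha : a ∈ D) (hb : b ∈ Cfsg.productPartners D a)
    (hbE : b ∉ Cfsg.sameCommutingClass D a) : ∃ x ∈ Cfsg.fourPartners D b, orderOf (a * x) = 3 := by
  obtain ⟨hb, hc', hab, hne⟩ := H70.mem_productPartners.1 hb
  have R := H70.ric_of_connected hD hc ha hb hne.symm
  obtain ⟨f, hf, h4, rfl⟩ := R.exists_four ha hb hab hc' fun k => hbE ⟨hb, Set.ext fun y =>
    ⟨fun hy => ⟨hy.1, (k y hy.1 hy.2.symm).symm⟩, fun hy => ⟨hy.1, (R.comm_symm ha hb k y hy.1 hy.2.symm).symm⟩⟩⟩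
  obtain ⟨x, hx, h1, -, -, h2⟩ := R.exists_s3 ha hf h4
  exact ⟨x, ⟨hx, h1.symm⟩, h2⟩

end Cfsg.Agent.S5047
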