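import Cfsg.Statements.S5049
import Cfsg.Agent.H66.OT1

set_option autoImplicit false
open Cfsg

namespace Cfsg.Agent.S5049

/-- Let G be a finite group generated by a set D of odd transpositions (root involutions with no product of order 4), Q = O₂(G), and for a ∈ D let Q_a be the commutator subgroup of Q with a. Then every member of D commuting with a centralizes Q_a; and for b ∈ D with ab of odd order greater than 1, the centralizer of ab in Q is the intersection of the centralizers of a and b in Q. -/
theorem result {G : Type*} [Group G] [Finite G] {D : Set G} (hD : Cfsg.IsOddTranspositionSet D) {a : G} (ha : a ∈ D) :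
    (∀ e ∈ Cfsg.commutingMembers D a, ∀ q ∈ ⁅Cfsg.pCore 2 G, Subgroup.zpowers a⁆, e * q = q * e) ∧
    (∀ b ∈ Cfsg.oddPartners D a,
      Cfsg.pCore 2 G ⊓ Subgroup.centralizer {a * b} = Cfsg.pCore 2 G ⊓ Subgroup.centralizer {a} ⊓ Subgroup.centralizer {b}) := by
  have hO := H70.isPGroup_pCore_two G
  have hN : (pCore 2 G).Normal := inferInstance
  have sa := H70.ri_sq hD.1 ha
  have k : ∀ q ∈ pCore 2 G, a * (q * a * q⁻¹) ∈ pCore 2 G := fun q hq => by
    simpa only [H70.inv_of_sq sa, mul_assoc] using mul_mem (hN.conj_mem q hq a) (inv_mem hq)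
  refine ⟨fun e he q hq => ?_, fun b hb => le_antisymm (fun q hq => ?_) fun q hq => ⟨hq.1.1, ?_⟩⟩
  · refine (Subgroup.mem_centralizer_singleton_iff.1 ((Subgroup.commutator_le (H₃ := Subgroup.centralizer {e})).2
      (fun n hn g hg => Subgroup.mem_centralizer_singleton_iff.2 ?_) hq)).symm
    have c : Commute e a := he.2
    have c1 := H66.RI.commute_of_cong hD hO he.1 ha (H70.ri_conj hD.1 ha n) (fun r hr => hN.conj_mem r hr _) c (k n hn)
    obtain ⟨i, rfl⟩ := hg
    have := (c1.zpow_right i).mul_right (c.zpow_right i).inv_right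
    rw [conj_zpow] at this
    exact this.symm
  · obtain ⟨hb, o⟩ := H70.mem_oddPartners.1 hb
    have sb := H70.ri_sq hD.1 hb
    have c : Commute (a * b) q := (Subgroup.mem_centralizer_singleton_iff.1 hq.2).symm
    have ha' := H70.ri_conj hD.1 ha q
    have c1 := H66.RI.commute_of_mem_two hD hO ha ha' (k q hq.1)
    have c2 := (H70.commute_conj' c sa).inv_left
    rw [show (a * (a * b) * a)⁻¹ = a * b by
      simp only [mul_inv_rev, H70.inv_of_sq sa, H70.inv_of_sq sb, H70.sqc sa]] at c2
    have c3 : Commute (a * (q * a * q⁻¹)) a := (Commute.refl a).mul_left c1.symm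
    have c4 : Commute (a * (q * a * q⁻¹)) b := by
      simpa only [H70.sqc sa, mul_assoc] using c3.mul_right
        (by simpa only [mul_assoc] using (c2.mul_right c.inv_right).symm : Commute (a * (q * a * q⁻¹)) (a * b))
    have := H70.ri_even hD.1 ha hb o (H70.sq_mul_of_commute sa (H70.ri_sq hD.1 ha') c1) c3 c4
      (by rwa [c1.eq, mul_assoc, sa, mul_one])
    have c5 : Commute q a := mul_inv_eq_iff_eq_mul.1 (H66.RI.eq_of_mul_eq_one sa this).symm
    refine ⟨⟨hq.1, Subgroup.mem_centralizer_singleton_iff.2 c5⟩, Subgroup.mem_centralizer_singleton_iff.2 ?_⟩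
    simpa only [H70.sqc sa] using (c5.mul_right c.symm).eq
  · exact Subgroup.mem_centralizer_singleton_iff.2 (Commute.mul_right
      (Subgroup.mem_centralizer_singleton_iff.1 hq.1.2) (Subgroup.mem_centralizer_singleton_iff.1 hq.2))

end Cfsg.Agent.S5049
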