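import Cfsg.Statements.S5058
import Cfsg.Agent.Base
import Cfsg.Agent.H70.SqSL

set_option autoImplicit false
open Matrix
open Cfsg

namespace Cfsg.Agent.S5058

/-- Let F be a finite field of characteristic 2 and n a natural number. Then the transvections of SL_{n+3}(F) (so in every dimension at least 3) (the conjugates of the elementary matrices 1 + c E₁₂, c ≠ 0) form a class of root involutions of SL_{n+3}(F); when F has two elements they form a class of {3,4}⁺-transpositions (every product of odd order has order 1 or 3). -/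
theorem result (F : Type*) [Field F] [Fintype F] [CharP F 2] (n : ℕ) :
    Cfsg.IsRootInvolutionClass {t : Matrix.SpecialLinearGroup (Fin (n + 3)) F | ∃ c : F, c ≠ 0 ∧
        ∃ g : Matrix.SpecialLinearGroup (Fin (n + 3)) F, ((g⁻¹ * t * g : Matrix.SpecialLinearGroup (Fin (n + 3)) F) :
          Matrix (Fin (n + 3)) (Fin (n + 3)) F) = Matrix.transvection 0 1 c} ∧
    (Fintype.card F = 2 → Cfsg.IsThreeFourPlusTranspositionSet {t : Matrix.SpecialLinearGroup (Fin (n + 3)) F | ∃ c : F, c ≠ 0 ∧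
        ∃ g : Matrix.SpecialLinearGroup (Fin (n + 3)) F, ((g⁻¹ * t * g : Matrix.SpecialLinearGroup (Fin (n + 3)) F) :
          Matrix (Fin (n + 3)) (Fin (n + 3)) F) = Matrix.transvection 0 1 c}) := by
  have h01 : (0 : Fin (n + 3)) ≠ 1 := Fin.zero_ne_one
  obtain ⟨h1, h2⟩ := (H70.slSZ (ι := Fin (n + 3)) (k := F)).rootInv H70.sl_gen
  rw [← H70.sl_inv_eq h01] at h1 h2
  refine ⟨⟨h1, ⟨SpecialLinearGroup.transvection h01 1, 1, one_ne_zero, 1, by rw [inv_one, one_mul, mul_one]; rfl⟩, ?_⟩,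
    fun h => ⟨h1, h2 (by rw [Nat.card_eq_fintype_card, h])⟩⟩
  have key : ∀ c : F, c ≠ 0 → ∃ g : SpecialLinearGroup (Fin (n + 3)) F,
      SpecialLinearGroup.transvection h01 c = g * SpecialLinearGroup.transvection h01 1 * g⁻¹ := by
    intro c hc
    obtain ⟨a, rfl⟩ := FiniteField.isSquare_of_char_two (ringChar.eq F 2) c
    have ha : a ≠ 0 := fun e => hc (by rw [e, mul_zero])
    refine ⟨SpecialLinearGroup.diag2n h01 a ha, ?_⟩
    have := H57.commutator_diag2n_transvection h01 a ha 1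
    rw [commutatorElement_def, mul_inv_eq_iff_eq_mul] at this
    rw [this, ← SpecialLinearGroup.transvection_add]
    congr 1; ring
  rintro a ⟨c, hc, g, ha⟩ b ⟨d, hd, h, hb⟩
  obtain ⟨x, hx⟩ := key c hc
  obtain ⟨y, hy⟩ := key d hd
  have ea : g⁻¹ * a * g = SpecialLinearGroup.transvection h01 c := Subtype.ext ha
  have eb : h⁻¹ * b * h = SpecialLinearGroup.transvection h01 d := Subtype.ext hb
  refine ⟨h * y * x⁻¹ * g⁻¹, ?_⟩
  calc b = h * (h⁻¹ * b * h) * h⁻¹ := by group
    _ = h * y * x⁻¹ * (x * SpecialLinearGroup.transvection h01 1 * x⁻¹) * x * y⁻¹ * h⁻¹ := by rw [eb, hy]; group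
    _ = _ := by rw [← hx, ← ea]; group

end Cfsg.Agent.S5058
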