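import Cfsg.Statements.S5059
import Cfsg.Agent.Base
import Cfsg.Agent.H70.Quad1

set_option autoImplicit false
universe u
open Cfsg

namespace Cfsg.Agent.S5059

/-- Let k be a field of characteristic not 2 with k not of order 3, M a finite-dimensional k-vector space and G ≤ GL(M) such that (G, M) is a quadratic pair (M irreducible for G, and G generated by its quadratically acting elements σ whose scalar family 1 + c(σ − 1), c ∈ k, lies in G). Write 𝒬_d for the quadratic elements of G of minimal commutator rank, E(σ) for the subgroup generated by the members of 𝒬_d with the same fixed space and commutator space as σ, and Σ for the set of these subgroups. Then for σ ∈ 𝒬_d the subgroup E(σ) consists exactly of those members together with the identity, it is abelian, and if k has prime characteristic p every element of E(σ) has order dividing p. -/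
theorem result {k : Type u} [Field k] (hk2 : ringChar k ≠ 2) (hk3 : Nat.card k ≠ 3)
    {M : Type u} [AddCommGroup M] [Module k M] [FiniteDimensional k M]
    {G : Subgroup (LinearMap.GeneralLinearGroup k M)} (hG : Cfsg.IsQuadraticPair G)
    {σ : LinearMap.GeneralLinearGroup k M} (hσ : σ ∈ Cfsg.minimalQuadraticElements G) :
    (Cfsg.sameActionSubgroup G σ : Set (LinearMap.GeneralLinearGroup k M)) = Cfsg.sameActionClass G σ ∪ {1} ∧
    IsMulCommutative ↥(Cfsg.sameActionSubgroup G σ) ∧
    (∀ p : ℕ, p.Prime → ringChar k = p → ∀ x ∈ Cfsg.sameActionSubgroup G σ, x ^ p = 1) := by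
  refine ⟨?_, ?_, fun p hp hk x hx => ?_⟩
  · ext τ
    rw [SetLike.mem_coe, H70.sameActionSubgroup_eq hσ, Set.mem_union, H70.mem_sameActionClass hσ,
      Set.mem_singleton_iff]
    constructor
    · intro h
      by_cases h1 : τ = 1
      · exact Or.inr h1
      · exact Or.inl ⟨h, h1⟩
    · rintro (h | rfl)
      · exact h.1
      · exact Subgroup.one_mem _
  · rw [H70.sameActionSubgroup_eq hσ]; exact H70.rootGrp_isMulCommutative
  · rw [H70.sameActionSubgroup_eq hσ] at hx
    have h := H70.rootSp_mul hx hx
    have key : ∀ n : ℕ, ((x ^ n : LinearMap.GeneralLinearGroup k M) : Module.End k M) =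
        1 + (n : k) • ((x : Module.End k M) - 1) := by
      intro n
      induction n with
      | zero => simp
      | succ n ih =>
        rw [pow_succ, Units.val_mul, ih]
        generalize hy : (x : Module.End k M) - 1 = y at h
        rw [sub_eq_iff_eq_add'.1 hy]
        simp [add_mul, mul_add, h, add_smul, add_assoc]
    apply Units.ext
    rw [key, (ringChar.spec k p).2 (by rw [hk])]
    simp

end Cfsg.Agent.S5059
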