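import Cfsg.Statements.S5060
import Cfsg.Agent.Base
import Cfsg.Agent.H70.SL2Inf

set_option autoImplicit false
open Cfsg

namespace Cfsg.Agent.S5060

/-- Let k ⊆ K be fields with the characteristic of k not 2 and k not of order 3, and let α ∈ K be a non-zero element algebraic over k. Then the subgroup of SL₂(K) generated by the upper unitriangular matrices with entry c and the lower unitriangular matrices with entry cα, c ranging over k, is exactly the group of matrices of SL₂(K) with all entries in k(α). -/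
theorem result {k K : Type*} [Field k] [Field K] [Algebra k K] (hk2 : ringChar k ≠ 2) (hk3 : Nat.card k ≠ 3)
    (α : K) (hα : IsAlgebraic k α) (hα0 : α ≠ 0) :
    (Subgroup.closure ({g : Matrix.SpecialLinearGroup (Fin 2) K | ∃ c : k, (g : Matrix (Fin 2) (Fin 2) K) = !![1, algebraMap k K c; 0, 1]} ∪
        {g : Matrix.SpecialLinearGroup (Fin 2) K | ∃ c : k, (g : Matrix (Fin 2) (Fin 2) K) = !![1, 0; algebraMap k K c * α, 1]}) :
      Set (Matrix.SpecialLinearGroup (Fin 2) K)) =
    {g : Matrix.SpecialLinearGroup (Fin 2) K | ∀ i j : Fin 2, (g : Matrix (Fin 2) (Fin 2) K) i j ∈ IntermediateField.adjoin k ({α} : Set K)} := by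
  set K₀ := IntermediateField.adjoin k ({α} : Set K)
  let f : Matrix.SpecialLinearGroup (Fin 2) K₀ →* Matrix.SpecialLinearGroup (Fin 2) K :=
    Matrix.SpecialLinearGroup.map (algebraMap K₀ K)
  set H := Subgroup.closure ({g : Matrix.SpecialLinearGroup (Fin 2) K | ∃ c : k, (g : Matrix (Fin 2) (Fin 2) K) = !![1, algebraMap k K c; 0, 1]} ∪
        {g : Matrix.SpecialLinearGroup (Fin 2) K | ∃ c : k, (g : Matrix (Fin 2) (Fin 2) K) = !![1, 0; algebraMap k K c * α, 1]}) with hH
  have hint := hα.isIntegral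
  let γ : K₀ := IntermediateField.AdjoinSimple.gen k α
  have hγ : algebraMap K₀ K γ = α := rfl
  have htop : H.comap f = ⊤ := by
    refine H70.dickson_field (k := k) (γ := γ) (H70.bigField_of hk2 hk3) (fun e => hα0 (by rw [← hγ, e, map_zero]))
      ((isAlgebraic_algHom_iff K₀.val (algebraMap K₀ K).injective).1 hα)
      (IntermediateField.adjoin.powerBasis hint).adjoin_gen_eq_top (fun c => ?_) (fun c => ?_)
    · rw [Subgroup.mem_comap, H70.map_xu]
      exact Subgroup.subset_closure (Or.inl ⟨c, rfl⟩)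
    · rw [Subgroup.mem_comap, H70.map_xl]
      exact Subgroup.subset_closure (Or.inr ⟨c, rfl⟩)
  have hle : H ≤ f.range := by
    rw [hH, Subgroup.closure_le]
    rintro g (⟨c, hc⟩ | ⟨c, hc⟩)
    · exact ⟨H70.xu (algebraMap k K₀ c), by rw [H70.map_xu]; exact Subtype.ext hc.symm⟩
    · exact ⟨H70.xl (algebraMap k K₀ c * γ), by rw [H70.map_xl]; exact Subtype.ext hc.symm⟩
  ext g
  constructor
  · intro hg i j
    obtain ⟨g₀, rfl⟩ := hle hg
    exact (g₀ i j).2
  · intro hg
    let g₀ : Matrix.SpecialLinearGroup (Fin 2) K₀ := ⟨Matrix.of fun i j => ⟨g i j, hg i j⟩, by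
      apply (algebraMap K₀ K).injective
      rw [RingHom.map_det, map_one]
      exact g.det_coe⟩
    have h1 : g₀ ∈ H.comap f := htop ▸ Subgroup.mem_top _
    exact h1

end Cfsg.Agent.S5060
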