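import Cfsg.Statements.S5064
import Cfsg.Agent.Base
import Cfsg.Agent.H70.Quad3

set_option autoImplicit false
universe u
open Cfsg

namespace Cfsg.Agent.S5064

theorem aux {k : Type*} [Field k] {R : Type u} [CommRing R] [Algebra k R] [Module.Finite k R] (hnt : Nontrivial R)
    (hdom : ∀ x y : R, x * y = 0 → x = 0 ∨ y = 0) (lam : R) (hgen : Algebra.adjoin k {lam} = ⊤)
    {X : Type*} [Group X] (φ : Matrix.SpecialLinearGroup (Fin 2) R →* X) (hi : Function.Injective φ)
    {H : Subgroup X} (h1 : H ≤ φ.range) (h2 : ∀ r, φ (H70.xu r) ∈ H) (h3 : ∀ r, φ (H70.xl r) ∈ H) :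
    ∃ (K : Type u) (_ : Field K) (_ : Algebra k K) (lam : K), IsAlgebraic k lam ∧
      IntermediateField.adjoin k ({lam} : Set K) = ⊤ ∧
      Nonempty (↥H ≃* Matrix.SpecialLinearGroup (Fin 2) K) := by
  have : NoZeroDivisors R := ⟨fun h => hdom _ _ h⟩
  have : IsDomain R := NoZeroDivisors.to_isDomain _
  have : IsArtinianRing R := IsArtinianRing.of_finite k _
  have hfield : IsField R := IsArtinianRing.isField_of_isDomain _
  let _ := hfield.toField
  refine ⟨R, inferInstance, inferInstance, lam, Algebra.IsAlgebraic.isAlgebraic _,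
    IntermediateField.adjoin_eq_top_of_algebra _ _ hgen, ⟨?_⟩⟩
  have hr : H = φ.range := by
    refine le_antisymm h1 ?_
    have : H.comap φ = ⊤ := H70.sl_eq_top_of_xu_xl h2 h3
    rintro _ ⟨g, rfl⟩
    exact (this ▸ Subgroup.mem_top g : g ∈ Subgroup.comap _ _)
  exact (MulEquiv.subgroupCongr hr).trans (MonoidHom.ofInjective hi).symm

/-- Let k be a field of characteristic not 2 with k not of order 3, M a finite-dimensional k-vector space and G ≤ GL(M) such that (G, M) is a quadratic pair (M irreducible for G, and G generated by its quadratically acting elements σ whose scalar family 1 + c(σ − 1), c ∈ k, lies in G). Write 𝒬_d for the quadratic elements of G of minimal commutator rank, E(σ) for the subgroup generated by the members of 𝒬_d with the same fixed space and commutator space as σ, and Σ for the set of these subgroups. If σ, τ ∈ 𝒬_d and the subgroup H generated by their two scalar families does not act unipotently on M, then H is isomorphic to SL₂ over a simple algebraic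 extension k(λ) of k. -/
theorem result {k : Type u} [Field k] (hk2 : ringChar k ≠ 2) (hk3 : Nat.card k ≠ 3)
    {M : Type u} [AddCommGroup M] [Module k M] [FiniteDimensional k M]
    {G : Subgroup (LinearMap.GeneralLinearGroup k M)} (hG : Cfsg.IsQuadraticPair G)
    {σ τ : LinearMap.GeneralLinearGroup k M} (hσ : σ ∈ Cfsg.minimalQuadraticElements G) (hτ : τ ∈ Cfsg.minimalQuadraticElements G)
    (hH : ¬ Cfsg.IsUnipotentOn (Subgroup.closure (Cfsg.scalarFamily σ ∪ Cfsg.scalarFamily τ))) :
    ∃ (K : Type u) (_ : Field K) (_ : Algebra k K) (lam : K), IsAlgebraic k lam ∧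
      IntermediateField.adjoin k ({lam} : Set K) = ⊤ ∧
      Nonempty (↥(Subgroup.closure (Cfsg.scalarFamily σ ∪ Cfsg.scalarFamily τ)) ≃* Matrix.SpecialLinearGroup (Fin 2) K) := by
  have hk := H70.bigField_of hk2 hk3
  have hα := H70.mem_minimalQuadraticElements.1 hσ
  have hβ := H70.mem_minimalQuadraticElements.1 hτ
  rw [H70.scalarFamily_eq, H70.scalarFamily_eq] at hH ⊢
  generalize (σ : Module.End k M) - 1 = α at hα hH
  generalize (τ : Module.End k M) - 1 = β at hβ hH
  obtain ⟨ε, δ, F⟩ := H70.exists_fit hα.qe.sq hβ.qe.sq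
  have hε : ε ≠ 0 := by
    rintro rfl
    obtain ⟨n, hn⟩ := F.nilpotent_of_eq_zero
    exact hH (H70.uni_pair F.aa F.bb (n := n) (by rw [hn, zero_mul]) (by rw [hn, zero_mul]))
  have h1 := F.eps_mul hk hα hβ.qe hε
  have h2 := F.symm.eps_mul hk hβ hα.qe hε
  have hO := F.opp hk hα hβ hε
  have hinj : ∀ r : Algebra.adjoin k {α * β + β * α}, r.1 * ε * α = 0 → r ∈ F.ann := by
    intro r hr
    rw [F.mem_ann, ← F.idem, ← mul_assoc]
    conv_lhs => enter [2]; rw [← F.δγ, H70.Fit.cc F.δ_mem (Algebra.self_mem_adjoin_singleton k _)]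
    rw [← mul_assoc, mul_add, ← mul_assoc, hr, ← mul_assoc, ← F.cb (mul_mem r.2 F.ε_mem), mul_assoc β, hr]
    simp
  have hdom : ∀ x y : Algebra.adjoin k {α * β + β * α} ⧸ F.ann, x * y = 0 → x = 0 ∨ y = 0 := by
    intro x y hxy
    obtain ⟨r, rfl⟩ := Ideal.Quotient.mk_surjective x
    obtain ⟨s, rfl⟩ := Ideal.Quotient.mk_surjective y
    rw [← map_mul, Ideal.Quotient.eq_zero_iff_mem, F.mem_ann] at hxy
    rw [Ideal.Quotient.eq_zero_iff_mem, Ideal.Quotient.eq_zero_iff_mem]
    by_contra hcon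
    push Not at hcon
    have hr := F.mem_rootSp hk hα.qe hβ.qe r.2
    have hker := (hα.of_mem hr fun e => hcon.1 (hinj r e)).2.1
    refine hcon.2 (hinj s (LinearMap.ext fun m => ?_))
    have : s.1 m ∈ LinearMap.ker (r.1 * ε * α) := by
      rw [LinearMap.mem_ker, ← Module.End.mul_apply, mul_assoc, F.ca s.2, ← mul_assoc, mul_assoc r.1,
        H70.Fit.cc F.ε_mem s.2, ← mul_assoc]
      rw [MulMemClass.coe_mul] at hxy
      rw [hxy]; simp
    rw [hker, LinearMap.mem_ker, ← Module.End.mul_apply, F.ca s.2] at this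
    rwa [mul_assoc, h1]
  have hnt : Nontrivial (Algebra.adjoin k {α * β + β * α} ⧸ F.ann) := by
    refine ⟨0, 1, fun e => hε ?_⟩
    rw [← map_one (Ideal.Quotient.mk F.ann), eq_comm, Ideal.Quotient.eq_zero_iff_mem, F.mem_ann] at e
    simpa using e
  have hi : Function.Injective F.mu.hom := by
    refine F.mu.hom_injective fun x hx => ?_
    obtain ⟨r, rfl⟩ := Ideal.Quotient.mk_surjective x
    refine Ideal.Quotient.eq_zero_iff_mem.2 (hinj r ?_)
    change F.psi _ * (ε * α) = 0 at hx
    rwa [F.psi_mk, h1] at hx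
  refine aux hnt hdom F.gam F.adjoin_gam F.mu.hom hi ((Subgroup.closure_le _).2 ?_)
    (fun r => (F.mem_lcs hk 0 r).1) (fun r => (F.mem_lcs hk 0 r).2)
  rintro g (⟨c, hc⟩ | ⟨c, hc⟩)
  · exact ⟨_, Units.ext (by rw [F.hom_xu_alg c, hc, h1])⟩
  · exact ⟨_, Units.ext (by rw [F.hom_xl_alg c, hc, h2])⟩

end Cfsg.Agent.S5064
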