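import Cfsg.Statements.S5067
import Cfsg.Agent.Base
import Cfsg.Agent.H70.Comm

set_option autoImplicit false
open Cfsg

namespace Cfsg.Agent.S5067

theorem aux {P : Type*} [Group P] [Group.IsNilpotent P] (hna : ¬ IsMulCommutative P) {E : Subgroup P}
    (hE : IsMulCommutative ↥E) :
    Group.nilpotencyClass ↥(Subgroup.normalClosure (E : Set P)) < Group.nilpotencyClass P := by
  set N := Subgroup.normalClosure (E : Set P) with hN
  have h1 : N ≤ Subgroup.closure ((E : Set P) ∪ commutator P) := by
    rw [Subgroup.closure_union, Subgroup.closure_eq, Subgroup.closure_eq]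
    have : (E ⊔ commutator P).Normal := Subgroup.Normal.of_commutator_le P le_sup_right
    exact Subgroup.normalClosure_le_normal (le_sup_left : E ≤ E ⊔ commutator P)
  have h2 : ∀ k, N.lowerCentralSeries (k + 1) ≤ (⊤ : Subgroup P).lowerCentralSeries (k + 2) := by
    intro k
    induction k with
    | zero =>
      refine Subgroup.commutator_le.2 fun x hx y hy => ?_
      refine H70.comm_mem_of_gen (by rw [Subgroup.normalizer_eq_top]; exact Set.subset_univ _)
        (by rw [Subgroup.normalizer_eq_top]; exact Set.subset_univ _) ?_ x (h1 hx) y (h1 hy)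
      rintro a (ha | ha) b (hb | hb)
      · rw [H70.isMulCommutative_iff.1 hE a ha b hb]; simp
      · have := Subgroup.inv_mem _ (Subgroup.commutator_mem_commutator hb (Subgroup.mem_top a))
        rwa [commutatorElement_inv] at this
      · exact Subgroup.commutator_mem_commutator ha (Subgroup.mem_top b)
      · exact Subgroup.commutator_mem_commutator ha (Subgroup.mem_top b)
    | succ k ih => exact Subgroup.commutator_mono ih le_top
  have h3 : 2 ≤ Group.nilpotencyClass P := by
    by_contra h
    have := Subgroup.lowerCentralSeries_eq_bot_iff_nilpotencyClass_le.2 (show Group.nilpotencyClass P ≤ 1 by omega)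
    exact hna ((commutator_eq_bot_iff P).1 this)
  obtain ⟨k, hk⟩ : ∃ k, Group.nilpotencyClass P = k + 2 := ⟨_, (Nat.sub_add_cancel h3).symm⟩
  have h4 := h2 k
  rw [← hk, Subgroup.lowerCentralSeries_nilpotencyClass, le_bot_iff, ← Subgroup.top_subtype_lowerCentralSeries,
    Subgroup.map_eq_bot_iff_of_injective _ N.subtype_injective,
    Subgroup.lowerCentralSeries_eq_bot_iff_nilpotencyClass_le] at h4
  omega

/-- Let P be a non-abelian nilpotent p-group (every element of p-power order; P possibly infinite) generated by two abelian subgroups E and F. Then the normal closure of E in P, and likewise that of F, has nilpotency class strictly smaller than that of P. -/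
theorem result {P : Type*} [Group P] {p : ℕ} [Fact p.Prime] (hP : IsPGroup p P) [Group.IsNilpotent P]
    (hna : ¬ IsMulCommutative P) {E F : Subgroup P} (hE : IsMulCommutative ↥E) (hF : IsMulCommutative ↥F) (hgen : E ⊔ F = ⊤) :
    Group.nilpotencyClass ↥(Subgroup.normalClosure (E : Set P)) < Group.nilpotencyClass P ∧
    Group.nilpotencyClass ↥(Subgroup.normalClosure (F : Set P)) < Group.nilpotencyClass P := by
  exact ⟨aux hna hE, aux hna hF⟩

end Cfsg.Agent.S5067
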