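import Cfsg.Statements.S5069
import Cfsg.Agent.Base
import Cfsg.Agent.H70.Quad6

set_option autoImplicit false
universe u
open Cfsg

namespace Cfsg.Agent.S5069

theorem enum {X : Type*} {S : Set X} (h : S.Finite) :
    ∃ (r : ℕ) (f : Fin r → X), Function.Injective f ∧ (∀ i, f i ∈ S) ∧ ∀ x ∈ S, ∃ i, f i = x := by
  have := h.to_subtype
  let e := (Finite.equivFin S).symm
  exact ⟨_, fun i => e i, Subtype.val_injective.comp e.injective, fun i => (e i).2,
    fun x hx => ⟨e.symm ⟨x, hx⟩, congrArg Subtype.val (e.apply_symm_apply _)⟩⟩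

theorem one_class {k : Type u} [Field k] (hk : H70.BigField k)
    {M : Type u} [AddCommGroup M] [Module k M] [FiniteDimensional k M]
    {G : Subgroup (LinearMap.GeneralLinearGroup k M)} (hN : H70.NU G)
    {P : Set (Subgroup (LinearMap.GeneralLinearGroup k M))} (hP : P ∈ H70.qcls G '' Cfsg.quadraticRootSubgroups G) :
    Cfsg.IsQuasisimple ↥(⨆ A ∈ P, A) ∧
        Cfsg.IsRootSubgroupClass ((fun A : Subgroup (LinearMap.GeneralLinearGroup k M) => A.subgroupOf (⨆ B ∈ P, B)) '' P) ∧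
        ∀ A ∈ P, ∀ B ∈ Cfsg.rankOnePartners P A, ∃ A₀ B₀ : Subgroup (LinearMap.GeneralLinearGroup k M), A₀ ≤ A ∧ B₀ ≤ B ∧
          ∃ (k₁ : Type u) (_ : Field k₁), 3 < ENat.card k₁ ∧ Cfsg.IsPSL2PairOver k₁ A₀ B₀ := by
  obtain ⟨B, hB, rfl⟩ := hP
  refine ⟨H70.qcomp_quasisimple hk hN hB, ⟨H70.qrs_rootSet hk hN (H70.qcls_subset hB)
    fun A hA g hg => H70.conj_mem_qcls hA hg, ⟨_, B, H70.self_mem_qcls B, rfl⟩, ?_⟩, fun A hA C hC => ?_⟩
  · rintro _ ⟨A, hA, rfl⟩ _ ⟨C, hC, rfl⟩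
    obtain ⟨h, hh, rfl⟩ := H70.qcls_conj_in_qcomp hk hN hB hA hC
    exact ⟨⟨h, hh⟩, (H70.conjBy_subgroupOf A _ ⟨h, hh⟩).symm⟩
  · obtain ⟨A₀, B₀, h1, h2, h3⟩ := H70.qrs_psl2 hk (H70.qcls_subset hB hA) (H70.qcls_subset hB hC.1) hC.2
    exact ⟨A₀, B₀, h1, h2, k, inferInstance, hk.three_lt_card, h3⟩

/-- Let k be a field of characteristic not 2 with k not of order 3, M a finite-dimensional k-vector space and G ≤ GL(M) such that (G, M) is a quadratic pair (M irreducible for G, and G generated by its quadratically acting elements σ whose scalar family 1 + c(σ − 1), c ∈ k, lies in G). Write 𝒬_d for the quadratic elements of G of minimal commutator rank, E(σ) for the subgroup generated by the members of 𝒬_d with the same fixed space and commutator space as σ, and Σ for the set of these subgroups. Then Σ is a disjoint union of finitely many parts Σ₁, …, Σ_r such that the subgroups G_i generated by the Σ_i commute pairwise, each G_i is quasisimple,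 and inside G_i the members of Σ_i form a class of abstract root subgroups in which every rank one pair A, B contains subgroups A₀ ≤ A, B₀ ≤ B generating an image of SL₂(k₁) with central kernel on unitriangular subgroups for some field k₁ with at least four elements. -/
theorem result {k : Type u} [Field k] (hk2 : ringChar k ≠ 2) (hk3 : Nat.card k ≠ 3)
    {M : Type u} [AddCommGroup M] [Module k M] [FiniteDimensional k M]
    {G : Subgroup (LinearMap.GeneralLinearGroup k M)} (hG : Cfsg.IsQuadraticPair G) :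
    ∃ (r : ℕ) (part : Fin r → Set (Subgroup (LinearMap.GeneralLinearGroup k M))),
      (⋃ i, part i) = Cfsg.quadraticRootSubgroups G ∧ (∀ i j, i ≠ j → Disjoint (part i) (part j)) ∧ (∀ i, (part i).Nonempty) ∧
      (∀ i j, i ≠ j → ⁅(⨆ A ∈ part i, A), (⨆ A ∈ part j, A)⁆ = ⊥) ∧
      (∀ i, Cfsg.IsQuasisimple ↥(⨆ A ∈ part i, A) ∧
        Cfsg.IsRootSubgroupClass ((fun A : Subgroup (LinearMap.GeneralLinearGroup k M) => A.subgroupOf (⨆ B ∈ part i, B)) '' (part i)) ∧
        ∀ A ∈ part i, ∀ B ∈ Cfsg.rankOnePartners (part i) A, ∃ A₀ B₀ : Subgroup (LinearMap.GeneralLinearGroup k M), A₀ ≤ A ∧ B₀ ≤ B ∧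
          ∃ (k₁ : Type u) (_ : Field k₁), 3 < ENat.card k₁ ∧ Cfsg.IsPSL2PairOver k₁ A₀ B₀) := by
  have hk := H70.bigField_of hk2 hk3
  have hN := (H70.ff_of_irreducible hG.1).nu
  obtain ⟨r, f, hf, hrep, hsurj⟩ := enum (H70.qcls_finite hk hN)
  have hne : ∀ i j, i ≠ j → ∀ A B, H70.qcls G A = f i → H70.qcls G B = f j → B ∉ H70.qcls G A :=
    fun i j hij A B hA hB h => hij (hf (by rw [← hA, ← hB, H70.qcls_eq h]))
  refine ⟨r, f, ?_, fun i j hij => ?_, fun i => ?_, fun i j hij => ?_, fun i => one_class hk hN (hrep i)⟩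
  · ext A
    rw [Set.mem_iUnion]
    constructor
    · rintro ⟨i, hi⟩
      obtain ⟨B, hB, eB⟩ := hrep i
      exact H70.qcls_subset hB (eB ▸ hi)
    · intro hA
      obtain ⟨i, hi⟩ := hsurj _ ⟨A, hA, rfl⟩
      exact ⟨i, hi ▸ H70.self_mem_qcls A⟩
  · rw [Set.disjoint_left]
    intro A hi hj
    obtain ⟨B, -, eB⟩ := hrep i
    obtain ⟨C, -, eC⟩ := hrep j
    exact hne i j hij B A eB ((H70.qcls_eq (eC ▸ hj)).trans eC) (eB ▸ hi)
  · obtain ⟨B, -, eB⟩ := hrep i
    exact ⟨B, eB ▸ H70.self_mem_qcls B⟩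
  · obtain ⟨B, hB, eB⟩ := hrep i
    obtain ⟨C, hC, eC⟩ := hrep j
    rw [← eB, ← eC]
    exact H70.qcomp_comm_of_not_mem hk hN hB hC (hne i j hij B C eB eC)

end Cfsg.Agent.S5069
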