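import Cfsg.Statements.S5070
import Cfsg.Agent.Base
import Cfsg.Agent.H54.SpSL2
import Cfsg.Agent.H70.Root1

set_option autoImplicit false
open Matrix
open Cfsg

namespace Cfsg.Agent.S5070

open H54 in
theorem r1 {l : Type*} [Fintype l] [DecidableEq l] {F : Type*} [Field F] {p q : l ⊕ l → F}
    (h : spB l F p q ≠ 0) : Cfsg.IsRankOnePair (tvSub p) (tvSub q) := by
  have cond : ∀ {p q : l ⊕ l → F}, spB l F p q ≠ 0 → Cfsg.RankOneCondition (tvSub p) (tvSub q) := by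
    rintro p q h _ ⟨c, rfl⟩ hc
    have hc0 : c ≠ 0 := fun h => hc (by rw [h, tv_zero])
    have hq : q ≠ 0 := fun h' => h (by rw [h', map_zero])
    refine ⟨tv q (-1 / (c * spB l F p q ^ 2)), tv_mem_tvSub _ _, ?_, ?_⟩
    · rw [Ne, tv_eq_one_iff]
      simp [hq, hc0, h]
    · rw [Cfsg.conjBy, Cfsg.conjBy, tvSub_map_conj, tvSub_map_conj, tv_inv, tv_inv, tv_smul,
        tv_smul, ← tvSub_smul (mul_ne_zero hc0 h), spB_swap q p]
      congr 1
      rw [smul_add, smul_smul, add_comm]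
      congr 1
      · rw [show c * spB l F p q * (-(-1 / (c * spB l F p q ^ 2)) * spB l F p q) = 1 by field_simp,
          one_smul]
      · congr 1; ring
  have h' : spB l F q p ≠ 0 := by rw [spB_swap]; exact neg_ne_zero.2 h
  have nil : ∀ p : l ⊕ l → F, Group.IsNilpotent (tvSub p) := fun p => by
    have := tvSub_isMulCommutative p
    exact ⟨⟨1, by rw [Subgroup.upperCentralSeries_one, Subgroup.center_eq_top]⟩⟩
  refine ⟨fun he => ?_, nil p, nil q, cond h, cond h'⟩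
  obtain ⟨c, hc⟩ : tv p (1 : F) ∈ tvSub q := he ▸ tv_mem_tvSub p 1
  have h1 := tv_smul p (1 : F) q
  rw [hc, tv_smul_self, one_mul, left_eq_add, smul_eq_zero] at h1
  rcases h1 with h1 | h1
  · exact h' h1
  · exact h (by rw [h1, map_zero, LinearMap.zero_apply])

open H54 in
theorem comm_bot {l : Type*} [Fintype l] [DecidableEq l] {F : Type*} [Field F] {p q : l ⊕ l → F}
    (h : spB l F p q = 0) : ⁅tvSub p, tvSub q⁆ = ⊥ := by
  rw [Subgroup.commutator_eq_bot_iff_le_centralizer]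
  rintro _ ⟨c, rfl⟩ _ ⟨d, rfl⟩
  exact (tv_commute h c d).eq.symm

open H54 in
theorem rootSet {l : Type*} [Fintype l] [DecidableEq l] {F : Type*} [Field F] :
    Cfsg.IsRootSubgroupSet {A : Subgroup (Matrix.symplecticGroup l F) | ∃ p, p ≠ 0 ∧ A = tvSub p} := by
  refine ⟨?_, ?_, ?_, ?_, ?_⟩
  · rintro _ ⟨p, -, rfl⟩
    exact tvSub_isMulCommutative p
  · rintro _ ⟨p, hp, rfl⟩
    exact tvSub_ne_bot hp
  · refine eq_top_of_tv_mem _ fun v c => ?_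
    by_cases hv : v = 0
    · rw [hv, tv_zero_left]; exact one_mem _
    · exact Subgroup.mem_iSup_of_mem (tvSub v) (Subgroup.mem_iSup_of_mem ⟨v, hv, rfl⟩ (tv_mem_tvSub v c))
  · rintro _ ⟨p, hp, rfl⟩ g
    exact ⟨g • p, (smul_ne_zero_iff_ne g).2 hp, tvSub_map_conj g p⟩
  · rintro _ ⟨p, -, rfl⟩ _ ⟨q, -, rfl⟩
    by_cases h : spB l F p q = 0
    · exact Or.inl (comm_bot h)
    · exact Or.inr (Or.inl (r1 h))

open H54 in
theorem psl2 {l : Type*} [Fintype l] [DecidableEq l] {F : Type*} [Field F] {p q : l ⊕ l → F}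
    (h : spB l F p q ≠ 0) : Cfsg.IsPSL2PairOver F (tvSub p) (tvSub q) := by
  have h1 : spB l F p ((spB l F p q)⁻¹ • q) = 1 := by
    rw [map_smul, smul_eq_mul, inv_mul_cancel₀ h]
  rw [← tvSub_smul (inv_ne_zero h) q]
  refine ⟨sl2Hom h1, range_sl2Hom h1, ?_, ?_, ?_⟩
  · rw [(MonoidHom.ker_eq_bot_iff _).2 (sl2Hom_injective h1)]; exact bot_le
  · apply le_antisymm
    · rw [Cfsg.upperUnipotentSL2, Subgroup.map_le_iff_le_comap, Subgroup.closure_le]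
      rintro g ⟨a, b, c⟩
      exact ⟨_, sl2Hom_upper h1 a b c⟩
    · rintro _ ⟨c, rfl⟩
      exact ⟨slUp (-c), Subgroup.subset_closure ⟨rfl, rfl, rfl⟩, by rw [sl2Hom_slUp, neg_neg]⟩
  · apply le_antisymm
    · rw [Cfsg.lowerUnipotentSL2, Subgroup.map_le_iff_le_comap, Subgroup.closure_le]
      rintro g ⟨a, b, c⟩
      exact ⟨_, sl2Hom_lower h1 a b c⟩
    · rintro _ ⟨c, rfl⟩
      exact ⟨slLow c, Subgroup.subset_closure ⟨rfl, rfl, rfl⟩, sl2Hom_slLow h1 c⟩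

/-- Let F be a field, m a natural number and V = F^{2(m+1)} with the standard non-degenerate alternating form f(u, v) = uᵀ J v. For a non-zero vector p let T(p) be the group of symplectic transvections v ↦ v + c f(v, p) p, c ∈ F. Then the subgroups T(p), p ≠ 0, generate the symplectic group Sp_{2(m+1)}(F) and form a degenerate class of abstract F-root subgroups of it (any two of them either commute elementwise or are the unipotent subgroups of a rank one group that is an image of SL₂(F) with central kernel, never the commutator case), and their graph of rank one pairs is connected. -/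
theorem result (F : Type*) [Field F] (m : ℕ) :
    Cfsg.IsRootSubgroupClass {A : Subgroup ↥(Matrix.symplecticGroup (Fin (m + 1)) F) | ∃ p : Fin (m + 1) ⊕ Fin (m + 1) → F, p ≠ 0 ∧
        A = Subgroup.closure {g : ↥(Matrix.symplecticGroup (Fin (m + 1)) F) | ∃ c : F, ∀ v : Fin (m + 1) ⊕ Fin (m + 1) → F,
          (g : Matrix (Fin (m + 1) ⊕ Fin (m + 1)) (Fin (m + 1) ⊕ Fin (m + 1)) F) *ᵥ v =
            v + (c * (v ⬝ᵥ (Matrix.J (Fin (m + 1)) F *ᵥ p))) • p}} ∧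
    Cfsg.IsDegenerateRootSet {A : Subgroup ↥(Matrix.symplecticGroup (Fin (m + 1)) F) | ∃ p : Fin (m + 1) ⊕ Fin (m + 1) → F, p ≠ 0 ∧
        A = Subgroup.closure {g : ↥(Matrix.symplecticGroup (Fin (m + 1)) F) | ∃ c : F, ∀ v : Fin (m + 1) ⊕ Fin (m + 1) → F,
          (g : Matrix (Fin (m + 1) ⊕ Fin (m + 1)) (Fin (m + 1) ⊕ Fin (m + 1)) F) *ᵥ v =
            v + (c * (v ⬝ᵥ (Matrix.J (Fin (m + 1)) F *ᵥ p))) • p}} ∧
    Cfsg.IsKRootSubgroupSet F {A : Subgroup ↥(Matrix.symplecticGroup (Fin (m + 1)) F) | ∃ p : Fin (m + 1) ⊕ Fin (m + 1) → F, p ≠ 0 ∧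
        A = Subgroup.closure {g : ↥(Matrix.symplecticGroup (Fin (m + 1)) F) | ∃ c : F, ∀ v : Fin (m + 1) ⊕ Fin (m + 1) → F,
          (g : Matrix (Fin (m + 1) ⊕ Fin (m + 1)) (Fin (m + 1) ⊕ Fin (m + 1)) F) *ᵥ v =
            v + (c * (v ⬝ᵥ (Matrix.J (Fin (m + 1)) F *ᵥ p))) • p}} ∧
    Cfsg.IsConnectedFamily (Cfsg.FAdj {A : Subgroup ↥(Matrix.symplecticGroup (Fin (m + 1)) F) | ∃ p : Fin (m + 1) ⊕ Fin (m + 1) → F, p ≠ 0 ∧
        A = Subgroup.closure {g : ↥(Matrix.symplecticGroup (Fin (m + 1)) F) | ∃ c : F, ∀ v : Fin (m + 1) ⊕ Fin (m + 1) → F,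
          (g : Matrix (Fin (m + 1) ⊕ Fin (m + 1)) (Fin (m + 1) ⊕ Fin (m + 1)) F) *ᵥ v =
            v + (c * (v ⬝ᵥ (Matrix.J (Fin (m + 1)) F *ᵥ p))) • p}})
      {A : Subgroup ↥(Matrix.symplecticGroup (Fin (m + 1)) F) | ∃ p : Fin (m + 1) ⊕ Fin (m + 1) → F, p ≠ 0 ∧
        A = Subgroup.closure {g : ↥(Matrix.symplecticGroup (Fin (m + 1)) F) | ∃ c : F, ∀ v : Fin (m + 1) ⊕ Fin (m + 1) → F,
          (g : Matrix (Fin (m + 1) ⊕ Fin (m + 1)) (Fin (m + 1) ⊕ Fin (m + 1)) F) *ᵥ v =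
            v + (c * (v ⬝ᵥ (Matrix.J (Fin (m + 1)) F *ᵥ p))) • p}} := by
  simp only [H54.closure_eq_tvSub]
  have hne : ∀ {p q : Fin (m + 1) ⊕ Fin (m + 1) → F},
      Cfsg.IsRankOnePair (H54.tvSub p) (H54.tvSub q) → H54.spB _ F p q ≠ 0 := fun h h0 =>
    H70.r1_commutator_ne_bot h (comm_bot h0)
  refine ⟨⟨rootSet, ⟨_, Pi.single (Sum.inl 0) 1, by simp, rfl⟩, ?_⟩, ?_, ⟨rootSet, ?_⟩, ?_⟩
  · rintro _ ⟨p, hp, rfl⟩ _ ⟨q, hq, rfl⟩
    obtain ⟨g, rfl⟩ := H54.sp_exists_smul_eq hp hq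
    exact ⟨g, (H54.tvSub_map_conj g p).symm⟩
  · rintro _ ⟨p, hp, rfl⟩ _ ⟨q, hq, rfl⟩ hc
    by_cases h : H54.spB _ F p q = 0
    · exact H70.rs_cc_ne_bot rootSet hc (comm_bot h)
    · exact H70.rs_cc_not_r1 rootSet ⟨p, hp, rfl⟩ hc (r1 h)
  · rintro _ ⟨p, hp, rfl⟩ _ ⟨q, hq, rfl⟩ h
    exact psl2 (hne h)
  · rintro _ ⟨p, hp, rfl⟩ _ ⟨q, hq, rfl⟩
    obtain ⟨r, hr1, hr2⟩ : ∃ r, H54.spB _ F p r ≠ 0 ∧ H54.spB _ F q r ≠ 0 := by
      obtain ⟨u, hu⟩ := H54.exists_spB_eq hp 1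
      obtain ⟨v, hv⟩ := H54.exists_spB_eq hq 1
      by_cases h1 : H54.spB _ F q u = 0
      · by_cases h2 : H54.spB _ F p v = 0
        · exact ⟨u + v, by simp [hu, h2], by simp [hv, h1]⟩
        · exact ⟨v, h2, by simp [hv]⟩
      · exact ⟨u, by simp [hu], h1⟩
    have hr : r ≠ 0 := fun h => hr1 (by rw [h, map_zero])
    refine (Relation.ReflTransGen.single ⟨⟨p, hp, rfl⟩, ⟨r, hr, rfl⟩, r1 hr1⟩).tail
      ⟨⟨r, hr, rfl⟩, ⟨q, hq, rfl⟩, r1 ?_⟩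
    rw [H54.spB_swap]; exact neg_ne_zero.2 hr2

end Cfsg.Agent.S5070
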