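import Cfsg.Statements.S5073
import Cfsg.Agent.Base
import Cfsg.Agent.H70.Quad3

set_option autoImplicit false
universe u
open Cfsg

namespace Cfsg.Agent.S5073

/-- Let k be a field of characteristic not 2 with k not of order 3, M a finite-dimensional k-vector space and G ≤ GL(M) such that (G, M) is a quadratic pair (M irreducible for G, and G generated by its quadratically acting elements σ whose scalar family 1 + c(σ − 1), c ∈ k, lies in G). Write 𝒬_d for the quadratic elements of G of minimal commutator rank, E(σ) for the subgroup generated by the members of 𝒬_d with the same fixed space and commutator space as σ, and Σ for the set of these subgroups. Let E, F ∈ Σ. If some non-identity element of E commutes with some non-identity element of F, or some non-identity element of E normalizes F, then E and F commute elementwise. -/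
theorem result {k : Type u} [Field k] (hk2 : ringChar k ≠ 2) (hk3 : Nat.card k ≠ 3)
    {M : Type u} [AddCommGroup M] [Module k M] [FiniteDimensional k M]
    {G : Subgroup (LinearMap.GeneralLinearGroup k M)} (hG : Cfsg.IsQuadraticPair G)
    {E F : Subgroup (LinearMap.GeneralLinearGroup k M)} (hE : E ∈ Cfsg.quadraticRootSubgroups G) (hF : F ∈ Cfsg.quadraticRootSubgroups G)
    (h : (∃ e ∈ E, e ≠ 1 ∧ ∃ f ∈ F, f ≠ 1 ∧ e * f = f * e) ∨ E ⊓ Subgroup.normalizer (F : Set (LinearMap.GeneralLinearGroup k M)) ≠ ⊥) :
    ⁅E, F⁆ = ⊥ := by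
  have hk := H70.bigField_of hk2 hk3
  obtain ⟨α, hα, rfl⟩ := H70.mem_quadraticRootSubgroups.1 hE
  obtain ⟨β, hβ, rfl⟩ := H70.mem_quadraticRootSubgroups.1 hF
  rcases h with ⟨e, he, he1, f, hf, hf1, h⟩ | h
  · exact H70.rootGrp_comm_of_comm hk hα hβ he he1 hf hf1 h
  · obtain ⟨x, hx, hx1⟩ := H70.exists_mem_ne_one h
    exact H70.rootGrp_comm_of_normalizes hk hα hβ hx.1 hx1 hx.2

end Cfsg.Agent.S5073
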