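import Cfsg.Statements.S5081
import Cfsg.Agent.H92.Alperin

set_option autoImplicit false
open Cfsg

namespace Cfsg.Agent.S5081

/-- Let F be a saturated fusion system over a finite p-group S, P a proper subgroup of S that is fully normalized, and H the subgroup of Aut_F(P) generated by the automorphisms that extend to maps of the system defined on strictly larger subgroups of S. Then either P is not essential and H is all of Aut_F(P), or P is essential and the image of H in Out_F(P) = Aut_F(P)/Inn(P) is strongly p-embedded there. -/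
theorem result {Ω : Type*} [Group Ω] {S : Subgroup Ω} [Finite S] (p : ℕ) [Fact p.Prime] (hS : IsPGroup p S) (F : Cfsg.FusionSystem S) (hF : F.IsSaturated p) (P : Subgroup Ω) (hPS : P < S) (hPn : F.IsFullyNormalized P) (H : Subgroup (MulAut P)) (hH : H = Subgroup.closure {α : MulAut P | ∃ (Q : Subgroup Ω) (hPQ : P < Q) (φ : Q →* Ω), φ ∈ F.Hom Q ∧ ∀ x : P, φ (Subgroup.inclusion hPQ.le x) = α x}) : (¬ F.IsEssential p P ∧ H = F.autGroup P) ∨ (F.IsEssential p P ∧ ∃ _ : ((Cfsg.Inn P).subgroupOf (F.autGroup P)).Normal, Cfsg.IsStronglyPEmbedded p ((H.subgroupOf (F.autGroup P)).map (QuotientGroup.mk' ((Cfsg.Inn P).subgroupOf (F.autGroup P))))) := by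
  have hH' : H = H92.extSub F P := by
    rw [hH, H92.extSub]
    congr 1
    ext α
    constructor
    · rintro ⟨Q, hPQ, φ, hφ, e⟩
      refine ⟨Q, hPQ, _, H92.mor_ext1 hφ, fun x hx => ?_⟩
      rw [H92.ext1_of_mem _ (hPQ.le hx), H92.af_of_mem _ hx]
      exact e ⟨x, hx⟩
    · rintro ⟨Q, hPQ, g, hg, e⟩
      exact ⟨Q, hPQ, _, hg.hom_mem, fun x => (e x x.2).trans (H92.af_coe α x)⟩
  subst hH'
  by_cases he : F.IsEssential p P
  · have := H92.finite_mulAut hPn.1
    refine Or.inr ⟨he, H92.normal_Inn_subgroupOf F P, ?_⟩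
    have := H92.normal_Inn_subgroupOf F P
    exact H92.spe_quotient_of_relSE (H92.relSE_extSub hS hF (H92.fc_of_fn hS hF hPn))
      (H92.sylIn_of_fn hS hF hPn)
      (H92.Inn_lt_autInducedBy hS (H92.centralizerIn_le_of_centric he.1) hPS)
      ((H92.isEssential_iff hS hF).1 he).2.2
  · refine Or.inl ⟨he, le_antisymm (H92.extSub_le F P) (by_contra fun h => he ?_)⟩
    exact (H92.isEssential_iff hS hF).2 ⟨hPS, hPn, h⟩

end Cfsg.Agent.S5081
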