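import Cfsg.Statements.S5087
import Cfsg.Agent.H92.Normal

set_option autoImplicit false
open Cfsg

namespace Cfsg.Agent.S5087

/-- In a saturated fusion system over a finite p-group S, a subgroup Q is normal in the system if and only if every subgroup P that equals S or is essential contains Q and every element of Aut_F(P) maps Q onto itself. -/
theorem result {Ω : Type*} [Group Ω] {S : Subgroup Ω} [Finite S] (p : ℕ) [Fact p.Prime] (hS : IsPGroup p S) (F : Cfsg.FusionSystem S) (hF : F.IsSaturated p) (Q : Subgroup Ω) : F.IsNormal Q ↔ ∀ P : Subgroup Ω, (P = S ∨ F.IsEssential p P) → (Q ≤ P ∧ ∀ α ∈ F.autGroup P, (Q.subgroupOf P).map α.toMonoidHom = Q.subgroupOf P) := by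
  constructor
  · intro h P hP
    have hle : Q ≤ P := H92.le_of_normal_of_radical hS h
      (H92.centralizerIn_le_of_centric (H92.top_or_essential_centric hP))
      (H92.top_or_essential_radical hS hF hP)
    exact ⟨hle, fun α hα => (H92.map_aut_subgroupOf_eq_iff α hle).2
      ((H92.mor_af (H92.top_or_essential_fn hP).1 hα).img_eq_of_stronglyClosed
        (H92.stronglyClosed_of_normal h) hle)⟩
  · intro h
    refine H92.isNormal_of_essential hS hF fun P hP => ⟨(h P hP).1, fun α hα x hx => ?_⟩
    rw [← (H92.map_aut_subgroupOf_eq_iff α (h P hP).1).1 ((h P hP).2 α hα)]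
    exact H92.mem_img_of_mem _ hx

end Cfsg.Agent.S5087
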