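import Cfsg.Statements.S5088
import Cfsg.Agent.H92.Normal

set_option autoImplicit false
open Cfsg

namespace Cfsg.Agent.S5088

/-- In a saturated fusion system over a finite p-group, a subgroup Q is normal in the system if and only if there is a chain of subgroups 1 = Q₀ ≤ Q₁ ≤ ⋯ ≤ Qₙ = Q such that each Qᵢ with i ≥ 1 is strongly closed in the system and [Q, Qᵢ] ≤ Qᵢ₋₁. -/
theorem result {Ω : Type*} [Group Ω] {S : Subgroup Ω} [Finite S] (p : ℕ) [Fact p.Prime] (hS : IsPGroup p S) (F : Cfsg.FusionSystem S) (hF : F.IsSaturated p) (Q : Subgroup Ω) : F.IsNormal Q ↔ ∃ (n : ℕ) (Qs : Fin (n + 1) → Subgroup Ω), Qs 0 = ⊥ ∧ Qs (Fin.last n) = Q ∧ Monotone Qs ∧ ∀ i : Fin n, F.StronglyClosed (Qs i.succ) ∧ ⁅Q, Qs i.succ⁆ ≤ Qs (Fin.castSucc i) := by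
  constructor
  · intro h
    have := H92.finite_of_le h.1
    obtain ⟨n, hn⟩ := H92.exists_zc_eq (hS.to_le h.1)
    refine ⟨n, fun i => H92.zc Q i, H92.zc_zero Q, hn, fun i j hij => H92.zc_mono Q hij, fun i =>
      ⟨H92.stronglyClosed_of_normal (H93.isNormal_of_char h (H92.zc_le Q _) (H92.zc_char Q _)), ?_⟩⟩
    rw [Subgroup.commutator_comm, Subgroup.commutator_le]
    intro x hx y hy
    exact (H92.mem_zc_succ.1 hx).2 y hy
  · rintro ⟨n, C, h0, hn, -, h⟩
    refine H92.isNormal_of_chain hS hF (H92.finChain C) n ((H92.finChain_zero C).trans h0)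
      ((H92.finChain_last C).trans hn) (fun i hi => ?_) fun i hi q hq x hx => ?_
    · rw [H92.finChain_succ C hi]; exact (h _).1
    · rw [H92.finChain_succ C hi] at hx
      rw [H92.finChain_castSucc C hi]
      have := (h ⟨i, hi⟩).2
      rw [Subgroup.commutator_comm] at this
      have := this (Subgroup.commutator_mem_commutator (Subgroup.inv_mem _ hx) hq)
      simpa [commutatorElement_def, mul_assoc] using this

end Cfsg.Agent.S5088
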