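import Cfsg.Statements.S5089
import Cfsg.Agent.H92.Normal

set_option autoImplicit false
open Cfsg

namespace Cfsg.Agent.S5089

/-- A saturated fusion system over a finite p-group has a nontrivial subgroup that is normal in the system (O_p(F) ≠ 1) if and only if some nontrivial abelian subgroup is strongly closed in the system. -/
theorem result {Ω : Type*} [Group Ω] {S : Subgroup Ω} [Finite S] (p : ℕ) [Fact p.Prime] (hS : IsPGroup p S) (F : Cfsg.FusionSystem S) (hF : F.IsSaturated p) : F.core ≠ ⊥ ↔ ∃ Q : Subgroup Ω, Q ≠ ⊥ ∧ IsMulCommutative Q ∧ F.StronglyClosed Q := by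
  constructor
  · intro h
    have hn := H93.isNormal_core F
    have := H92.finite_of_le hn.1
    refine ⟨H92.zc F.core 1, fun e => h ?_, ?_,
      H92.stronglyClosed_of_normal (H93.isNormal_of_char hn (H92.zc_le _ _) (H92.zc_char _ _))⟩
    · by_contra hne
      have h1 : Nontrivial F.core := (Subgroup.nontrivial_iff_ne_bot _).2 hne
      have h2 := (hS.to_le hn.1).center_nontrivial
      rw [Subgroup.nontrivial_iff_ne_bot, ← Subgroup.upperCentralSeries_one, ← H92.zc_subgroupOf, e] at h2
      exact h2 (Subgroup.bot_subgroupOf _)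
    · refine ⟨⟨fun x y => Subtype.ext ?_⟩⟩
      have := (H92.mem_zc_succ.1 x.2).2 y (H92.zc_le _ _ y.2)
      rw [H92.zc_zero, Subgroup.mem_bot, mul_inv_eq_one, mul_inv_eq_iff_eq_mul] at this
      exact this
  · rintro ⟨Q, h1, h2, h3⟩ e
    refine h1 (le_bot_iff.1 (e ▸ H93.le_core (H92.isNormal_of_comm hS hF h3 fun x hx y hy => ?_)))
    exact congrArg Subtype.val (h2.is_comm.comm ⟨x, hx⟩ ⟨y, hy⟩)

end Cfsg.Agent.S5089
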