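import Cfsg.Statements.S5094
import Cfsg.Agent.Base
import Cfsg.Agent.H84.Hyp
import Cfsg.Agent.H84.TwoPart
import Cfsg.Agent.H34.ZStar
import Cfsg.Agent.H17.SylowIn
import Cfsg.Agent.S0215

set_option autoImplicit false
open Cfsg

namespace Cfsg.Agent.S5094

universe u

theorem le_center_aux (n : ℕ) : ∀ (G : Type u) [Group G] [Finite G], Cfsg.oddCore G = ⊥ →
    ∀ (S : Sylow 2 G) (Q : Subgroup G), Nat.card Q = n → Q ≤ S →
      (∀ x ∈ Q, ∀ g : G, g * x * g⁻¹ ∈ S → g * x * g⁻¹ = x) → Q ≤ Subgroup.center G := by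
  induction n using Nat.strong_induction_on with
  | _ n ih =>
  intro G _ _ hO S Q hn hQS hQ
  by_cases hb : Q = ⊥
  · rw [hb]; exact bot_le
  obtain ⟨z, hzQ, hz, -⟩ := H84.exists_central_orderOf (S.isPGroup'.to_le hQS) hb
  have hzc := H84.zstar_center @Cfsg.Agent.S0215.result hO (H84.iso_of_sylow S hz (hQ z hzQ))
  set Z := Subgroup.zpowers z with hZ
  have hZc : Z ≤ Subgroup.center G := Subgroup.zpowers_le.mpr hzc
  have hZn : Z.Normal := ⟨fun x hx g => by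
    rwa [Subgroup.mem_center_iff.mp (hZc hx) g, mul_inv_cancel_right]⟩
  have hZS : Z ≤ S := Subgroup.zpowers_le.mpr (hQS hzQ)
  have hmem : ∀ {a b : G}, (a : G ⧸ Z) = b → b ∈ S → a ∈ S := fun {a b} h hb => by
    have := (S : Subgroup G).mul_mem hb (hZS (QuotientGroup.eq.mp h.symm))
    rwa [mul_inv_cancel_left] at this
  have hlt : Nat.card (Q.map (QuotientGroup.mk' Z)) < n := by
    rw [← hn]
    refine lt_of_le_of_ne (Nat.le_of_dvd Nat.card_pos (Subgroup.card_map_dvd _ _)) fun h => ?_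
    have h1 := ((QuotientGroup.mk' Z).subgroupMap_surjective Q).bijective_of_nat_card_le h.ge
    have h2 : (⟨z, hzQ⟩ : Q) = 1 := h1.1 (by
      rw [map_one]
      exact Subtype.ext ((QuotientGroup.eq_one_iff z).mpr (Subgroup.mem_zpowers z)))
    exact H84.ne_one_of_orderOf_two hz (congrArg Subtype.val h2)
  have key := ih _ hlt (G ⧸ Z) (H34.pPrimeCore_quot_central_eq_bot Z
    (H84.isPGroup_zpowers_of_orderOf_two hz) hZc hO)
    (S.mapSurjective (QuotientGroup.mk'_surjective Z)) _ rfl (Subgroup.map_mono hQS) (by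
      rintro _ ⟨x, hx, rfl⟩ q ⟨s, hs, hsx⟩
      obtain ⟨g, rfl⟩ := QuotientGroup.mk_surjective q
      have h1 := hQ x hx g (hmem (by simpa using hsx.symm) hs)
      simpa using congrArg (QuotientGroup.mk' Z) h1)
  intro x hx
  rw [Subgroup.mem_center_iff]
  intro g
  have h1 := Subgroup.mem_center_iff.mp (key ⟨x, hx, rfl⟩) (g : G ⧸ Z)
  rw [← mul_inv_eq_iff_eq_mul]
  refine hQ x hx g (hmem ?_ (hQS hx))
  simpa [mul_inv_eq_iff_eq_mul] using h1

theorem map_le_center {G : Type u} [Group G] [Finite G] (S : Sylow 2 G) (Q : Subgroup G)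
    (hQS : Q ≤ S) (hQ : ∀ x ∈ Q, ∀ g : G, g * x * g⁻¹ ∈ S → g * x * g⁻¹ = x) :
    Q.map (QuotientGroup.mk' (Cfsg.oddCore G)) ≤ Subgroup.center (G ⧸ Cfsg.oddCore G) := by
  refine le_center_aux _ _ (H2.pPrimeCore_quotient_pPrimeCore 2 G)
    (S.mapSurjective (QuotientGroup.mk'_surjective _)) _ rfl (Subgroup.map_mono hQS) ?_
  rintro _ ⟨x, hx, rfl⟩ q ⟨s, hs, hsx⟩
  obtain ⟨g, rfl⟩ := QuotientGroup.mk_surjective q
  have h1 : g * x * g⁻¹ ∈ (S : Subgroup G) ⊔ Cfsg.oddCore G := by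
    have h2 : s⁻¹ * (g * x * g⁻¹) ∈ Cfsg.oddCore G := QuotientGroup.eq.mp (by simpa using hsx)
    simpa using Subgroup.mul_mem _ (Subgroup.mem_sup_left hs) (Subgroup.mem_sup_right h2)
  obtain ⟨k, hk⟩ := S.isPGroup' ⟨x, hQS hx⟩
  have h2 : (g * x * g⁻¹) ^ 2 ^ k = 1 := by
    rw [conj_pow, show x ^ 2 ^ k = 1 from congrArg Subtype.val hk]; simp
  obtain ⟨w, hw, hwx⟩ := (H17.sylIn_of_sylow S le_sup_left).exists_conj_le
    (Subgroup.zpowers_le.mpr h1) (H84.isPGroup_zpowers_of_pow h2)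
  have h3 := hQ x hx (w * g) (by
    rw [show w * g * x * (w * g)⁻¹ = w * (g * x * g⁻¹) * w⁻¹ by group]
    exact hwx _ (Subgroup.mem_zpowers _))
  rw [← SetLike.mem_coe, Subgroup.mul_normal] at hw
  obtain ⟨t, ht, o, ho, rfl⟩ := hw
  have h4 := hQ x hx t⁻¹ ((S : Subgroup G).mul_mem ((S : Subgroup G).mul_mem
    ((S : Subgroup G).inv_mem ht) (hQS hx)) (by rwa [inv_inv]))
  have h5 : g * x * g⁻¹ = o⁻¹ * x * o := by
    calc g * x * g⁻¹ = o⁻¹ * (t⁻¹ * (t * o * g * x * (t * o * g)⁻¹) * t⁻¹⁻¹) * o := by group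
      _ = o⁻¹ * x * o := by rw [h3, h4]
  have h6 : (o : G ⧸ Cfsg.oddCore G) = 1 := (QuotientGroup.eq_one_iff o).mpr ho
  simpa [h6] using congrArg (QuotientGroup.mk' (Cfsg.oddCore G)) h5

/-- Glauberman's Z*-Theorem in fusion language: for a finite group G with Sylow 2-subgroup S, the centre of the fusion system of G on S is the set of elements of S whose image in G/O(G) is central, O(G) being the largest normal subgroup of odd order. -/
theorem result {G : Type*} [Group G] [Finite G] (S : Sylow 2 G) : (Cfsg.groupFusionSystem (S : Subgroup G)).center = (S : Subgroup G) ⊓ (Subgroup.center (G ⧸ Cfsg.oddCore G)).comap (QuotientGroup.mk' (Cfsg.oddCore G)) := by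
  apply le_antisymm
  · refine sSup_le fun Q hQ => le_inf hQ.1 (Subgroup.map_le_iff_le_comap.mp
      (map_le_center S Q hQ.1 fun x hx g hg => ?_))
    obtain ⟨ψ, -, h1, h2⟩ := hQ.2 (Subgroup.zpowers x) (Cfsg.conjHom _ g)
      ⟨Subgroup.zpowers_le.mpr (hQ.1 hx), by
        rintro ⟨_, k, rfl⟩
        show g * x ^ k * g⁻¹ ∈ (S : Subgroup G)
        rw [← conj_zpow]
        exact Subgroup.zpow_mem _ hg k, g, fun _ => rfl⟩
    exact (h1 ⟨x, Subgroup.mem_zpowers x⟩).symm.trans (h2 ⟨x, hx⟩)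
  · rintro z ⟨hzS, hz⟩
    refine (le_sSup (s := {Q | (Cfsg.groupFusionSystem (S : Subgroup G)).IsCentral Q})
      (a := Subgroup.zpowers z) ⟨Subgroup.zpowers_le.mpr hzS, ?_⟩) (Subgroup.mem_zpowers z)
    rintro P φ ⟨hP, hφ, g, hg⟩
    have hd : ∀ {x : G}, x ∈ (S : Subgroup G) → x ∈ Cfsg.oddCore G → x = 1 :=
      Subgroup.disjoint_def.mp (H2.disjoint_pPrimeCore_of_isPGroup S.isPGroup')
    have hO : ∀ x : G, z⁻¹ * (x * z * x⁻¹) ∈ Cfsg.oddCore G := fun x => by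
      rw [← QuotientGroup.eq, QuotientGroup.mk_mul, QuotientGroup.mk_mul, QuotientGroup.mk_inv,
        eq_mul_inv_iff_mul_eq]
      exact (Subgroup.mem_center_iff.mp hz x).symm
    have hzc : ∀ s ∈ (S : Subgroup G), s * z * s⁻¹ = z := fun s hs => by
      have := hd ((S : Subgroup G).mul_mem ((S : Subgroup G).inv_mem hzS) ((S : Subgroup G).mul_mem
        ((S : Subgroup G).mul_mem hs hzS) ((S : Subgroup G).inv_mem hs))) (hO s)
      exact (inv_mul_eq_one.mp this).symm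
    set H := (Subgroup.zpowers z ⊔ Cfsg.oddCore G) ⊓ Subgroup.centralizer (P : Set G) with hH
    have hzH : z ∈ H := ⟨Subgroup.mem_sup_left (Subgroup.mem_zpowers z),
      fun y hy => mul_inv_eq_iff_eq_mul.mp (hzc y (hP hy))⟩
    have hz' : g⁻¹ * z * g⁻¹⁻¹ ∈ H := by
      refine ⟨?_, fun y hy => ?_⟩
      · simpa using Subgroup.mul_mem _ (Subgroup.mem_sup_left (Subgroup.mem_zpowers z))
          (Subgroup.mem_sup_right (hO g⁻¹))
      · have h1 := hzc _ (hφ ⟨y, hy⟩)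
        rw [hg] at h1
        calc y * (g⁻¹ * z * g⁻¹⁻¹) = g⁻¹ * (g * y * g⁻¹ * z * (g * y * g⁻¹)⁻¹) * g * y := by group
          _ = g⁻¹ * z * g⁻¹⁻¹ * y := by rw [h1]; group
    obtain ⟨k, hk⟩ := S.isPGroup' ⟨z, hzS⟩
    have hk' : z ^ 2 ^ k = 1 := congrArg Subtype.val hk
    have hzp := H84.isPGroup_zpowers_of_pow hk'
    have hdisj : ∀ R : Subgroup G, IsPGroup 2 R → z ∈ R → ∀ y ∈ R, ∀ j : ℤ,
        (z ^ j)⁻¹ * y ∈ Cfsg.oddCore G → y = z ^ j := fun R hR hzR y hy j h =>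
      (inv_mul_eq_one.mp (Subgroup.disjoint_def.mp (H2.disjoint_pPrimeCore_of_isPGroup hR)
        (R.mul_mem (R.inv_mem (R.zpow_mem hzR j)) hy) h)).symm
    have hsyl : H17.SylIn 2 (Subgroup.zpowers z) H := by
      refine H17.sylIn_of_maximal (Subgroup.zpowers_le.mpr hzH) hzp fun R h1 h2 hR => ?_
      refine le_antisymm (fun y hy => ?_) h1
      have h3 := (Subgroup.mem_inf.mp (h2 hy)).1
      rw [← SetLike.mem_coe, Subgroup.mul_normal] at h3
      obtain ⟨_, ⟨j, rfl⟩, o, ho, rfl⟩ := h3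
      exact ⟨j, (hdisj R hR (h1 (Subgroup.mem_zpowers z)) _ hy j (by simpa using ho)).symm⟩
    obtain ⟨w, hw, hwz⟩ := hsyl.exists_conj_le (Subgroup.zpowers_le.mpr hz')
      (H84.isPGroup_zpowers_of_pow (k := k) (by rw [conj_pow, hk']; simp))
    have h1 : (w * g⁻¹) * z * (w * g⁻¹)⁻¹ = z := by
      have := hdisj _ hzp (Subgroup.mem_zpowers z) _ (hwz _ (Subgroup.mem_zpowers _)) 1 (by
        simpa [mul_assoc] using hO (w * g⁻¹))
      simpa [mul_assoc] using this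
    have h2 : (g * w⁻¹) * z * (g * w⁻¹)⁻¹ = z := by
      nth_rewrite 1 [← h1]
      group
    have h3 : ∀ y ∈ P, (g * w⁻¹) * y * (g * w⁻¹)⁻¹ = g * y * g⁻¹ := fun y hy => by
      calc (g * w⁻¹) * y * (g * w⁻¹)⁻¹ = g * w⁻¹ * (y * w) * g⁻¹ := by group
        _ = g * y * g⁻¹ := by rw [hw.2 y hy]; group
    have h4 : P ⊔ Subgroup.zpowers z ≤ (S : Subgroup G).comap (MulAut.conj (g * w⁻¹)).toMonoidHom := by
      refine sup_le (fun y hy => ?_) (Subgroup.zpowers_le.mpr ?_)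
      · show (g * w⁻¹) * y * (g * w⁻¹)⁻¹ ∈ (S : Subgroup G)
        rw [h3 y hy, ← hg ⟨y, hy⟩]
        exact hφ _
      · show (g * w⁻¹) * z * (g * w⁻¹)⁻¹ ∈ (S : Subgroup G)
        rwa [h2]
    refine ⟨Cfsg.conjHom _ (g * w⁻¹), ⟨sup_le hP (Subgroup.zpowers_le.mpr hzS), fun x => h4 x.2,
      g * w⁻¹, fun _ => rfl⟩, fun x => (h3 x x.2).trans (hg x).symm, ?_⟩
    rintro ⟨_, j, rfl⟩
    show (g * w⁻¹) * z ^ j * (g * w⁻¹)⁻¹ = z ^ j
    rw [← conj_zpow, h2]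

end Cfsg.Agent.S5094
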