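import Cfsg.Statements.S5106
import Cfsg.Agent.H92.Normal

set_option autoImplicit false
open Cfsg

namespace Cfsg.Agent.S5106

/-- In a saturated fusion system over a finite p-group S, a subgroup R ≤ S is normal in the system if and only if every map of the system whose source is a subgroup of R is the restriction of an element of Aut_F(R). -/
theorem result {Ω : Type*} [Group Ω] {S : Subgroup Ω} [Finite S] (p : ℕ) [Fact p.Prime] (hS : IsPGroup p S) (F : Cfsg.FusionSystem S) (hF : F.IsSaturated p) (R : Subgroup Ω) (hRS : R ≤ S) : F.IsNormal R ↔ ∀ (P : Subgroup Ω) (hPR : P ≤ R) (φ : P →* Ω), φ ∈ F.Hom P → ∃ α ∈ F.autGroup R, ∀ x : P, ((α (Subgroup.inclusion hPR x) : R) : Ω) = φ x := by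
  constructor
  · intro h P hPR φ hφ
    obtain ⟨α, hα, e⟩ := H92.exists_aut_of_normal h hPR (H92.mor_ext1 hφ)
    refine ⟨α, hα, fun x => ?_⟩
    rw [← H92.af_coe, ← H92.ext1_coe φ]
    exact e x x.2
  · intro h
    refine H92.isNormal_of_ext_aut hS hF hRS fun P f hP hf => ?_
    obtain ⟨α, -, e⟩ := h P hP _ hf.hom_mem
    exact ⟨α, fun x hx => (H92.af_of_mem α (hP hx)).trans (e ⟨x, hx⟩)⟩

end Cfsg.Agent.S5106
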