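import Cfsg.Statements.S5112
import Cfsg.Agent.H3.DSQAut
import Cfsg.Agent.H92.Alperin

set_option autoImplicit false
open Cfsg

namespace Cfsg.Agent.S5112

/-- If S is a dihedral or generalized quaternion 2-group of order at least 16, then in every saturated fusion system over S (at the prime 2) the automorphism group Aut_F(S) consists of the inner automorphisms of S. -/
theorem result {Ω : Type*} [Group Ω] {S : Subgroup Ω} [Finite S] (n : ℕ) (hn : 4 ≤ n) (hshape : Nonempty (S ≃* DihedralGroup (2 ^ (n - 1))) ∨ Nonempty (S ≃* QuaternionGroup (2 ^ (n - 2)))) (F : Cfsg.FusionSystem S) (hF : F.IsSaturated 2) : F.autGroup S = Cfsg.Inn S := by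
  have : Fact (Nat.Prime 2) := ⟨Nat.prime_two⟩
  obtain ⟨k, rfl⟩ : ∃ k, n = k + 4 := ⟨n - 4, by omega⟩
  obtain ⟨a, b, h⟩ : ∃ a b : S, H3.DSQ (k + 2) a b := by
    rcases hshape with ⟨⟨e⟩⟩ | ⟨⟨e⟩⟩
    · exact ⟨_, _, (H3.dsq_dihedral (k + 1)).of_mulEquiv e.symm⟩
    · exact ⟨_, _, (H3.dsq_quaternion (k + 1)).of_mulEquiv e.symm⟩
  refine ((H92.sylIn_Inn_top h.isPGroup hF).eq_of_isPGroup
    ((h.quaternion_eight_or_isPGroup_mulAut.resolve_left fun ⟨e⟩ => ?_).to_subgroup _)).symm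
  have h1 := Nat.card_congr e.toEquiv
  rw [h.card, H3.natCard_quaternionGroup two_ne_zero, pow_add, pow_add] at h1
  omega

end Cfsg.Agent.S5112
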