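import Cfsg.Statements.S5114
import Cfsg.Agent.H92.PPrime2

set_option autoImplicit false
open Cfsg

namespace Cfsg.Agent.S5114
open H92 H93 Cfsg.FusionSystem

/-- Let F be a saturated fusion system over a finite p-group S and E a fusion system over S contained in F. If Aut_E(P) contains the subgroup of Aut_F(P) generated by its elements of p-power order for every subgroup P that is centric in F, then the same holds for every subgroup of S (E has index prime to p in F), every map of F with source a subgroup P of S is an element of Aut_F(S) composed with a map of E, and a subgroup is centric in E exactly when it is centric in F. -/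
theorem result {Ω : Type*} [Group Ω] {S : Subgroup Ω} [Finite S] (p : ℕ) [Fact p.Prime] (hS : IsPGroup p S) (F : Cfsg.FusionSystem S) (hF : F.IsSaturated p) (E : Cfsg.FusionSystem S) (hEF : E.IsSubsystemOf F) (h : ∀ P : Subgroup Ω, F.IsCentric P → (Subgroup.closure {α : ↥(F.autGroup P) | ∃ k : ℕ, orderOf α = p ^ k}).map (F.autGroup P).subtype ≤ E.autGroup P) : E.HasPrimeToPIndexIn F p ∧ (∀ (P : Subgroup Ω) (φ : P →* Ω), φ ∈ F.Hom P → ∃ α ∈ F.autGroup S, ∃ φ₀ ∈ E.Hom P, ∀ (x : P) (hx : φ₀ x ∈ S), φ x = ((α ⟨φ₀ x, hx⟩ : S) : Ω)) ∧ ∀ P : Subgroup Ω, E.IsCentric P ↔ F.IsCentric P := by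
  obtain ⟨a, b, S', F', t, hA⟩ := exists_satA hS hF
  obtain ⟨E', k⟩ := t.iso.exists_tr E
  have hc := pCl_centric (p := p) hA.amb F'
  have h0 : ∀ P g, M (O0 p F' F'.IsCentric) P g → M E' P g := fun P g hg =>
    O0_le le_rfl (fun P hP hC g hg => M.of_Aut (by
      have h1 : (Subgroup.closure {α : ↥(F'.autGroup P) | ∃ k : ℕ, orderOf α = p ^ k}).map
          (F'.autGroup P).subtype ≤ E'.autGroup P := by
        rintro _ ⟨α, hα, rfl⟩
        exact k.mem_autGroup_of t.iso hP hP (h _ (t.symm.isCentric hC)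
          ⟨t.symm.autEquiv hP rfl α, H94.mem_pElts_map (t.symm.autEquiv hP rfl).toMonoidHom
            (t.symm.autEquiv hP rfl).injective hα, rfl⟩)
      rw [map_pElts_eq_Opp, ← hA.amb.lift_le_lift hP, hA.amb.lift_Opp hP, lift_autGroup hP,
        lift_autGroup hP] at h1
      exact h1 (Subgroup.mem_sup_left hg)) hP) hg
  have hf := (hc.frat hA).mono h0
  have hsub := t.isSubsystemOf k hEF
  refine ⟨t.symm.hasPrimeToPIndexIn k.symm (hA.amb.pprime_iff.2 ⟨hsub, fun P hP => hf.Opp_le hA hP⟩),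
    fun P φ hφ => ?_, fun P => ⟨fun hP => ?_, fun hP => ?_⟩⟩
  · obtain ⟨D, k'⟩ := t.iso.symm.exists_tr (O0 p F' F'.IsCentric)
    have h1 := t.symm.isInvariantIn k' (hA.amb.inv_iff.2 ⟨O0_sub, (invA_refl hA.amb F').sc,
      fun P g a hg ha => (hc.mulData le_rfl).nm a ha P g hg, fun P g _ hg => hc.frat hA P g hg⟩)
    obtain ⟨α, hα, ψ, hψ, e⟩ := h1.2.2.2 P (F.le_of_mem hφ).1 φ hφ
    exact ⟨α, hα, ψ, k.symm.isSubsystemOf k' (hA.amb.sub_iff.2 h0) P hψ, e⟩
  · simpa only [t.iso.img_img hP.1] using t.symm.isCentric (hf.centric hA.amb (k.isCentric hP))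
  · simpa only [t.iso.img_img hP.1] using k.symm.isCentric
      (centric_of_sub hA.amb (fun _ _ hg => hg.sub hsub) (t.isCentric hP))

end Cfsg.Agent.S5114
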