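import Cfsg.Statements.S5119
import Cfsg.Agent.H92.Inv2

set_option autoImplicit false
open Cfsg

namespace Cfsg.Agent.S5119
open H92 H93 Cfsg.FusionSystem

/-- Let F be a saturated fusion system over a finite p-group S and E a subsystem of F over a subgroup T that is strongly closed in F. Then E is invariant in F (invariance under Aut_F(T) plus the Frattini condition) if and only if the strong invariance condition holds: for P ≤ Q ≤ T, every map φ of E from P into Q and every map ψ of F with source Q, the transported map ψ φ ψ⁻¹ on ψ(P) is a map of E. -/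
theorem result {Ω : Type*} [Group Ω] {S : Subgroup Ω} [Finite S] (p : ℕ) [Fact p.Prime] (hS : IsPGroup p S) (F : Cfsg.FusionSystem S) (hF : F.IsSaturated p) {T : Subgroup Ω} (E : Cfsg.FusionSystem T) (hE : E.IsSubsystemOf F) (hT : F.StronglyClosed T) : E.IsInvariantIn F ↔ ∀ (P Q : Subgroup Ω) (hPQ : P ≤ Q) (_ : Q ≤ T) (φ : P →* Ω) (_ : φ ∈ E.Hom P) (hφQ : ∀ x : P, φ x ∈ Q) (ψ : Q →* Ω) (_ : ψ ∈ F.Hom Q), ∃ χ ∈ E.Hom ((P.subgroupOf Q).map ψ), ∀ (x : P) (hx : ψ (Subgroup.inclusion hPQ x) ∈ (P.subgroupOf Q).map ψ), χ ⟨ψ (Subgroup.inclusion hPQ x), hx⟩ = ψ ⟨φ x, hφQ x⟩ := by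
  constructor
  · intro h P Q hPQ hQ φ hφ hφQ ψ hψ
    obtain ⟨g', h1, h2, h3⟩ := ((mor_ext1 hψ).mono hPQ).exists_inv
    have h4 := mor_conj_of_invariant (k := fun y => ext1 ψ (ext1 φ (g' y))) h (mor_ext1 hφ)
      (mor_ext1 hψ) hPQ (fun x hx => by rw [ext1_of_mem φ hx]; exact hφQ _)
      (fun x hx => by rw [h2 x hx])
    rw [← map_subgroupOf_eq_img ψ (fun x => (ext1_coe ψ x).symm) hPQ] at h4
    refine ⟨_, h4.hom_mem, fun x hx => ?_⟩
    have e : ψ (Subgroup.inclusion hPQ x) = ext1 ψ x := (ext1_of_mem ψ (hPQ x.2)).symm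
    simp only [MulOn.hom_apply, e, h2 x x.2, ext1_coe, ext1_of_mem ψ (hφQ x)]
  · intro h
    refine invariant_of_sInv hS hF hE hT fun P Q f g k hf hg hP hQ hm e => ?_
    obtain ⟨χ, hχ, h1⟩ := h P Q hP hQ _ hf.hom_mem (fun x => hm x x.2) _ hg.hom_mem
    have e1 := map_subgroupOf_eq_img hg.mulOn.hom (fun x => rfl) hP
    rw [← e1]
    refine mor_of_mem hχ fun y => ?_
    obtain ⟨y, hy⟩ := y
    obtain ⟨x, hx, rfl⟩ := ((hg.mono hP).mem_img).1 (e1 ▸ hy)
    exact (h1 ⟨x, hx⟩ hy).trans (e x hx).symm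

end Cfsg.Agent.S5119
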