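import Cfsg.Statements.S5123
import Cfsg.Agent.H94.GroupFusion

set_option autoImplicit false
open Cfsg

namespace Cfsg.Agent.S5123

/-- Let G be a finite group with Sylow p-subgroup S, P, Q ≤ S and g ∈ G with gPg⁻¹ = Q, and suppose N_S(Q) is a Sylow p-subgroup of N_G(Q). Let N be the set of x ∈ N_S(P) with gxg⁻¹ ∈ N_S(Q)C_G(Q). Then some h ∈ C_G(Q) satisfies (hg)N(hg)⁻¹ ≤ S. -/
theorem result {G : Type*} [Group G] [Finite G] (p : ℕ) [Fact p.Prime] (S : Sylow p G) (P Q : Subgroup G) (hP : P ≤ S) (hQ : Q ≤ S) (g : G) (hg : P.map (MulAut.conj g).toMonoidHom = Q) (hN : (∃ R : Sylow p ↥(Subgroup.normalizer (Q : Set G)), (R : Subgroup ↥(Subgroup.normalizer (Q : Set G))) = (Cfsg.FusionSystem.normalizerIn (S : Subgroup G) Q).subgroupOf (Subgroup.normalizer (Q : Set G)))) : ∃ h ∈ Subgroup.centralizer (Q : Set G), ((Cfsg.FusionSystem.normalizerIn (S : Subgroup G) P) ⊓ (Cfsg.FusionSystem.normalizerIn (S : Subgroup G) Q ⊔ Subgroup.centralizer (Q : Set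 G)).comap (MulAut.conj g).toMonoidHom).map (MulAut.conj (h * g)).toMonoidHom ≤ S := by
  have h1 : H94.SylIn p (FusionSystem.normalizerIn (S : Subgroup G) Q)
      (FusionSystem.normalizerIn ⊤ Q) := by
    rw [H94.normalizerIn_top]
    exact (H94.sylIn_iff_exists_sylow inf_le_right).2 hN
  set X := (Cfsg.FusionSystem.normalizerIn (S : Subgroup G) P) ⊓ (Cfsg.FusionSystem.normalizerIn (S : Subgroup G) Q ⊔ Subgroup.centralizer (Q : Set G)).comap (MulAut.conj g).toMonoidHom with hX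
  have hXp : IsPGroup p X := S.isPGroup'.to_inf_left.to_inf_left
  obtain ⟨c, hc, hcX⟩ := H94.exists_centralizer_cj_le le_top h1 (X := H94.cj g X) (hXp.map _)
    (by rw [H94.centralizerIn_top, Subgroup.map_le_iff_le_comap]; exact inf_le_right)
  rw [H94.cj_cj] at hcX
  exact ⟨c, hc.2, hcX.trans inf_le_left⟩

end Cfsg.Agent.S5123
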