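import Cfsg.Statements.S5130
import Cfsg.Agent.H92.Quasi

set_option autoImplicit false
open Cfsg

namespace Cfsg.Agent.S5130
open H92 H93 Cfsg.FusionSystem

theorem aux {Ω : Type*} [Group Ω] [Finite Ω] {S S₁ S₂ : Subgroup Ω} {p : ℕ} [Fact p.Prime]
    {F : FusionSystem S} (hF : SatA p F) (hc : S₁ ≤ Ct S₂) (hs : S₁ ⊔ S₂ = S)
    (h₁ : F.StronglyClosed S₁) (h₂ : F.StronglyClosed S₂) {R R' : FusionSystem S₁}
    (hR : ∀ P g, P ≤ S₁ → (M R P g ↔ M F P g))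
    (hR' : ∀ P g, P ≤ S₁ → (M R' P g ↔ M (centT F S₂ h₂.1) P g)) :
    NrA p R' F ∧ NrA p R' R ∧ WnA p R F := by
  have hc' := le_Ct_comm.1 hc
  have hdec : ∀ s ∈ S, ∃ a ∈ S₁, ∃ b ∈ S₂, a * b = s := fun s h =>
    (mem_sup_of_le_Nm (hc.trans (Ct_le_Nm _))).1 (hs ▸ h)
  have hsub : R.IsSubsystemOf F := (hF.amb.mono h₁.1).sub_iff.2 fun P g h => (hR P g h.le).1 h
  have hRs : SatA p R := by
    refine satA_of (hF.amb.mono h₁.1) (hF.pgl h₁.1) fun P hP => ?_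
    obtain ⟨g, hg, hfn⟩ := hF.exists_fn (hP.trans h₁.1)
    have hP' := hg.cj_le_sc h₁ hP
    refine ⟨g, (hR P g hP).2 hg, ((hF.pp_of_fn hfn).mono_left (sup_le (fun s hs => ?_) le_sup_right)
      ((Nm_sup_Ct_le_Aut R _).trans (Aut_mono hsub hP'))).mono_right (Nm_sup_Ct_le_Aut R _)
      (Aut_mono hsub hP'), fun U k hk e => ?_⟩
    · obtain ⟨a, ha, b, hb, rfl⟩ := hdec s hs.1
      have hb' := Ct_anti hP' (hc' hb)
      exact Subgroup.mul_mem_sup ⟨ha, by simpa using mul_mem hs.2 (Ct_le_Nm _ ((Ct _).inv_mem hb'))⟩ hb'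
    · obtain ⟨m, hm, e'⟩ := hF.ext_Nc (hk.sub hsub) (e ▸ hF.fc_of_fn hfn)
      refine ⟨m, (hR _ m ((Nc_le _ _ _).trans inf_le_left)).2 (hm.mono fun x hx => ?_), e'⟩
      obtain ⟨h1, s, hs, h2⟩ := mem_Nc.1 hx
      exact mem_Nc.2 ⟨⟨h₁.1 h1.1, h1.2⟩, s, h₁.1 hs, h2⟩
  have hRi : InvA R F := invA_of_conj hF hsub h₁ fun P Q g h hg hh hP hg' hQ =>
    (hR _ _ ((hh.mono hP).cj_le_sc h₁ hg.le)).2 ((hg.sub hsub).conj hh hP hg')
  have hK := SatA.centT hF h₂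
  have hle : S₁ ≤ S ⊓ Ct S₂ := le_inf h₁.1 hc
  obtain ⟨D, hDs, hDK⟩ := H95.exists_ppow hK.pg hK.sat hle ((H94.hyperfocal_le_focal _ p).trans
    (hK.amb.foc_le_iff.2 fun P g hg x hx => by
      obtain ⟨hP, h, h1, e, h2⟩ := (M_kSys _ _).1 hg
      obtain ⟨a, ha, b, hb, rfl⟩ := hdec x (hP hx).1
      have ha' : a ∈ P ⊔ S₂ := by
        simpa using (P ⊔ S₂).mul_mem (Subgroup.mem_sup_left hx) (Subgroup.mem_sup_right (S₂.inv_mem hb))
      have h3 := S₁.mul_mem (S₁.inv_mem ha) (h1.mem_sc h₁ ha' ha)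
      rw [← conj_eq_of_Ct_div e hx]
      have h4 := conj_eq_of_Ct h2 hb
      have h5 := S₁.mul_mem (S₁.mul_mem (S₁.inv_mem ha) (h1.mem_sc h₁ ha' ha)) (S₁.one_mem)
      have h6 : (a * b)⁻¹ * (h * (a * b) * h⁻¹) = b⁻¹ * (a⁻¹ * (h * a * h⁻¹)) * (h * b * h⁻¹) := by
        group
      rw [h6, h4, conj_eq_of_Ct' (hc' hb) h3]
      exact h3))
  have hD := hF.sub h₁.1 hDs
  have e : R' = D := (hF.amb.mono h₁.1).fs_ext fun P g => ⟨fun h => by
    obtain ⟨s, hs, h1⟩ := H95.exists_conj_mor_of_ppow hK.pg hK.sat hDs hDK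
      (fun s hs x hx => conj_mem_of_Nm (le_Nm_sc h₁ hs.1) hx) ((hR' P g h.le).1 h).mor
    rw [inf_eq_left.2 h.le, mor_iff_M (g := s⁻¹ * g) fun x _ => by group] at h1
    obtain ⟨a, ha, b, hb, rfl⟩ := hdec s hs.1
    have h2 := (h1.Ct_mul (Ct_anti h1.cj_le (hc' hb))).mem_mul ha
    convert h2 using 1; group, fun h => (hR' P g h.le).2 (h.sub hDK.1)⟩
  subst e
  · have hI := invA_of_ppow_cent hF h₂ h₁ hD hDK
    have hsub' : R'.IsSubsystemOf R := (hF.amb.mono h₁.1).sub_iff.2 fun P g h =>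
      (hR P g h.le).2 (h.sub hI.sub)
    refine ⟨⟨⟨hF, hD, hI⟩, fun a ha => ?_⟩, WnA.nrA_top ⟨hRs, hD, invA_of_conj hRs hsub'
      (stronglyClosed_top R) fun P Q g h hg hh hP hg' _ => hI.conj P Q g h hg (hh.sub hsub) hP hg'⟩,
      hF, hRs, hRi⟩
    obtain ⟨-, h, h1, e, h2⟩ := (M_kSys _ _).1 ((M.of_Aut ha le_rfl).sub hDK.1)
    have hn := Nm_of_div_Ct ha.1 e
    rw [hs] at h1
    refine ⟨h, h1.mono (sup_le h₁.1 inf_le_left), e, Tv_anti (inf_le_left.trans hs.ge) _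
      (mem_Tv_sup_self (mem_Tv_of_Ct h2 hn) (hc'.trans (Ct_le_Nm _)))⟩

/-- Let F be a saturated fusion system over a finite p-group S that is the direct product of two subgroups S₁ and S₂, each strongly closed in F. Let R be the full subsystem of F over S₁ (all maps of F between subgroups of S₁) and R′ the subsystem over S₁ of those maps that extend to the subgroup generated with S₂ fixing S₂ elementwise. Then R and R′ are saturated, R′ is normal in F and in R, and R is weakly normal in F. -/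
theorem result {Ω : Type*} [Group Ω] {S : Subgroup Ω} [Finite S] (p : ℕ) [Fact p.Prime] (hS : IsPGroup p S) (F : Cfsg.FusionSystem S) (hF : F.IsSaturated p) (S₁ S₂ : Subgroup Ω) (hprod : Cfsg.IsInternalDirectProduct S₁ S₂ S) (h₁ : F.StronglyClosed S₁) (h₂ : F.StronglyClosed S₂) (R R' : Cfsg.FusionSystem S₁) (hR : ∀ P : Subgroup Ω, P ≤ S₁ → R.Hom P = F.Hom P) (hR' : ∀ P : Subgroup Ω, P ≤ S₁ → R'.Hom P = F.centralizerHom S₂ P) : R.IsSaturated p ∧ R'.IsSaturated p ∧ R'.IsNormalIn F p ∧ R'.IsNormalIn R p ∧ R.IsWeaklyNormalIn F p := by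
  obtain ⟨a, b, S', F', h, hA⟩ := exists_satA hS hF
  obtain ⟨W, k⟩ := exists_tr_sub h h₁.1 R
  obtain ⟨W', k'⟩ := exists_tr_sub h h₁.1 R'
  have t₁ := h.stronglyClosed h₁
  have t₂ := h.stronglyClosed h₂
  have hC := isCentralizerSystem_centSys F S₂ h₂.1
  obtain ⟨N, hN, hN'⟩ := h.exists_centralizerSystem rfl hC
  have key : ∀ {U : Subgroup Ω} {U' : Subgroup (Big S)} {X : FusionSystem S₁} {Y : FusionSystem U}
      {X' : FusionSystem (img S₁ a)} {Y' : FusionSystem U'}, H94.Tr a b X X' → H94.Tr a b Y Y' →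
      S₁ ≤ U → (∀ P ≤ S₁, X.Hom P = Y.Hom P) → ∀ P g, P ≤ img S₁ a → (M X' P g ↔ M Y' P g) := by
    intro U U' X Y X' Y' t t' hU e P g hP
    have hP' := t.iso.symm.img_le hP
    have h1 : ∀ {V W : Subgroup Ω} {V' W' : Subgroup (Big S)} {Z : FusionSystem V}
        {Z' : FusionSystem V'} {A : FusionSystem W} {A' : FusionSystem W'}, H94.Tr a b Z Z' →
        H94.Tr a b A A' → Z.Hom (img P b) = A.Hom (img P b) → M Z' P g → M A' P g := by
      intro V W V' W' Z Z' A A' k k' e' hg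
      have := k'.fwd _ _ ((mor_iff_of_hom_eq e' _).1 (k.bwd _ _ hg.mor))
      rw [k.iso.symm.img_img hg.le] at this
      exact this.congr fun y hy => by rw [k.iso.a_b y (hg.le hy), k.iso.a_b _ (hg.mem hy)]
    exact ⟨h1 t t' (e _ hP'), h1 t' t (e _ hP').symm⟩
  have g1 : img S₁ a ≤ Ct (img S₂ a) := by
    refine le_trans ?_ ((h.iso.img_centralizerIn' h₂.1).le.trans inf_le_right)
    exact img_mono a (le_inf h₁.1 fun x hx y hy => (hprod.2.2.1 x hx y hy).symm)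
  have g2 : img S₁ a ⊔ img S₂ a = S' := by
    rw [← h.iso.img_sup h₁.1 h₂.1, hprod.2.2.2.2, h.img_top]
  obtain ⟨h1, h2, h3⟩ := aux hA (S₁ := img S₁ a) (S₂ := img S₂ a) g1 g2 t₁ t₂ (key k h h₁.1 hR)
    (R' := W') (by
      rw [show centT F' _ t₂.1 = N from (hA.amb.eq_kSys_Ct t₂.1 hN').symm]
      exact key k' hN (le_inf h₁.1 fun x hx y hy => (hprod.2.2.1 x hx y hy).symm)
        fun P hP => (hR' P hP).trans (hC P).symm)
  · exact ⟨k.symm.isSaturated h3.satE.sat, k'.symm.isSaturated h1.satE.sat,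
      h.symm.isNormalIn k'.symm h1.isNormalIn, k.symm.isNormalIn k'.symm h2.isNormalIn,
      h.symm.isWeaklyNormalIn k.symm h3.isWeaklyNormalIn⟩

end Cfsg.Agent.S5130
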