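import Cfsg.Statements.S5143
import Cfsg.Agent.H93.ERW

set_option autoImplicit false
open Cfsg

namespace Cfsg.Agent.S5143

/-- Let F be a saturated fusion system over a finite p-group S, E a normal subsystem over T, and R a subgroup with T ≤ R ≤ S. Then there is exactly one saturated subsystem D of F over R (exactly one family of map sets) whose p-residual subsystem is that of E: the hyperfocal subgroups of D and E coincide and the p-residual subsystems of D and of E have the same maps. -/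
theorem result {Ω : Type*} [Group Ω] {S : Subgroup Ω} [Finite S] (p : ℕ) [Fact p.Prime] (hS : IsPGroup p S) (F : Cfsg.FusionSystem S) (hF : F.IsSaturated p) {T : Subgroup Ω} (E : Cfsg.FusionSystem T) (hE : E.IsNormalIn F p) (R : Subgroup Ω) (hTR : T ≤ R) (hRS : R ≤ S) : ∃ D : Cfsg.FusionSystem R, (D.IsSaturated p ∧ D.IsSubsystemOf F ∧ D.hyperfocalSubgroup p = E.hyperfocalSubgroup p ∧ ∀ (D₁ : Cfsg.FusionSystem (D.hyperfocalSubgroup p)) (E₁ : Cfsg.FusionSystem (E.hyperfocalSubgroup p)), D.IsPResidual p D₁ → E.IsPResidual p E₁ → ∀ P : Subgroup Ω, D₁.Hom P = E₁.Hom P) ∧ ∀ D' : Cfsg.FusionSystem R, D'.IsSaturated p → D'.IsSubsystemOf F → D'.hyperfocalSubgroup p = E.hyperfocalSubgroup p → (∀ (D₁ : Cfsg.FusionSystem (D'.hyperfocalSubgroup p)) (E₁ : Cfsg.FusionSystem (E.hyperfocalSubgroup p)), D'.IsPResidual p D₁ → E.IsPResidual p E₁ → ∀ P : Subgroup Ω, D₁.Hom P = E₁.Hom P) → ∀ P : Subgroup Ω, D'.Hom P = D.Hom P := by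
  obtain ⟨D, h1, h2, h3⟩ := H93.exists_er hS hF hE hTR hRS
  have := H92.finite_of_le hRS
  have := H92.finite_of_le (hTR.trans hRS)
  have hR : IsPGroup p R := hS.to_le hRS
  have hT : IsPGroup p T := hS.to_le (hTR.trans hRS)
  have e := H95.hyp_eq_of_ppow hR h1 h3
  refine ⟨D, ⟨h1, h2, e.symm, fun D₁ E₁ k1 k2 =>
    H93.hom_eq_of_ppow hR e.symm k1.1 k1.2 k2.1 (H95.ppow_trans k2.2 h3 e.ge)⟩, ?_⟩
  intro D' k1 k2 k3 k4 P
  obtain ⟨E₁, l1⟩ := H95.exists_pResidual hT hE.1.1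
  obtain ⟨D₁, l2⟩ := H95.exists_pResidual hR k1
  rw [H93.er_unique hS hF (H93.isNormalIn_pResidual_of_normal hS hF hE l1) k1 k2
    (H93.ppow_of_hom_eq k3 (k4 D₁ E₁ l2 l1) l2.2) h1 h2 (H95.ppow_trans l1.2 h3 e.ge)]

end Cfsg.Agent.S5143
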