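import Cfsg.Statements.S5160
import Cfsg.Agent.H92.PPrime3
import Cfsg.Agent.H94.GroupFusion
import Cfsg.Agent.H95.GroupFocal

set_option autoImplicit false
open Cfsg

namespace Cfsg.Agent.S5160
open H92 H93 Cfsg.FusionSystem

/-- Let G be a finite group with nontrivial Sylow p-subgroup S and F its fusion system on S. Suppose (a) no nontrivial proper subgroup of S is strongly closed in F, and (b) the automorphisms of S induced by G are generated by those induced, for R running over the fully normalized radical centric subgroups of F, by the subgroup of N_G(R) generated by its elements of p-power order. Then F is simple. -/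
theorem result {G : Type*} [Group G] [Finite G] (p : ℕ) [Fact p.Prime] (S : Sylow p G) (hS1 : (S : Subgroup G) ≠ ⊥) (ha : ∀ T : Subgroup G, (Cfsg.groupFusionSystem (S : Subgroup G)).StronglyClosed T → T = ⊥ ∨ T = (S : Subgroup G)) (hb : Cfsg.autInducedBy ⊤ (S : Subgroup G) = ⨆ (R : Subgroup G) (_ : (Cfsg.groupFusionSystem (S : Subgroup G)).IsFullyNormalized R ∧ (Cfsg.groupFusionSystem (S : Subgroup G)).IsRadical p R ∧ (Cfsg.groupFusionSystem (S : Subgroup G)).IsCentric R), Cfsg.autInducedBy (Subgroup.closure {g : G | g ∈ Subgroup.normalizer (R : Set G) ∧ ∃ k : ℕ, orderOf g = p ^ k}) (S : Subgroup G)) : (Cfsg.groupFusionSystem (S : Subgroup G)).IsSimple p := by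
  have hF := H95.saturated_group (p := p) S
  have hA : ∀ P ≤ (S : Subgroup G), (groupFusionSystem (S : Subgroup G)).autGroup P = autInducedBy ⊤ P :=
    fun P hP => by rw [H94.groupFusionSystem_eq, H94.autGroup_fos hP]
  refine isSimple_of hF hS1 ha fun E hE => ?_
  have hp := pprime_of_weaklyNormal S.isPGroup' hE.1
  rw [hA _ le_rfl, hb]
  refine iSup_le fun R => iSup_le fun hR => fun α hα => ?_
  obtain ⟨g, hg, e⟩ := mem_autInducedBy.1 hα
  have hRS : R ≤ S := hR.1.1
  have h1 : Subgroup.closure {g : G | g ∈ Subgroup.normalizer (R : Set G) ∧ ∃ k : ℕ, orderOf g = p ^ k} ≤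
      lift R (E.autGroup R) := by
    rw [Subgroup.closure_le]
    rintro x ⟨hx, k, hk⟩
    refine (cAut_mem_iff hx).1 (hp.2 R hRS ?_)
    rw [map_pElts_eq_Opp, hA R hRS]
    refine mem_Opp (cAut_mem hx trivial) (n := k) ?_
    rw [cAut_pow, cAut_eq_one, ← hk, pow_orderOf_eq_one]
    exact one_mem _
  obtain ⟨β, hβ, e'⟩ := mem_lift.1 (h1 hg)
  refine (mem_autGroup le_rfl).2 (mor_up S.isPGroup' hF hE.1.1 hp hR.2.2 hRS (mor_af le_rfl ?_)
    ((mor_af hRS hβ).congr fun x hx => (e' x hx).trans (e x (hRS hx)).symm))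
  rw [hA _ le_rfl]
  exact autInducedBy_mono le_top _ hα

end Cfsg.Agent.S5160
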