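import Cfsg.Statements.S5163
import Cfsg.Agent.H95.SLChar
import Cfsg.Agent.H57.SLCard

set_option autoImplicit false
open Cfsg

namespace Cfsg.Agent.S5163

/-- For a finite field K of characteristic p and n ≥ 3, the p-fusion system of the projective special linear group PSL_n(K) on a Sylow p-subgroup is simple. -/
theorem result {K : Type*} [Field K] [Fintype K] (p : ℕ) [Fact p.Prime] [CharP K p] (n : ℕ) (hn : 3 ≤ n) (S : Sylow p (Matrix.ProjectiveSpecialLinearGroup (Fin n) K)) : (Cfsg.groupFusionSystem (S : Subgroup (Matrix.ProjectiveSpecialLinearGroup (Fin n) K))).IsSimple p := by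
  obtain ⟨m, rfl⟩ : ∃ m, n = m + 3 := ⟨n - 3, by omega⟩
  refine H95.isSimple_of_surjective (QuotientGroup.mk' _) (QuotientGroup.mk'_surjective _)
    (QuotientGroup.ker_mk' _).le (fun g hg k hk => ?_) _ (H95.isSimple_sl p m) S
  rw [QuotientGroup.ker_mk'] at hg
  have h3 := orderOf_dvd_natCard
    (⟨g, hg⟩ : Subgroup.center (Matrix.SpecialLinearGroup (Fin (m + 3)) K))
  rw [H57.card_center_sl, Subgroup.orderOf_mk] at h3
  refine H92.eq_one_of_coprime_of_pow (Nat.Coprime.coprime_dvd_left
    (h3.trans (Nat.gcd_dvd_right _ _)) ?_) hk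
  obtain ⟨j, -, hj⟩ := FiniteField.card K p
  rw [Nat.card_eq_fintype_card, hj]
  refine ((Nat.Prime.coprime_iff_not_dvd Fact.out).2 fun h => ?_).symm
  exact (Fact.out : p.Prime).not_dvd_one ((Nat.dvd_sub_iff_right (Nat.one_le_pow _ _
    (Fact.out : p.Prime).pos) (dvd_pow_self p j.ne_zero)).1 h)

end Cfsg.Agent.S5163
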