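import Cfsg.Statements.S5164
import Cfsg.Agent.H95.AltSimple

set_option autoImplicit false
open Cfsg

namespace Cfsg.Agent.S5164

open H95 H92 Equiv Equiv.Perm


/-- For n ≥ 6 and a prime p, a nontrivial Sylow p-subgroup of the alternating group of degree n is abelian if and only if n < p². -/
theorem result (n p : ℕ) (hn : 6 ≤ n) [Fact p.Prime] (S : Sylow p (alternatingGroup (Fin n))) (hS : (S : Subgroup (alternatingGroup (Fin n))) ≠ ⊥) : IsMulCommutative S ↔ n < p ^ 2 := by
  classical
  have hp : p.Prime := Fact.out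
  obtain ⟨ι⟩ := exists_block_emb (p := p) n
  have key : ∀ S' : Sylow p (Perm (Fin (n / p))), IsMulCommutative S ↔
      ∀ x ∈ wrSub ι S' ⊓ alternatingGroup (Fin n), ∀ y ∈ wrSub ι S' ⊓ alternatingGroup (Fin n),
        x * y = y * x := fun S' => by
    have h1 := sylIn_wrSub_alt (ι := ι) (lt_block n) S'
    have h2 := sylIn_map_subtype S
    constructor
    · intro h x hx y hy
      obtain ⟨b, -, hb⟩ := h2.exists_conj h1.2.1 h1.1
      obtain ⟨x', hx', e1⟩ := hb x hx
      obtain ⟨y', hy', e2⟩ := hb y hy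
      have := congrArg (fun z : S => z.1.1) (h.1.1 ⟨x', hx'⟩ ⟨y', hy'⟩)
      change (alternatingGroup (Fin n)).subtype x' * (alternatingGroup (Fin n)).subtype y' =
        (alternatingGroup (Fin n)).subtype y' * (alternatingGroup (Fin n)).subtype x' at this
      rw [e1, e2] at this
      exact (MulAut.conj b).injective (by rwa [map_mul, map_mul])
    · intro h
      obtain ⟨b, -, hb⟩ := h1.exists_conj h2.2.1 h2.1
      refine ⟨⟨fun x y => Subtype.ext (Subtype.ext ?_)⟩⟩
      refine (MulAut.conj b).injective ?_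
      simp only [Subgroup.coe_mul, map_mul]
      exact h _ (hb _ ⟨x, x.2, rfl⟩) _ (hb _ ⟨y, y.2, rfl⟩)
  constructor
  · intro h
    by_contra! hnp
    obtain ⟨h1, h3⟩ := three_le_div hn hnp
    obtain ⟨e⟩ : Nonempty (ZMod p ↪ Fin (n / p)) :=
      Function.Embedding.nonempty_of_card_le (by simpa using h1)
    obtain ⟨S', hS'⟩ := exists_sylow_cycle e
    obtain ⟨j, hj1, hj2⟩ := H57.exists_ne_ne_of_three_le (by simpa using h3) (e 0) (e 1)
    obtain ⟨k, hk⟩ := isPGroup_iff_forall.1 S'.isPGroup' _ (hS' 1)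
    have := congrArg (fun g : Perm (Fin n) => g (ι (e 0, 0))) ((key S').1 h _
      ⟨liftH_mem_wrSub (hS' 1), sign_liftH_of_pow hk⟩ _ (pair_mem _ (e 0) j 1))
    simp [baseP_apply, liftH_apply, viaEmbedding_apply, hj1.symm, hj2.symm] at this
  · intro h
    obtain ⟨S'⟩ : Nonempty (Sylow p (Perm (Fin (n / p)))) := inferInstance
    have h1 : (S' : Subgroup (Perm (Fin (n / p)))) = ⊥ := by
      rw [← Subgroup.card_eq_one, S'.card_eq_multiplicity, Nat.card_perm, Nat.card_fin,
        Nat.factorization_eq_zero_of_not_dvd, pow_zero]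
      rw [hp.dvd_factorial, not_le, Nat.div_lt_iff_lt_mul hp.pos, ← sq]
      exact h
    refine (key S').2 fun x hx y hy => ?_
    rw [h1] at hx hy
    obtain ⟨f, rfl⟩ := mem_wrSub_bot.1 hx.1
    obtain ⟨g, rfl⟩ := mem_wrSub_bot.1 hy.1
    exact baseP_comm f g

end Cfsg.Agent.S5164
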