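import Cfsg.Statements.S5171
import Cfsg.Agent.H95.PolarSp
import Cfsg.Agent.H59.Levi

set_option autoImplicit false
open Cfsg

namespace Cfsg.Agent.S5171

/-- For a finite field K of characteristic p and m ≥ 2, excluding the case m = 2 with K of two elements, the p-fusion system of the projective symplectic group PSp_{2m}(K) on a Sylow p-subgroup is simple. -/
theorem result {K : Type*} [Field K] [Fintype K] (p : ℕ) [Fact p.Prime] [CharP K p] (m : ℕ) (hm : 2 ≤ m) (hex : m = 2 → 3 ≤ Fintype.card K) (S : Sylow p (Cfsg.PSp m K)) : (Cfsg.groupFusionSystem (S : Subgroup (Cfsg.PSp m K))).IsSimple p := by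
  haveI := H59.finite_linearEquiv (F := K) (V := Fin m ⊕ Fin m → K)
  refine (H95.polar_sp (p := p) (H54.spB_nondegenerate (l := Fin m) (R := K)) H54.spB_isAlt
    (by simp; omega) ?_).isSimple_quot
    ((QuotientGroup.mk' _).comp (H54.spEquivIsom (Fin m) K).symm.toMonoidHom)
    ((QuotientGroup.mk'_surjective _).comp (H54.spEquivIsom (Fin m) K).symm.surjective)
    (fun g hg => ?_) S
  · by_cases h : m = 2
    · exact Or.inr (H54.exists_ne_zero_ne_neg_one_of_three_le (by simpa using hex h))
    · left; simp; omega
  · have h1 := (QuotientGroup.eq_one_iff _).1 hg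
    refine Subgroup.mem_center_iff.2 fun k => (H54.spEquivIsom (Fin m) K).symm.injective ?_
    rw [map_mul, map_mul]
    exact Subgroup.mem_center_iff.1 h1 _

end Cfsg.Agent.S5171
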