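import Cfsg.Statements.S5311
import Cfsg.Agent.H94.Tr5

set_option autoImplicit false
open Cfsg

namespace Cfsg.Agent.S5311

/-- The layer of a saturated fusion system F over a finite p-group S is characteristic in F: for every automorphism α of S that is an automorphism of F (α and its inverse are morphisms from F to F) and every layer E of F over T, α carries T onto T and, for every map φ of E with source P, the map induced by α on α(P) (that is, α ∘ φ ∘ α⁻¹) is a map of E. -/
theorem result {Ω : Type*} [Group Ω] {S : Subgroup Ω} [Finite S] (p : ℕ) [Fact p.Prime] (hS : IsPGroup p S) (F : Cfsg.FusionSystem S) (hF : F.IsSaturated p)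
    (α : ↥S ≃* ↥S) (hα : F.IsMorphism F (S.subtype.comp α.toMonoidHom))
    (hα' : F.IsMorphism F (S.subtype.comp α.symm.toMonoidHom))
    {T : Subgroup Ω} (E : Cfsg.FusionSystem T) (hE : E.IsLayerOf F p) :
    Cfsg.FusionSystem.imageAlong (S.subtype.comp α.toMonoidHom) T = T ∧
      ∀ (P : Subgroup Ω) (φ : ↥P →* Ω), φ ∈ E.Hom P →
        ∀ φ' : ↥(Cfsg.FusionSystem.imageAlong (S.subtype.comp α.toMonoidHom) P) →* Ω,
          Cfsg.FusionSystem.InducedAlong (S.subtype.comp α.toMonoidHom) φ φ' →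
            φ' ∈ E.Hom (Cfsg.FusionSystem.imageAlong (S.subtype.comp α.toMonoidHom) P) := by
  have hi : H94.PIso (H92.ext1 (S.subtype.comp α.toMonoidHom))
      (H92.ext1 (S.subtype.comp α.symm.toMonoidHom)) S S := by
    refine ⟨fun x hx => ?_, fun x hx => ?_, fun x hx => ?_, fun x hx => ?_, H92.mulOn_ext1 _⟩
    · rw [H92.ext1_of_mem _ hx]; exact (α ⟨x, hx⟩).2
    · rw [H92.ext1_of_mem _ hx]; exact (α.symm ⟨x, hx⟩).2
    · rw [H92.ext1_of_mem _ hx]
      exact (H92.ext1_coe _ (α ⟨x, hx⟩)).trans (by simp)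
    · rw [H92.ext1_of_mem (S.subtype.comp α.symm.toMonoidHom) hx]
      exact (H92.ext1_coe _ (α.symm ⟨x, hx⟩)).trans (by simp)
  have h := H94.tr_of_isMorphism hi hα hα'
  have hT := H94.le_of_isNormalIn hE.1
  obtain ⟨E', k⟩ := hi.exists_tr_sub hT rfl E
  have hE' := h.isLayerOf k hE
  have h1 := H94.layer_unique hE hE'
  have h2 := H94.layer_unique hE' hE
  refine ⟨?_, fun P φ hφ φ' hφ' => ?_⟩
  · rw [H94.imageAlong_eq hT]
    exact le_antisymm (H92.le_of_isSubsystemOf h2) (H92.le_of_isSubsystemOf h1)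
  · have hf := H92.mor_ext1 hφ
    have h3 := (k.mor_iff hf.le (fun x hx => hf.mem hx) (H94.inducedAlong_iff.1 hφ').2.2.2).2 hf
    rw [← H94.imageAlong_eq (hf.le.trans hT)] at h3
    exact H92.mem_hom_iff.2 (h3.of_sub h2)

end Cfsg.Agent.S5311
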