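import Cfsg.Statements.S5347
import Cfsg.Agent.Base
import Cfsg.Agent.H75.Basic

set_option autoImplicit false
open Cfsg

namespace Cfsg.Agent.S5347


/-- Let D be a conjugation-invariant generating set of 3-transpositions of a finite group G, p a prime bigger than 3, and P a p-subgroup of G. If a member d of D normalizes P then d centralizes P. -/
theorem result {G : Type*} [Group G] [Finite G] {D : Set G} (hD : Cfsg.IsThreeTranspositionGroup D) {p : ℕ} (hp : p.Prime) (hp3 : 3 < p) (P : Subgroup G) (hP : IsPGroup p P) {d : G} (hd : d ∈ D) (hnorm : d ∈ Subgroup.normalizer (P : Set G)) : ∀ x ∈ P, Commute d x := by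
  intro x hx
  by_contra hne
  have hD1 := hD.1
  have he : x * d * x⁻¹ ∈ D := hD.2.1 x d hd
  have hmem : d * (x * d * x⁻¹) ∈ P := by
    have h1 : d * x * d⁻¹ ∈ P := (Subgroup.mem_normalizer_iff.1 hnorm x).1 hx
    rw [H75.tt_inv hD1 hd] at h1
    have := P.mul_mem h1 (P.inv_mem hx)
    simpa only [mul_assoc] using this
  have : Fact p.Prime := ⟨hp⟩
  obtain ⟨k, hk⟩ := (IsPGroup.iff_orderOf.1 hP) ⟨_, hmem⟩
  rw [← Subgroup.orderOf_coe] at hk
  have hne' : d ≠ x * d * x⁻¹ := fun h => hne (H75.conj_eq_iff_commute.1 h.symm).symm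
  have hq : ∃ q : ℕ, q.Prime ∧ q ≤ 3 ∧ q = p ^ k := by
    by_cases hc : Commute d (x * d * x⁻¹)
    · exact ⟨2, Nat.prime_two, by norm_num, (H75.tt_order_two hD1 hd he hc hne').symm.trans hk⟩
    · exact ⟨3, Nat.prime_three, le_rfl, (H75.tt_order_three hD1 hd he hc).symm.trans hk⟩
  obtain ⟨q, hq, hq3, hqk⟩ := hq
  have := (Nat.prime_dvd_prime_iff_eq hq hp).1 (hq.dvd_of_dvd_pow (n := k) hqk.dvd)
  omega

end Cfsg.Agent.S5347
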