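import Cfsg.Statements.S5351
import Cfsg.Agent.Base
import Cfsg.Agent.H75.Structure

set_option autoImplicit false
open Cfsg

namespace Cfsg.Agent.S5351


/-- Let D be a conjugacy class of 3-transpositions generating the finite group G, with at least two members. Then for every prime p > 3 the largest normal p-subgroup of G is central, and exactly one of the following holds: the largest normal 2-subgroup of G is not central; the largest normal 3-subgroup of G is not central; the layer of G (the product of its components) is non-trivial. -/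
theorem result {G : Type*} [Group G] [Finite G] {D : Set G} (hD : Cfsg.IsThreeTranspositionClass D) (hD2 : ∃ a ∈ D, ∃ b ∈ D, a ≠ b) : (∀ p : ℕ, p.Prime → 3 < p → Cfsg.pCore p G ≤ Subgroup.center G) ∧ ((¬ Cfsg.pCore 2 G ≤ Subgroup.center G ∧ Cfsg.pCore 3 G ≤ Subgroup.center G ∧ Cfsg.layer G = ⊥) ∨ (Cfsg.pCore 2 G ≤ Subgroup.center G ∧ ¬ Cfsg.pCore 3 G ≤ Subgroup.center G ∧ Cfsg.layer G = ⊥) ∨ (Cfsg.pCore 2 G ≤ Subgroup.center G ∧ Cfsg.pCore 3 G ≤ Subgroup.center G ∧ Cfsg.layer G ≠ ⊥)) := by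
  obtain ⟨a, ha, b, hb, hab⟩ := hD2
  have hG := H75.class_group hD
  have hnc : ∀ d ∈ D, ∃ e ∈ D, ¬ Commute d e := fun d hd =>
    H75.class_exists_not_commute hD ⟨a, ha, b, hb, hab⟩ hd
  refine ⟨fun p hp hp3 => H75.pCore_le_center_of_three_lt hG hp hp3, ?_⟩
  by_cases h2 : Cfsg.pCore 2 G ≤ Subgroup.center G
  · by_cases h3 : Cfsg.pCore 3 G ≤ Subgroup.center G
    · obtain ⟨e, -, hae⟩ := hnc a ha
      exact Or.inr (Or.inr ⟨h2, h3, H75.layer_ne_bot_of_central hG h2 h3 hae⟩)
    · refine Or.inr (Or.inl ⟨h2, h3, ?_⟩)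
      rw [H75.pCore_three_le_center_iff hG] at h3
      push Not at h3
      obtain ⟨c, hc, d, hd, hcd, hne⟩ := h3
      exact H75.layer_eq_bot_of_rW hD hc hd hcd hne
  · have h2' := h2
    rw [H75.pCore_two_le_center_iff hG hnc] at h2'
    push Not at h2'
    obtain ⟨c, hc, d, hd, hcd, hne⟩ := h2'
    refine Or.inl ⟨h2, (H75.pCore_three_le_center_iff hG).2 fun x hx y hy hxy =>
      H75.not_rV_and_rW hD hc hd hcd hne hx hy hxy, H75.layer_eq_bot_of_rV hD hc hd hcd hne⟩

end Cfsg.Agent.S5351
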