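import Cfsg.Statements.S5358
import Cfsg.Agent.H95.O3Model

set_option autoImplicit false
open scoped MatrixGroups
open Cfsg

namespace Cfsg.Agent.S5358

/-- Let Q be a non-degenerate quadratic form on the n-dimensional coordinate space over the field with three elements and u, v vectors of the same non-zero norm Q(u) = Q(v) spanning different lines (v ≠ u and v ≠ −u). Then the reflection matrices of u and v commute if and only if u and v are orthogonal for the polar form of Q. -/
theorem result (n : ℕ) (Q : QuadraticForm (ZMod 3) (Fin n → ZMod 3)) (hQ : (QuadraticMap.polarBilin Q).Nondegenerate) (u v : Fin n → ZMod 3) (hu : Q u ≠ 0) (huv : Q u = Q v) (h1 : v ≠ u) (h2 : v ≠ -u) : Commute (Cfsg.reflectionMatrix (⇑Q) u) (Cfsg.reflectionMatrix (⇑Q) v) ↔ QuadraticMap.polar (⇑Q) u v = 0 := by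
  have key : Commute (Cfsg.reflectionMatrix (⇑Q) u) (Cfsg.reflectionMatrix (⇑Q) v) ↔
      Commute (H56.refl Q u) (H56.refl Q v) := by
    constructor
    · intro h
      refine H56.O.ext fun x => ?_
      have := congrArg (fun M => Matrix.mulVec M x) h.eq
      simpa [← Matrix.mulVec_mulVec, H56.reflectionMatrix_mulVec] using this
    · intro h
      refine Matrix.ext_iff_mulVec.2 fun x => ?_
      have := congrArg (fun g : H56.O Q => g x) h.eq
      simpa [← Matrix.mulVec_mulVec, H56.reflectionMatrix_mulVec] using this
  rw [key, (H95.o3_oc hQ hu).comm_iff ((H95.o3B_self_iff hu u).2 rfl)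
    ((H95.o3B_self_iff hu v).2 huv.symm), H95.o3B_apply, mul_eq_zero, neg_eq_zero]
  simp [hu, H20.O3.pm, h1, h2]

end Cfsg.Agent.S5358
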