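import Cfsg.Statements.S5363
import Cfsg.Agent.Base
import Cfsg.Agent.H75.Basic

set_option autoImplicit false
open Cfsg

namespace Cfsg.Agent.S5363


/-- Let D be a conjugation-invariant set of involutions of a finite group G. Then every product of two members of D has odd order or order 2 if and only if, for every a in D and every b in D different from a and commuting with a, the members of D commuting with a b are exactly those commuting with both a and b. -/
theorem result {G : Type*} [Group G] [Finite G] {D : Set G} (hinv : ∀ d ∈ D, orderOf d = 2) (hconj : ∀ g : G, ∀ d ∈ D, g * d * g⁻¹ ∈ D) : (∀ a ∈ D, ∀ b ∈ D, Odd (orderOf (a * b)) ∨ orderOf (a * b) = 2) ↔ ∀ a ∈ D, ∀ b ∈ D, b ≠ a → Commute a b → {y : G | y ∈ D ∧ Commute (a * b) y} = {y : G | y ∈ D ∧ Commute a y} ∩ {y : G | y ∈ D ∧ Commute b y} := by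
  have hsq : ∀ d ∈ D, d * d = 1 := fun d hd => by
    have := pow_orderOf_eq_one d
    rwa [hinv d hd, pow_two] at this
  have hi : ∀ d ∈ D, d⁻¹ = d := fun d hd => inv_eq_of_mul_eq_one_right (hsq d hd)
  constructor
  · intro h a ha b hb hne hab
    ext y
    simp only [Set.mem_ofPred_eq, Set.mem_inter_iff]
    refine ⟨fun ⟨hy, hc⟩ => ?_, fun ⟨h1, h2⟩ => ⟨h1.1, h1.2.mul_left h2.2⟩⟩
    have key : Commute a y ∨ Commute b y := by
      by_contra hcon
      push Not at hcon
      have o1 : Odd (orderOf (y * a)) := (h y hy a ha).resolve_right fun h2 => hcon.1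
        ((H75.commute_iff_sq (hsq y hy) (hsq a ha)).2 (by rw [← h2, pow_orderOf_eq_one])).symm
      have o2 : Odd (orderOf (y * b)) := (h y hy b hb).resolve_right fun h2 => hcon.2
        ((H75.commute_iff_sq (hsq y hy) (hsq b hb)).2 (by rw [← h2, pow_orderOf_eq_one])).symm
      have e1 : y * b = (y * a) * (a * b) := by
        rw [mul_assoc, ← mul_assoc a, hsq a ha, one_mul]
      have c1 : Commute (y * a) (a * b) :=
        hc.symm.mul_left ((Commute.refl a).mul_right hab)
      obtain ⟨k, hk⟩ := o1.mul o2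
      have e2 : (y * b) ^ (2 * k + 1) = 1 := by
        rw [← hk, mul_comm, pow_mul, pow_orderOf_eq_one, one_pow]
      have e3 : (y * a) ^ (2 * k + 1) = 1 := by
        rw [← hk, pow_mul, pow_orderOf_eq_one, one_pow]
      rw [e1, c1.mul_pow, e3, one_mul, pow_succ, pow_mul,
        (H75.commute_iff_sq (hsq a ha) (hsq b hb)).1 hab, one_pow, one_mul] at e2
      apply hne
      rw [← hi a ha]
      exact (eq_inv_of_mul_eq_one_right e2)
    rcases key with h1 | h1
    · refine ⟨⟨hy, h1⟩, hy, ?_⟩
      have := h1.mul_left hc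
      rwa [← mul_assoc, hsq a ha, one_mul] at this
    · refine ⟨⟨hy, ?_⟩, hy, h1⟩
      have := hc.mul_left h1
      rwa [mul_assoc, hsq b hb, mul_one] at this
  · intro h a ha b hb
    rcases Nat.even_or_odd (orderOf (a * b)) with he | ho
    swap
    · exact Or.inl ho
    right
    obtain ⟨m, hm⟩ := he
    have hpos : 0 < orderOf (a * b) := orderOf_pos _
    have hm0 : 0 < m := by omega
    have hz1 : (a * b) ^ m ≠ 1 := pow_ne_one_of_lt_orderOf hm0.ne' (by omega)
    have hz2 : ((a * b) ^ m)⁻¹ = (a * b) ^ m := by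
      rw [inv_eq_iff_mul_eq_one, ← pow_add, ← hm, pow_orderOf_eq_one]
    have hba : ∀ k : ℕ, ((a * b) ^ k)⁻¹ = (b * a) ^ k := fun k => by
      rw [← inv_pow, mul_inv_rev, hi a ha, hi b hb]
    have hca : Commute a ((a * b) ^ m) := by
      show _ * _ = _ * _
      conv_lhs => rw [← hz2, hba]
      exact (mul_pow_mul a b m).symm
    have hcb : Commute b ((a * b) ^ m) := by
      show _ * _ = _ * _
      conv_rhs => rw [← hz2, hba]
      exact (mul_pow_mul b a m).symm
    have hc : a * (a * b) ^ m ∈ D := by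
      have e0 : ∀ k : ℕ, a * (a * b) ^ k = (b * a) ^ k * a := fun k => by
        have h1 := mul_pow_mul a b k
        calc a * (a * b) ^ k = a * ((a * b) ^ k * a) * a := by
              rw [mul_assoc, mul_assoc, hsq a ha, mul_one]
          _ = (b * a) ^ k * a := by rw [h1, ← mul_assoc, hsq a ha, one_mul]
      rcases Nat.even_or_odd m with ⟨k, hk⟩ | ⟨k, hk⟩
      · have : a * (a * b) ^ m = (b * a) ^ k * a * ((b * a) ^ k)⁻¹ := by
          rw [hk, pow_add, ← mul_assoc, e0, ← hba, inv_inv]
        rw [this]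
        exact hconj _ a ha
      · have : a * (a * b) ^ m = (b * a) ^ k * b * ((b * a) ^ k)⁻¹ := by
          rw [hk, two_mul, add_assoc, pow_add, ← mul_assoc, e0, ← hba k, inv_inv, pow_succ',
            mul_assoc, mul_assoc, mul_assoc, ← mul_assoc a a, hsq a ha, one_mul]
        rw [this]
        exact hconj _ b hb
    have h1 := h a ha _ hc (fun h2 => hz1 (by simpa using h2)) ((Commute.refl a).mul_right hca)
    have h2 : b ∈ {y : G | y ∈ D ∧ Commute (a * (a * (a * b) ^ m)) y} := by
      refine ⟨hb, ?_⟩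
      rw [← mul_assoc, hsq a ha, one_mul]
      exact hcb.symm
    rw [h1] at h2
    have h3 := (H75.commute_iff_sq (hsq a ha) (hsq b hb)).1 h2.1.2
    have h4 := orderOf_dvd_of_pow_eq_one h3
    have := Nat.le_of_dvd (by norm_num) h4
    omega

end Cfsg.Agent.S5363
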