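import Cfsg.Statements.S5364
import Cfsg.Agent.Base
import Cfsg.Agent.H75.Basic

set_option autoImplicit false
open Cfsg

namespace Cfsg.Agent.S5364


/-- Let D be a conjugation-invariant set of involutions of a finite group G and t an involution in the centre of G such that d t does not lie in D for any d in D. If the images of the members of D in G modulo the subgroup generated by t satisfy the 3-transposition order conditions (each has order 2 and any two have product of order at most 3), then so do the members of D. -/
theorem result {G : Type*} [Group G] [Finite G] {D : Set G} (hinv : ∀ d ∈ D, orderOf d = 2) (hconj : ∀ g : G, ∀ d ∈ D, g * d * g⁻¹ ∈ D) (t : G) (ht : orderOf t = 2) (htZ : t ∈ Subgroup.center G) (hDt : ∀ d ∈ D, d * t ∉ D) [(Subgroup.zpowers t).Normal] (himg : Cfsg.IsThreeTranspositionSet ((QuotientGroup.mk : G → G ⧸ Subgroup.zpowers t) '' D)) : Cfsg.IsThreeTranspositionSet D := by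
  refine ⟨hinv, fun a ha b hb => ?_⟩
  have hsq : ∀ d ∈ D, d * d = 1 := fun d hd => by
    have := pow_orderOf_eq_one d
    rwa [hinv d hd, pow_two] at this
  have hi : ∀ d ∈ D, d⁻¹ = d := fun d hd => inv_eq_of_mul_eq_one_right (hsq d hd)
  have hz : ∀ x : G, (x : G ⧸ Subgroup.zpowers t) = 1 → x = 1 ∨ x = t := by
    intro x hx
    rw [QuotientGroup.eq_one_iff] at hx
    obtain ⟨k, rfl⟩ := hx
    have htt : t ^ (2 : ℤ) = 1 := by
      have := pow_orderOf_eq_one t
      rw [ht] at this
      exact_mod_cast this
    rcases Int.emod_two_eq_zero_or_one k with h | h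
    · left
      show t ^ k = 1
      rw [← Int.emod_add_mul_ediv k 2, h, zero_add, zpow_mul, htt, one_zpow]
    · right
      show t ^ k = t
      rw [← Int.emod_add_mul_ediv k 2, h, zpow_add, zpow_mul, htt, one_zpow, zpow_one, mul_one]
  have htc : ∀ g : G, g * t = t * g := fun g => Subgroup.mem_center_iff.1 htZ g
  rcases himg.2 _ ⟨a, ha, rfl⟩ _ ⟨b, hb, rfl⟩ with h | h
  · left
    rcases hz ((a * b) ^ 2) (by simpa using h) with h1 | h1
    · exact h1
    · exfalso
      apply hDt b hb
      have : b * t = a * b * a⁻¹ := by
        rw [htc, ← h1, hi a ha, pow_two, mul_assoc, mul_assoc a b b, hsq b hb, mul_one]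
      rw [this]
      exact hconj a b hb
  · right
    rcases hz ((a * b) ^ 3) (by simpa using h) with h1 | h1
    · exact h1
    · exfalso
      apply hDt b hb
      have : b * t = (a * b) * a * (a * b)⁻¹ := by
        rw [htc, ← h1, mul_inv_rev, hi a ha, hi b hb]
        simp only [pow_succ, pow_zero, one_mul, mul_assoc, hsq b hb, mul_one]
      rw [this]
      exact hconj _ a ha

end Cfsg.Agent.S5364
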