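import Cfsg.Statements.S5379
import Cfsg.Agent.H78.SuzIso

set_option autoImplicit false
open Cfsg

namespace Cfsg.Agent.S5379

open H78

/-- Let G be a finite group of Suzuki sporadic type: it has an involution z whose centralizer C has generalized Fitting subgroup Q extraspecial of order 2^7 with C/Q isomorphic to the commutator subgroup of the isometry group of the elliptic quadratic form in dimension 6 over the field with two elements, and some conjugate of z other than z lies in Q. Then G has exactly two conjugacy classes of involutions. -/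
theorem result {G : Type*} [Group G] [Finite G] (z : G) (hz : orderOf z = 2) (Q : Subgroup (Subgroup.centralizer ({z} : Set G))) [Q.Normal] (hF : Cfsg.generalizedFittingSubgroup (Subgroup.centralizer ({z} : Set G)) = Q) (hQ : Cfsg.IsExtraspecial 2 Q) (hcard : Nat.card Q = 2 ^ 7) (e : (Subgroup.centralizer ({z} : Set G)) ⧸ Q ≃* Cfsg.Omega (ZMod 2) (Cfsg.quadFormMinus 2 (ZMod 2) 1 1)) (hnwc : ∃ g : G, (∃ hq : g * z * g⁻¹ ∈ Subgroup.centralizer ({z} : Set G), (⟨g * z * g⁻¹, hq⟩ : Subgroup.centralizer ({z} : Set G)) ∈ Q) ∧ g * z * g⁻¹ ≠ z) : ∃ a b : G, orderOf a = 2 ∧ orderOf b = 2 ∧ ¬ IsConj a b ∧ ∀ x : G, orderOf x = 2 → IsConj x a ∨ IsConj x b := by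
  obtain ⟨Γ, Qh, s, D, h⟩ := Suz.setup hz hF hQ hcard e hnwc
  obtain ⟨φ, -⟩ := h.iso
  refine ⟨φ (H71.Suz.val 0), φ (H71.Suz.val 4), (φ.orderOf_eq _).trans H88.SuzEnd.ord_a,
    (φ.orderOf_eq _).trans H88.SuzEnd.ord_e, fun c => H88.SuzEnd.not_conj_ae (by
      simpa using φ.symm.toMonoidHom.map_isConj c), fun x hx => ?_⟩
  obtain ⟨y, rfl⟩ := φ.surjective x
  exact (H88.SuzEnd.two y ((φ.orderOf_eq y).symm.trans hx)).imp
    (fun c => (φ.toMonoidHom.map_isConj c).symm) fun c => (φ.toMonoidHom.map_isConj c).symm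

end Cfsg.Agent.S5379
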