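import Cfsg.Statements.S5387
import Cfsg.Agent.H95.L34Mult

set_option autoImplicit false
open Cfsg

namespace Cfsg.Agent.S5387

/-- Up to isomorphism there is at most one quasisimple group whose centre is elementary abelian of order 4 and whose central quotient is isomorphic to the projective special linear group of dimension 3 over the field with four elements: any two such groups are isomorphic. -/
theorem result {L₁ L₂ : Type*} [Group L₁] [Finite L₁] [Group L₂] [Finite L₂] (F : Type) [Field F] [Fintype F] (hF : Fintype.card F = 4) (h₁ : Cfsg.IsQuasisimple L₁) (h₂ : Cfsg.IsQuasisimple L₂) (hc₁ : Nat.card (Subgroup.center L₁) = 4) (hc₂ : Nat.card (Subgroup.center L₂) = 4) (he₁ : ∀ x ∈ Subgroup.center L₁, x * x = 1) (he₂ : ∀ x ∈ Subgroup.center L₂, x * x = 1) (e₁ : L₁ ⧸ Subgroup.center L₁ ≃* Matrix.ProjectiveSpecialLinearGroup (Fin 3) F) (e₂ : L₂ ⧸ Subgroup.center L₂ ≃* Matrix.ProjectiveSpecialLinearGroup (Fin 3) F) : Nonempty (L₁ ≃* L₂) := by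
  have k₁ : (e₁.toMonoidHom.comp (QuotientGroup.mk' (Subgroup.center L₁))).ker = Subgroup.center L₁ := by
    ext x
    simp [MonoidHom.mem_ker]
  have k₂ : (e₂.toMonoidHom.comp (QuotientGroup.mk' (Subgroup.center L₂))).ker = Subgroup.center L₂ := by
    ext x
    simp [MonoidHom.mem_ker]
  refine H95.equiv_of_card_ker_le (σ₁ := e₁.toMonoidHom.comp (QuotientGroup.mk' (Subgroup.center L₁)))
    (σ₂ := e₂.toMonoidHom.comp (QuotientGroup.mk' (Subgroup.center L₂)))
    (e₁.surjective.comp (QuotientGroup.mk'_surjective _))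
    (e₂.surjective.comp (QuotientGroup.mk'_surjective _)) k₁.le k₂.le
    (Group.isPerfect_def.1 h₁.1) (Group.isPerfect_def.1 h₂.1) (by rw [k₁]; exact he₁)
    (by rw [k₂]; exact he₂) (n := 4) (by rw [k₁]; exact hc₁) (by rw [k₂]; exact hc₂)
    fun Q σ hσ h2 => H95.psl34_card_ker_le hF hσ h2

end Cfsg.Agent.S5387
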