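import Cfsg.Statements.S5395
import Cfsg.Agent.H78.Perp
import Cfsg.Agent.H78.XSMap

set_option autoImplicit false
open Cfsg

namespace Cfsg.Agent.S5395

open H78

/-- For a finite extraspecial 2-group E, an automorphism of E that induces the identity on E modulo its centre is inner (so these automorphisms form exactly the inner automorphism group, an elementary abelian 2-group of order |E|/2). -/
theorem result {E : Type*} [Group E] [Finite E] (hE : Cfsg.IsExtraspecial 2 E) (φ : E ≃* E) (hφ : ∀ x : E, φ x * x⁻¹ ∈ Subgroup.center E) : ∃ g : E, ∀ x : E, φ x = g * x * g⁻¹ := by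
  obtain ⟨z, h⟩ := exists_XS_top hE
  have hc : ∀ x : E, x ∈ Subgroup.center E → x = 1 ∨ x = z := fun x hx =>
    h.center x trivial fun y _ => (Subgroup.mem_center_iff.1 hx y).symm
  have hz : z ∈ Subgroup.center E := Subgroup.mem_center_iff.2 fun y => (h.z_comm y trivial).symm
  obtain ⟨q, -, hq⟩ := h.exists_inner φ (fun x _ y _ => map_mul φ x y)
    ((hc _ ((mem_center_equiv φ z).2 hz)).resolve_left (by simpa using h.z_ne)) (fun x _ => by
      rcases hc _ (hφ x) with h1 | h1
      · exact Or.inl (mul_inv_eq_one.1 h1)
      · right; rw [← h.z_comm x trivial, ← h1]; group)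
  exact ⟨q, fun x => hq x trivial⟩

end Cfsg.Agent.S5395
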