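import Cfsg.Statements.S5396
import Cfsg.Agent.H9.ExtraAut

set_option autoImplicit false
open Cfsg

namespace Cfsg.Agent.S5396

theorem sSup_eq {E : Type*} [Group E] {r : ℕ}
    (h : ∃ A : Subgroup E, Cfsg.IsElementaryAbelian 2 A ∧ Nat.card A = 2 ^ r)
    (h' : ∀ A : Subgroup E, (∀ a ∈ A, a ^ 2 = 1) → Nat.card A ≤ 2 ^ r) :
    sSup {k : ℕ | ∃ A : Subgroup E, Cfsg.IsElementaryAbelian 2 A ∧ Nat.card A = 2 ^ k} = r := by
  refine IsGreatest.csSup_eq ⟨h, ?_⟩
  rintro k ⟨A, h1, h2⟩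
  have := h' A h1.2
  rwa [h2, Nat.pow_le_pow_iff_right one_lt_two] at this

/-- For every n ≥ 1 there exist finite extraspecial 2-groups of order 2^(2n+1) whose 2-rank (the largest rank of an elementary abelian subgroup) is n, and ones whose 2-rank is n + 1 (so for each such order there are two non-isomorphic extraspecial 2-groups, told apart by their 2-rank). -/
theorem result (n : ℕ) (hn : 1 ≤ n) : ∀ r ∈ ({n, n + 1} : Set ℕ), ∃ (E : Type) (_ : Group E) (_ : Finite E), Cfsg.IsExtraspecial 2 E ∧ Nat.card E = 2 ^ (2 * n + 1) ∧ sSup {k : ℕ | ∃ A : Subgroup E, Cfsg.IsElementaryAbelian 2 A ∧ Nat.card A = 2 ^ k} = r := by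
  obtain ⟨m, rfl⟩ : ∃ k, n = k + 1 := ⟨n - 1, by omega⟩
  rintro r (rfl | rfl)
  · obtain ⟨E, _, _, h⟩ := H9.exists_isMinusType m
    exact ⟨E, inferInstance, inferInstance, h.isExtraspecial.1, h.isExtraspecial.2,
      sSup_eq (H9.minusType_exists_elementary h) fun A hA => H9.minusType_card_le h hA⟩
  · obtain ⟨E, _, _, h⟩ := H9.exists_isPlusType (m + 1)
    exact ⟨E, inferInstance, inferInstance, h.isExtraspecial.1, h.isExtraspecial.2,
      sSup_eq (H9.plusType_exists_elementary h) fun A hA => H9.plusType_card_le h hA⟩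

end Cfsg.Agent.S5396
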