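import Cfsg.Statements.S5405
import Cfsg.Agent.H78.Coc
import Cfsg.Agent.H50.CoO8
import Cfsg.Agent.H27.Extra

set_option autoImplicit false
open scoped MatrixGroups
open Cfsg

namespace Cfsg.Agent.S5405

open H78

open H56 QuadraticMap

theorem conv {ι : Type} [Fintype ι] [DecidableEq ι] (Q : QuadraticForm (ZMod 2) (ι → ZMod 2))
    {q : (ι → ZMod 2) → ZMod 2} (h : ⇑Q = q)
    (H : ∀ f : O Q → ι → ZMod 2, (∀ g ∈ commutator (O Q), ∀ k ∈ commutator (O Q),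
      f (g * k) = f g + g (f k)) → ∃ v, ∀ g ∈ commutator (O Q), f g = g v - v)
    (f : Omega (ZMod 2) q → ι → ZMod 2) (hf : ∀ g k : Omega (ZMod 2) q, f (g * k) = f g +
      Matrix.mulVec (((g : isometryGroup (ZMod 2) q) : GL ι (ZMod 2)) : Matrix ι ι (ZMod 2)) (f k)) :
    ∃ v, ∀ g : Omega (ZMod 2) q, f g = Matrix.mulVec
      (((g : isometryGroup (ZMod 2) q) : GL ι (ZMod 2)) : Matrix ι ι (ZMod 2)) v - v := by
  classical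
  have k : ∀ g : Omega (ZMod 2) q, (if a : toO Q h g ∈ commutator (O Q) then
      f ((omegaEquiv Q h).symm ⟨_, a⟩) else 0) = f g := fun g => by
    rw [dif_pos (show toO Q h g ∈ _ from (omegaEquiv Q h g).2)]
    exact congrArg f ((omegaEquiv Q h).symm_apply_apply g)
  obtain ⟨v, e⟩ := H (fun g => if a : g ∈ commutator (O Q) then f ((omegaEquiv Q h).symm ⟨g, a⟩)
    else 0) fun a ha b hb => by
      obtain ⟨a, rfl⟩ : ∃ g : Omega (ZMod 2) q, toO Q h g = a :=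
        ⟨_, congrArg Subtype.val ((omegaEquiv Q h).apply_symm_apply ⟨a, ha⟩)⟩
      obtain ⟨b, rfl⟩ : ∃ g : Omega (ZMod 2) q, toO Q h g = b :=
        ⟨_, congrArg Subtype.val ((omegaEquiv Q h).apply_symm_apply ⟨b, hb⟩)⟩
      simp only [← map_mul, ← Subgroup.coe_mul, k]
      exact hf a b
  exact ⟨v, fun g => (k g).symm.trans (e _ (omegaEquiv Q h g).2)⟩

/-- the position of a coordinate -/
def ix {m : ℕ} : (Fin m ⊕ Fin m) ⊕ Fin 2 → ℕ :=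
  Sum.elim (Sum.elim Fin.val fun i => m + i) fun i => 2 * m + i
/-- the vector with a given code -/
def vc (m : ℕ) (l : List ℕ) (n : ℕ) : (Fin m ⊕ Fin m) ⊕ Fin 2 → ZMod 2 :=
  fun i => if (l.getD n 0).testBit (ix i) then 1 else 0
/-- a table of heights -/
def ht (m T : ℕ) (v : (Fin m ⊕ Fin m) ⊕ Fin 2 → ZMod 2) : ℕ :=
  T >>> (4 * ∑ i, (v i).val * 2 ^ ix i) % 16

/-- Vanishing of first cohomology on the natural module for three small orthogonal groups over the field with two elements: for the commutator subgroup of the isometry group of the elliptic quadratic form in dimension 4, of the elliptic form in dimension 6, and of the hyperbolic form in dimension 8, every crossed homomorphism into the natural module (a map f with f(gh) = f(g) + g·f(h)) is principal (of the form g ↦ g·v − v). -/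
theorem result : (∀ f : ↥(Cfsg.Omega (ZMod 2) (Cfsg.quadFormMinus 1 (ZMod 2) 1 1)) → ((Fin 1 ⊕ Fin 1) ⊕ Fin 2 → ZMod 2), (∀ g h : ↥(Cfsg.Omega (ZMod 2) (Cfsg.quadFormMinus 1 (ZMod 2) 1 1)), f (g * h) = f g + Matrix.mulVec (((g : ↥(Cfsg.isometryGroup (ZMod 2) (Cfsg.quadFormMinus 1 (ZMod 2) 1 1))) : GL ((Fin 1 ⊕ Fin 1) ⊕ Fin 2) (ZMod 2)) : Matrix ((Fin 1 ⊕ Fin 1) ⊕ Fin 2) ((Fin 1 ⊕ Fin 1) ⊕ Fin 2) (ZMod 2)) (f h)) → ∃ v : (Fin 1 ⊕ Fin 1) ⊕ Fin 2 → ZMod 2, ∀ g : ↥(Cfsg.Omega (ZMod 2) (Cfsg.quadFormMinus 1 (ZMod 2) 1 1)), f g = Matrix.mulVec (((g : ↥(Cfsg.isometryGroup (ZMod 2) (Cfsg.quadFormMinus 1 (ZMod 2) 1 1))) : GL ((Fin 1 ⊕ Fin 1) ⊕ Fin 2) (ZMod 2)) : Matrix ((Fin 1 ⊕ Fin 1) ⊕ Fin 2) ((Fin 1 ⊕ Fin 1) ⊕ Fin 2) (ZMod 2)) v - v) ∧ (∀ f : ↥(Cfsg.Omega (ZMod 2) (Cfsg.quadFormMinus 2 (ZMod 2) 1 1)) → ((Fin 2 ⊕ Fin 2) ⊕ Fin 2 → ZMod 2), (∀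 g h : ↥(Cfsg.Omega (ZMod 2) (Cfsg.quadFormMinus 2 (ZMod 2) 1 1)), f (g * h) = f g + Matrix.mulVec (((g : ↥(Cfsg.isometryGroup (ZMod 2) (Cfsg.quadFormMinus 2 (ZMod 2) 1 1))) : GL ((Fin 2 ⊕ Fin 2) ⊕ Fin 2) (ZMod 2)) : Matrix ((Fin 2 ⊕ Fin 2) ⊕ Fin 2) ((Fin 2 ⊕ Fin 2) ⊕ Fin 2) (ZMod 2)) (f h)) → ∃ v : (Fin 2 ⊕ Fin 2) ⊕ Fin 2 → ZMod 2, ∀ g : ↥(Cfsg.Omega (ZMod 2) (Cfsg.quadFormMinus 2 (ZMod 2) 1 1)), f g = Matrix.mulVec (((g : ↥(Cfsg.isometryGroup (ZMod 2) (Cfsg.quadFormMinus 2 (ZMod 2) 1 1))) : GL ((Fin 2 ⊕ Fin 2) ⊕ Fin 2) (ZMod 2)) : Matrix ((Fin 2 ⊕ Fin 2) ⊕ Fin 2) ((Fin 2 ⊕ Fin 2) ⊕ Fin 2) (ZMod 2)) v - v) ∧ (∀ f : ↥(Cfsg.Omega (ZMod 2) (Cfsg.quadFormPlus 4 (ZMod 2))) → (Fin 4 ⊕ Fin 4 → ZMod 2), (∀ g h : ↥(Cfsg.Omega (ZMod 2) (Cfsg.quadFormPlus 4 (ZMod 2))), f (g * h) = f g + Matrix.mulVec (((g : ↥(Cfsg.isometryGroup (ZMod 2) (Cfsg.quadFormPlus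 4 (ZMod 2)))) : GL (Fin 4 ⊕ Fin 4) (ZMod 2)) : Matrix (Fin 4 ⊕ Fin 4) (Fin 4 ⊕ Fin 4) (ZMod 2)) (f h)) → ∃ v : Fin 4 ⊕ Fin 4 → ZMod 2, ∀ g : ↥(Cfsg.Omega (ZMod 2) (Cfsg.quadFormPlus 4 (ZMod 2))), f g = Matrix.mulVec (((g : ↥(Cfsg.isometryGroup (ZMod 2) (Cfsg.quadFormPlus 4 (ZMod 2)))) : GL (Fin 4 ⊕ Fin 4) (ZMod 2)) : Matrix (Fin 4 ⊕ Fin 4) (Fin 4 ⊕ Fin 4) (ZMod 2)) v - v) := by
  have n1 := H58.qMinus_nondeg 1 H27.zmod2_aniso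
  have n2 := H58.qMinus_nondeg 2 H27.zmod2_aniso
  refine ⟨conv _ (H58.coe_qMinus 1 (ZMod 2) 1 1) fun f hf => coc_main n1 hf (N := 4)
      (vc 1 [3, 5, 8, 4]) (vc 1 [1, 3, 4, 11]) (· - 1) (by decide) ?_ ?_ ?_ (gen_of_ht n1
        (fun h => absurd h.2.2 ?_) _ (ht 1 0x211032001000000) ?_ ?_),
    conv _ (H58.coe_qMinus 2 (ZMod 2) 1 1) fun f hf => coc_main n2 hf (N := 6)
      (vc 2 [5, 11, 18, 10, 7, 32]) (vc 2 [43, 5, 32, 7, 42, 16]) (fun i => if i = 5 then 2 else i - 1)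
      (by decide) ?_ ?_ ?_ (gen_of_ht n2 (not_isExc_of_finrank (by simp)) _
        (ht 2 0x30030022040431596006007705056840200200110303204a0110000000000000) ?_ ?_),
    conv _ (H58.coe_qPlus 4 (ZMod 2)) fun f hf => coc_main H50.Co.nd8 hf (N := 8)
      (fun n => H50.Co.aS ([0, 2, 3, 4, 5, 6, 7, 1].getD n 0))
      (fun n => H50.Co.vec ([48, 17, 19, 204, 8, 68, 23, 185].getD n 0))
      (fun i => if i = 7 then 2 else i - 1) (by decide) (fun _ _ => H50.Co.aS_E8D.q _) ?_ ?_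
      fun H hH => H50.Co.top_of_aS fun i => ?_⟩
  iterate 11 simp only [polar, H58.qMinus_apply]; decide +kernel
  iterate 2 simp only [H50.Co.B8_eq]; decide +kernel
  fin_cases i
  exacts [hH 0 (by decide), hH 7 (by decide), hH 1 (by decide), hH 2 (by decide), hH 3 (by decide),
    hH 4 (by decide), hH 5 (by decide), hH 6 (by decide)]

end Cfsg.Agent.S5405
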