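import Cfsg.Statements.S5408
import Cfsg.Agent.H79.MT2

set_option autoImplicit false
open Cfsg

namespace Cfsg.Agent.S5408

/-- Let G be a finite group of Monster type at the involution z with Q the extraspecial normal subgroup of order 2^25 of C = C_G(z) (so C/Q is identified with the first Conway group with Q modulo its centre the Leech lattice modulo 2, and z is not weakly closed in Q). Then Q is of plus type: it contains an elementary abelian subgroup of order 2^13. -/
theorem result {G : Type*} [Group G] [Finite G] (z : G) (Q : Subgroup (Subgroup.centralizer ({z} : Set G))) [Q.Normal] (hM : Cfsg.IsOfMonsterType z Q) : ∃ E : Subgroup Q, Cfsg.IsElementaryAbelian 2 E ∧ Nat.card E = 2 ^ 13 := by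
  obtain ⟨hset, e, ψ, hψ⟩ := hM
  have h := H79.MT_of hset hψ
  obtain ⟨g, h1, h2⟩ := H79.nwc_of_setting hset
  have hP := h.lx.conj g
  let f : Q →* G := (Subgroup.centralizer ({z} : Set G)).subtype.comp Q.subtype
  have hf : Function.Injective f := Subtype.val_injective.comp Subtype.val_injective
  have hm : ∀ q : Q, f q ∈ Q.map (Subgroup.centralizer ({z} : Set G)).subtype :=
    fun q => ⟨q, q.2, rfl⟩
  refine ⟨((Q.map (Subgroup.centralizer ({z} : Set G)).subtype).map
    (MulAut.conj g).toMonoidHom).comap f, ⟨⟨⟨fun a b => Subtype.ext (hf ?_)⟩⟩, fun a ha => hf ?_⟩, ?_⟩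
  · rw [Subgroup.coe_mul, Subgroup.coe_mul, map_mul, map_mul]
    by_contra hne
    exact h2 (mul_left_cancel (((hP.comm _ a.2 _ b.2).resolve_left hne).symm.trans
      ((h.lx.comm _ (hm a) _ (hm b)).resolve_left hne)))
  · rw [sq, map_mul, map_one]
    by_contra hne
    exact h2 (((hP.sq _ ha).resolve_left hne).symm.trans ((h.lx.sq _ (hm a)).resolve_left hne))
  · rw [← h.card_inter h1 h2, ← Subgroup.card_map_of_injective hf, Subgroup.map_comap_eq]
    have : f.range = Q.map (Subgroup.centralizer ({z} : Set G)).subtype := by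
      ext x
      constructor
      · rintro ⟨q, rfl⟩; exact hm q
      · rintro ⟨q, hq, rfl⟩; exact ⟨⟨q, hq⟩, rfl⟩
    rw [this]

end Cfsg.Agent.S5408
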