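import Cfsg.Statements.S5410
import Cfsg.Agent.H79.MT2

set_option autoImplicit false
open Cfsg

namespace Cfsg.Agent.S5410

theorem key {A : Type*} [Group A] (φ : Cfsg.Spor.Co1 ≃* A) (X E : Subgroup A)
    (hX : X = (H79.NN.map H79.pr1).map φ.toMonoidHom)
    (hE : E = (H79.SG.map H79.pr1).map φ.toMonoidHom) :
    E ≤ X ∧ (∀ x ∈ X, ∀ y ∈ E, x * y * x⁻¹ ∈ E) ∧ Cfsg.IsElementaryAbelian 2 E ∧
      Nat.card E = 2 ^ 11 ∧
      ∃ K : Subgroup A, K ≤ X ∧ E ⊓ K = ⊥ ∧ E ⊔ K = X ∧ Nonempty (K ≃* Cfsg.M24) := by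
  have hc : Nat.card E = 2 ^ 11 := by
    rw [hE, Subgroup.card_map_of_injective φ.injective, H79.card_SG_map]
  rw [Subgroup.map_map] at hX hE
  set f := φ.toMonoidHom.comp H79.pr1 with hf
  have hfe : ∀ a b, f a = f b ↔ a = b ∨ a = H79.negC * b := fun a b => by
    rw [← H79.pr1_eq_iff]; exact φ.injective.eq_iff
  have hneg : ∀ σ c hc, H79.negC * H79.monoC σ c hc =
      H79.monoC σ (symmDiff Finset.univ c) (H79.symmDiff_mem_GC H79.univ_mem_GC hc) := by
    intro σ c hc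
    rw [H79.monoC, H79.monoC, ← mul_assoc, H79.negC, H79.sgnC_mul]
  subst hX hE
  refine ⟨Subgroup.map_mono H79.SG_le_NN, ?_, ⟨⟨⟨?_⟩⟩, ?_⟩, hc, (f.comp H79.permHom).range, ?_, ?_,
    ?_, ⟨(MonoidHom.ofInjective ?_).symm⟩⟩
  · rintro _ ⟨x, hx, rfl⟩ _ ⟨_, ⟨d, hd, rfl⟩, rfl⟩
    rw [← map_inv, ← map_mul, ← map_mul]
    apply Subgroup.mem_map_of_mem
    obtain ⟨σ, c, hc, rfl⟩ := (H79.mem_NN_iff_mono x).1 hx
    have : H79.monoC σ c hc * H79.sgnC d hd * (H79.monoC σ c hc)⁻¹ = H79.sgnC c hc *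
        (H79.permC σ * H79.sgnC d hd * (H79.permC σ)⁻¹) * (H79.sgnC c hc)⁻¹ := by
      rw [H79.monoC]; group
    rw [this, H79.permC_conj_sgnC σ d hd (H79.smul_mem_GC σ hd)]
    exact H79.SG.mul_mem (H79.SG.mul_mem ⟨_, _, rfl⟩ ⟨_, _, rfl⟩) (H79.SG.inv_mem ⟨_, _, rfl⟩)
  · rintro ⟨_, _, ⟨c, hc, rfl⟩, rfl⟩ ⟨_, _, ⟨d, hd, rfl⟩, rfl⟩
    apply Subtype.ext
    simp only [Subgroup.coe_mul, ← map_mul, H79.sgnC_mul, symmDiff_comm]
  · rintro _ ⟨_, ⟨c, hc, rfl⟩, rfl⟩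
    rw [sq, ← map_mul, H79.sgnC_mul_self, map_one]
  · rintro _ ⟨σ, rfl⟩
    exact ⟨_, H79.permC_mem_NN σ, rfl⟩
  · rw [eq_bot_iff]
    rintro _ ⟨⟨_, ⟨c, hc, rfl⟩, e⟩, σ, rfl⟩
    have : σ = 1 := by
      rcases (hfe _ _).1 e with a | a
      · rw [← H79.monoC_one, H79.permHom_apply, ← H79.monoC_empty] at a
        exact (H79.monoC_inj a).1.symm
      · rw [← H79.monoC_one, H79.permHom_apply, ← H79.monoC_empty, hneg] at a
        exact (H79.monoC_inj a).1.symm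
    rw [this, map_one]; exact Subgroup.one_mem _
  · apply le_antisymm
    · refine sup_le (Subgroup.map_mono H79.SG_le_NN) ?_
      rintro _ ⟨σ, rfl⟩
      exact ⟨_, H79.permC_mem_NN σ, rfl⟩
    · rintro _ ⟨x, hx, rfl⟩
      obtain ⟨σ, c, hc, rfl⟩ := (H79.mem_NN_iff_mono x).1 hx
      rw [H79.monoC, map_mul]
      exact Subgroup.mul_mem _ (Subgroup.mem_sup_left ⟨_, ⟨c, hc, rfl⟩, rfl⟩)
        (Subgroup.mem_sup_right ⟨σ, rfl⟩)
  · intro σ τ e
    rcases (hfe _ _).1 e with a | a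
    · rw [H79.permHom_apply, H79.permHom_apply, ← H79.monoC_empty, ← H79.monoC_empty] at a
      exact (H79.monoC_inj a).1
    · rw [H79.permHom_apply, H79.permHom_apply, ← H79.monoC_empty, ← H79.monoC_empty, hneg] at a
      exact (H79.monoC_inj a).1

/-- Let G be a finite group of Monster type at the involution z with Q the extraspecial normal subgroup of order 2^25 of C = C_G(z) (so C/Q is identified with the first Conway group with Q modulo its centre the Leech lattice modulo 2, and z is not weakly closed in Q). Let g in G with s = g z g⁻¹ a member of Q other than z, let X be the image in C/Q of the centralizer of s in C, and let E be the image in C/Q of the intersection of g Q g⁻¹ with C. Then E is a normal subgroup of X, elementary abelian of order 2^11, and it has a complement in X isomorphic to the Mathieu group of degree 24 (the automorphism group of the length-24 binary Golay code). -/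
theorem result {G : Type*} [Group G] [Finite G] (z : G) (Q : Subgroup (Subgroup.centralizer ({z} : Set G))) [Q.Normal] (hM : Cfsg.IsOfMonsterType z Q) (s : G) (hsQ : ∃ hsc : s ∈ Subgroup.centralizer ({z} : Set G), (⟨s, hsc⟩ : Subgroup.centralizer ({z} : Set G)) ∈ Q) (hs : IsConj z s) (hs1 : s ≠ z) (g : G) (hg : g * z * g⁻¹ = s) (X E : Subgroup ((Subgroup.centralizer ({z} : Set G)) ⧸ Q)) (hX : X = ((Subgroup.centralizer ({z} : Set G) ⊓ Subgroup.centralizer ({s} : Set G)).subgroupOf (Subgroup.centralizer ({z} : Set G))).map (QuotientGroup.mk' Q)) (hE : E = (((Q.map (Subgroup.centralizer ({z} : Set G)).subtype).map (MulAut.conj g).toMonoidHom ⊓ Subgroup.centralizer ({z} : Set G)).subgroupOf (Subgroup.centralizer ({z} : Set G))).map (QuotientGroup.mk' Q)) : E ≤ X ∧ (∀ x ∈ X, ∀ y ∈ E, x * y * x⁻¹ ∈ E) ∧ Cfsg.IsElementaryAbelian 2 E ∧ Nat.card E = 2 ^ 11 ∧ ∃ K : Subgroup ((Subgroup.centralizer ({z} : Set G)) ⧸ Q), K ≤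 X ∧ E ⊓ K = ⊥ ∧ E ⊔ K = X ∧ Nonempty (K ≃* Cfsg.M24) := by
  obtain ⟨hset, e, ψ, hψ⟩ := hM
  subst hg
  have h := H79.MT_of hset hψ
  obtain ⟨v, hv, hn⟩ := h.type64_of_conj (H79.mem_map_of_ex hsQ) hs hs1
  obtain ⟨k, hk⟩ := H79.exists_smul_eq_e8 v hn none
  have hv' : H79.clOf ψ (g * z * g⁻¹) (k⁻¹ • H79.e8 none) := by rwa [← hk, inv_smul_smul]
  have h1 := (h.twist k).map_R_eq hv'
  have h2 := (h.twist k).map_cent_eq hv'
  let φ := (e.trans (MulAut.conj (H79.pr1 k))).symm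
  have hφ : φ.toMonoidHom.comp ((MulAut.conj (H79.pr1 k)).toMonoidHom.comp
      (e.toMonoidHom.comp (QuotientGroup.mk' Q))) = QuotientGroup.mk' Q := by
    ext x
    exact (e.trans (MulAut.conj (H79.pr1 k))).symm_apply_apply _
  apply key φ
  · rw [hX, ← h2, Subgroup.map_map, hφ]
  · rw [hE, ← h1, Subgroup.map_map _ φ.toMonoidHom, hφ]

end Cfsg.Agent.S5410
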