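import Cfsg.Statements.S5412
import Cfsg.Agent.H79.MT3
import Cfsg.Agent.S5429

set_option autoImplicit false
open Cfsg

namespace Cfsg.Agent.S5412

open H78 H79 in
theorem key {G : Type*} [Group G] [Finite G] {z : G} {Q : Subgroup G} {ρ : CZ z →* Cfsg.Spor.Co1}
    {cl : G → Cfsg.leechLattice → Prop} (h : MT z Q ρ cl)
    (hF : (Cfsg.generalizedFittingSubgroup (CZ z)).map (CZ z).subtype = Q)
    (nwc : ∃ g : G, g * z * g⁻¹ ∈ Q ∧ g * z * g⁻¹ ≠ z) {t : G} (ht : cl t Cfsg.Spor.leechU)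
    [hn : ((Subgroup.zpowers t).subgroupOf (CZ t)).Normal] :
    Cfsg.IsOfBabyMonsterType (CZ t ⧸ (Subgroup.zpowers t).subgroupOf (CZ t)) := by
  classical
  have hU := sqNorm_leechU
  have htne := h.ne_of_norm ht (by omega) (by omega)
  have htt : t * t = 1 := (h.sq_iff ht).2 (by omega)
  have htQ := h.mem ht
  have hnc := h.not_conj_U ht
  have hnc' := h.not_conj_U (h.cl_mul_z ht)
  have hzt : z * t = t * z := h.xs.z_comm t htQ
  obtain ⟨g, hs⟩ := h.exists_cl_conj nwc (sqNorm_e8 none)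
  have hsne := h.ne_of_norm hs (by rw [sqNorm_e8]; norm_num) (by rw [sqNorm_e8])
  have htP := h.mem_conj_U hs ht
  obtain ⟨hL, x, hx, hxs⟩ := Cfsg.Agent.S5429.result z h.xs.orderOf_z Q h.Q_le hF
    h.xs.isExtraspecial 12 (by norm_num) h.card g (h.mem hs)
    (by rw [h.xs.mem_center_iff, not_or]; exact hsne) t (orderOf_eq_two htne.1 htt) ⟨htQ, htP⟩ hnc
    (Q ⊓ CZ t) rfl (fun c hc => ⟨h.faithful_perp ht ⟨c, hc⟩, fun hq x hx => by
      rcases h.xs.conj_eq_or hx.1 hq with a | a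
      · exact ⟨1, Subgroup.one_mem _, by rw [a, mul_one]⟩
      · exact ⟨z, Subgroup.subset_closure (by simp), a⟩⟩)
  have hxD : x ∈ CZ t := (sup_le inf_le_right inf_le_right : _ ≤ CZ t) hx
  set π := QuotientGroup.mk' ((Subgroup.zpowers t).subgroupOf (CZ t)) with hπ
  have heq : ∀ y y' : CZ t, π y = π y' ↔ (y : G) = y' ∨ (y : G) = y' * t := fun y y' => by
    rw [eq_comm, QuotientGroup.mk'_apply, QuotientGroup.mk'_apply, QuotientGroup.eq,
      Subgroup.mem_subgroupOf, mem_zpowers_invol htt]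
    simp only [Subgroup.coe_mul, Subgroup.coe_inv, inv_mul_eq_iff_eq_mul, mul_one]
  have hzD : z ∈ CZ t := mem_CZ.2 hzt
  set R := ((Q ⊓ CZ t).subgroupOf (CZ t)).map π with hR
  set y := π ⟨z, hzD⟩ with hy
  have hLX : LX R y := by
    refine LX_of_large hL ⟨_, ⟨h.xs.z_mem, hzD⟩, rfl⟩ ?_ ?_
    · rw [← map_one π, Ne, heq]
      rintro (a | a)
      · exact h.xs.z_ne a
      · exact htne.2 (by simpa using a.symm)
    · rintro _ ⟨r, hr, rfl⟩
      rw [← map_mul, ← map_mul, heq]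
      exact Or.inl (h.xs.z_comm r hr.1)
  have hcard : Nat.card R = 2 ^ (2 * 11 + 1) := by
    have h1 := card_map_mul_card_inf_ker π ((Q ⊓ CZ t).subgroupOf (CZ t))
    rw [QuotientGroup.ker_mk', inf_eq_right.2 (Subgroup.subgroupOf_mono _ (by
      rw [Subgroup.zpowers_le]; exact ⟨htQ, mem_CZ.2 rfl⟩)),
      ← card_map_subtype ((Subgroup.zpowers t).subgroupOf (CZ t)),
      ← card_map_subtype ((Q ⊓ CZ t).subgroupOf (CZ t)),
      Subgroup.map_subgroupOf_eq_of_le inf_le_right, Subgroup.map_subgroupOf_eq_of_le (by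
        rw [Subgroup.zpowers_le]; exact mem_CZ.2 rfl), Nat.card_zpowers,
      orderOf_eq_two htne.1 htt, h.card_cent htQ htne.1 htne.2, ← hR] at h1
    omega
  let K : Subgroup G := CZ z ⊓ CZ t
  let φ : K →* CZ y := (π.comp (Subgroup.inclusion inf_le_right)).codRestrict _ (fun k => by
    rw [mem_CZ, MonoidHom.comp_apply, ← map_mul, ← map_mul, heq]
    exact Or.inl (mem_CZ.1 k.2.1))
  have hφ : ∀ k : K, (φ k : _ ⧸ _) = π ⟨k, k.2.2⟩ := fun _ => rfl
  have hφs : Function.Surjective φ := by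
    rintro ⟨d, hd⟩
    obtain ⟨d, rfl⟩ := QuotientGroup.mk'_surjective _ d
    have hd' := hd
    rw [mem_CZ, ← map_mul, ← map_mul, heq] at hd'
    refine ⟨⟨d, mem_CZ.2 (hd'.resolve_right fun a => hnc' (isConj_iff.2 ⟨d, ?_⟩)), d.2⟩, rfl⟩
    change (d : G) * z = z * d * t at a
    rw [a, mul_assoc z, mem_CZ.1 d.2, ← hzt]; group
  obtain ⟨θ0, hθ0⟩ := exists_lift_hom _ (pr1_inj_stab (v := Cfsg.Spor.leechU) (by
    intro a; rw [a] at hU; simp [Cfsg.sqNorm] at hU))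
    (ρ.comp (Subgroup.inclusion (inf_le_left : K ≤ CZ z))) (fun k => by
      obtain ⟨n, hn⟩ := pr1_surj (ρ ⟨k, k.2.1⟩)
      obtain ⟨n', e1, e2⟩ := exists_fix_of_cg (by omega) (h.cg_of_comm ht hn (mem_CZ.1 k.2.2))
      exact ⟨⟨n', e2⟩, e1.trans hn⟩)
  replace hθ0 : ∀ k : K, pr1 (θ0 k) = ρ ⟨k, k.2.1⟩ := hθ0
  have hθ1 : ∀ k : K, θ0 k = 1 ↔ (k : G) ∈ Q := fun k => by
    rw [← h.ker ⟨k, k.2.1⟩, ← hθ0]
    exact (map_eq_one_iff _ (pr1_inj_stab (v := Cfsg.Spor.leechU) (by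
      intro a; rw [a] at hU; simp [Cfsg.sqNorm] at hU))).symm
  obtain ⟨θ, hθ⟩ := exists_desc_hom φ hφs (co2Equiv.toMonoidHom.comp θ0) (fun k hk => by
    have := congrArg Subtype.val hk
    rw [hφ, OneMemClass.coe_one, ← map_one π, heq] at this
    rw [MonoidHom.comp_apply, (hθ1 k).2, map_one]
    rcases this with a | a
    · rw [show (k : G) = 1 from a]; exact Q.one_mem
    · rw [show (k : G) = 1 * t from a, one_mul]; exact htQ)
  have hθs : Function.Surjective θ := by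
    intro n
    obtain ⟨n, rfl⟩ := co2Equiv.surjective n
    obtain ⟨c, hc, e⟩ := h.conj_of_smul n ht (by rw [show (n : Cfsg.Co0) • _ = _ from n.2]; exact ht)
      htne.1 htne.2
    refine ⟨φ ⟨c, c.2, mem_CZ.2 (mul_inv_eq_iff_eq_mul.1 e)⟩, ?_⟩
    rw [hθ, MonoidHom.comp_apply]
    refine congrArg co2Equiv ?_
    apply pr1_inj_stab (v := Cfsg.Spor.leechU) (by intro a; rw [a] at hU; simp [Cfsg.sqNorm] at hU)
    exact (hθ0 _).trans hc
  have hmemR : ∀ k : K, φ k ∈ R.subgroupOf (CZ y) ↔ (k : G) ∈ Q := by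
    intro k
    constructor
    · rintro ⟨r, hr, e⟩
      rcases (heq _ _).1 (e.symm : π ⟨k, k.2.2⟩ = π r) with a | a
      · rw [show (k : G) = r from a]; exact hr.1
      · rw [show (k : G) = r * t from a]; exact Q.mul_mem hr.1 htQ
    · intro a
      exact ⟨⟨k, k.2.2⟩, ⟨a, k.2.2⟩, rfl⟩
  have hker : ∀ c, θ c = 1 ↔ c ∈ R.subgroupOf (CZ y) := by
    intro c
    obtain ⟨k, rfl⟩ := hφs c
    rw [hθ, hmemR, ← hθ1]
    exact map_eq_one_iff _ co2Equiv.injective
  have hN := LX_normal hLX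
  obtain ⟨e, he⟩ := exists_quot_equiv θ hθs _ hker
  have hsD : g * z * g⁻¹ ∈ CZ t := mem_CZ.2 ((h.lx.conj g).z_comm t htP)
  have hset : Cfsg.IsExtraspecialCentralizerSetting y (R.subgroupOf (CZ y)) 11 := by
    refine setting_of_LX hLX hcard (fun N hN h2 c hc =>
      (hker c).1 (le_of_O2_quot θ hθs O2_Co2 N hN h2 hc)) ⟨π ⟨x, hxD⟩⁻¹, ?_⟩
    have : π ⟨x, hxD⟩⁻¹ * y * (π ⟨x, hxD⟩⁻¹)⁻¹ = π ⟨_, hsD⟩ := by
      rw [← map_inv, ← map_mul, ← map_mul, heq]
      left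
      change x⁻¹ * z * x⁻¹⁻¹ = g * z * g⁻¹
      nth_rewrite 1 [← hxs]; group
    rw [this]
    refine ⟨⟨_, ⟨h.mem hs, hsD⟩, rfl⟩, ?_⟩
    rw [Ne, heq]
    rintro (a | a)
    · exact hsne.2 a
    · apply hnc'
      rw [← hzt, ← show g * z * g⁻¹ = z * t from a]
      exact isConj_iff.2 ⟨g, rfl⟩
  -- the module isomorphism
  let P : Subgroup G := Q ⊓ CZ t
  have hPK : P ≤ K := inf_le_inf_right _ h.Q_le
  let m0 : P →* R.subgroupOf (CZ y) := (φ.comp (Subgroup.inclusion hPK)).codRestrict _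
    (fun p => (hmemR _).2 p.2.1)
  let m := (QuotientGroup.mk' (Subgroup.center (R.subgroupOf (CZ y)))).comp m0
  have hm0s : Function.Surjective m0 := by
    rintro ⟨c, hc⟩
    obtain ⟨k, rfl⟩ := hφs c
    exact ⟨⟨k, (hmemR k).1 hc, k.2.2⟩, rfl⟩
  have hm1 : ∀ p : P, m p = 1 ↔ ((p : G) = 1 ∨ (p : G) = z) ∨ ((p : G) = t ∨ (p : G) = t * z) := by
    intro p
    have hLX' : LX ((R.subgroupOf (CZ y)).map (CZ y).subtype) y := by
      rwa [Subgroup.map_subgroupOf_eq_of_le (LX_le hLX)]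
    rw [MonoidHom.comp_apply, QuotientGroup.mk'_apply, QuotientGroup.eq_one_iff,
      mem_center_iff_of_LX hLX']
    change π ⟨p, p.2.2⟩ = 1 ∨ π ⟨p, p.2.2⟩ = π _ ↔ _
    rw [← map_one π, heq, heq]
    simp only [OneMemClass.coe_one, one_mul, hzt]
    tauto
  have hm2 : ∀ (p : P) v, cl p v → (m p = 1 ↔ (∃ w, v = w + w) ∨
      ∃ w, v = Cfsg.Spor.leechU + (w + w)) := by
    intro p v hp
    rw [hm1, h.triv hp, h.eq_iff hp ht]
    simp only [Cg, sub_eq_iff_eq_add']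
  choose l hl using h.ex_x
  have hlP : ∀ v : Cfsg.leechPerpU, l v ∈ P := fun v =>
    ⟨h.mem (hl v), mem_CZ.2 ((h.comm_iff (hl v) ht).2 v.2)⟩
  have hm3 : ∀ (p : P) (v : Cfsg.leechPerpU), cl p v → m ⟨l v, hlP v⟩ = m p := by
    intro p v hp
    rw [← inv_mul_eq_one, ← map_inv, ← map_mul, hm2 _ _ (h.mul (h.cl_inv (hl v)) hp)]
    exact Or.inl ⟨_, rfl⟩
  refine ⟨y, R.subgroupOf (CZ y), hN, hset, e, fun v => m ⟨l v, hlP v⟩, ?_, ?_, ?_, ?_⟩
  · intro v w
    rw [← map_mul]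
    exact hm3 _ _ (h.mul (hl v) (hl w))
  · intro q
    obtain ⟨q, rfl⟩ := QuotientGroup.mk_surjective q
    obtain ⟨p, rfl⟩ := hm0s q
    obtain ⟨v, hv⟩ := h.ex_v p p.2.1
    exact ⟨⟨v, (h.comm_iff hv ht).1 (mem_CZ.1 p.2.2)⟩, hm3 p _ hv⟩
  · intro v
    exact hm2 _ _ (hl v)
  · intro c n hcn v w hvw q hq
    obtain ⟨k, rfl⟩ := hφs c
    obtain ⟨p, rfl⟩ := hm0s q
    rw [he, hθ] at hcn
    subst hcn
    have hconj : ∀ p : P, (k : G) * p * (k : G)⁻¹ ∈ P := fun p =>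
      ⟨h.lx.norm k (mem_CZ.1 k.2.1) p p.2.1,
        (CZ t).mul_mem ((CZ t).mul_mem k.2.2 p.2.2) ((CZ t).inv_mem k.2.2)⟩
    have h1 := h.act ⟨k, k.2.1⟩ (θ0 k) (hθ0 k) (hl v)
    have h2 : ((θ0 k : MulAction.stabilizer Cfsg.Co0 Cfsg.Spor.leechU) : Cfsg.Co0) •
      (v : Cfsg.leechLattice) = w := hvw
    rw [h2] at h1
    refine (hm3 ⟨_, hconj ⟨l v, hlP v⟩⟩ w h1).trans (?_ : _ = m ⟨_, hconj p⟩)
    have h3 : m (⟨l v, hlP v⟩⁻¹ * p) = 1 := by
      rw [map_mul, map_inv, inv_mul_eq_one]; exact hq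
    rw [← inv_mul_eq_one, ← map_inv, ← map_mul, hm1]
    rw [hm1] at h3
    have h4 : (((⟨_, hconj ⟨l v, hlP v⟩⟩ : P)⁻¹ * ⟨_, hconj p⟩ : P) : G) =
        k * ((⟨l v, hlP v⟩⁻¹ * p : P) : G) * (k : G)⁻¹ := by
      simp only [Subgroup.coe_mul, Subgroup.coe_inv]; group
    have a1 := mem_CZ.1 k.2.1
    have a2 := mem_CZ.1 k.2.2
    rw [h4]
    rcases h3 with (a | a) | (a | a) <;> rw [a]
    · simp
    · left; right; rw [a1]; group
    · right; left; rw [a2]; group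
    · right; right; rw [← mul_assoc, a2, mul_assoc t, a1]; group

/-- Let G be a finite group of Monster type at the involution z with Q the extraspecial normal subgroup of order 2^25 of C = C_G(z) (so C/Q is identified with the first Conway group with Q modulo its centre the Leech lattice modulo 2, and z is not weakly closed in Q). Let t be an involution of Q not conjugate to z in G. Then the centralizer of t modulo the subgroup generated by t is a group of Baby Monster type (an involution whose centralizer D has generalized Fitting subgroup R extraspecial of order 2^23 with D/R identified with the second Conway group acting on R modulo its centre as on the vectors of the Leech lattice modulo 2 orthogonal to a short vector, modulo that vector; the involution not weakly closed in R). -/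
theorem result {G : Type*} [Group G] [Finite G] (z : G) (Q : Subgroup (Subgroup.centralizer ({z} : Set G))) [Q.Normal] (hM : Cfsg.IsOfMonsterType z Q) (t : G) (htQ : ∃ htc : t ∈ Subgroup.centralizer ({z} : Set G), (⟨t, htc⟩ : Subgroup.centralizer ({z} : Set G)) ∈ Q) (ht2 : orderOf t = 2) (ht : ¬ IsConj z t) [hn : ((Subgroup.zpowers t).subgroupOf (Subgroup.centralizer ({t} : Set G))).Normal] : Cfsg.IsOfBabyMonsterType (↥(Subgroup.centralizer ({t} : Set G)) ⧸ (Subgroup.zpowers t).subgroupOf (Subgroup.centralizer ({t} : Set G))) := by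
  obtain ⟨hset, e, ψ, hψ⟩ := hM
  have h := H79.MT_of hset hψ
  obtain ⟨v, hv, hn⟩ := h.type32_of_not_conj (H79.nwc_of_setting hset) (H79.mem_map_of_ex htQ)
    ht2 ht
  obtain ⟨k, hk⟩ := H79.trans32 v _ hn H79.sqNorm_leechU
  exact key (h.twist k) (by rw [hset.2.1]) (H79.nwc_of_setting hset) (by rwa [← hk, inv_smul_smul])

end Cfsg.Agent.S5412
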