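import Cfsg.Statements.S5420
import Cfsg.Agent.H78.Large

set_option autoImplicit false
open Cfsg

namespace Cfsg.Agent.S5420

open H78

/-- Let Q be an extraspecial 2-subgroup of the finite group G whose centralizer in G is its centre Z and which is normal in the centralizer of Z. If Z lies in the largest normal 2-subgroup of G, then Q is a large extraspecial 2-subgroup of G: it normalizes no non-trivial subgroup of G of odd order. -/
theorem result {G : Type*} [Group G] [Finite G] (Q : Subgroup G) (hL1 : Cfsg.IsExtraspecial 2 ↥Q) (hL2 : Subgroup.centralizer (Q : Set G) = ((Subgroup.center ↥Q).map Q.subtype)) (hL3 : Subgroup.centralizer (((Subgroup.center ↥Q).map Q.subtype) : Set G) ≤ Subgroup.normalizer (Q : Set G)) (hZ : ((Subgroup.center ↥Q).map Q.subtype) ≤ Cfsg.pCore 2 G) : Cfsg.IsLargeExtraspecial Q := by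
  have : Fact (Nat.Prime 2) := ⟨Nat.prime_two⟩
  obtain ⟨z, h0⟩ := exists_XS hL1
  have h := LX_of_XS h0 hL2 hL3
  apply h.isLarge
  intro K hK hQK
  rw [eq_bot_iff]
  intro k hk
  apply h.eq_one_of_odd hK hQK hk
  have hz : z ∈ pCore 2 G := hZ ((h0.mem_center_iff z).2 (Or.inr rfl))
  have h1 : k * z * k⁻¹ * z⁻¹ ∈ pCore 2 G :=
    Subgroup.mul_mem _ ((pCore_normal 2 G).conj_mem z hz k) (Subgroup.inv_mem _ hz)
  have h2 : k * z * k⁻¹ * z⁻¹ ∈ K := by
    have := K.mul_mem hk (conj_mem_of_mem_normalizer (hQK h.z_mem) (K.inv_mem hk))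
    convert this using 1; group
  have := eq_one_of_isPGroup_of_odd isPGroup_pCore hK h1 h2
  calc k * z = (k * z * k⁻¹ * z⁻¹) * (z * k) := by group
    _ = _ := by rw [this, one_mul]

end Cfsg.Agent.S5420
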