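import Cfsg.Statements.S5422
import Cfsg.Agent.H78.Pair2

set_option autoImplicit false
open Cfsg

namespace Cfsg.Agent.S5422

open H78

/-- Let Q be an extraspecial 2-subgroup of the finite group G whose centralizer in G is its centre Z and which is normal in the centralizer of Z; suppose Q has width at least 2 (order 2^(2w+1) with w ≥ 2) and g is an element of G not normalizing Z with g Z g⁻¹ inside Q. Then Z lies inside g Q g⁻¹; writing V for the subgroup generated by Z and g Z g⁻¹ (a four-group), the normalizer of V induces on V its full automorphism group, that is, the centralizer of V has index 6 in the normalizer of V; and Q is a large extraspecial 2-subgroup of G. -/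
theorem result {G : Type*} [Group G] [Finite G] (Q : Subgroup G) (hL1 : Cfsg.IsExtraspecial 2 ↥Q) (hL2 : Subgroup.centralizer (Q : Set G) = ((Subgroup.center ↥Q).map Q.subtype)) (hL3 : Subgroup.centralizer (((Subgroup.center ↥Q).map Q.subtype) : Set G) ≤ Subgroup.normalizer (Q : Set G)) (w : ℕ) (hw : 2 ≤ w) (hcard : Nat.card ↥Q = 2 ^ (2 * w + 1)) (g : G) (hg : g ∉ Subgroup.normalizer (((Subgroup.center ↥Q).map Q.subtype) : Set G)) (hZg : (((Subgroup.center ↥Q).map Q.subtype)).map (MulAut.conj g).toMonoidHom ≤ Q) : ((Subgroup.center ↥Q).map Q.subtype) ≤ (Q).map (MulAut.conj g).toMonoidHom ∧ (Subgroup.centralizer ((((Subgroup.center ↥Q).map Q.subtype) ⊔ (((Subgroup.center ↥Q).map Q.subtype)).map (MulAut.conj g).toMonoidHom : Subgroup G) : Set G)).relIndex (Subgroup.normalizer ((((Subgroup.center ↥Q).map Q.subtype) ⊔ (((Subgroup.center ↥Q).map Q.subtype)).map (MulAut.conj g).toMonoidHom : Subgroup G) : Set G)) = 6 ∧ Cfsg.IsLargeExtraspecial Q := by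
  obtain ⟨z, h0⟩ := exists_XS hL1
  have h := LX_of_XS h0 hL2 hL3
  have h8 : 8 < Nat.card Q := by
    rw [hcard]
    calc 8 < 2 ^ 5 := by norm_num
      _ ≤ _ := Nat.pow_le_pow_right (by norm_num) (by omega)
  rw [h0.center_eq] at hg hZg ⊢
  rw [MonoidHom.map_zpowers] at hZg ⊢
  have hs : g * z * g⁻¹ ∈ Q := hZg (Subgroup.mem_zpowers _)
  have hne : g * z * g⁻¹ ≠ z := by
    intro h1
    apply hg
    apply Subgroup.centralizer_le_normalizer
    exact (mem_centralizer_zpowers_iff z g).2 (mul_inv_eq_iff_eq_mul.1 h1)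
  have hz := h.symm h8 hs
  have hp := h.pair hs hz hne
  refine ⟨(Subgroup.zpowers_le).2 hz, ?_, ?_⟩
  · have := hp.relIndex_eq
    rw [Set.insert_eq, Subgroup.closure_union, ← Subgroup.zpowers_eq_closure,
      ← Subgroup.zpowers_eq_closure] at this
    exact this
  · apply h.isLarge
    intro K hK hQK
    apply h.odd_eq_bot_of_invol hs hp.hP.z_ne hne hp.hP.z_sq hK hQK
    intro k hk hks
    apply h.eq_one_of_odd hK hQK hk
    have h1 := Subgroup.mul_mem _ (hp.hP.norm k hks z hz) (Subgroup.inv_mem _ hz)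
    have h2 : k * z * k⁻¹ * z⁻¹ ∈ K := by
      have := K.mul_mem hk (conj_mem_of_mem_normalizer (hQK h.z_mem) (K.inv_mem hk))
      convert this using 1; group
    have := eq_one_of_isPGroup_of_odd hp.hP.toXS.isPGroup hK h1 h2
    calc k * z = (k * z * k⁻¹ * z⁻¹) * (z * k) := by group
      _ = _ := by rw [this, one_mul]

end Cfsg.Agent.S5422
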