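import Cfsg.Statements.S5423
import Cfsg.Agent.H78.Hol

set_option autoImplicit false
open Cfsg

namespace Cfsg.Agent.S5423

open H78

/-- Let G be a finite group that is the split extension of an elementary abelian normal subgroup U of order 2^(n+1), n ≥ 1, by its full automorphism group: U has a complement M in G whose conjugation action on U is faithful and realizes every automorphism of U. Let Z be a subgroup of U of order 2 and Q the largest normal 2-subgroup of the centralizer C of Z. Then Q is extraspecial of order 2^(2n+1) with an elementary abelian subgroup of order 2^(n+1) (plus type), Q is a large extraspecial 2-subgroup of G, and C is the split extension of Q by the general linear group of degree n over the field with two elements. -/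
theorem result {G : Type*} [Group G] [Finite G] (n : ℕ) (hn : 1 ≤ n) (U M : Subgroup G) [U.Normal] (hU : Cfsg.IsElementaryAbelian 2 U) (hUcard : Nat.card ↥U = 2 ^ (n + 1)) (hUM : U ⊓ M = ⊥) (hUM' : U ⊔ M = ⊤) (hfaith : ∀ m ∈ M, (∀ u ∈ U, m * u * m⁻¹ = u) → m = 1) (hfull : ∀ φ : ↥U ≃* ↥U, ∃ m ∈ M, ∀ u : ↥U, ((φ u : ↥U) : G) = m * u * m⁻¹) (Z : Subgroup G) (hZU : Z ≤ U) (hZ : Nat.card ↥Z = 2) (Q : Subgroup G) (hQ : Q = (Cfsg.pCore 2 ↥(Subgroup.centralizer (Z : Set G))).map (Subgroup.centralizer (Z : Set G)).subtype) : Cfsg.IsExtraspecial 2 ↥Q ∧ Nat.card ↥Q = 2 ^ (2 * n + 1) ∧ (∃ E : Subgroup G, E ≤ Q ∧ Cfsg.IsElementaryAbelian 2 E ∧ Nat.card ↥E = 2 ^ (n + 1)) ∧ Cfsg.IsLargeExtraspecial Q ∧ ∃ K : Subgroup G, K ≤ Subgroup.centralizer (Z : Set G) ∧ Q ⊓ K = ⊥ ∧ Q ⊔ K = Subgroup.centralizer (Z : Set G) ∧ Nonempty (↥K ≃* Matrix.GeneralLinearGroup (Fin n) (ZMod 2)) := by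
  have : Fact (Nat.Prime 2) := ⟨Nat.prime_two⟩
  have hsq : ∀ u ∈ U, u * u = 1 := fun u hu => by simpa [pow_two] using hU.2 u hu
  have h : Hol U M := ⟨hsq, fun m _ u hu => ‹U.Normal›.conj_mem u hu m, hfaith, hfull⟩
  obtain ⟨⟨z, hzZ⟩, hz, hz'⟩ := (Nat.card_eq_two_iff' (1 : Z)).1 hZ
  have hz1 : z ≠ 1 := fun h1 => hz (Subtype.ext h1)
  have hZ' : Z = Subgroup.zpowers z := by
    refine le_antisymm (fun x hx => (mem_zpowers_invol (hsq z (hZU hzZ)) x).2 ?_)
      ((Subgroup.zpowers_le).2 hzZ)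
    by_cases h1 : x = 1
    · exact Or.inl h1
    · exact Or.inr (congrArg Subtype.val (hz' ⟨x, hx⟩ fun h2 => h1 (congrArg Subtype.val h2)))
  have hC : Subgroup.centralizer (Z : Set G) = Subgroup.centralizer {z} := by
    ext c
    rw [hZ', mem_centralizer_zpowers_iff, Subgroup.mem_centralizer_singleton_iff]
  rw [hC] at hQ ⊢
  obtain ⟨h1, h2, h3, h4⟩ := h.struct (z := z) (fun c _ => by
    have : c ∈ U ⊔ M := hUM' ▸ Subgroup.mem_top c
    obtain ⟨u, hu, m, hm, h1⟩ := Subgroup.mem_sup_of_normal_left.1 this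
    exact ⟨u, hu, m, hm, h1.symm⟩) (hZU hzZ) hz1 hn hUcard
  subst hQ
  refine ⟨h1.toXS.isExtraspecial, h3, ⟨U, h2, hU, hUcard⟩, h1.isLarge fun K hK hQK => ?_, h4⟩
  rw [eq_bot_iff]
  intro k hk
  apply h1.eq_one_of_odd hK hQK hk
  have h5 : k * z * k⁻¹ * z⁻¹ ∈ U :=
    U.mul_mem (‹U.Normal›.conj_mem z (hZU hzZ) k) (U.inv_mem (hZU hzZ))
  have h6 : k * z * k⁻¹ * z⁻¹ ∈ K := by
    have := K.mul_mem hk (conj_mem_of_mem_normalizer (hQK h1.z_mem) (K.inv_mem hk))
    convert this using 1; group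
  have := eq_one_of_isPGroup_of_odd h1.toXS.isPGroup hK (h2 h5) h6
  calc k * z = (k * z * k⁻¹ * z⁻¹) * (z * k) := by group
    _ = _ := by rw [this, one_mul]

end Cfsg.Agent.S5423
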