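import Cfsg.Statements.S5427
import Cfsg.Agent.H78.Simple

set_option autoImplicit false
open Cfsg

namespace Cfsg.Agent.S5427

open H78

/-- Let z be an involution of the finite group G whose centralizer C has generalized Fitting subgroup Q, an extraspecial 2-group of width at least 2 (order 2^(2w+1), w ≥ 2). Let K be a subgroup of G such that the subgroup U generated by the K-conjugates of z is abelian and C is generated by the C-conjugates of U. Suppose that either some K-conjugate of z other than z lies in Q, or some element u of U ∩ Q outside the subgroup generated by z has z in the largest normal 2-subgroup of its centralizer. Then G is simple and Q is a large extraspecial 2-subgroup of G. -/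
theorem result {G : Type*} [Group G] [Finite G] (z : G) (hz : orderOf z = 2) (Q : Subgroup G) (hQC : Q ≤ Subgroup.centralizer ({z} : Set G)) (hF : (Cfsg.generalizedFittingSubgroup ↥(Subgroup.centralizer ({z} : Set G))).map (Subgroup.centralizer ({z} : Set G)).subtype = Q) (hQ : Cfsg.IsExtraspecial 2 ↥Q) (w : ℕ) (hw : 2 ≤ w) (hcard : Nat.card ↥Q = 2 ^ (2 * w + 1)) (K U : Subgroup G) (hU : U = Subgroup.closure {x : G | ∃ k ∈ K, x = k * z * k⁻¹}) (hUab : IsMulCommutative ↥U) (hgen : Subgroup.closure {x : G | ∃ c ∈ Subgroup.centralizer ({z} : Set G), ∃ u ∈ U, x = c * u * c⁻¹} = Subgroup.centralizer ({z} : Set G)) (h3 : (∃ k ∈ K, k * z * k⁻¹ ∈ Q ∧ k * z * k⁻¹ ≠ z) ∨ ∃ u ∈ U ⊓ Q, u ∉ Subgroup.zpowers z ∧ (∃ hz' : z ∈ Subgroup.centralizer ({u} : Set G), (⟨z, hz'⟩ : ↥(Subgroup.centralizer ({u} : Set G))) ∈ Cfsg.pCore 2 ↥(Subgroup.centralizer ({u} : Set G)))) : IsSimpleGroup G ∧ Cfsg.IsLargeExtraspecial Q := by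
  have h := LX_of_fstar (ne_one_of_orderOf_two hz) hF hQ
  have h0 := h.toXS
  have hL : IsLargeExtraspecial Q := by
    rcases h3 with ⟨k, -, h1, h2⟩ | ⟨u, hu, h1, hz', h2⟩
    · exact h.isLarge_of_conj (eight_lt_of_card hw hcard) h1 h2
    · rw [mem_zpowers_invol h0.z_sq, not_or] at h1
      refine h.isLarge_of_mem_O2C hu.2 h1.1 h1.2 ?_ ⟨_, h2, rfl⟩
      have h4 : ∀ x ∈ Subgroup.closure {x : G | ∃ k ∈ K, x = k * z * k⁻¹}, x * x = 1 := by
        intro x hx
        induction hx using Subgroup.closure_induction with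
        | mem x hx =>
          obtain ⟨k, -, rfl⟩ := hx
          exact (h.conj k).z_sq
        | one => simp
        | mul x y hx hy ihx ihy =>
          have : x * y = y * x :=
            congrArg Subtype.val (hUab.is_comm.comm ⟨x, hU ▸ hx⟩ ⟨y, hU ▸ hy⟩)
          rw [mul_assoc, ← mul_assoc y, ← this, mul_assoc, ihy, mul_one, ihx]
        | inv x _ ih => rw [← mul_inv_rev, ih, inv_one]
      exact h4 u (hU ▸ hu.1)
  refine ⟨h.isSimpleGroup hL (eq_O2C_of_fstar hF h0.isPGroup) ?_, hL⟩
  have hUM : U ≤ Subgroup.normalClosure ({z} : Set G) := by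
    rw [hU, Subgroup.closure_le]
    rintro _ ⟨k, -, rfl⟩
    exact (Subgroup.normalClosure_normal (s := ({z} : Set G))).conj_mem z
      (Subgroup.subset_normalClosure (Set.mem_singleton z)) k
  refine hgen.symm.le.trans ((Subgroup.closure_le _).2 ?_)
  rintro _ ⟨c, -, u, hu, rfl⟩
  exact Subgroup.normalClosure_normal.conj_mem _ (hUM hu) c

end Cfsg.Agent.S5427
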