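import Cfsg.Statements.S5428
import Cfsg.Agent.H78.FStarX

set_option autoImplicit false
open Cfsg

namespace Cfsg.Agent.S5428

open H78

/-- Let z be an involution of the finite group G whose centralizer C has generalized Fitting subgroup Q extraspecial (as a 2-group), let A be a subgroup of C of odd order, and let R be the centralizer of A in Q; suppose R has order at least 32, the largest normal subgroup of odd order of the centralizer of the subgroup generated by A and R lies in A, the order of that centralizer is not divisible by 4, and g is an element of G with g z g⁻¹ in R but outside the centre Z of Q. Let M be the subgroup generated by A and the centralizer of A (A is normal in it). Then: the centralizer in M of the subgroup generated by R and A, joined with A, equals the subgroup generated by A and Z; the image of R in M/A is a large extraspecial 2-subgroup of M/A; and g z g⁻¹ is conjugate to z inside the subgroup generated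 by R and the centralizer of A in g Q g⁻¹. -/
theorem result {G : Type*} [Group G] [Finite G] (z : G) (hz : orderOf z = 2) (Q : Subgroup G) (hQC : Q ≤ Subgroup.centralizer ({z} : Set G)) (hF : (Cfsg.generalizedFittingSubgroup ↥(Subgroup.centralizer ({z} : Set G))).map (Subgroup.centralizer ({z} : Set G)).subtype = Q) (hQ : Cfsg.IsExtraspecial 2 ↥Q) (A : Subgroup G) (hA : A ≤ Subgroup.centralizer ({z} : Set G)) (hAodd : Odd (Nat.card ↥A)) (R : Subgroup G) (hR : R = Q ⊓ Subgroup.centralizer (A : Set G)) (hR32 : 32 ≤ Nat.card ↥R) (hO : (Cfsg.oddCore ↥(Subgroup.centralizer ((A ⊔ R : Subgroup G) : Set G))).map (Subgroup.centralizer ((A ⊔ R : Subgroup G) : Set G)).subtype ≤ A) (h4 : ¬ 4 ∣ Nat.card ↥(Subgroup.centralizer ((A ⊔ R : Subgroup G) : Set G))) (g : G) (hgR : g * z * g⁻¹ ∈ R) (hgZ : g * z * g⁻¹ ∉ ((Subgroup.center ↥Q).map Q.subtype)) (M : Subgroup G) (hM : M = Subgroup.centralizer (A : Set G) ⊔ A) [hn : (A.subgroupOf M).Normal] :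 (M ⊓ Subgroup.centralizer ((R ⊔ A : Subgroup G) : Set G)) ⊔ A = A ⊔ ((Subgroup.center ↥Q).map Q.subtype) ∧ Cfsg.IsLargeExtraspecial ((R.subgroupOf M).map (QuotientGroup.mk' (A.subgroupOf M))) ∧ ∃ x ∈ R ⊔ ((Q).map (MulAut.conj g).toMonoidHom ⊓ Subgroup.centralizer (A : Set G)), x * (g * z * g⁻¹) * x⁻¹ = z := by
  have h := LX_of_fstar (ne_one_of_orderOf_two hz) hF hQ
  have h0 := h.toXS
  have hP := h.conj g
  rw [h0.mem_center_iff, not_or] at hgZ
  have hAz : ∀ a ∈ A, a * z = z * a := fun a ha => Subgroup.mem_centralizer_singleton_iff.1 (hA ha)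
  have hAQ : A ≤ Subgroup.normalizer (Q : Set G) := fun a ha =>
    mem_normalizer_of_conj_mem (h.norm a (hAz a ha))
  have hRX : XS R z := hR ▸ h0.cent_odd hAQ hAodd ⟨_, hR ▸ hgR, hgZ.1, hgZ.2⟩
  have hRQ : R ≤ Q := hR ▸ inf_le_left
  have hRA : R ≤ Subgroup.centralizer (A : Set G) := hR ▸ inf_le_right
  have h8 : 8 < Nat.card Q := lt_of_lt_of_le (by omega) (Subgroup.card_le_of_le hRQ)
  have hzP := h.symm h8 (hRQ hgR)
  have hAP : A ≤ Subgroup.normalizer (Q.map (MulAut.conj g).toMonoidHom : Set G) := fun a ha =>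
    mem_normalizer_of_conj_mem (hP.norm a (hRA hgR a ha))
  have hPX := hP.toXS.cent_odd hAP hAodd ⟨z, ⟨hzP, hRA hRX.z_mem⟩, h0.z_ne, Ne.symm hgZ.2⟩
  -- the swapping element
  obtain ⟨x, hx, hxs⟩ : ∃ x ∈ R ⊔ ((Q).map (MulAut.conj g).toMonoidHom ⊓
      Subgroup.centralizer (A : Set G)), x * (g * z * g⁻¹) * x⁻¹ = z := by
    obtain ⟨q, hq, hqs⟩ := hRX.exists_conj_eq hgR hgZ.1 hgZ.2
    obtain ⟨p, hp, hpz⟩ := hPX.exists_conj_eq ⟨hzP, hRA hRX.z_mem⟩ h0.z_ne (Ne.symm hgZ.2)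
    refine ⟨p⁻¹ * q, Subgroup.mul_mem _ (Subgroup.mem_sup_right (Subgroup.inv_mem _ hp))
      (Subgroup.mem_sup_left hq), ?_⟩
    calc p⁻¹ * q * (g * z * g⁻¹) * (p⁻¹ * q)⁻¹ = p⁻¹ * (q * (g * z * g⁻¹) * q⁻¹) * p := by group
      _ = p⁻¹ * (p * z * p⁻¹) * p := by rw [hqs, hpz, h0.z_comm _ (hRQ hgR)]
      _ = z := by group
  -- the centralizer of `A R`
  have hD : ∀ d, (∀ a ∈ A, a * d = d * a) → (∀ r ∈ R, r * d = d * r) → d ∈ A ∨ d * z ∈ A := by
    set D := Subgroup.centralizer ((A ⊔ R : Subgroup G) : Set G) with hDdef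
    have hmem : ∀ d, (∀ a ∈ A, a * d = d * a) → (∀ r ∈ R, r * d = d * r) → d ∈ D := by
      intro d h1 h2
      have : A ⊔ R ≤ Subgroup.centralizer ({d} : Set G) :=
        sup_le (fun a ha => Subgroup.mem_centralizer_singleton_iff.2 (h1 a ha))
          (fun a ha => Subgroup.mem_centralizer_singleton_iff.2 (h2 a ha))
      exact fun y hy => Subgroup.mem_centralizer_singleton_iff.1 (this hy)
    have hzD : z ∈ D := hmem z hAz fun r hr => (hRX.z_comm r hr).symm
    intro d h1 h2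
    have := mem_or_mul_mem_oddCore (G := D) (z := ⟨z, hzD⟩) (by rw [← hz, Subgroup.orderOf_mk])
      (fun y => Subtype.ext (y.2 z (Subgroup.mem_sup_right hRX.z_mem))) h4 ⟨d, hmem d h1 h2⟩
    exact this.imp (fun h3 => hO ⟨_, h3, rfl⟩) (fun h3 => hO ⟨_, h3, rfl⟩)
  have hCM : Subgroup.centralizer (A : Set G) ≤ M := hM ▸ le_sup_left
  have hAM : A ≤ M := hM ▸ le_sup_right
  have hRM : R ≤ M := hRA.trans hCM
  refine ⟨?_, ?_, x, hx, hxs⟩
  · rw [h0.center_eq]
    apply le_antisymm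
    · refine sup_le ?_ le_sup_left
      intro d hd
      rcases hD d (fun a ha => hd.2 a (Subgroup.mem_sup_right ha))
        (fun a ha => hd.2 a (Subgroup.mem_sup_left ha)) with h1 | h1
      · exact Subgroup.mem_sup_left h1
      · rw [← h0.mul_z_z d]
        exact Subgroup.mul_mem _ (Subgroup.mem_sup_left h1)
          (Subgroup.mem_sup_right (Subgroup.mem_zpowers z))
    · refine sup_le le_sup_right ((Subgroup.zpowers_le).2 (Subgroup.mem_sup_left
        ⟨hRM hRX.z_mem, ?_⟩))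
      have : R ⊔ A ≤ Subgroup.centralizer ({z} : Set G) :=
        sup_le (hRQ.trans hQC) hA
      exact fun y hy => Subgroup.mem_centralizer_singleton_iff.1 (this hy)
  set π := QuotientGroup.mk' (A.subgroupOf M) with hπ
  have hker : ∀ y : M, π y = 1 ↔ (y : G) ∈ A := fun y => QuotientGroup.eq_one_iff y
  have heq : ∀ y y' : M, π y = π y' ↔ (y : G) * (y' : G)⁻¹ ∈ A := fun y y' => by
    rw [← mul_inv_eq_one, ← map_inv, ← map_mul, hker]; rfl
  have hinj : ∀ y ∈ R.subgroupOf M, π y = 1 → y = 1 := fun y hy h1 =>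
    Subtype.ext (eq_one_of_isPGroup_of_odd hRX.isPGroup hAodd hy ((hker y).1 h1))
  have hX := (hRX.subgroupOf hRM).map π hinj
  have hsurj : ∀ y : M ⧸ A.subgroupOf M, ∃ c, ∃ hc : c ∈ Subgroup.centralizer (A : Set G),
      y = π ⟨c, hCM hc⟩ := by
    intro y
    obtain ⟨⟨m, hm⟩, rfl⟩ := QuotientGroup.mk'_surjective _ y
    obtain ⟨c, hc, a, ha, rfl⟩ := H14.mem_sup_of_commutator_eq_bot
      (Subgroup.commutator_eq_bot_iff_le_centralizer.2 le_rfl) (hM ▸ hm)
    refine ⟨c, hc, (heq _ _).2 ?_⟩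
    show c * a * c⁻¹ ∈ A
    rwa [← hc a ha, mul_inv_cancel_right]
  have hcomm : ∀ c ∈ Subgroup.centralizer (A : Set G), ∀ r ∈ R, c * r * (r * c)⁻¹ ∈ A →
      c * r = r * c := by
    intro c _ r hr h1
    have h2 : c * r * c⁻¹ = (c * r * (r * c)⁻¹) * r := by group
    have h3 : (c * r * c⁻¹) ^ 4 = 1 := by rw [conj_pow, hRX.pow_four hr]; group
    rw [h2, Commute.mul_pow (hRA hr _ h1), hRX.pow_four hr, mul_one] at h3
    have h5 : orderOf (c * r * (r * c)⁻¹) = 1 :=
      Nat.eq_one_of_dvd_coprimes (Nat.Coprime.pow_left 2 (Nat.coprime_two_left.2 hAodd))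
        (orderOf_dvd_of_pow_eq_one h3) (Subgroup.orderOf_dvd_natCard A h1)
    exact mul_inv_eq_one.1 (orderOf_eq_one_iff.1 h5)
  have hL : LX ((R.subgroupOf M).map π) (π ⟨z, hRM hRX.z_mem⟩) := by
    refine ⟨hX, ?_, ?_⟩
    · intro y hy
      obtain ⟨c, hc, rfl⟩ := hsurj y
      have h1 : ∀ r ∈ R, r * c = c * r := fun r hr => by
        have := hy _ ⟨⟨r, hRM hr⟩, hr, rfl⟩
        rw [← map_mul, ← map_mul, heq] at this
        exact (hcomm c hc r hr this).symm
      rcases hD c hc h1 with h2 | h2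
      · rw [(hker _).2 h2]; exact Subgroup.one_mem _
      · rw [(heq _ ⟨z, hRM hRX.z_mem⟩).2 (by rwa [h0.z_inv])]; exact hX.z_mem
    · rintro y hy _ ⟨r, hr, rfl⟩
      obtain ⟨c, hc, rfl⟩ := hsurj y
      rw [← map_mul, ← map_mul, heq] at hy
      have h1 := hcomm c hc z hRX.z_mem hy
      refine ⟨⟨c, hCM hc⟩ * r * ⟨c, hCM hc⟩⁻¹, ?_, by simp⟩
      show c * r * c⁻¹ ∈ R
      rw [hR]
      exact ⟨h.norm c h1 r (hRQ hr),
        Subgroup.mul_mem _ (Subgroup.mul_mem _ hc (hRA hr)) (Subgroup.inv_mem _ hc)⟩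
  have hxM : x ∈ M := (sup_le hRM (inf_le_right.trans hCM)) hx
  have hs : (⟨x, hxM⟩ : M)⁻¹ * ⟨z, hRM hRX.z_mem⟩ * ⟨x, hxM⟩⁻¹⁻¹ = ⟨_, hRM hgR⟩ := by
    apply Subtype.ext
    show x⁻¹ * z * x⁻¹⁻¹ = g * z * g⁻¹
    nth_rw 1 [← hxs]; group
  refine hL.isLarge_of_conj (g := π ⟨x, hxM⟩⁻¹) ?_ ?_ ?_
  · rw [card_map_of_inj π hinj, Nat.card_congr (Subgroup.subgroupOfEquivOfLe hRM).toEquiv]; omega
  · rw [← map_inv, ← map_mul, ← map_mul, hs]
    exact ⟨_, hgR, rfl⟩
  · rw [← map_inv, ← map_mul, ← map_mul, hs, Ne, heq]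
    intro h1
    exact hgZ.2 (mul_inv_eq_one.1 (eq_one_of_isPGroup_of_odd hRX.isPGroup hAodd
      (R.mul_mem hgR (R.inv_mem hRX.z_mem)) h1))

end Cfsg.Agent.S5428
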