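import Cfsg.Statements.S5430
import Cfsg.Agent.H78.Pair2

set_option autoImplicit false
open Cfsg

namespace Cfsg.Agent.S5430

open H78

/-- Let Q be a large extraspecial 2-subgroup of the finite group G (extraspecial; centralizer equal to its centre; normal in the centralizer of its centre; normalizing no non-trivial subgroup of odd order) with centre generated by z, an involution, of width w ≥ 2 (order 2^(2w+1)); let g be an element outside the centralizer H of z with g z g⁻¹ in Q; write V for the subgroup generated by z and g z g⁻¹, X for the subgroup generated by Q and g Q g⁻¹, R for the subgroup generated by the centralizer of z in g Q g⁻¹ and the centralizer of g z g⁻¹ in Q, and E for the intersection of Q and g Q g⁻¹. Then R is the centralizer of V in X and is the largest normal 2-subgroup of X, and X/R is isomorphic to the symmetric group of degree 3; moreover the normalizer of V is the product of X and the centralizer of V in H, X is normal in it, and modulo R it is the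 direct product of X/R and of the centralizer of V in H modulo R. -/
theorem result {G : Type*} [Group G] [Finite G] (Q : Subgroup G) (hQ : Cfsg.IsLargeExtraspecial Q) (z : G) (hz : ((Subgroup.center ↥Q).map Q.subtype) = Subgroup.zpowers z) (hz2 : orderOf z = 2) (w : ℕ) (hw : 2 ≤ w) (hcard : Nat.card ↥Q = 2 ^ (2 * w + 1)) (g : G) (hgH : g ∉ Subgroup.centralizer ({z} : Set G)) (hgQ : g * z * g⁻¹ ∈ Q) (V X R E : Subgroup G) (hV : V = Subgroup.closure ({z, g * z * g⁻¹} : Set G)) (hX : X = Q ⊔ (Q).map (MulAut.conj g).toMonoidHom) (hR : R = ((Q).map (MulAut.conj g).toMonoidHom ⊓ Subgroup.centralizer ({z} : Set G)) ⊔ (Q ⊓ Subgroup.centralizer ({g * z * g⁻¹} : Set G))) (hE : E = Q ⊓ (Q).map (MulAut.conj g).toMonoidHom) : R = X ⊓ Subgroup.centralizer (V : Set G) ∧ R = (Cfsg.pCore 2 ↥X).map X.subtype ∧ (∃ h : (R.subgroupOf X).Normal, Nonempty (↥X ⧸ R.subgroupOf X ≃* Equiv.Perm (Fin 3))) ∧ Subgroup.normalizer (V : Set G) = X ⊔ (Subgroup.centralizer ({z} : Set G) ⊓ Subgroup.centralizer (V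 : Set G)) ∧ (∀ y ∈ Subgroup.normalizer (V : Set G), ∀ x ∈ X, y * x * y⁻¹ ∈ X) ∧ R ≤ Subgroup.centralizer ({z} : Set G) ⊓ Subgroup.centralizer (V : Set G) ∧ (∀ x ∈ X, ∀ c ∈ Subgroup.centralizer ({z} : Set G) ⊓ Subgroup.centralizer (V : Set G), x * c * x⁻¹ * c⁻¹ ∈ R) ∧ X ⊓ (Subgroup.centralizer ({z} : Set G) ⊓ Subgroup.centralizer (V : Set G)) = R := by
  have h0 := XS_of_center_eq hQ.1 hz
  have h := LX_of_XS h0 hQ.2.1 hQ.2.2.1
  have h8 : 8 < Nat.card Q := by
    rw [hcard]
    calc 8 < 2 ^ 5 := by norm_num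
      _ ≤ _ := Nat.pow_le_pow_right (by norm_num) (by omega)
  have hne : g * z * g⁻¹ ≠ z := fun h1 =>
    hgH (Subgroup.mem_centralizer_singleton_iff.2 (mul_inv_eq_iff_eq_mul.1 h1))
  have hp := h.pair hgQ (h.symm h8 hgQ) hne
  subst hV hX hR hE
  have hCV : Subgroup.centralizer ({z} : Set G) ⊓ Subgroup.centralizer
      (Subgroup.closure ({z, g * z * g⁻¹} : Set G) : Set G) = Subgroup.centralizer
      (Subgroup.closure ({z, g * z * g⁻¹} : Set G) : Set G) :=
    inf_eq_right.2 fun x hx => Subgroup.mem_centralizer_singleton_iff.2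
      ((hp.four.mem_centralizer_V x).1 hx).1
  have h1 : pairR Q (Q.map (MulAut.conj g).toMonoidHom) z (g * z * g⁻¹) =
      (Q ⊔ Q.map (MulAut.conj g).toMonoidHom) ⊓ Subgroup.centralizer
      (Subgroup.closure ({z, g * z * g⁻¹} : Set G) : Set G) := by
    ext x
    rw [Subgroup.mem_inf, hp.four.mem_centralizer_V]
    exact ⟨fun hx => ⟨hp.R_le_X hx, hp.R_comm_z hx, hp.R_comm_s hx⟩,
      fun hx => hp.mem_R_of_X hx.1 hx.2.1 hx.2.2⟩
  rw [hCV]
  refine ⟨h1, hp.R_eq_pCore, ⟨hp.normal_R, @Pair.quotient_equiv _ _ _ _ _ _ _ hp hp.normal_R⟩,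
    hp.normalizer_V_eq, fun y hy x hx => hp.conj_mem_X hy hx, h1.le.trans inf_le_right, ?_,
    h1.symm⟩
  intro x hx c hc
  apply h1.ge
  rw [Subgroup.mem_inf]
  constructor
  · have := Subgroup.mul_mem _ hx (hp.conj_mem_X (Subgroup.centralizer_le_normalizer _ hc)
      (Subgroup.inv_mem _ hx))
    simpa only [mul_assoc] using this
  · refine Subgroup.mul_mem _ ?_ (Subgroup.inv_mem _ hc)
    intro v hv
    have h2 := hc _ (conj_mem_of_mem_normalizer (Subgroup.inv_mem _ (hp.X_le_normalizer_V hx)) hv)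
    calc v * (x * c * x⁻¹) = x * (x⁻¹ * v * x⁻¹⁻¹ * c) * x⁻¹ := by group
      _ = _ := by rw [h2]; group

end Cfsg.Agent.S5430
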