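import Cfsg.Statements.S5431
import Cfsg.Agent.H78.Pair3

set_option autoImplicit false
open Cfsg

namespace Cfsg.Agent.S5431

open H78

/-- Let Q be a large extraspecial 2-subgroup of the finite group G (extraspecial; centralizer equal to its centre; normal in the centralizer of its centre; normalizing no non-trivial subgroup of odd order) with centre generated by z, an involution, of width w ≥ 2 (order 2^(2w+1)); let g be an element outside the centralizer H of z with g z g⁻¹ in Q; write V for the subgroup generated by z and g z g⁻¹, X for the subgroup generated by Q and g Q g⁻¹, R for the subgroup generated by the centralizer of z in g Q g⁻¹ and the centralizer of g z g⁻¹ in Q, and E for the intersection of Q and g Q g⁻¹. Then V is the centre of R, E lies in the second centre of R, R is nilpotent of class at most 3, E and R/E are elementary abelian, R/E is the direct product of the images of the centralizer of g z g⁻¹ in Q and of the centralizer of z in g Q g⁻¹ (R is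 their product and they meet in E), and the commutator subgroup of X and E lies in V. -/
theorem result {G : Type*} [Group G] [Finite G] (Q : Subgroup G) (hQ : Cfsg.IsLargeExtraspecial Q) (z : G) (hz : ((Subgroup.center ↥Q).map Q.subtype) = Subgroup.zpowers z) (hz2 : orderOf z = 2) (w : ℕ) (hw : 2 ≤ w) (hcard : Nat.card ↥Q = 2 ^ (2 * w + 1)) (g : G) (hgH : g ∉ Subgroup.centralizer ({z} : Set G)) (hgQ : g * z * g⁻¹ ∈ Q) (V X R E : Subgroup G) (hV : V = Subgroup.closure ({z, g * z * g⁻¹} : Set G)) (hX : X = Q ⊔ (Q).map (MulAut.conj g).toMonoidHom) (hR : R = ((Q).map (MulAut.conj g).toMonoidHom ⊓ Subgroup.centralizer ({z} : Set G)) ⊔ (Q ⊓ Subgroup.centralizer ({g * z * g⁻¹} : Set G))) (hE : E = Q ⊓ (Q).map (MulAut.conj g).toMonoidHom) : (Subgroup.center ↥R).map R.subtype = V ∧ E ≤ (Subgroup.upperCentralSeries ↥R 2).map R.subtype ∧ Subgroup.upperCentralSeries ↥R 3 = ⊤ ∧ Cfsg.IsElementaryAbelian 2 E ∧ (∀ x ∈ R, ∀ y ∈ R, x * y * x⁻¹ * y⁻¹ ∈ E ∧ x ^ 2 ∈ E) ∧ ((Q).map (MulAut.conj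 g).toMonoidHom ⊓ Subgroup.centralizer ({z} : Set G)) ⊓ (Q ⊓ Subgroup.centralizer ({g * z * g⁻¹} : Set G)) = E ∧ ⁅X, E⁆ ≤ V := by
  have h0 := XS_of_center_eq hQ.1 hz
  have h := LX_of_XS h0 hQ.2.1 hQ.2.2.1
  have h8 : 8 < Nat.card Q := by
    rw [hcard]
    calc 8 < 2 ^ 5 := by norm_num
      _ ≤ _ := Nat.pow_le_pow_right (by norm_num) (by omega)
  have hne : g * z * g⁻¹ ≠ z := fun h1 =>
    hgH (Subgroup.mem_centralizer_singleton_iff.2 (mul_inv_eq_iff_eq_mul.1 h1))
  have hp := h.pair hgQ (h.symm h8 hgQ) hne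
  subst hV hX hE
  set P := Q.map (MulAut.conj g).toMonoidHom with hP
  set s := g * z * g⁻¹ with hs
  change R = pairR Q P z s at hR
  subst hR
  have hE2 : ∀ x : pairR Q P z s, (x : G) ∈ Q ⊓ P →
      x ∈ Subgroup.upperCentralSeries (pairR Q P z s) 2 := by
    intro x hx
    rw [Subgroup.mem_upperCentralSeries_succ_iff]
    intro y
    rw [Subgroup.upperCentralSeries_one]
    have h1 := Subgroup.inv_mem _ (hp.comm_X_E (hp.R_le_X y.2) hx)
    rw [← hp.center_R] at h1
    obtain ⟨c, hc, hc'⟩ := h1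
    have h2 : x * y * x⁻¹ * y⁻¹ = c := by
      apply Subtype.ext
      simp only [Subgroup.coe_subtype] at hc'
      rw [hc']
      simp [mul_assoc]
    rw [commutatorElement_def, h2]
    exact hc
  refine ⟨hp.center_R, fun x hx => ⟨⟨x, hp.E_le_R hx⟩, hE2 _ hx, rfl⟩, ?_, ⟨?_, ?_⟩, ?_, ?_, ?_⟩
  · rw [eq_top_iff]
    intro x _
    rw [Subgroup.mem_upperCentralSeries_succ_iff]
    intro y
    exact hE2 _ (hp.comm_R_R x.2 y.2)
  · exact ⟨⟨fun a b => Subtype.ext (hp.E_comm a.2 b.2)⟩⟩
  · intro a ha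
    rw [pow_two, hp.E_sq ha]
  · intro x hx y hy
    exact ⟨hp.comm_R_R hx hy, by rw [pow_two]; exact hp.sq_R hx⟩
  · ext x
    simp only [Subgroup.mem_inf, Subgroup.mem_centralizer_singleton_iff]
    exact ⟨fun hx => ⟨hx.2.1, hx.1.1⟩,
      fun hx => ⟨⟨hx.2, (hp.hQ.z_comm x hx.1).symm⟩, hx.1, (hp.hP.z_comm x hx.2).symm⟩⟩
  · rw [Subgroup.commutator_le]
    intro x hx e he
    exact hp.comm_X_E hx he

end Cfsg.Agent.S5431
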