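import Cfsg.Statements.S5432
import Cfsg.Agent.H9.ExtraAut

set_option autoImplicit false
open Cfsg

namespace Cfsg.Agent.S5432

/-- Let E be an extraspecial 2-group of order 2^(2n+1), n ≥ 1. If E contains an elementary abelian subgroup of order 2^(n+1) (plus type), then its outer automorphism group is isomorphic to the full isometry group of the hyperbolic quadratic form in dimension 2n over the field with two elements; otherwise (minus type) it is isomorphic to the full isometry group of the elliptic quadratic form in dimension 2n over that field. -/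
theorem result {E : Type*} [Group E] [Finite E] (hE : Cfsg.IsExtraspecial 2 E) (n : ℕ) (hn : 1 ≤ n) (hcard : Nat.card E = 2 ^ (2 * n + 1)) : ((∃ A : Subgroup E, Cfsg.IsElementaryAbelian 2 A ∧ Nat.card ↥A = 2 ^ (n + 1)) → Nonempty (Cfsg.Out E ≃* Cfsg.isometryGroup (ZMod 2) (Cfsg.quadFormPlus n (ZMod 2)))) ∧ ((¬ ∃ A : Subgroup E, Cfsg.IsElementaryAbelian 2 A ∧ Nat.card ↥A = 2 ^ (n + 1)) → Nonempty (Cfsg.Out E ≃* Cfsg.isometryGroup (ZMod 2) (Cfsg.quadFormMinus (n - 1) (ZMod 2) 1 1))) := by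
  obtain ⟨m, rfl⟩ : ∃ k, n = k + 1 := ⟨n - 1, by omega⟩
  constructor
  · rintro ⟨A, hA, hAc⟩
    obtain ⟨c, hc⟩ := H9.isPlusType_of_exists_elementary hE hcard hA.2
      (by rw [hAc]; exact Nat.pow_lt_pow_right one_lt_two (by omega))
    obtain ⟨e⟩ := H9.cform_nonempty_out_equiv c (hc ▸ H58.qPlus_nondeg _ _)
    exact ⟨e.trans (H56.toO c.Q (by rw [hc, H58.coe_qPlus])).symm⟩
  · intro h
    obtain ⟨c, hc⟩ := H9.isMinusType_of_forall_elementary hE hcard fun A h1 h2 => h ⟨A, h1, h2⟩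
    obtain ⟨e⟩ := H9.cform_nonempty_out_equiv c (hc ▸ H58.qMinus_nondeg _ H27.zmod2_aniso)
    exact ⟨e.trans (H56.toO c.Q (by rw [hc, H58.coe_qMinus]; rfl)).symm⟩

end Cfsg.Agent.S5432
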