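import Cfsg.Statements.S5434
import Cfsg.Agent.H78.Coprime

set_option autoImplicit false
open Cfsg

namespace Cfsg.Agent.S5434

open H78

/-- Let Q be a large extraspecial 2-subgroup of the finite group G (extraspecial; centralizer equal to its centre; normal in the centralizer of its centre; normalizing no non-trivial subgroup of odd order), and A a non-trivial subgroup of odd order of the normalizer of Q. Then Q is the central product of the centralizer of A in Q and the commutator subgroup [Q, A] (they generate Q and commute elementwise), [Q, A] is extraspecial, and the centralizer of A in Q is either the centre of Q or extraspecial. -/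
theorem result {G : Type*} [Group G] [Finite G] (Q : Subgroup G) (hQ : Cfsg.IsLargeExtraspecial Q) (A : Subgroup G) (hA : A ≤ Subgroup.normalizer (Q : Set G)) (hAodd : Odd (Nat.card ↥A)) (hA1 : A ≠ ⊥) : (Q ⊓ Subgroup.centralizer (A : Set G)) ⊔ ⁅Q, A⁆ = Q ∧ (∀ x ∈ Q ⊓ Subgroup.centralizer (A : Set G), ∀ y ∈ ⁅Q, A⁆, x * y = y * x) ∧ Cfsg.IsExtraspecial 2 ↥⁅Q, A⁆ ∧ (Q ⊓ Subgroup.centralizer (A : Set G) = ((Subgroup.center ↥Q).map Q.subtype) ∨ Cfsg.IsExtraspecial 2 ↥(Q ⊓ Subgroup.centralizer (A : Set G))) := by
  obtain ⟨z, h⟩ := LX_of_isLarge hQ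
  have h0 := h.toXS
  refine ⟨?_, fun x hx y hy => h0.cent_comm_commutator hA hx hy, ?_, ?_⟩
  · apply le_antisymm (sup_le inf_le_left (XS.commutator_le_of_norm hA))
    intro k hk
    obtain ⟨c, hc, n, hn, rfl⟩ := h0.exists_cent_mul hA hAodd hk
    exact Subgroup.mul_mem _ (Subgroup.mem_sup_left hc) (Subgroup.mem_sup_right hn)
  · refine (h0.commutator_odd hA hAodd fun h1 => hA1 ?_).isExtraspecial
    rw [eq_bot_iff]
    intro a ha
    exact eq_one_of_isPGroup_of_odd h0.isPGroup hAodd (h.cent a fun y hy => h1 hy a ha) ha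
  · by_cases h1 : ∃ x ∈ Q ⊓ Subgroup.centralizer (A : Set G), x ≠ 1 ∧ x ≠ z
    · exact Or.inr (h0.cent_odd hA hAodd h1).isExtraspecial
    · left
      push Not at h1
      ext x
      rw [h0.mem_center_iff]
      constructor
      · intro hx
        by_cases h2 : x = 1
        · exact Or.inl h2
        · exact Or.inr (h1 x hx h2)
      · rintro (rfl | rfl)
        · exact Subgroup.one_mem _
        · exact h0.z_mem_cent hA

end Cfsg.Agent.S5434
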