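import Cfsg.Statements.S5435
import Cfsg.Agent.H78.FStarX
import Cfsg.Agent.S0091
import Cfsg.Agent.H17.TransferInv
import Cfsg.Agent.H3.DihQuat

set_option autoImplicit false
open Cfsg

namespace Cfsg.Agent.S5435

open H78

theorem aux1 : (Multiplicative.ofAdd (1 : ZMod 2)) ^ 2 = 1 := by decide

theorem aux2 : (1 : Multiplicative (ZMod 2)) ≠ Multiplicative.ofAdd 1 ^ (1 % 2) * 1 := by decide

/-- Let L be a finite non-abelian simple group with an involution z whose centralizer R is a Sylow 2-subgroup of L whose Frattini subgroup is the subgroup generated by z. Then R is dihedral of order 8. -/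
theorem result {L : Type*} [Group L] [Finite L] [IsSimpleGroup L] (hL : ¬ IsMulCommutative L) (z : L) (hz : orderOf z = 2) (R : Sylow 2 L) (hR : (R : Subgroup L) = Subgroup.centralizer ({z} : Set L)) (hΦ : (frattini ↥(R : Subgroup L)).map (R : Subgroup L).subtype = Subgroup.zpowers z) : Nonempty (↥(R : Subgroup L) ≃* DihedralGroup 4) := by
  classical
  have : Fact (Nat.Prime 2) := ⟨Nat.prime_two⟩
  have hzz := mul_self_of_orderOf_two hz
  have hz1 := ne_one_of_orderOf_two hz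
  have hperf : commutator L = ⊤ :=
    ((inferInstance : (commutator L).Normal).eq_bot_or_eq_top).resolve_left
      fun h => hL ((commutator_eq_bot_iff L).1 h)
  have hmem : ∀ {x : L}, x ∈ (R : Subgroup L) ↔ x * z = z * x := by
    intro x; rw [hR, Subgroup.mem_centralizer_singleton_iff]
  have hzR : z ∈ (R : Subgroup L) := hmem.2 rfl
  have hsq' : ∀ x ∈ (R : Subgroup L), x * x ∈ Subgroup.zpowers z := fun x hx => by
    rw [← hΦ, ← pow_two]
    exact ⟨_, pow_mem_frattini R.isPGroup' ⟨x, hx⟩, rfl⟩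
  have hsq : ∀ x ∈ (R : Subgroup L), x * x = 1 ∨ x * x = z := fun x hx =>
    (mem_zpowers_invol hzz _).1 (hsq' x hx)
  have hcomm : ∀ x ∈ (R : Subgroup L), ∀ y ∈ (R : Subgroup L),
      x * y = y * x ∨ x * y = y * x * z := fun x hx y hy => by
    have h1 := Subgroup.mul_mem _ (Subgroup.mul_mem _ (Subgroup.inv_mem _ (hsq' x hx))
      (hsq' _ (Subgroup.mul_mem _ hx (Subgroup.inv_mem _ hy)))) (hsq' y hy)
    rw [show (x * x)⁻¹ * (x * y⁻¹ * (x * y⁻¹)) * (y * y) = (y * x)⁻¹ * (x * y) by group,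
      mem_zpowers_invol hzz, inv_mul_eq_iff_eq_mul, inv_mul_eq_iff_eq_mul, mul_one] at h1
    exact h1
  obtain ⟨a, ha, haa⟩ : ∃ a ∈ (R : Subgroup L), a * a = z := by
    by_contra hne
    push Not at hne
    rw [frattini_eq_bot_of_sq (G := (R : Subgroup L))
      (fun x => Subtype.ext ((hsq x x.2).resolve_right (hne x x.2))), Subgroup.map_bot, eq_comm,
      Subgroup.zpowers_eq_bot] at hΦ
    exact hz1 hΦ
  -- `z` is not weakly closed in `R`
  obtain ⟨g, hs, hsz⟩ : ∃ g : L, g * z * g⁻¹ ∈ (R : Subgroup L) ∧ g * z * g⁻¹ ≠ z := by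
    by_contra hne
    push Not at hne
    refine Cfsg.Agent.S0091.result R (hz ▸ orderOf_dvd_natCard z) ?_ (hperf ▸ le_top)
    rintro x hx y hy ⟨g, rfl⟩
    set C := Subgroup.centralizer ({g * x * g⁻¹} : Set L) with hC
    have hzC : z ∈ C := Subgroup.mem_centralizer_singleton_iff.2 (hmem.1 hy).symm
    have hgC : g * z * g⁻¹ ∈ C := Subgroup.mem_centralizer_singleton_iff.2 (by
      calc g * z * g⁻¹ * (g * x * g⁻¹) = g * (z * x) * g⁻¹ := by group
        _ = _ := by rw [← hmem.1 hx]; group)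
    have hp : ∀ u : C, u * u = 1 → IsPGroup 2 (Subgroup.zpowers u) := fun u hu =>
      IsPGroup.of_card_dvd_pow (n := 1) (by
        rw [Nat.card_zpowers]; exact orderOf_dvd_of_pow_eq_one (by simpa [pow_two] using hu))
    obtain ⟨T, hT⟩ := (hp ⟨z, hzC⟩ (Subtype.ext hzz)).exists_le_sylow
    obtain ⟨c, hc⟩ := exists_conj_mem_sylow T (hp ⟨_, hgC⟩ (Subtype.ext (by
      show g * z * g⁻¹ * (g * z * g⁻¹) = 1
      rw [show g * z * g⁻¹ * (g * z * g⁻¹) = g * (z * z) * g⁻¹ by group, hzz]; group)))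
    obtain ⟨k, hk⟩ := exists_conj_mem_sylow R (T.isPGroup'.map C.subtype)
    have h1 := hne k⁻¹ (by rw [inv_inv]; exact hk z ⟨_, hT (Subgroup.mem_zpowers _), rfl⟩)
    have h2 := hne (k⁻¹ * (c : L)⁻¹ * g) (by
      have : k⁻¹ * ((c : L)⁻¹ * (g * z * g⁻¹) * c) * k ∈ (R : Subgroup L) :=
        hk _ ⟨_, hc _ (Subgroup.mem_zpowers _), rfl⟩
      convert this using 1
      group)
    refine ⟨(c : L)⁻¹ * g, hmem.2 ?_, ?_⟩
    · rw [← mul_inv_eq_iff_eq_mul]
      calc (c : L)⁻¹ * g * z * ((c : L)⁻¹ * g)⁻¹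
          = k * (k⁻¹ * (c : L)⁻¹ * g * z * (k⁻¹ * (c : L)⁻¹ * g)⁻¹) * k⁻¹ := by group
        _ = k * (k⁻¹ * z * k⁻¹⁻¹) * k⁻¹ := by rw [h2, h1]
        _ = z := by group
    · have := Subgroup.mem_centralizer_singleton_iff.1 c.2
      calc (c : L)⁻¹ * g * x * ((c : L)⁻¹ * g)⁻¹ = (c : L)⁻¹ * (g * x * g⁻¹ * c) := by group
        _ = _ := by rw [← this]; group
  set s := g * z * g⁻¹ with hsdef
  have hs1 : s ≠ 1 := by simpa [hsdef] using hz1
  have hE : ∀ x ∈ (R : Subgroup L), x * s = s * x → x * x = 1 := by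
    intro x hx hxs
    refine (hsq x hx).resolve_right fun h1 => ?_
    have h2 : g⁻¹ * x * g ∈ (R : Subgroup L) := hmem.2 (by
      calc g⁻¹ * x * g * z = g⁻¹ * (x * s) * g := by rw [hsdef]; group
        _ = _ := by rw [hxs, hsdef]; group)
    have h3 : g⁻¹ * x * g * (g⁻¹ * x * g) = g⁻¹ * z * g := by rw [← h1]; group
    rcases hsq _ h2 with h4 | h4 <;> rw [h3] at h4
    · exact hz1 (by simpa [mul_assoc, inv_mul_eq_iff_eq_mul] using h4)
    · apply hsz; rw [hsdef]; nth_rw 1 [← h4]; group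
  have hss : s * s = 1 := hE s hs rfl
  have has : a * s ≠ s * a := fun h1 => hz1 (haa.symm.trans (hE a ha h1))
  -- the centre of `R` is generated by `z`
  have hcen : ∀ d ∈ (R : Subgroup L), (∀ y ∈ (R : Subgroup L), d * y = y * d) →
      d = 1 ∨ d = z := by
    intro d hd hdc
    by_contra hne
    rw [← mem_zpowers_invol hzz] at hne
    obtain ⟨f, hf, -, hfd⟩ := exists_add_fun ((Subgroup.zpowers_le).2 hzR) hsq' hd hne
    let ϕ : (R : Subgroup L) →* Multiplicative (ZMod 2) :=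
      MonoidHom.mk' (fun x => Multiplicative.ofAdd (f x)) (fun x y => by
        rw [← ofAdd_add, ← hf x x.2 y y.2]; rfl)
    let X : SubMulAction (R : Subgroup L) (L ⧸ (R : Subgroup L)) :=
      { carrier := {q | ∃ b : L, (b : L ⧸ (R : Subgroup L)) = q ∧ b⁻¹ * d * b ∈ (R : Subgroup L) ∧
          f (b⁻¹ * d * b) = 1}
        smul_mem' := by
          rintro r _ ⟨b, rfl, h1, h2⟩
          have h3 : ((r : L) * b)⁻¹ * d * (r * b) = b⁻¹ * d * b := by
            calc ((r : L) * b)⁻¹ * d * (r * b) = b⁻¹ * (r : L)⁻¹ * (d * r) * b := by group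
              _ = _ := by rw [hdc r r.2]; group
          exact ⟨r * b, rfl, h3 ▸ h1, h3 ▸ h2⟩ }
    have hX : ∀ (b : L), b⁻¹ * d * b ∈ (R : Subgroup L) → (b : L ⧸ (R : Subgroup L)) ∈ X →
        f (b⁻¹ * d * b) = 1 := by
      rintro b hb ⟨c, hc, h1, h2⟩
      have h3 : c⁻¹ * b ∈ (R : Subgroup L) := QuotientGroup.eq.1 hc
      have h4 : (c⁻¹ * b) * (b⁻¹ * d * b) = (c⁻¹ * d * c) * (c⁻¹ * b) := by group
      have h5 := hf _ h3 _ hb
      rw [h4, hf _ h1 _ h3, add_comm] at h5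
      rw [← add_left_cancel h5, h2]
    have htr := H17.transfer_involution ϕ d (hE d hd (hdc s hs)) (Multiplicative.ofAdd 1)
      (X : Set (L ⧸ (R : Subgroup L)))
      (by rintro _ ⟨b, rfl, h1, -⟩; exact (H17.smul_quotient_eq_iff d b).2 h1)
      (fun b hb h1 => congrArg Multiplicative.ofAdd (hX b hb h1))
      (fun b hb h1 => congrArg Multiplicative.ofAdd
        (zmod2_ne_one.1 fun h2 => h1 ⟨b, rfl, hb, h2⟩))
    have h1X : ((1 : L) : L ⧸ (R : Subgroup L)) ∈ X := ⟨1, rfl, by simpa using hd, by simpa using hfd⟩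
    have hfix : Nat.card (MulAction.fixedPoints (R : Subgroup L) X) = 1 := by
      rw [Nat.card_eq_one_iff_exists]
      refine ⟨⟨⟨_, h1X⟩, fun r => Subtype.ext ((H17.smul_quotient_eq_iff (r : L) 1).2
        (by simp))⟩, ?_⟩
      rintro ⟨⟨q, hq⟩, h2⟩
      obtain ⟨b, rfl⟩ := QuotientGroup.mk_surjective q
      refine Subtype.ext (Subtype.ext (QuotientGroup.eq.2 ?_))
      have h3 := (H17.smul_quotient_eq_iff a b).1 (congrArg Subtype.val (h2 ⟨a, ha⟩))
      have h4 : b⁻¹ * a * b * (b⁻¹ * a * b) = b⁻¹ * z * b := by rw [← haa]; group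
      rcases hsq _ h3 with h5 | h5 <;> rw [h4] at h5
      · exact absurd (by simpa [mul_assoc, inv_mul_eq_iff_eq_mul] using h5) hz1
      · rw [mul_one, hmem]
        nth_rw 2 [← h5]; group
    have hodd := R.isPGroup'.card_modEq_card_fixedPoints X
    rw [hfix] at hodd
    have h6 : MonoidHom.transfer ϕ d = 1 :=
      Abelianization.commutator_subset_ker _ (hperf ▸ Subgroup.mem_top d)
    have h7 : (X : Set (L ⧸ (R : Subgroup L))).ncard = Nat.card X := rfl
    rw [h6, h7, ← Nat.mod_add_div (Nat.card X) 2, hodd, pow_add, pow_mul] at htr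
    rw [aux1, one_pow] at htr
    exact aux2 htr
  have hX : XS (R : Subgroup L) z :=
    ⟨hzR, hz1, hzz, fun x hx => (hmem.1 hx).symm, hcen, hsq, hcomm, a, ha, s, hs, has⟩
  have hE4 : ∀ x ∈ (R : Subgroup L), x * s = s * x → x = 1 ∨ x = z ∨ x = s ∨ x = s * z := by
    intro x hx hxs
    refine hX.center_cent hs hx fun y hy hys => ?_
    have h1 := hE _ (Subgroup.mul_mem _ hx hy) (by rw [mul_assoc, hys, ← mul_assoc, hxs, mul_assoc])
    calc x * y = (x * y)⁻¹ := (inv_eq_of_mul_self h1).symm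
      _ = _ := by rw [mul_inv_rev, inv_eq_of_mul_self (hE x hx hxs), inv_eq_of_mul_self (hE y hy hys)]
  have hord : orderOf (⟨a, ha⟩ : (R : Subgroup L)) = 4 := by
    rw [Subgroup.orderOf_mk, show 4 = 2 ^ (1 + 1) by norm_num]
    apply orderOf_eq_prime_pow
    · rw [pow_one, pow_two, haa]; exact hz1
    · exact hX.pow_four ha
  refine H3.nonempty_mulEquiv_dihedral_of_closure (b := ⟨s, hs⟩) hord
    (Subtype.ext (by simpa [pow_two] using hss)) (Subtype.ext ?_) ?_ ?_
  · show s * a * s⁻¹ = a⁻¹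
    rw [(hX.conj_eq_or ha hs).resolve_left fun h1 => has (mul_inv_eq_iff_eq_mul.1 h1).symm,
      eq_inv_iff_mul_eq_one, mul_assoc, hX.z_comm a ha, ← mul_assoc, haa, hzz]
  · rintro ⟨k, hk⟩
    apply has
    have h1 : a ^ k = s := by simpa using congrArg Subtype.val hk
    rw [← h1]; exact (Commute.self_zpow a k).eq
  · rw [eq_top_iff]
    set K := Subgroup.closure ({⟨a, ha⟩, ⟨s, hs⟩} : Set (R : Subgroup L)) with hK
    have haK : (⟨a, ha⟩ : (R : Subgroup L)) ∈ K := Subgroup.subset_closure (by simp)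
    have hsK : (⟨s, hs⟩ : (R : Subgroup L)) ∈ K := Subgroup.subset_closure (by simp)
    have hzK : (⟨z, hzR⟩ : (R : Subgroup L)) ∈ K := by
      have := K.mul_mem haK haK
      rwa [show (⟨a, ha⟩ * ⟨a, ha⟩ : (R : Subgroup L)) = ⟨z, hzR⟩ from Subtype.ext haa] at this
    have h1 : ∀ x : (R : Subgroup L), cf (x : L) s = 0 → x ∈ K := by
      rintro ⟨x, hx⟩ hxs
      rcases hE4 x hx (cf_eq_zero.1 hxs) with rfl | rfl | rfl | rfl
      · exact K.one_mem
      · exact hzK
      · exact hsK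
      · exact K.mul_mem hsK hzK
    intro x _
    rcases zmod2_cases (cf (x : L) s) with h2 | h2
    · exact h1 x h2
    · have := K.mul_mem (K.inv_mem haK) (h1 (⟨a, ha⟩ * x) (by
        show cf (a * x) s = 0
        rw [hX.cf_mul_left ha x.2 hs, h2, cf_eq_one.2 has, zmod2_add_self]))
      rwa [inv_mul_cancel_left] at this

end Cfsg.Agent.S5435
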