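import Cfsg.Statements.S5436
import Cfsg.Agent.H78.Simple

set_option autoImplicit false
open Cfsg

namespace Cfsg.Agent.S5436

open H78

/-- Let z be an involution of the finite group G with centralizer H whose generalized Fitting subgroup Q is extraspecial of width at least 2 (order 2^(2w+1), w ≥ 2); suppose some conjugate of z other than z lies in Q, H/Q is a non-abelian simple group, H acts irreducibly by conjugation on Q modulo the subgroup generated by z (the only H-invariant subgroups of Q containing z are that subgroup and Q), and Q is not the subgroup generated by the conjugates of z lying in H. Then G is simple. -/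
theorem result {G : Type*} [Group G] [Finite G] (z : G) (hz : orderOf z = 2) (Q : Subgroup (Subgroup.centralizer ({z} : Set G))) [Q.Normal] (hF : Cfsg.generalizedFittingSubgroup ↥(Subgroup.centralizer ({z} : Set G)) = Q) (hQ : Cfsg.IsExtraspecial 2 ↥Q) (w : ℕ) (hw : 2 ≤ w) (hcard : Nat.card ↥Q = 2 ^ (2 * w + 1)) (hnwc : ∃ g : G, (∃ hq : g * z * g⁻¹ ∈ Subgroup.centralizer ({z} : Set G), (⟨g * z * g⁻¹, hq⟩ : Subgroup.centralizer ({z} : Set G)) ∈ Q) ∧ g * z * g⁻¹ ≠ z) (hsimp : IsSimpleGroup (↥(Subgroup.centralizer ({z} : Set G)) ⧸ Q)) (hna : ¬ IsMulCommutative (↥(Subgroup.centralizer ({z} : Set G)) ⧸ Q)) (hirr : ∀ W : Subgroup (Subgroup.centralizer ({z} : Set G)), W.Normal → W ≤ Q → (W = Q ∨ ∀ x ∈ W, (x : G) ∈ Subgroup.zpowers z)) (hwcl : Subgroup.closure {x : Subgroup.centralizer ({z} : Set G) | IsConj z (x : G)} ≠ Q) : IsSimpleGroup G := by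
  have hF' : (generalizedFittingSubgroup ↥(Subgroup.centralizer ({z} : Set G))).map
    (Subgroup.centralizer ({z} : Set G)).subtype = Q.map (Subgroup.subtype _) := by rw [hF]
  have e := Subgroup.equivMapOfInjective Q _ (Subgroup.subtype_injective _)
  have h := LX_of_fstar (ne_one_of_orderOf_two hz) hF' (isExtraspecial_of_equiv e hQ)
  have h0 := h.toXS
  obtain ⟨g, ⟨hq, hgQ⟩, hgz⟩ := hnwc
  have hL := h.isLarge_of_conj (g := g) (eight_lt_of_card hw (by
    rw [← hcard]; exact Nat.card_congr e.toEquiv.symm)) ⟨_, hgQ, rfl⟩ hgz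
  refine h.isSimpleGroup hL (eq_O2C_of_fstar hF' h0.isPGroup) ?_
  set W := Subgroup.closure {x : Subgroup.centralizer ({z} : Set G) | IsConj z (x : G)} with hW
  have hWn : W.Normal := by
    refine ⟨fun x hx c => ?_⟩
    have : W ≤ W.comap (MulAut.conj c).toMonoidHom := by
      rw [hW, Subgroup.closure_le]
      intro y hy
      exact Subgroup.subset_closure (IsConj.trans hy (isConj_iff.2 ⟨c, rfl⟩))
    exact this hx
  have hs : (⟨_, hq⟩ : Subgroup.centralizer ({z} : Set G)) ∈ W :=
    Subgroup.subset_closure (isConj_iff.2 ⟨g, rfl⟩)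
  have hQW : Q ≤ W := by
    rcases hirr (W ⊓ Q) inferInstance inf_le_right with h1 | h1
    · rw [← h1]; exact inf_le_left
    · rcases (mem_zpowers_invol h0.z_sq _).1 (h1 _ ⟨hs, hgQ⟩) with h2 | h2
      · exact absurd h2 (h.conj g).z_ne
      · exact absurd h2 hgz
  have hWt : W = ⊤ := by
    rcases (hWn.map (QuotientGroup.mk' Q) (QuotientGroup.mk'_surjective Q)).eq_bot_or_eq_top with
      h1 | h1
    · rw [Subgroup.map_eq_bot_iff, QuotientGroup.ker_mk'] at h1
      exact absurd (le_antisymm h1 hQW) hwcl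
    · have := congrArg (Subgroup.comap (QuotientGroup.mk' Q)) h1
      rwa [Subgroup.comap_map_eq, QuotientGroup.ker_mk', sup_eq_left.2 hQW,
        Subgroup.comap_top] at this
  have h1 : W ≤ (Subgroup.normalClosure ({z} : Set G)).subgroupOf _ := by
    rw [hW, Subgroup.closure_le]
    intro y hy
    obtain ⟨k, hk⟩ := isConj_iff.1 hy
    have := Subgroup.normalClosure_normal.conj_mem _
      (Subgroup.subset_normalClosure (s := ({z} : Set G)) rfl) k
    rwa [hk] at this
  intro x hx
  exact h1 (x := ⟨x, hx⟩) (hWt ▸ Subgroup.mem_top _)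

end Cfsg.Agent.S5436
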