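import Cfsg.Statements.S5437
import Cfsg.Agent.H78.Basic

set_option autoImplicit false
open Cfsg

namespace Cfsg.Agent.S5437

open H78

/-- Let I be a set of involutions of the finite group G closed under conjugation, and H a subgroup of G. The following are equivalent: (1) for every member x of I lying in H, the conjugates of x lying in H form a single H-class and the centralizer of x lies in H; (2) for every g outside H, no member of I lies in both H and g H g⁻¹; (3) every member of I lying in H fixes exactly one coset in the action of G on the cosets of H. -/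
theorem result {G : Type*} [Group G] [Finite G] (I : Set G) (hI : ∀ x ∈ I, orderOf x = 2) (hIc : ∀ g : G, ∀ x ∈ I, g * x * g⁻¹ ∈ I) (H : Subgroup G) : ((∀ x ∈ I, x ∈ H → (∀ g : G, g * x * g⁻¹ ∈ H → ∃ h ∈ H, h * x * h⁻¹ = g * x * g⁻¹) ∧ Subgroup.centralizer ({x} : Set G) ≤ H) ↔ (∀ g : G, g ∉ H → ∀ x ∈ I, ¬ (x ∈ H ∧ x ∈ (H : Subgroup G).map (MulAut.conj g).toMonoidHom))) ∧ ((∀ g : G, g ∉ H → ∀ x ∈ I, ¬ (x ∈ H ∧ x ∈ (H : Subgroup G).map (MulAut.conj g).toMonoidHom)) ↔ ∀ x ∈ I, x ∈ H → ∃! c : G ⧸ H, x • c = c) := by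
  simp only [mem_conj_iff]
  refine ⟨⟨?_, ?_⟩, ⟨?_, ?_⟩⟩
  · rintro h g hg x hx ⟨hxH, hxg⟩
    obtain ⟨h1, h2⟩ := h x hx hxH
    obtain ⟨k, hk, hkx⟩ := h1 g⁻¹ (by simpa using hxg)
    have : g * k ∈ H := by
      apply h2
      rw [Subgroup.mem_centralizer_singleton_iff]
      have : k * x = g⁻¹ * x * g * k := by
        rw [inv_inv] at hkx; rw [← hkx]; group
      rw [mul_assoc, this]; group
    exact hg (by simpa using H.mul_mem this (H.inv_mem hk))
  · intro h x hx hxH
    refine ⟨fun g hg => ?_, fun g hg => ?_⟩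
    · by_cases hgH : g⁻¹ ∈ H
      · exact ⟨g, by simpa using H.inv_mem hgH, rfl⟩
      · exact absurd ⟨hxH, by simpa using hg⟩ (h g⁻¹ hgH x hx)
    · by_contra hgH
      refine h g hgH x hx ⟨hxH, ?_⟩
      rw [Subgroup.mem_centralizer_singleton_iff] at hg
      rw [mul_assoc, ← hg]; simpa using hxH
  · intro h x hx hxH
    refine ⟨((1 : G) : G ⧸ H), ?_, ?_⟩
    · show x • ((1 : G) : G ⧸ H) = _
      rw [smul_mk_eq_iff]; simpa using hxH
    · intro c hc
      induction c using QuotientGroup.induction_on with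
      | H g =>
        rw [smul_mk_eq_iff] at hc
        by_contra hne
        refine h g (fun hg => hne ?_) x hx ⟨hxH, hc⟩
        rw [QuotientGroup.eq]; simpa using hg
  · rintro h g hg x hx ⟨hxH, hxg⟩
    obtain ⟨c, -, hc⟩ := h x hx hxH
    have h1 := hc ((1 : G) : G ⧸ H) (by
      show x • ((1 : G) : G ⧸ H) = _
      rw [smul_mk_eq_iff]; simpa using hxH)
    have h2 := hc (g : G ⧸ H) ((smul_mk_eq_iff H x g).2 hxg)
    have h3 : (g : G ⧸ H) = ((1 : G) : G ⧸ H) := h2.trans h1.symm
    rw [QuotientGroup.eq] at h3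
    exact hg (by simpa using h3)

end Cfsg.Agent.S5437
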