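import Cfsg.Statements.S5438
import Cfsg.Agent.H78.Basic

set_option autoImplicit false
open Cfsg

namespace Cfsg.Agent.S5438

open H78

/-- Let z be a 2-central involution of the finite group G (an involution central in some Sylow 2-subgroup) and H a subgroup containing z such that the coset H is the only coset of H fixed by z (in the action of G on the cosets of H). Then H has odd index in G, and for every 2-element x of H the conjugates of x lying in H form a single H-class. -/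
theorem result {G : Type*} [Group G] [Finite G] (z : G) (hz : Cfsg.IsTwoCentralInvolution z) (H : Subgroup G) (hzH : z ∈ H) (hfix : ∀ g : G, g⁻¹ * z * g ∈ H → g ∈ H) : Odd H.index ∧ ∀ x ∈ H, (∃ k : ℕ, orderOf x = 2 ^ k) → ∀ g : G, g * x * g⁻¹ ∈ H → ∃ h ∈ H, h * x * h⁻¹ = g * x * g⁻¹ := by
  have : Fact (Nat.Prime 2) := ⟨Nat.prime_two⟩
  obtain ⟨hz2, P, hzP, hP⟩ := hz
  have hzz : z * z = 1 := by rw [← pow_two, ← hz2, pow_orderOf_eq_one]
  have hPH : (P : Subgroup G) ≤ H := by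
    intro x hx
    apply hfix
    rw [mul_assoc, ← hP x hx]; simpa using hzH
  have hodd : Odd H.index := by
    rw [← Nat.not_even_iff_odd, even_iff_two_dvd]
    intro h
    exact P.not_dvd_index (h.trans (Subgroup.index_dvd_of_le hPH))
  refine ⟨hodd, ?_⟩
  -- every 2-element of `H` commutes with an `H`-conjugate of `z`
  have key : ∀ x ∈ H, (∃ k : ℕ, orderOf x = 2 ^ k) → ∃ h ∈ H, x * (h * z * h⁻¹) = (h * z * h⁻¹) * x := by
    rintro x hx ⟨k, hk⟩
    have hp : IsPGroup 2 (Subgroup.zpowers (⟨x, hx⟩ : H)) := by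
      apply IsPGroup.of_card (n := k)
      rw [Nat.card_zpowers, Subgroup.orderOf_mk, hk]
    obtain ⟨S, hS⟩ := hp.exists_le_sylow
    obtain ⟨h, hh⟩ := MulAction.exists_smul_eq H (P.subtype hPH) S
    have hxS : (⟨x, hx⟩ : H) ∈ (h • P.subtype hPH : Sylow 2 H) := by
      rw [hh]; exact hS (Subgroup.mem_zpowers _)
    have h2 : (h : G)⁻¹ * x * h ∈ P := by
      rw [mem_smul_sylow] at hxS
      exact hxS
    refine ⟨h, h.2, ?_⟩
    have := hP _ h2
    calc x * (h * z * (h : G)⁻¹) = h * ((h : G)⁻¹ * x * h * z) * (h : G)⁻¹ := by group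
      _ = h * (z * ((h : G)⁻¹ * x * h)) * (h : G)⁻¹ := by rw [this]
      _ = _ := by group
  intro x hx hk g hg
  obtain ⟨h, hh, hxh⟩ := key x hx hk
  obtain ⟨h', hh', hxh'⟩ := key _ hg (by
    obtain ⟨k, hk⟩ := hk
    refine ⟨k, ?_⟩
    rw [← hk]
    simpa using MulEquiv.orderOf_eq (MulAut.conj g) x)
  -- a = h z h⁻¹ fixes only the coset `H`; b = g⁻¹ h' z h'⁻¹ g fixes only `g⁻¹ H`
  set a := h * z * h⁻¹ with ha
  set b := g⁻¹ * (h' * z * h'⁻¹) * g with hb
  have hxb : x * b = b * x := by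
    calc x * b = g⁻¹ * (g * x * g⁻¹ * (h' * z * h'⁻¹)) * g := by rw [hb]; group
      _ = g⁻¹ * ((h' * z * h'⁻¹) * (g * x * g⁻¹)) * g := by rw [hxh']
      _ = _ := by rw [hb]; group
  have haa : a * a = 1 := by
    calc a * a = h * (z * z) * h⁻¹ := by rw [ha]; group
      _ = 1 := by rw [hzz]; group
  have hbb : b * b = 1 := by
    calc b * b = g⁻¹ * h' * (z * z) * h'⁻¹ * g := by rw [hb]; group
      _ = 1 := by rw [hzz]; group
  let S : Set (G ⧸ H) := {q | ∃ c : G, x * c = c * x ∧ q = ((c * g⁻¹ : G) : G ⧸ H)}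
  have hS : ∀ y : G, x * y = y * x → ∀ q ∈ S, y • q ∈ S := by
    rintro y hy q ⟨c, hc, rfl⟩
    refine ⟨y * c, ?_, ?_⟩
    · rw [← mul_assoc, hy, mul_assoc, hc, mul_assoc]
    · rw [MulAction.Quotient.smul_mk, smul_eq_mul, mul_assoc]
  obtain ⟨⟨q, c, hc, rfl⟩, hq⟩ := exists_fixed_of_existsUnique (X := S) (fun q => ⟨a • q.1, hS a hxh q.1 q.2⟩)
    (fun q => ⟨b • q.1, hS b hxb q.1 q.2⟩)
    (fun q => Subtype.ext (by simp [smul_smul, haa]))
    (fun q => Subtype.ext (by simp [smul_smul, hbb]))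
    (by
      refine ⟨⟨((g⁻¹ : G) : G ⧸ H), 1, by simp, by simp⟩, ?_, ?_⟩
      · apply Subtype.ext
        show b • _ = _
        rw [smul_mk_eq_iff, hb]
        have : g⁻¹⁻¹ * (g⁻¹ * (h' * z * h'⁻¹) * g) * g⁻¹ = h' * z * h'⁻¹ := by group
        rw [this]
        exact H.mul_mem (H.mul_mem hh' hzH) (H.inv_mem hh')
      · rintro ⟨q, c, hc, rfl⟩ hq
        apply Subtype.ext
        have hq' := congrArg Subtype.val hq
        simp only at hq'
        rw [smul_mk_eq_iff, hb] at hq'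
        have h5 := hfix (h'⁻¹ * g * (c * g⁻¹)) (by convert hq' using 1; group)
        show ((c * g⁻¹ : G) : G ⧸ H) = ((g⁻¹ : G) : G ⧸ H)
        rw [eq_comm, QuotientGroup.eq]
        have := H.mul_mem hh' h5
        convert this using 1; group)
  have hq' := congrArg Subtype.val hq
  simp only at hq'
  rw [smul_mk_eq_iff, ha] at hq'
  have h5 := hfix (h⁻¹ * (c * g⁻¹)) (by convert hq' using 1; group)
  have h6 : c * g⁻¹ ∈ H := by
    have := H.mul_mem hh h5
    convert this using 1; group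
  refine ⟨(c * g⁻¹)⁻¹, H.inv_mem h6, ?_⟩
  calc (c * g⁻¹)⁻¹ * x * (c * g⁻¹)⁻¹⁻¹ = g * (c⁻¹ * (x * c)) * g⁻¹ := by group
    _ = _ := by rw [hc]; group

end Cfsg.Agent.S5438
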