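import Cfsg.Statements.S5439
import Cfsg.Agent.H78.Basic

set_option autoImplicit false
open Cfsg

namespace Cfsg.Agent.S5439

open H78

theorem conj_pow_aux {G : Type*} [Group G] {a b : G} (ha : a * a = 1) (hb : b * b = 1) (k : ℕ) :
    a * (a * b) ^ k = ((a * b) ^ k)⁻¹ * a := by
  have h : a * (a * b) = (a * b)⁻¹ * a := by
    rw [mul_inv_rev, inv_eq_of_mul_self ha, inv_eq_of_mul_self hb, ← mul_assoc, ha, mul_assoc, ha]
    simp
  induction k with
  | zero => simp
  | succ k ih =>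
    rw [pow_succ, ← mul_assoc, ih, mul_assoc, h, ← mul_assoc, ← mul_inv_rev, ← pow_succ', pow_succ]

/-- Let I and J be two different conjugacy classes of involutions of the finite group G and H a subgroup such that every member of I ∪ J fixes exactly one coset in the action on the cosets of H, and such that for every a in I ∩ H and every b in (I ∪ J) ∩ H different from a and commuting with it, the centralizer of a b lies in H. Then H = G. -/
theorem result {G : Type*} [Group G] [Finite G] (I J : Set G) (a₀ b₀ : G) (ha₀ : orderOf a₀ = 2) (hb₀ : orderOf b₀ = 2) (hI : I = {x | IsConj a₀ x}) (hJ : J = {x | IsConj b₀ x}) (hIJ : I ≠ J) (H : Subgroup G) (hfix : ∀ x ∈ I ∪ J, ∃! c : G ⧸ H, x • c = c) (hcent : ∀ a ∈ I, a ∈ H → ∀ b ∈ I ∪ J, b ∈ H → a ≠ b → a * b = b * a → Subgroup.centralizer ({a * b} : Set G) ≤ H) : H = ⊤ := by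
  -- a member of `I ∪ J` in `H`: `g⁻¹ x g ∈ H` forces `g ∈ H`
  have hfix' : ∀ x ∈ I ∪ J, x ∈ H → ∀ g : G, g⁻¹ * x * g ∈ H → g ∈ H := by
    intro x hx hxH g hg
    obtain ⟨c, -, hc⟩ := hfix x hx
    have h1 := hc ((1 : G) : G ⧸ H) ((smul_mk_eq_iff H x 1).2 (by simpa using hxH))
    have h2 := hc (g : G ⧸ H) ((smul_mk_eq_iff H x g).2 hg)
    have h3 : (g : G ⧸ H) = ((1 : G) : G ⧸ H) := h2.trans h1.symm
    rw [QuotientGroup.eq] at h3
    simpa using h3
  have hIc : ∀ x ∈ I, ∀ g : G, g⁻¹ * x * g ∈ I := by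
    intro x hx g
    rw [hI] at hx ⊢
    exact IsConj.trans hx (isConj_iff.2 ⟨g⁻¹, by simp⟩)
  have hJc : ∀ x ∈ J, ∀ g : G, g⁻¹ * x * g ∈ J := by
    intro x hx g
    rw [hJ] at hx ⊢
    exact IsConj.trans hx (isConj_iff.2 ⟨g⁻¹, by simp⟩)
  have hI2 : ∀ x ∈ I, x * x = 1 := by
    intro x hx
    rw [hI] at hx
    obtain ⟨g, rfl⟩ := isConj_iff.1 hx
    exact mul_self_of_orderOf_two ((orderOf_conj g a₀).trans ha₀)
  have hJ2 : ∀ x ∈ J, x * x = 1 := by
    intro x hx
    rw [hJ] at hx
    obtain ⟨g, rfl⟩ := isConj_iff.1 hx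
    exact mul_self_of_orderOf_two ((orderOf_conj g b₀).trans hb₀)
  have hdisj : ∀ x ∈ I, x ∉ J := by
    intro x hxI hxJ
    apply hIJ
    rw [hI] at hxI; rw [hJ] at hxJ
    rw [hI, hJ]
    ext y
    exact ⟨fun h => (hxJ.trans hxI.symm).trans h, fun h => (hxI.trans hxJ.symm).trans h⟩
  obtain ⟨a, haI, haH⟩ : ∃ a ∈ I, a ∈ H := by
    have h0 : a₀ ∈ I := by rw [hI]; exact IsConj.refl _
    obtain ⟨c, hc, -⟩ := hfix a₀ (Or.inl h0)
    induction c using QuotientGroup.induction_on with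
    | H g => exact ⟨_, hIc a₀ h0 g, (smul_mk_eq_iff H a₀ g).1 hc⟩
  have hJH : ∀ b ∈ J, b ∈ H := by
    intro b hbJ
    have ha2 := hI2 a haI
    have hb2 := hJ2 b hbJ
    have hpos : 0 < orderOf (a * b) := orderOf_pos _
    have hrefl : ∀ k : ℕ, a * (a * b) ^ (2 * k) ∈ I ∧ a * (a * b) ^ (2 * k + 1) ∈ J := by
      intro k
      constructor
      · have := hIc a haI ((a * b) ^ k)
        rwa [← conj_pow_aux ha2 hb2, mul_assoc, ← pow_add, ← two_mul] at this
      · have := hJc b hbJ ((a * b) ^ k)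
        have h1 : ∀ y, b * y = a * (a * b * y) := fun y => by
          rw [← mul_assoc, ← mul_assoc, ha2, one_mul]
        have h2 : ((a * b) ^ k)⁻¹ * b * (a * b) ^ k = a * (a * b) ^ (2 * k + 1) := by
          rw [mul_assoc, h1, ← mul_assoc, ← conj_pow_aux ha2 hb2, mul_assoc, ← pow_succ',
            ← pow_add, two_mul, add_assoc]
        rwa [h2] at this
    rcases Nat.even_or_odd' (orderOf (a * b)) with ⟨m, hm | hm⟩
    · have hu : (a * b) ^ m * (a * b) ^ m = 1 := by
        rw [← pow_add, ← two_mul, ← hm, pow_orderOf_eq_one]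
      have hu1 : (a * b) ^ m ≠ 1 := pow_ne_one_of_lt_orderOf (by omega) (by omega)
      have hau : a * (a * b) ^ m = (a * b) ^ m * a := by
        rw [conj_pow_aux ha2 hb2, inv_eq_of_mul_self hu]
      have huH : (a * b) ^ m ∈ H := by
        apply hfix' a (Or.inl haI) haH
        rw [mul_assoc, hau]; simpa using haH
      have hmem : a * (a * b) ^ m ∈ I ∪ J := by
        rcases Nat.even_or_odd' m with ⟨k, rfl | rfl⟩
        · exact Or.inl (hrefl k).1
        · exact Or.inr (hrefl k).2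
      have := hcent a haI haH _ hmem (H.mul_mem haH huH) (by simpa using hu1)
        (by rw [mul_assoc, ← hau])
      apply this
      rw [Subgroup.mem_centralizer_singleton_iff, ← mul_assoc a a, ha2, one_mul]
      have h1 : b = a * (a * b) := by rw [← mul_assoc, ha2, one_mul]
      calc b * (a * b) ^ m = a * ((a * b) * (a * b) ^ m) := by
            rw [← mul_assoc, ← h1]
        _ = a * (a * b) ^ m * (a * b) := by rw [← pow_succ', pow_succ, mul_assoc]
        _ = _ := by rw [hau, mul_assoc, ← h1]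
    · exfalso
      have := (hrefl m).2
      rw [← hm, pow_orderOf_eq_one, mul_one] at this
      exact hdisj a haI this
  rw [eq_top_iff]
  intro g _
  have h0 : b₀ ∈ J := by rw [hJ]; exact IsConj.refl _
  exact hfix' b₀ (Or.inr h0) (hJH _ h0) g (hJH _ (hJc _ h0 g))

end Cfsg.Agent.S5439
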