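import Cfsg.Statements.S5440
import Cfsg.Agent.H39.F24Core

set_option autoImplicit false
open Cfsg

namespace Cfsg.Agent.S5440

open H39.F24 H78

/-- Let G be a finite group of large Fischer type at the involution z: the generalized Fitting subgroup Q of H = C_G(z) is extraspecial of order 2^13, H has normal subgroups Q ≤ H₁ ≤ H₂ with H₁/Q of order 3, H₂/H₁ the projective special unitary group of dimension 4 over the field with nine elements and H₂ of index 2 in H, and some conjugate of z other than z lies in Q. Then H has exactly two orbits, under conjugation, on the involutions of Q other than z. -/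
theorem result {G : Type*} [Group G] [Finite G] (z : G) (Q : Subgroup (Subgroup.centralizer ({z} : Set G))) [Q.Normal] (hF : Cfsg.IsOfLargeFischerTypeAt z Q) : ∃ s t : Subgroup.centralizer ({z} : Set G), s ∈ Q ∧ t ∈ Q ∧ orderOf s = 2 ∧ orderOf t = 2 ∧ (s : G) ≠ z ∧ (t : G) ≠ z ∧ (¬ ∃ h : Subgroup.centralizer ({z} : Set G), h * s * h⁻¹ = t) ∧ ∀ x : Subgroup.centralizer ({z} : Set G), x ∈ Q → orderOf x = 2 → (x : G) ≠ z → (∃ h : Subgroup.centralizer ({z} : Set G), h * s * h⁻¹ = x) ∨ ∃ h : Subgroup.centralizer ({z} : Set G), h * t * h⁻¹ = x := by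
  obtain ⟨cl, ρ, h⟩ := core z Q hF
  have key : ∀ v, ty v = 2 ∨ ty v = 3 → ∃ s : CZ z, s ∈ Q ∧ orderOf s = 2 ∧ (s : G) ≠ z ∧
      cl s = v := fun v hv => by
    obtain ⟨_, ⟨s, hs, rfl⟩, e⟩ := h.surj v
    have hs' : (s : G) ∈ Q.map (CZ z).subtype := ⟨s, hs, rfl⟩
    have h0 := not_or.1 ((h.ker _ hs').not.1 (e ▸ (q_of_ty hv).1))
    refine ⟨s, hs, orderOf_eq_prime (Subtype.ext ?_) fun a => h0.1 (congrArg Subtype.val a), h0.2, e⟩
    rw [pow_two]
    exact (h.sq_iff hs').2 (e ▸ (q_of_ty hv).2)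
  obtain ⟨s, s1, s2, s3, s4⟩ := key _ (Or.inr ty_s0)
  obtain ⟨t, t1, t2, t3, t4⟩ := key _ (Or.inl ty_t0)
  refine ⟨s, t, s1, t1, s2, t2, s3, t3, ?_, fun x x1 x2 x3 => ?_⟩
  · rintro ⟨c, rfl⟩
    have := h.ty_conj c ((mem_map_subtype s).2 s1)
    rw [s4, ty_s0] at this
    exact absurd (this.symm.trans (t4 ▸ ty_t0)) (by norm_num)
  · have hx := (mem_map_subtype x).2 x1
    have h0 : cl x ≠ 0 := fun e => ((h.ker _ hx).1 e).elim (fun a => by
      rw [show x = 1 from Subtype.ext a, orderOf_one] at x2; exact absurd x2 (by norm_num)) x3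
    have hq : q (cl x) = 0 := (h.sq_iff hx).1 (by
      have := pow_orderOf_eq_one x
      rw [x2, pow_two] at this
      exact congrArg Subtype.val this)
    rcases ty_sing h0 hq with e | e
    · obtain ⟨c, -, hc⟩ := h.conj_of_ty ((mem_map_subtype t).2 t1) hx h0 (by rw [t4, ty_t0, e])
      exact Or.inr ⟨c, Subtype.ext hc⟩
    · obtain ⟨c, -, hc⟩ := h.conj_of_ty ((mem_map_subtype s).2 s1) hx h0 (by rw [s4, ty_s0, e])
      exact Or.inl ⟨c, Subtype.ext hc⟩

end Cfsg.Agent.S5440
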