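import Cfsg.Statements.S5442
import Cfsg.Agent.H39.F24Core

set_option autoImplicit false
open Cfsg

namespace Cfsg.Agent.S5442

open H39.F24 H78 MulAction

/-- Let G be a finite group of large Fischer type at the involution z: the generalized Fitting subgroup Q of H = C_G(z) is extraspecial of order 2^13, H has normal subgroups Q ≤ H₁ ≤ H₂ with H₁/Q of order 3, H₂/H₁ the projective special unitary group of dimension 4 over the field with nine elements and H₂ of index 2 in H, and some conjugate of z other than z lies in Q. Let s = g z g⁻¹ be a conjugate of z lying in Q and different from z. Then the intersection of Q and g Q g⁻¹ (as subgroups of G) is elementary abelian of order 2^7; and in H/Q, writing X for the image of the centralizer of s in H and E for the image of the intersection of g Q g⁻¹ with H, E is a normal subgroup of X, elementary abelian of order 32, with X/E isomorphic to the alternating group of degree 6. -/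
theorem result {G : Type*} [Group G] [Finite G] (z : G) (Q : Subgroup (Subgroup.centralizer ({z} : Set G))) [Q.Normal] (hF : Cfsg.IsOfLargeFischerTypeAt z Q) (s : G) (hsQ : ∃ hsc : s ∈ Subgroup.centralizer ({z} : Set G), (⟨s, hsc⟩ : Subgroup.centralizer ({z} : Set G)) ∈ Q) (hs : IsConj z s) (hs1 : s ≠ z) (g : G) (hg : g * z * g⁻¹ = s) (X E : Subgroup ((Subgroup.centralizer ({z} : Set G)) ⧸ Q)) (hX : X = ((Subgroup.centralizer ({z} : Set G) ⊓ Subgroup.centralizer ({s} : Set G)).subgroupOf (Subgroup.centralizer ({z} : Set G))).map (QuotientGroup.mk' Q)) (hE : E = ((((Q.map (Subgroup.centralizer ({z} : Set G)).subtype)).map (MulAut.conj g).toMonoidHom ⊓ Subgroup.centralizer ({z} : Set G)).subgroupOf (Subgroup.centralizer ({z} : Set G))).map (QuotientGroup.mk' Q)) : Cfsg.IsElementaryAbelian 2 ((Q.map (Subgroup.centralizer ({z} : Set G)).subtype) ⊓ ((Q.map (Subgroup.centralizer ({z} : Set G)).subtype)).map (MulAut.conj g).toMonoidHom) ∧ Nat.card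 ↥((Q.map (Subgroup.centralizer ({z} : Set G)).subtype) ⊓ ((Q.map (Subgroup.centralizer ({z} : Set G)).subtype)).map (MulAut.conj g).toMonoidHom) = 2 ^ 7 ∧ E ≤ X ∧ (∀ x ∈ X, ∀ y ∈ E, x * y * x⁻¹ ∈ E) ∧ Cfsg.IsElementaryAbelian 2 E ∧ Nat.card E = 32 ∧ ∃ _ : (E.subgroupOf X).Normal, Nonempty (↥X ⧸ E.subgroupOf X ≃* alternatingGroup (Fin 6)) := by
  obtain ⟨cl0, ρ0, h0⟩ := core z Q hF
  obtain ⟨s1, s2⟩ := hsQ
  have hs' : s ∈ Q.map (CZ z).subtype := ⟨_, s2, rfl⟩
  obtain ⟨d, hd, e⟩ := exists_smul_of_ty ((h0.ty_of_isConj hs' hs hs1).trans ty_s0.symm)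
  have h := h0.twist (M0_le_H0 hd)
  generalize (MulAut.conj d).toMonoidHom.comp ρ0 = ρ at h
  obtain ⟨cl, hcl⟩ : ∃ cl, cl = fun x => d • cl0 x := ⟨_, rfl⟩
  replace e : cl s = dv 85 := hcl ▸ e
  rw [← hcl] at h
  subst hg
  have hp := h.pair hs' hs1
  have hP := (Co.card_conj g).trans h.card
  generalize (Q.map (CZ z).subtype).map (MulAut.conj g).toMonoidHom = P at *
  generalize g * z * g⁻¹ = s at *
  have hk : ∀ c, ρ c = 1 ↔ c ∈ Q := fun c => by rw [h.rho_eq_one_iff, mem_map_subtype]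
  let τ : CZ z ⧸ Q →* H39.F24.X := QuotientGroup.lift Q ρ fun c hc => (hk c).2 hc
  have hτ : Function.Injective τ := (injective_iff_map_eq_one τ).2 fun x hx => by
    obtain ⟨c, rfl⟩ := QuotientGroup.mk_surjective x
    exact (QuotientGroup.eq_one_iff c).2 ((hk c).1 hx)
  have e1 : E.map τ = R0 := by
    rw [hE, Subgroup.map_map, Subgroup.inf_subgroupOf_right, ← h.map_P_eq hp hP e]; rfl
  have e2 : X.map τ = H0 ⊓ stabilizer H39.F24.X (dv 85) := by
    rw [hX, Subgroup.map_map]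
    apply le_antisymm
    · rintro _ ⟨c, hc, rfl⟩
      exact ⟨h.rho_mem c, e ▸ h.smul_cl_of_comm c hs' (mem_CZ.1 hc.2)⟩
    · rintro x ⟨x1, x2⟩
      obtain ⟨c, c1, c2⟩ := h.exists_lift hp (h.range ▸ x1) (e ▸ x2)
      exact ⟨c, ⟨c.2, mem_CZ.2 c2⟩, c1⟩
  have m1 : ∀ x, x ∈ E ↔ τ x ∈ R0 := fun x => by rw [← e1, Subgroup.mem_map_iff_mem hτ]
  have m2 : ∀ x, x ∈ X ↔ τ x ∈ H0 ⊓ stabilizer H39.F24.X (dv 85) := fun x => by
    rw [← e2, Subgroup.mem_map_iff_mem hτ]
  let ψ : X →* alternatingGroup (Fin 6) := (piH.comp ((τ.comp X.subtype).codRestrict _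
    fun x => (m2 x).1 x.2)).codRestrict _ fun x => piH_range ▸ ⟨_, rfl⟩
  have k1 : ψ.ker = E.subgroupOf X := by
    ext x
    rw [MonoidHom.mem_ker, Subgroup.mem_subgroupOf, m1, Subtype.ext_iff]
    exact piH_eq_one_iff _
  have k2 : Function.Surjective ψ := fun a => by
    obtain ⟨n, hn⟩ : (a : Equiv.Perm (Fin 6)) ∈ piH.range := by rw [piH_range]; exact a.2
    obtain ⟨x, hx, e⟩ : (n : H39.F24.X) ∈ X.map τ := by rw [e2]; exact n.2
    exact ⟨⟨x, hx⟩, Subtype.ext ((congrArg piH (Subtype.ext e)).trans hn)⟩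
  refine ⟨⟨⟨⟨fun a b => Subtype.ext (hp.E_comm a.2 b.2)⟩⟩, fun a ha => by
    rw [pow_two, hp.E_sq ha]⟩, h.card_E hp hP e, fun x hx => (m2 x).2 (R0_le_stabH ((m1 x).1 hx)),
    fun x hx y hy => (m1 _).2 ?_, ⟨⟨⟨fun a b => Subtype.ext (hτ ?_)⟩⟩, fun a ha => hτ ?_⟩, ?_,
    k1 ▸ ⟨inferInstance, ⟨QuotientGroup.quotientKerEquivOfSurjective ψ k2⟩⟩⟩
  · rw [map_mul, map_mul, map_inv]
    exact conj_mem_R0 (stabH_le_Ys ((m2 x).1 hx)) ((m1 y).1 hy)
  · simp only [Subgroup.coe_mul, map_mul]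
    exact R0_comm ((m1 _).1 a.2) ((m1 _).1 b.2)
  · rw [pow_two, map_mul, map_one, R0_sq ((m1 _).1 ha)]
  · rw [← card_R0, ← e1, Subgroup.card_map_of_injective hτ]

end Cfsg.Agent.S5442
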