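import Cfsg.Statements.S5451
import Cfsg.Agent.H95.F24E
import Cfsg.Agent.H39.F24Core

set_option autoImplicit false
open Cfsg

namespace Cfsg.Agent.S5451

/-- Let G be a finite group of large Fischer type at the involution z: the generalized Fitting subgroup Q of H = C_G(z) is extraspecial of order 2^13, H has normal subgroups Q ≤ H₁ ≤ H₂ with H₁/Q of order 3, H₂/H₁ the projective special unitary group of dimension 4 over the field with nine elements and H₂ of index 2 in H, and some conjugate of z other than z lies in Q. Let X be a subgroup of H of order 3 whose product with Q is normal in H (X maps onto the normal subgroup of order 3 of H/Q). Then the centralizer of X in H is quasisimple with cyclic centre of order 6 and central quotient isomorphic to the projective special unitary group of dimension 4 over the field with nine elements. -/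
theorem result {G : Type*} [Group G] [Finite G] (z : G) (Q : Subgroup (Subgroup.centralizer ({z} : Set G))) [Q.Normal] (hF : Cfsg.IsOfLargeFischerTypeAt z Q) (X : Subgroup (Subgroup.centralizer ({z} : Set G))) (hX : Nat.card X = 3) (hXQ : (X ⊔ Q).Normal) : Cfsg.IsQuasisimple ↥(Subgroup.centralizer ((X : Subgroup (Subgroup.centralizer ({z} : Set G))) : Set (Subgroup.centralizer ({z} : Set G)))) ∧ IsCyclic ↥(Subgroup.center ↥(Subgroup.centralizer ((X : Subgroup (Subgroup.centralizer ({z} : Set G))) : Set (Subgroup.centralizer ({z} : Set G))))) ∧ Nat.card ↥(Subgroup.center ↥(Subgroup.centralizer ((X : Subgroup (Subgroup.centralizer ({z} : Set G))) : Set (Subgroup.centralizer ({z} : Set G))))) = 6 ∧ ∃ (K : Type) (_ : Field K) (_ : Fintype K), Fintype.card K = 9 ∧ Nonempty (↥(Subgroup.centralizer ((X : Subgroup (Subgroup.centralizer ({z} : Set G))) : Set (Subgroup.centralizer ({z} : Set G)))) ⧸ Subgroup.center ↥(Subgroup.centralizer ((X : Subgroup (Subgroup.centralizer ({z} : Set G))) : Set (Subgroup.centralizer ({z} : Set G)))) ≃* Cfsg.PSU 4 K 3) := by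
  obtain ⟨cl, ρ, h⟩ := H39.F24.core z Q hF
  have hQ : (X ⊔ Q).map ρ = X.map ρ := by
    rw [Subgroup.map_sup, sup_eq_left]
    rintro _ ⟨c, hc, rfl⟩
    rw [(h.rho_eq_one_iff c).2 ⟨c, hc, rfl⟩]
    exact one_mem _
  obtain ⟨x, h1, h2, rfl⟩ := H95.F24.exists_gen h hX fun c y hy =>
    hQ ▸ Subgroup.mem_map_of_mem ρ (hXQ.conj_mem y (Subgroup.mem_sup_left hy) c)
  refine H95.F24.cent_three h h1 h2 fun d => ⟨fun hd => (hd x (Subgroup.mem_zpowers x)).symm, ?_⟩
  rintro hd _ ⟨k, rfl⟩
  exact ((show Commute d x from hd).zpow_right k).symm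

end Cfsg.Agent.S5451
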