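import Cfsg.Statements.S5459
import Cfsg.Agent.Base
import Cfsg.Agent.H75.OddClass
import Cfsg.Agent.H75.Prim

set_option autoImplicit false
open Cfsg

namespace Cfsg.Agent.S5459


/-- Let G be a finite group with a quasisimple normal subgroup L and an involution d such that G is generated by L and d, the centre of L has odd order, and d inverts every element of the centre of L. If the commuting graph on the conjugacy class of the image of d in G modulo the centre of L is connected, then the commuting graph on the conjugacy class of d is connected. -/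
theorem result {G : Type*} [Group G] [Finite G] (L : Subgroup G) [L.Normal] (hL : Cfsg.IsQuasisimple ↥L) (d : G) (hd : orderOf d = 2) (hgen : L ⊔ Subgroup.zpowers d = ⊤) (hodd : Odd (Nat.card ↥(Subgroup.center ↥L))) (hinv : ∀ c ∈ (Subgroup.center ↥L).map L.subtype, d * c * d⁻¹ = c⁻¹) [hn : ((Subgroup.center ↥L).map L.subtype).Normal] (hconn : (Cfsg.commutingGraph (conjugatesOf (QuotientGroup.mk d : G ⧸ (Subgroup.center ↥L).map L.subtype))).Connected) : (Cfsg.commutingGraph (conjugatesOf d)).Connected := by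
  set Z := (Subgroup.center ↥L).map L.subtype with hZ
  have hdd : d * d = 1 := by rw [← pow_two, ← hd, pow_orderOf_eq_one]
  have hZL : Z ≤ L := Subgroup.map_subtype_le _
  have hZc : ∀ c ∈ Z, ∀ x ∈ L, Commute x c := by
    rintro _ ⟨c, hc, rfl⟩ x hx
    exact congrArg Subtype.val (Subgroup.mem_center_iff.1 hc ⟨x, hx⟩)
  have hZodd : ∀ c ∈ Z, Odd (orderOf c) := by
    rintro _ ⟨c, hc, rfl⟩
    have := orderOf_dvd_natCard (⟨c, hc⟩ : Subgroup.center L)
    rw [← Subgroup.orderOf_coe, ← Subgroup.orderOf_coe] at this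
    exact Odd.of_dvd_nat hodd this
  have hc : ∀ g, ∀ a ∈ conjugatesOf d, g * a * g⁻¹ ∈ conjugatesOf d := fun g a ha =>
    IsConj.trans ha (isConj_iff.2 ⟨g, rfl⟩)
  have horb : ∀ e ∈ conjugatesOf d, ∃ y ∈ L, e = y * d * y⁻¹ := by
    intro e he
    obtain ⟨g, rfl⟩ := isConj_iff.1 he
    have hg : g⁻¹ ∈ Subgroup.zpowers d ⊔ L := by rw [sup_comm, hgen]; trivial
    rcases H75.mem_or_mul_mem_of_mem_sup hdd hg with h | h
    · exact ⟨g, by simpa using L.inv_mem h, rfl⟩
    · exact ⟨_, L.inv_mem h, by group⟩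
  have hsq : ∀ e ∈ conjugatesOf d, e * e = 1 := by
    intro e he
    obtain ⟨y, -, rfl⟩ := horb e he
    calc y * d * y⁻¹ * (y * d * y⁻¹) = y * (d * d) * y⁻¹ := by group
      _ = 1 := by rw [hdd]; simp
  have hinv' : ∀ e ∈ conjugatesOf d, ∀ c ∈ Z, e * c = c⁻¹ * e := by
    intro e he c hc
    obtain ⟨y, hy, rfl⟩ := horb e he
    have h1 := hZc c hc y hy
    have h2 : d * c = c⁻¹ * d := by rw [← hinv c hc]; group
    calc y * d * y⁻¹ * c = y * (d * c) * y⁻¹ := by rw [mul_assoc, h1.inv_left.eq]; group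
      _ = (y * c⁻¹) * d * y⁻¹ := by rw [h2]; group
      _ = _ := by rw [h1.inv_right.eq]; group
  have lift : ∀ e ∈ conjugatesOf d, ∀ f ∈ conjugatesOf d,
      Commute (e : G ⧸ Z) (f : G ⧸ Z) → ∃ u ∈ Z, Commute e (u * f * u⁻¹) := by
    intro e he f hf hef
    have hz : (e * f) ^ 2 ∈ Z := by
      rw [← QuotientGroup.eq_one_iff, QuotientGroup.mk_pow, QuotientGroup.mk_mul, hef.mul_pow,
        ← QuotientGroup.mk_pow, ← QuotientGroup.mk_pow, pow_two, pow_two, hsq e he, hsq f hf]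
      simp
    obtain ⟨k, hk⟩ := H75.eq_sq_pow_of_odd (hZodd _ hz)
    have hw : ((e * f) ^ 2) ^ k ∈ Z := Z.pow_mem hz k
    obtain ⟨m, hm⟩ := H75.eq_sq_pow_of_odd (hZodd _ hw)
    have hu : (((e * f) ^ 2) ^ k) ^ m ∈ Z := Z.pow_mem hw m
    refine ⟨_, hu, ?_⟩
    rw [← pow_mul, mul_comm, pow_mul] at hk hm
    have hcw : Commute (e * f) (((e * f) ^ 2) ^ k) := ((Commute.refl _).pow_right _).pow_right _
    generalize (((e * f) ^ 2) ^ k) ^ m = u at hu hm
    generalize ((e * f) ^ 2) ^ k = w at hw hm hk hcw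
    have h1 : u * f * u⁻¹ = f * w⁻¹ := by
      have := hinv' f hf u⁻¹ (Z.inv_mem hu)
      rw [inv_inv] at this
      rw [← this, ← hm]; group
    have h2 : (f * w⁻¹) * (f * w⁻¹) = 1 := by
      rw [← h1]; exact hsq _ (hc u f hf)
    rw [h1, H75.commute_iff_sq (hsq e he) h2, ← mul_assoc, hcw.inv_right.mul_pow, inv_pow, hk,
      mul_inv_cancel]
  let r : G → G → Prop :=
    Relation.ReflTransGen fun x y => x ∈ conjugatesOf d ∧ y ∈ conjugatesOf d ∧ Commute x y
  have rconj : ∀ g a b, r a b → r (g * a * g⁻¹) (g * b * g⁻¹) := fun g a b h =>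
    H75.rtg_map (fun x => g * x * g⁻¹)
      (fun _ _ h => ⟨hc g _ h.1, hc g _ h.2.1, H75.commute_conj_iff.2 h.2.2⟩) h
  let M : Subgroup G :=
    { carrier := {g | r d (g * d * g⁻¹)}
      one_mem' := by simpa using (Relation.ReflTransGen.refl : r d d)
      mul_mem' := fun {g k} hg hk => by
        have := Relation.ReflTransGen.trans hg (rconj g _ _ hk)
        simpa [mul_assoc] using this
      inv_mem' := fun {g} hg => by
        have := H75.rtg_symm (fun _ _ h => ⟨h.2.1, h.1, h.2.2.symm⟩) (rconj g⁻¹ _ _ hg)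
        simpa [mul_assoc] using this }
  have hdD : d ∈ conjugatesOf d := IsConj.refl d
  have key := H75.conn_induction hconn
    (P := fun x => ∃ f ∈ conjugatesOf d, (f : G ⧸ Z) = x ∧ r d f) (IsConj.refl _)
    ⟨d, hdD, rfl, Relation.ReflTransGen.refl⟩ (by
      rintro _ - y hy hxy ⟨f, hf, rfl, hr⟩
      obtain ⟨g, rfl⟩ := isConj_iff.1 hy
      obtain ⟨g, rfl⟩ := QuotientGroup.mk_surjective g
      obtain ⟨u, hu, h⟩ := lift f hf _ (hc g d hdD) (by simpa using hxy)
      exact ⟨_, hc u _ (hc g d hdD), by simp [(QuotientGroup.eq_one_iff u).2 hu]; rfl,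
        hr.tail ⟨hf, hc u _ (hc g d hdD), h⟩⟩)
  have hMZ : ∀ g : G, ∃ u ∈ Z, u * g ∈ M := by
    intro g
    obtain ⟨f, hf, h1, h2⟩ := key ((g * d * g⁻¹ : G) : G ⧸ Z) (isConj_iff.2 ⟨g, rfl⟩)
    obtain ⟨u, hu, h⟩ := lift f hf _ (hc g d hdD) (h1 ▸ Commute.refl _)
    refine ⟨u, hu, ?_⟩
    have := h2.tail ⟨hf, hc u _ (hc g d hdD), h⟩
    show r d (u * g * d * (u * g)⁻¹)
    simpa [mul_assoc] using this
  have hLM : L ≤ M := by
    have := hL.1
    rw [← Subgroup.subgroupOf_eq_top]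
    refine H14.eq_top_of_sup_center_eq_top (top_le_iff.1 fun x _ => ?_)
    obtain ⟨_, ⟨u, hu, rfl⟩, h⟩ := hMZ x
    have : x = u⁻¹ * (u * x) := by group
    rw [this]
    exact mul_mem (Subgroup.mem_sup_right (inv_mem hu)) (Subgroup.mem_sup_left h)
  refine H75.conn_of_induction ⟨d, hdD⟩ fun P a ha hP step b hb => ?_
  obtain ⟨x, hx, rfl⟩ := horb a ha
  obtain ⟨y, hy, rfl⟩ := horb b hb
  have := Relation.ReflTransGen.trans
    (H75.rtg_symm (fun _ _ h => ⟨h.2.1, h.1, h.2.2.symm⟩) (hLM hx)) (hLM hy)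
  clear hb
  generalize y * d * y⁻¹ = b at this
  induction this with
  | refl => exact hP
  | tail _ h ih => exact step _ h.1 _ h.2.1 h.2.2 ih

end Cfsg.Agent.S5459
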