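import Cfsg.Statements.S5514
import Cfsg.Agent.H37.C22
import Cfsg.Agent.H80.Link

set_option autoImplicit false
open Cfsg

namespace Cfsg.Agent.S5514

open H71 H80 H49 H23.Fi Subgroup H37 H37.F3 H37.O7

def FixQ (t : H56.O (Qd 7 1)) (c : ℕ) : Prop := ∀ v, t v = v → Qd 7 1 v ≠ (c : ZMod 3)
def MovQ (t : H56.O (Qd 7 1)) (c : ℕ) : Prop := ∀ v, Qd 7 1 (t v - v) ≠ (c : ZMod 3)

theorem neV_iff {n x y : ℕ} : neV n x y = true ↔ vec n x ≠ vec n y := by
  refine ⟨ne_of_neV, fun h => ?_⟩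
  rw [neV]
  cases e : isZ n (add n x (smul n 2 y))
  · rfl
  · refine absurd ?_ h
    have := isZ_iff.1 e
    rw [vec_add, vec_smul, show ((2 : ℕ) : ZMod 3) = -1 from rfl, neg_one_smul] at this
    exact add_neg_eq_zero.1 this

theorem neN_iff {a b : ℕ} : neN a b = true ↔ ¬ Nat.beq a b = true := by
  rw [neN]; cases Nat.beq a b <;> simp

noncomputable def fixQ (M : List ℕ) (c : ℕ) : Bool :=
  allV 7 fun x => bor (neN (bq 7 1 x x) c) (neV 7 (F3.app 7 M x) x)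

noncomputable def movQ (M : List ℕ) (c : ℕ) : Bool :=
  allV 7 fun x => frc (add 7 (F3.app 7 M x) (smul 7 2 x)) fun y => neN (bq 7 1 y y) c

theorem fixQ_iff {M : List ℕ} {t : H56.O (Qd 7 1)} (h : Sem 7 (F3.app 7 M) t.lin) {c : ℕ}
    (hc : c < 3) : fixQ M c = true ↔ FixQ t c := by
  refine allV_iff.trans (forall_congr' fun v => ?_)
  rw [bor_iff, neN_iff, neV_iff, bq_cd hc, h.cd, vec_cd, H56.O.lin_apply]
  tauto

theorem movQ_iff {M : List ℕ} {t : H56.O (Qd 7 1)} (h : Sem 7 (F3.app 7 M) t.lin) {c : ℕ}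
    (hc : c < 3) : movQ M c = true ↔ MovQ t c := by
  refine allV_iff.trans (forall_congr' fun v => ?_)
  rw [frc_eq, neN_iff, bq_cd hc, vec_add, h.cd, vec_smul, vec_cd, H56.O.lin_apply,
    show ((2 : ℕ) : ZMod 3) = -1 from rfl, neg_one_smul, sub_eq_add_neg]

theorem FixQ.conj {t : H56.O (Qd 7 1)} {c : ℕ} (h : FixQ t c) (a : H56.O (Qd 7 1)) :
    FixQ (a * t * a⁻¹) c := fun v e => by
  rw [← H56.O.map_Q a⁻¹]
  refine h _ ?_
  rw [← e, H56.O.mul_apply, H56.O.mul_apply, H56.O.inv_apply_apply, H56.O.mul_apply,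
    H56.O.mul_apply] at *
  simpa using congrArg (a⁻¹ : H56.O _) e

theorem MovQ.conj {t : H56.O (Qd 7 1)} {c : ℕ} (h : MovQ t c) (a : H56.O (Qd 7 1)) :
    MovQ (a * t * a⁻¹) c := fun v => by
  have := h (a⁻¹ v)
  rwa [← H56.O.map_Q a, map_sub, H56.O.apply_inv_apply] at this

theorem FixQ.inv {t : H56.O (Qd 7 1)} {c : ℕ} (h : FixQ t c) : FixQ t⁻¹ c := fun v e =>
  h v ((H56.O.inv_apply_eq _).1 e).symm

theorem MovQ.inv {t : H56.O (Qd 7 1)} {c : ℕ} (h : MovQ t c) : MovQ t⁻¹ c := fun v => by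
  have := h (t⁻¹ v)
  rwa [H56.O.apply_inv_apply, ← neg_sub, QuadraticMap.map_neg] at this

def Yw : Fin 7 → List ℕ := ![[1, 2], [1, 2, 4, 5], [1, 2, 7, 8], [1, 2, 4, 5, 7, 8], [1, 2, 3, 4, 7, 8, 1, 2, 3, 4, 7, 8, 1, 2, 3, 4, 7, 8, 1, 2, 3, 4, 7, 8], [1, 2, 3, 4, 5, 7, 1, 2, 3, 4, 5, 7, 1, 2, 3, 4, 5, 7, 1, 2, 3, 4, 5, 7], [2, 3, 4, 5, 7, 8, 2, 3, 4, 5, 7, 8, 2, 3, 4, 5, 7, 8, 2, 3, 4, 5, 7, 8]]
def Mw : Fin 7 → List ℕ := ![[85, 161, 137, 41, 256, 1024, 4096], [85, 41, 10913, 5513, 10276, 8740, 2596], [85, 1625, 1637, 1685, 340, 1192, 4096], [85, 1685, 8537, 6245, 10312, 8848, 2596], [2433, 2436, 16, 70, 265, 1030, 4096], [10905, 9302, 6233, 9322, 8706, 2714, 10342], [10857, 4774, 2390, 6245, 5670, 6482, 9610]]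
def Xw : Fin 7 → ℕ := ![1, 1, 1, 1, 1, 1, 1]
def Bw : Fin 7 → Bool × Bool × Bool × Bool := ![(false, false, true, false), (true, false, false, false), (false, false, false, true), (false, true, false, false), (false, false, true, true), (true, true, false, true), (true, true, false, true)]

set_option maxRecDepth 100000 in
theorem chk : ∀ i, eqB 7 (F3.app 7 (Mw i)) (wapp (rfl' 7 1 v7) (Yw i)) = true ∧
    eqR 7 1 v7 (wpow (Yw i) 3) [] = true ∧
    (fixQ (Mw i) 1, fixQ (Mw i) 2, movQ (Mw i) 1, movQ (Mw i) 2) = Bw i ∧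
      neV 7 (F3.app 7 (Mw i) (Xw i)) (Xw i) = true := by
  decide +kernel

theorem sem (i : Fin 7) : Sem 7 (F3.app 7 (Mw i)) (evw r7 (Yw i)).lin :=
  eq_of_eqB (sem_app 7 _) (sem_rfl 6 1 v7 _) (chk i).1 ▸ sem_app 7 _

theorem sep {i j : Fin 7} {a : H56.O (Qd 7 1)} (h : a * evw r7 (Yw i) * a⁻¹ = evw r7 (Yw j) ∨
    a * evw r7 (Yw i) * a⁻¹ = (evw r7 (Yw j))⁻¹) : Bw i = Bw j := by
  have k1 : ∀ c, FixQ (evw r7 (Yw i)) c ↔ FixQ (evw r7 (Yw j)) c := fun c => by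
    rcases h with h | h
    · exact ⟨fun b => h ▸ b.conj a, fun b => by simpa [← h, mul_assoc] using b.conj a⁻¹⟩
    · exact ⟨fun b => by simpa [h] using (b.conj a).inv,
        fun b => by simpa [← h, mul_assoc] using b.inv.conj a⁻¹⟩
  have k2 : ∀ c, MovQ (evw r7 (Yw i)) c ↔ MovQ (evw r7 (Yw j)) c := fun c => by
    rcases h with h | h
    · exact ⟨fun b => h ▸ b.conj a, fun b => by simpa [← h, mul_assoc] using b.conj a⁻¹⟩
    · exact ⟨fun b => by simpa [h] using (b.conj a).inv,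
        fun b => by simpa [← h, mul_assoc] using b.inv.conj a⁻¹⟩
  have k3 : ∀ c < 3, fixQ (Mw i) c = fixQ (Mw j) c := fun c hc =>
    Bool.eq_iff_iff.2 ((fixQ_iff (sem i) hc).trans ((k1 c).trans (fixQ_iff (sem j) hc).symm))
  have k4 : ∀ c < 3, movQ (Mw i) c = movQ (Mw j) c := fun c hc =>
    Bool.eq_iff_iff.2 ((movQ_iff (sem i) hc).trans ((k2 c).trans (movQ_iff (sem j) hc).symm))
  rw [← (chk i).2.2.1, ← (chk j).2.2.1, k3 1 (by norm_num), k3 2 (by norm_num), k4 1 (by norm_num),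
    k4 2 (by norm_num)]

theorem cube (i : Fin 7) : evw r7 (Yw i) ^ 3 = 1 := by
  rw [← evw_wpow]; exact of_eqR (chk i).2.1

theorem ne_one (i : Fin 7) : evw r7 (Yw i) ≠ 1 := fun e =>
  ne_of_neV (chk i).2.2.2 (by rw [sem i, e]; rfl)

theorem eq3 {H K : Type*} [Group H] [Group K] {ψ : H →* K} (hk : ψ.ker = center H)
    (h2 : ∀ z ∈ center H, z * z = 1) {u v : H} (hu : u ^ 3 = 1) (hv : v ^ 3 = 1) (e : ψ u = ψ v) :
    u = v := by
  have h1 : u⁻¹ * v ∈ center H := hk ▸ by rw [MonoidHom.mem_ker, map_mul, map_inv, e, inv_mul_cancel]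
  have h3 : Commute u (u⁻¹ * v) := mem_center_iff.1 h1 u
  have h4 := h3.mul_pow 3
  rw [mul_inv_cancel_left, hu, hv, one_mul, pow_succ', pow_two, h2 _ h1, mul_one] at h4
  exact inv_mul_eq_one.1 h4.symm

/-- The commutator subgroup of the isometry group of a non-degenerate 7-dimensional quadratic form over the field with three elements, modulo its (trivial) centre — the simple group Ω(7, 3) — has exactly seven conjugacy classes of subgroups of order 3. -/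
theorem result : ∃ Y : Fin 7 → Subgroup (Cfsg.POmega (ZMod 3) (Cfsg.quadFormOdd 3 (ZMod 3))), (∀ i, Nat.card (Y i) = 3) ∧ (∀ i j, (∃ g : Cfsg.POmega (ZMod 3) (Cfsg.quadFormOdd 3 (ZMod 3)), (Y i).map (MulAut.conj g).toMonoidHom = Y j) → i = j) ∧ (∀ X : Subgroup (Cfsg.POmega (ZMod 3) (Cfsg.quadFormOdd 3 (ZMod 3))), Nat.card X = 3 → ∃ i, ∃ g : Cfsg.POmega (ZMod 3) (Cfsg.quadFormOdd 3 (ZMod 3)), X.map (MulAut.conj g).toMonoidHom = Y i) := by
  obtain ⟨e⟩ := pom_equiv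
  let ψ := e.toMonoidHom.comp (QuotientGroup.mk' (center R7))
  have hs : Function.Surjective ψ := e.surjective.comp (QuotientGroup.mk'_surjective _)
  have hk : ψ.ker = center R7 := by
    rw [MonoidHom.ker_comp_of_injective _ _ e.injective, QuotientGroup.ker_mk']
  let s : Fin 7 → R7 := fun i => ⟨evw r7 (Yw i), evw_r7_mem _⟩
  have s3 : ∀ i, s i ^ 3 = 1 := fun i => Subtype.ext (cube i)
  have o3 : ∀ i, orderOf (ψ (s i)) = 3 := fun i =>
    haveI : Fact (Nat.Prime 3) := ⟨by norm_num⟩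
    orderOf_eq_prime (by rw [← map_pow, s3, map_one]) fun a => ne_one i (congrArg Subtype.val
      (eq3 hk C22.center_sq (s3 i) (one_pow 3) (a.trans (map_one ψ).symm)))
  refine ⟨_, classes_of (fun i => ψ (s i)) o3 (fun x h3 h1 => ?_) fun i j c => ?_⟩
  · obtain ⟨t, rfl⟩ := hs x
    obtain ⟨u, hu, e⟩ := C22.lift3 ψ (hk ▸ C22.center_sq) h3
    obtain ⟨y, hy, a, ha, e2⟩ := mc7 u.2 (congrArg Subtype.val hu)
    have h2 : y = [] ∨ ∃ i, Yw i = y := by
      revert hy; generalize y = y; revert y; decide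
    rcases h2 with rfl | ⟨i, rfl⟩
    · refine absurd ?_ h1
      rw [← e, show u = 1 from Subtype.ext (by simpa using e2.symm), map_one]
    · refine ⟨i, CJ.of_conj (g := ψ ⟨a, ha⟩) ?_⟩
      rw [← e, ← map_inv, ← map_mul, ← map_mul]
      exact congrArg ψ (Subtype.ext e2)
  · have key : ∃ a : R7, a * s i * a⁻¹ = s j ∨ a * s i * a⁻¹ = (s j)⁻¹ := by
      rcases cj_zpowers (o3 j) c with ⟨g, -, c⟩ | ⟨g, -, c⟩ <;> obtain ⟨a, rfl⟩ := hs g
      · exact ⟨a, Or.inl (eq3 hk C22.center_sq (by rw [conj_pow, s3]; simp) (s3 j)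
          (by rw [map_mul, map_mul, map_inv, c]))⟩
      · exact ⟨a, Or.inr (eq3 hk C22.center_sq (by rw [conj_pow, s3]; simp)
          (by rw [inv_pow, s3, inv_one]) (by rw [map_mul, map_mul, map_inv, c, map_inv]))⟩
    obtain ⟨a, ha⟩ := key
    have h1 := sep (a := a.1) (ha.imp (congrArg Subtype.val) (congrArg Subtype.val))
    have h2 : ∀ i j, Bw i = Bw j → i = j ∨ (i = 5 ∧ j = 6) ∨ (i = 6 ∧ j = 5) := by decide
    obtain ⟨Θ, h, -⟩ := isFi22_spor
    obtain ⟨χ, hχ, -⟩ := exists_chi h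
    have O := ok22 (uniq h)
    have h3 : ∀ i, χ (s i) = ev M22 Θ (Yw i) := fun i => (gr_RF h).unique (hχ _)
      (rf_word h (C22.over7 _ (by revert i; decide)))
    have h4 : CJ (zpowers (ev M22 Θ (Yw i))) (zpowers (ev M22 Θ (Yw j))) := by
      rw [← h3, ← h3]
      rcases ha with ha | ha
      · exact CJ.of_conj (g := χ a) (by rw [← ha, map_mul, map_mul, map_inv])
      · rw [← zpowers_inv (g := χ (s j))]
        exact CJ.of_conj (g := χ a) (by rw [← map_inv χ (s j), ← ha, map_mul, map_mul, map_inv])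
    have h5 := cj_width h.tt.2.1 h4
    have w5 : Cfsg.commutingWidth (DC _ (zpowers (ev M22 Θ (Yw 5)))) = 0 :=
      (cj_width h.tt.2.1 (CJ.of_conj (of_mvB O h C22.f6))).symm.trans (C22.width4 h)
    have w6 : Cfsg.commutingWidth (DC _ (zpowers (ev M22 Θ (Yw 6)))) = 3 :=
      (cj_width h.tt.2.1 (CJ.of_conj (of_mvB O h C22.f7))).symm.trans (C22.width5 h)
    rcases h2 i j h1 with e | ⟨rfl, rfl⟩ | ⟨rfl, rfl⟩
    · exact e
    · rw [w5, w6] at h5; exact absurd h5 (by norm_num)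
    · rw [w5, w6] at h5; exact absurd h5 (by norm_num)

end Cfsg.Agent.S5514
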