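import Cfsg.Statements.S5515
import Cfsg.Agent.H41.AutExt

set_option autoImplicit false
open Cfsg

namespace Cfsg.Agent.S5515

/-- Let G and G′ be finite groups whose generalized Fitting subgroups are isomorphic to PΩ⁺(8, 3) (the commutator subgroup of the isometry group of the hyperbolic quadratic form in dimension 8 over the field with three elements, modulo its centre) with quotients isomorphic to the symmetric group of degree 3. Then G and G′ are isomorphic. -/
theorem result {G G' : Type*} [Group G] [Finite G] [Group G'] [Finite G'] (hF : Nonempty (↥(Cfsg.generalizedFittingSubgroup G) ≃* Cfsg.POmega (ZMod 3) (Cfsg.quadFormPlus 4 (ZMod 3)))) (hF' : Nonempty (↥(Cfsg.generalizedFittingSubgroup G') ≃* Cfsg.POmega (ZMod 3) (Cfsg.quadFormPlus 4 (ZMod 3)))) [hn : (Cfsg.generalizedFittingSubgroup G).Normal] [hn' : (Cfsg.generalizedFittingSubgroup G').Normal] (hq : Nonempty (G ⧸ Cfsg.generalizedFittingSubgroup G ≃* Equiv.Perm (Fin 3))) (hq' : Nonempty (G' ⧸ Cfsg.generalizedFittingSubgroup G' ≃*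 Equiv.Perm (Fin 3))) : Nonempty (G ≃* G') := by
  obtain ⟨e⟩ := hF
  obtain ⟨e'⟩ := hF'
  obtain ⟨q⟩ := hq
  obtain ⟨q'⟩ := hq'
  obtain ⟨ψ⟩ := H41.out_PO8
  have h6 : Nat.card (Equiv.Perm (Fin 3)) = 6 := by rw [Nat.card_perm]; simp [Nat.factorial]
  exact H41.ext_unique ψ _ e _ e'
    (H41.centralizer_eq_bot_of_fstar (H41.center_eq_bot_congr e H41.center_PO8))
    (H41.centralizer_eq_bot_of_fstar (H41.center_eq_bot_congr e' H41.center_PO8))
    ((Nat.card_congr q.toEquiv).trans h6) ((Nat.card_congr q'.toEquiv).trans h6)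

end Cfsg.Agent.S5515
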