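import Cfsg.Statements.S5516
import Cfsg.Agent.H14.D8D

set_option autoImplicit false
open Cfsg

namespace Cfsg.Agent.S5516

/-- PΩ⁺(8, 3) (the commutator subgroup of the isometry group of the hyperbolic quadratic form in dimension 8 over the field with three elements, modulo its centre) has exactly 13 conjugacy classes of subgroups of order 3; and a finite group G whose generalized Fitting subgroup L is isomorphic to PΩ⁺(8, 3) with G/L the symmetric group of degree 3 has exactly 7 orbits, under conjugation, on the subgroups of L of order 3. -/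
theorem result {G : Type*} [Group G] [Finite G] (L : Subgroup G) (hL : L = Cfsg.generalizedFittingSubgroup G) (hF : Nonempty (↥L ≃* Cfsg.POmega (ZMod 3) (Cfsg.quadFormPlus 4 (ZMod 3)))) [hn : L.Normal] (hq : Nonempty (G ⧸ L ≃* Equiv.Perm (Fin 3))) : (∃ Y : Fin 13 → Subgroup (Cfsg.POmega (ZMod 3) (Cfsg.quadFormPlus 4 (ZMod 3))), (∀ i, Nat.card (Y i) = 3) ∧ (∀ i j, (∃ g : Cfsg.POmega (ZMod 3) (Cfsg.quadFormPlus 4 (ZMod 3)), (Y i).map (MulAut.conj g).toMonoidHom = Y j) → i = j) ∧ (∀ X : Subgroup (Cfsg.POmega (ZMod 3) (Cfsg.quadFormPlus 4 (ZMod 3))), Nat.card X = 3 → ∃ i, ∃ g : Cfsg.POmega (ZMod 3) (Cfsg.quadFormPlus 4 (ZMod 3)), X.map (MulAut.conj g).toMonoidHom = Y i)) ∧ ∃ Y : Fin 7 → Subgroup G, (∀ i, Y i ≤ L ∧ Nat.card (Y i) = 3) ∧ (∀ i j, (∃ g : G, (Y i).map (MulAut.conj g).toMonoidHom = Y j) → i = j) ∧ ∀ X : Subgroup G, X ≤ L → Nat.card X = 3 → ∃ i, ∃ g : G, X.map (MulAut.conj g).toMonoidHom = Y i := by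
  obtain ⟨y, o3, hc, hi, ha⟩ := H14.D8.classes
  obtain ⟨e⟩ := hF
  obtain ⟨q⟩ := hq
  obtain ⟨ψ⟩ := H41.out_PO8
  refine ⟨⟨_, H37.F3.classes_of y o3 (fun x h3 h1 => ?_) hi⟩,
    H14.D8.orbits y o3 hc hi ψ ha L e ?_ (by rw [Nat.card_congr q.toEquiv, Nat.card_perm]; simp [Nat.factorial])⟩
  · obtain ⟨i, c⟩ := hc x h3 h1
    obtain ⟨g, hg⟩ := isConj_iff.1 c
    exact ⟨i, H23.Fi.CJ.of_conj hg⟩
  · subst hL
    exact H41.centralizer_eq_bot_of_fstar (H41.center_eq_bot_congr e H41.center_PO8)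

end Cfsg.Agent.S5516
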