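import Cfsg.Statements.S5517
import Cfsg.Agent.H37.O7F
import Cfsg.Agent.H80.U6

set_option autoImplicit false
open Cfsg

namespace Cfsg.Agent.S5517

/-- Let G be a finite group with trivial centre generated by a conjugation-invariant set D of 3-transpositions on which it acts primitively, such that for some d in D the subgroup generated by the members of D other than d commuting with d has central largest normal 2- and 3-subgroups, and suppose G with D is of type M(22). Then G has a subgroup L generated by the members of D it contains and isomorphic to Ω(7, 3) (the commutator subgroup of the isometry group of a non-degenerate 7-dimensional quadratic form over the field with three elements, modulo its centre), and every Sylow 3-subgroup of L is a Sylow 3-subgroup of G. -/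
theorem result {G : Type*} [Group G] [Finite G] {D : Set G} (hD : Cfsg.IsThreeTranspositionGroup D) (hprim : Cfsg.IsPrimitiveUnderConj D) (d₀ : G) (hd₀ : d₀ ∈ D) (h3 : Cfsg.pCore 3 ↥(Subgroup.closure {y : G | y ∈ D ∧ y ≠ d₀ ∧ Commute d₀ y}) ≤ Subgroup.center ↥(Subgroup.closure {y : G | y ∈ D ∧ y ≠ d₀ ∧ Commute d₀ y})) (h2 : Cfsg.pCore 2 ↥(Subgroup.closure {y : G | y ∈ D ∧ y ≠ d₀ ∧ Commute d₀ y}) ≤ Subgroup.center ↥(Subgroup.closure {y : G | y ∈ D ∧ y ≠ d₀ ∧ Commute d₀ y})) (h22 : Cfsg.IsOfTypeM22 G D) : ∃ L : Subgroup G, Cfsg.IsDSubgroup D L ∧ Nonempty (↥L ≃* Cfsg.POmega (ZMod 3) (Cfsg.quadFormOdd 3 (ZMod 3))) ∧ ∀ P : Sylow 3 ↥L, ∃ P' : Sylow 3 G, (P : Subgroup ↥L).map L.subtype = (P' : Subgroup G) := by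
  obtain ⟨Θ, h⟩ := H80.a22 G D hD h22
  obtain ⟨χ, -, hk, hr⟩ := H37.O7.exists_chi h
  obtain ⟨e⟩ := H37.O7.pom_equiv
  have e1 := ((QuotientGroup.quotientKerEquivRange χ).symm.trans
    (QuotientGroup.quotientMulEquivOfEq hk)).trans e
  refine ⟨χ.range, le_antisymm ((Subgroup.closure_le _).2 fun _ hx => hx.2) ?_, ⟨e1⟩, fun P => ?_⟩
  · refine hr.le.trans (Subgroup.closure_mono ?_)
    rintro _ ⟨l, hl, rfl⟩
    exact ⟨h.real.mem _ (h.wf.glt l (H37.O7.sub8 hl)), hr ▸ Subgroup.subset_closure ⟨l, hl, rfl⟩⟩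
  · haveI : Fact (Nat.Prime 3) := ⟨by norm_num⟩
    refine ⟨Sylow.ofCard (P.1.map χ.range.subtype) ?_, rfl⟩
    rw [Subgroup.card_map_of_injective χ.range.subtype_injective, Sylow.card_eq_multiplicity,
      Nat.card_congr e1.toEquiv, H37.card_POm7, h.card, H80.ord22]
    have k : ∀ m, ¬ 3 ∣ m → (3 ^ 9 * m).factorization 3 = 9 := fun m hm => by
      rw [Nat.factorization_mul (by norm_num) (by rintro rfl; simp at hm),
        Nat.Prime.factorization_pow (by norm_num)]
      simp [Nat.factorization_eq_zero_of_not_dvd hm]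
    rw [show 4585351680 = 3 ^ 9 * 232960 by norm_num, show 64561751654400 = 3 ^ 9 * 3280076800 by
      norm_num, k _ (by norm_num), k _ (by norm_num)]

end Cfsg.Agent.S5517
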