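import Cfsg.Statements.S5541
import Cfsg.Agent.Base

set_option autoImplicit false
open Cfsg

namespace Cfsg.Agent.S5541

/-- Let ρ be a representation of a group H on a finite-dimensional real vector space U whose only ρ-invariant subspaces are the zero subspace and U, and suppose U carries a non-zero ρ-invariant symmetric bilinear form. Then the following are equivalent: (1) there is a non-zero ρ-equivariant commutative bilinear product on U of which every ρ-equivariant bilinear product is a scalar multiple; (2) there is a non-zero ρ-invariant trilinear form on U that is symmetric under all permutations of its arguments and of which every ρ-invariant trilinear form is a scalar multiple. -/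
theorem result {H : Type*} [Group H] {U : Type*} [AddCommGroup U] [Module ℝ U] [FiniteDimensional ℝ U] (ρ : Representation ℝ H U) (hirr : ∀ W : Submodule ℝ U, (∀ g : H, W.map (ρ g) ≤ W) → W = ⊥ ∨ W = ⊤) (B : LinearMap.BilinForm ℝ U) (hB0 : B ≠ 0) (hBs : ∀ u v, B u v = B v u) (hBi : ∀ (g : H) (u v : U), B (ρ g u) (ρ g v) = B u v) : (∃ m : U →ₗ[ℝ] U →ₗ[ℝ] U, m ≠ 0 ∧ (∀ u v, m u v = m v u) ∧ (∀ (g : H) (u v : U), m (ρ g u) (ρ g v) = ρ g (m u v)) ∧ ∀ m' : U →ₗ[ℝ] U →ₗ[ℝ] U, (∀ (g : H) (u v : U), m' (ρ g u) (ρ g v) = ρ g (m' u v)) → ∃ c : ℝ, m' = c • m) ↔ (∃ t : U →ₗ[ℝ] U →ₗ[ℝ] U →ₗ[ℝ] ℝ, t ≠ 0 ∧ (∀ u v w, t u v w = t v u w ∧ t u v w = t u w v) ∧ (∀ (g : H) (u v w : U), t (ρ g u) (ρ g v) (ρ g w) = t u v w) ∧ ∀ t' : U →ₗ[ℝ] U →ₗ[ℝ] U →ₗ[ℝ] ℝ, (∀ (g : H) (u v w : U), t' (ρ g u) (ρ g v) (ρ g w) = t' u v w) → ∃ c : ℝ, t' = c • t) := by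
  have hnd : ∀ u, (∀ v, B u v = 0) → u = 0 := by
    have hinv : ∀ g : H, (LinearMap.ker B).map (ρ g) ≤ LinearMap.ker B := by
      rintro g _ ⟨u, hu, rfl⟩
      refine LinearMap.ext fun v => ?_
      have e : v = ρ g (ρ g⁻¹ v) := by simp
      rw [e, hBi, show B u = 0 from hu]
      rfl
    rcases hirr (LinearMap.ker B) hinv with h | h
    · intro u hu
      have : u ∈ LinearMap.ker B := LinearMap.ext hu
      rwa [h] at this
    · exact absurd (LinearMap.ker_eq_top.1 h) hB0
  have hinj : Function.Injective B := by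
    rw [← LinearMap.ker_eq_bot, eq_bot_iff]
    intro u hu
    exact hnd u fun v => by rw [show B u = 0 from hu]; rfl
  have hbij : Function.Bijective B :=
    ⟨hinj, (LinearMap.injective_iff_surjective_of_finrank_eq_finrank
      (Subspace.dual_finrank_eq (K := ℝ) (V := U)).symm).1 hinj⟩
  let e : U ≃ₗ[ℝ] Module.Dual ℝ U := LinearEquiv.ofBijective B hbij
  have he : ∀ u v, e u v = B u v := fun _ _ => rfl
  let T : (U →ₗ[ℝ] U →ₗ[ℝ] U) → (U →ₗ[ℝ] U →ₗ[ℝ] U →ₗ[ℝ] ℝ) := fun m => m.compr₂ e.toLinearMap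
  let S : (U →ₗ[ℝ] U →ₗ[ℝ] U →ₗ[ℝ] ℝ) → (U →ₗ[ℝ] U →ₗ[ℝ] U) := fun t => t.compr₂ e.symm.toLinearMap
  have hT : ∀ m u v w, T m u v w = B (m u v) w := fun _ _ _ _ => rfl
  have hS : ∀ t u v w, B (S t u v) w = t u v w := by
    intro t u v w
    change e (e.symm (t u v)) w = _
    rw [e.apply_symm_apply]
  have ext' : ∀ x y : U, (∀ w, B x w = B y w) → x = y := fun x y h =>
    hinj (LinearMap.ext h)
  have hTi : ∀ m : U →ₗ[ℝ] U →ₗ[ℝ] U, (∀ (g : H) (u v : U), m (ρ g u) (ρ g v) = ρ g (m u v)) →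
      ∀ (g : H) (u v w : U), T m (ρ g u) (ρ g v) (ρ g w) = T m u v w := by
    intro m hm g u v w
    rw [hT, hT, hm, hBi]
  have hSi : ∀ t : U →ₗ[ℝ] U →ₗ[ℝ] U →ₗ[ℝ] ℝ,
      (∀ (g : H) (u v w : U), t (ρ g u) (ρ g v) (ρ g w) = t u v w) →
      ∀ (g : H) (u v : U), S t (ρ g u) (ρ g v) = ρ g (S t u v) := by
    intro t ht g u v
    apply ext'
    intro w
    have e : w = ρ g (ρ g⁻¹ w) := by simp
    rw [e, hBi, hS, hS, ht]
  constructor
  · rintro ⟨m, hm0, hmc, hmi, hmu⟩
    have huniq : ∀ t' : U →ₗ[ℝ] U →ₗ[ℝ] U →ₗ[ℝ] ℝ,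
        (∀ (g : H) (u v w : U), t' (ρ g u) (ρ g v) (ρ g w) = t' u v w) → ∃ c : ℝ, t' = c • T m := by
      intro t' ht'
      obtain ⟨c, hc⟩ := hmu _ (hSi t' ht')
      refine ⟨c, ?_⟩
      ext u v w
      rw [← hS, hc]
      simp [hT]
    have h12 : ∀ u v w, T m u v w = T m v u w := fun u v w => by rw [hT, hT, hmc]
    refine ⟨T m, ?_, ?_, hTi m hmi, huniq⟩
    · intro h
      apply hm0
      ext u v
      apply hnd
      intro w
      rw [← hT, h]; rfl
    · obtain ⟨c, hc⟩ := huniq (LinearMap.lflip.toLinearMap ∘ₗ T m) (fun g u v w => hTi m hmi g u w v)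
      have hc' : ∀ u v w, T m u w v = c * T m u v w := fun u v w =>
        congrArg (fun t : U →ₗ[ℝ] U →ₗ[ℝ] U →ₗ[ℝ] ℝ => t u v w) hc
      intro u v w
      refine ⟨h12 u v w, ?_⟩
      by_cases h1 : c = 1
      · rw [hc' u v w, h1, one_mul]
      · have h2 : ∀ u v w, (c + 1) * T m u v w = 0 := by
          intro u v w
          apply mul_left_cancel₀ (sub_ne_zero.2 h1)
          have := hc' u v w
          have := hc' u w v
          linear_combination (-c) * hc' u v w - hc' u w v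
        have h3 : ∀ u v w, T m u w v = - T m u v w := fun u v w => by
          linear_combination hc' u v w + h2 u v w
        have h4 : ∀ u v w, T m u v w = 0 := fun u v w => by
          have a1 := h3 u v w
          have a2 := h12 u w v
          have a3 := h3 w u v
          have a4 := h12 w v u
          have a5 := h3 v w u
          have a6 := h12 v u w
          linarith
        rw [h4, h4]
  · rintro ⟨t, ht0, hts, hti, htu⟩
    refine ⟨S t, ?_, ?_, hSi t hti, ?_⟩
    · intro h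
      apply ht0
      ext u v w
      rw [← hS, h]; simp
    · intro u v
      apply ext'
      intro w
      rw [hS, hS, (hts u v w).1]
    · intro m' hm'
      obtain ⟨c, hc⟩ := htu _ (hTi m' hm')
      refine ⟨c, ?_⟩
      ext u v
      apply ext'
      intro w
      rw [← hT, hc]
      simp [hS]

end Cfsg.Agent.S5541
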