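import Cfsg.Statements.S5543
import Cfsg.Agent.H19.Sak1

set_option autoImplicit false
open Cfsg

namespace Cfsg.Agent.S5543

/-- Let V be a finite-dimensional real vector space with a commutative bilinear product and a positive-definite symmetric bilinear form that associates with the product and satisfies the Norton inequality (the Majorana setting of the definitions). Let X be a group of linear automorphisms of V in which every element squares to the identity, and suppose every non-identity element x of X is a Majorana involution with an axial vector a(x) of squared length 1, such that for any two distinct non-identity x, y the product a(x) ∘ a(y) equals (1/8)(a(x) + a(y) − a(xy)) (the dihedral subalgebra of type 2A whose third axis belongs to the involution xy). Then X has order at most 4. -/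
theorem result {V : Type*} [AddCommGroup V] [Module ℝ V] [FiniteDimensional ℝ V] (mul : V →ₗ[ℝ] V →ₗ[ℝ] V) (B : LinearMap.BilinForm ℝ V) (hV : Cfsg.Axial.IsMajoranaAmbient mul B) (X : Subgroup (V ≃ₗ[ℝ] V)) (hX : ∀ x ∈ X, x * x = 1) (ax : (V ≃ₗ[ℝ] V) → V) (hax : ∀ x ∈ X, x ≠ 1 → Cfsg.Axial.IsMajoranaPair mul B x (ax x)) (h1 : ∀ x ∈ X, x ≠ 1 → B (ax x) (ax x) = 1) (h2A : ∀ x ∈ X, ∀ y ∈ X, x ≠ 1 → y ≠ 1 → x ≠ y → mul (ax x) (ax y) = (1 / 8 : ℝ) • (ax x + ax y - ax (x * y))) : Nat.card ↥X ≤ 4 := by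
  classical
  by_contra c
  push Not at c
  have : Finite X := Nat.finite_of_card_ne_zero (by omega)
  have := Fintype.ofFinite X
  have ex : ∀ s : Finset X, s.card ≤ 4 → ∃ z, z ∉ s := fun s hs => by
    by_contra n
    push Not at n
    have := Finset.card_le_card (show (Finset.univ : Finset X) ⊆ s from fun a _ => n a)
    rw [Finset.card_univ, ← Nat.card_eq_fintype_card] at this
    omega
  obtain ⟨⟨x, hx⟩, x1⟩ := ex {1} (by simp)
  obtain ⟨⟨y, hy⟩, y1⟩ := ex {1, ⟨x, hx⟩} (Finset.card_le_two.trans (by omega))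
  obtain ⟨⟨z, hz⟩, z1⟩ := ex {1, ⟨x, hx⟩, ⟨y, hy⟩, ⟨x * y, X.mul_mem hx hy⟩} Finset.card_le_four
  simp only [Finset.mem_insert, Finset.mem_singleton, Subtype.ext_iff, not_or,
    OneMemClass.coe_one] at x1 y1 z1
  have iv : ∀ u ∈ X, u⁻¹ = u := fun u hu => inv_eq_of_mul_eq_one_right (hX u hu)
  have cm : ∀ u ∈ X, ∀ v ∈ X, u * v = v * u := fun u hu v hv => by
    rw [← iv _ (X.mul_mem hu hv), mul_inv_rev, iv u hu, iv v hv]
  have cl : ∀ u ∈ X, ∀ v, u * (u * v) = v := fun u hu v => by rw [← mul_assoc, hX u hu, one_mul]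
  have ne : ∀ u ∈ X, ∀ v, u ≠ v → u * v ≠ 1 := fun u hu v n e =>
    n (by rw [← cl u hu v, e, mul_one])
  have eig : ∀ u ∈ X, u ≠ 1 → x ≠ u → mul (ax x) (ax u - ax (x * u)) =
      (1 / 4 : ℝ) • (ax u - ax (x * u)) := fun u hu u1 n => by
    rw [map_sub, h2A x hx u hu x1 u1 n, h2A x hx _ (X.mul_mem hx hu) x1 (ne x hx u n)
      (fun e => u1 (left_eq_mul.1 e)), cl x hx]
    module
  have A := H19.Sak.ax_of hV (hax x hx x1) (h1 x hx x1)
  have hxy := X.mul_mem hx hy
  have hxz := X.mul_mem hx hz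
  have hyz := X.mul_mem hy hz
  have n1 := ne x hx y (Ne.symm y1.2)
  have n2 := ne x hx z (Ne.symm z1.2.1)
  have n3 := ne y hy z (Ne.symm z1.2.2.1)
  have n4 : x ≠ y * z := fun e => z1.2.2.2 (by rw [e, cm y hy z hz, mul_assoc, hX y hy, mul_one])
  have n5 : y ≠ x * z := fun e => z1.2.2.2 (by rw [e, cl x hx])
  have f := A.f44 _ _ (eig y hy y1.1 (Ne.symm y1.2)) (eig z hz z1.1 (Ne.symm z1.2.1))
  have p : mul (ax y - ax (x * y)) (ax z - ax (x * z)) =
      (-1 / 4 : ℝ) • (ax (y * z) - ax (x * (y * z))) := by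
    simp only [map_sub, LinearMap.sub_apply]
    rw [h2A y hy z hz y1.1 z1.1 (Ne.symm z1.2.2.1), h2A _ hxy z hz n1 z1.1 (Ne.symm z1.2.2.2),
      h2A y hy _ hxz y1.1 n2 n5,
      h2A _ hxy _ hxz n1 n2 (fun e => z1.2.2.1 (mul_left_cancel e).symm), mul_assoc x y z,
      ← mul_assoc y x z, cm y hy x hx, mul_assoc x y z, mul_assoc x y, ← mul_assoc y x z,
      cm y hy x hx, mul_assoc x y z, cl x hx]
    module
  have g := eig _ hyz n3 n4
  rw [p, map_smul, g] at f
  have g2 := congrArg (mul (ax x)) f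
  rw [map_smul, map_smul, g, map_smul, A.idem, ← f] at g2
  have e : ax (y * z) = ax (x * (y * z)) := by
    linear_combination (norm := module) (64 / 3 : ℝ) • g2
  have u := H19.Sak.pair_unique (hax _ hyz n3) (e ▸ hax _ (X.mul_mem hx hyz) (ne x hx _ n4))
  exact x1 (right_eq_mul.1 u)

end Cfsg.Agent.S5543
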