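import Cfsg.Statements.S5545
import Cfsg.Agent.H19.Sak2

set_option autoImplicit false
open Cfsg

namespace Cfsg.Agent.S5545

/-- Let V be a finite-dimensional real vector space with a commutative bilinear product and a positive-definite symmetric bilinear form that associates with the product and satisfies the Norton inequality (the Majorana setting of the definitions). Let μ₀, μ₁ be commuting Majorana involutions with distinct axial vectors a₀ ≠ a₁ of squared length 1, each involution having no other axial vector. Then either a₀ and a₁ are orthogonal with a₀ ∘ a₁ = 0 (type 2B), or their inner product is 1/8 and, with a₂ = a₀ + a₁ − 8 a₀ ∘ a₁, the vector a₂ is an idempotent and a₀ ∘ a₂ = (1/8)(a₀ + a₂ − a₁), a₁ ∘ a₂ = (1/8)(a₁ + a₂ − a₀) (type 2A: the three idempotents span a subalgebra with aᵢ ∘ aⱼ = (1/8)(aᵢ + aⱼ − aₖ)). -/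
theorem result {V : Type*} [AddCommGroup V] [Module ℝ V] [FiniteDimensional ℝ V] (mul : V →ₗ[ℝ] V →ₗ[ℝ] V) (B : LinearMap.BilinForm ℝ V) (hV : Cfsg.Axial.IsMajoranaAmbient mul B) (μ₀ μ₁ : V ≃ₗ[ℝ] V) (a₀ a₁ : V) (h₀ : Cfsg.Axial.IsMajoranaPair mul B μ₀ a₀) (h₁ : Cfsg.Axial.IsMajoranaPair mul B μ₁ a₁) (hu₀ : ∀ a : V, Cfsg.Axial.IsMajoranaPair mul B μ₀ a → a = a₀) (hu₁ : ∀ a : V, Cfsg.Axial.IsMajoranaPair mul B μ₁ a → a = a₁) (hn₀ : B a₀ a₀ = 1) (hn₁ : B a₁ a₁ = 1) (hc : μ₀ * μ₁ = μ₁ * μ₀) (hne : a₀ ≠ a₁) : (B a₀ a₁ = 0 ∧ mul a₀ a₁ = 0) ∨ (B a₀ a₁ = 1 / 8 ∧ mul (a₀ + a₁ - (8 : ℝ) • mul a₀ a₁) (a₀ + a₁ - (8 : ℝ) • mul a₀ a₁) = a₀ + a₁ - (8 : ℝ) • mul a₀ a₁ ∧ mul a₀ (a₀ + a₁ - (8 : ℝ) • mul a₀ a₁) = (1 / 8 : ℝ) • (a₀ + (a₀ + a₁ - (8 : ℝ) • mul a₀ a₁) - a₁) ∧ mul a₁ (a₀ + a₁ - (8 : ℝ) • mul a₀ a₁) = (1 / 8 : ℝ) • (a₁ + (a₀ + a₁ - (8 : ℝ) • mul a₀ a₁) - a₀)) := by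
  have h := H19.Sak.ax_of hV h₀ hn₀
  have k := H19.Sak.ax_of hV h₁ hn₁
  have tb : μ₀ a₁ = a₁ := hu₁ _ (by
    have := H19.Sak.pair_conj h.tm h.tB h₁
    rwa [hc, mul_inv_cancel_right] at this)
  have sa : μ₁ a₀ = a₀ := hu₀ _ (by
    have := H19.Sak.pair_conj k.tm k.tB h₀
    rwa [← hc, mul_inv_cancel_right] at this)
  obtain ⟨x, hx⟩ : ∃ x, B a₀ a₁ = x := ⟨_, rfl⟩
  have hx' : B a₁ a₀ = x := (hV.2.1 ..).trans hx
  have hy : B a₀ (μ₁ a₀) = 1 := by rw [sa, hn₀]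
  have hm : B a₁ (μ₀ a₁) = 1 := by rw [tb, hn₁]
  have R := H19.Sak.rel hV h k hx hy hm
  have SS := (h.prods hV k hx hm rfl rfl rfl).2
  have aS := h.mul_sg a₁
  have bS := k.mul_sg a₀
  have ab := H19.Sak.mul_eq (mul := mul) a₀ a₁
  have ba := (hV.1 a₁ a₀).trans ab
  have T : H19.Sak.sg mul a₀ a₀ = (15 / 16 : ℝ) • a₀ := by rw [H19.Sak.sg, h.idem]; module
  have U : H19.Sak.sg mul a₁ a₁ = (15 / 16 : ℝ) • a₁ := by rw [H19.Sak.sg, k.idem]; module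
  rw [H19.Sak.sg_comm hV a₁ a₀, hx', sa] at bS
  rw [hx, tb] at aS
  simp only [sa, tb, h.ta, k.ta, T, U] at R SS
  have e : (x * (x - 1 / 8)) • (a₀ - a₁) = 0 := by
    linear_combination (norm := module) (7 / 32768 : ℝ) • R
  rcases mul_eq_zero.1 ((smul_eq_zero.1 e).resolve_right (sub_ne_zero.2 hne)) with e | e
  · refine Or.inl ⟨hx.trans e, ?_⟩
    by_contra n
    have p := hV.2.2.1 _ n
    have q := h.even a₁
    have r : mul a₀ (mul a₀ a₁) = (1 / 4 : ℝ) • mul a₀ a₁ := by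
      simp only [tb, map_add, hx, e] at q
      linear_combination (norm := module) (1 / 2 : ℝ) • q
    nth_rewrite 1 [hV.1 a₀ a₁] at p
    rw [← hV.2.2.2.1, r, map_smul, hV.1 a₀ a₁, hV.2.2.2.1, k.idem, hx', e] at p
    simp at p
  · obtain rfl : x = 1 / 8 := by linear_combination e
    refine Or.inr ⟨hx, ?_⟩
    generalize H19.Sak.sg mul a₀ a₁ = S at *
    simp only [ab, ba, map_add, map_sub, map_smul, LinearMap.add_apply, LinearMap.sub_apply,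
      LinearMap.smul_apply, hV.1 S a₀, hV.1 S a₁, aS, bS, SS, h.idem, k.idem]
    refine ⟨?_, ?_, ?_⟩ <;> module

end Cfsg.Agent.S5545
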