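import Cfsg.Statements.S5546
import Cfsg.Agent.H77.Simple

set_option autoImplicit false
open Cfsg

namespace Cfsg.Agent.S5546

attribute [local irreducible] H77.vecOf H77.PM.el

/-- reduction modulo 13 and modulo the fixed vector. -/
def red : leechLattice →+ (Fin 23 → ZMod 13) where
  toFun x p := (((x : GolayPt → ℤ) (some p) : ℤ) : ZMod 13) -
    if p = 0 then (((x : GolayPt → ℤ) none : ℤ) : ZMod 13) else 0
  map_zero' := by funext p; simp
  map_add' x y := by
    funext p
    simp only [AddSubgroup.coe_add, Pi.add_apply, Int.cast_add]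
    split_ifs <;> ring

theorem red_apply (x : leechLattice) (p : Fin 23) : red x p =
    (((x : GolayPt → ℤ) (some p) : ℤ) : ZMod 13) -
      if p = 0 then (((x : GolayPt → ℤ) none : ℤ) : ZMod 13) else 0 := rfl

theorem red_U : red H77.vU = 0 := by
  funext p
  rw [red_apply, H77.coe_U, H77.coe_U]
  revert p; decide

theorem red_e8 (q p : Fin 23) : red (H79.e8 (some q)) p = if p = q then 8 else 0 := by
  rw [red_apply, H79.e8_coe]
  revert p q; decide +kernel

theorem e8_none : H79.e8 none = H77.vU + H77.vU - H79.e8 (some (0 : Fin 23)) := by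
  rw [← H77.U_add_U1]
  exact (H77.U_sub_U1 ▸ (by abel : H77.vU + H77.vU1 = H77.vU + H77.vU - (H77.vU - H77.vU1)) :)

/-- the matrix of an automorphism. -/
noncomputable def mat (g : Co0) : Matrix (Fin 23) (Fin 23) (ZMod 13) :=
  fun p q => 5 * red (g • H79.e8 (some q)) p

theorem red_smul {g : Co0} (hg : g • H77.vU = H77.vU) (x : leechLattice) (p : Fin 23) :
    red (g • x) p = ∑ q, mat g p q * red x q := by
  have h1 := congrArg (fun y => red (g • y) p) (H79.eight_smul_eq x)
  simp only [H79.co0_zsmul, H79.co0_sum, map_zsmul, map_sum, Finset.sum_apply, Pi.smul_apply,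
    zsmul_eq_mul] at h1
  rw [Fintype.sum_option, e8_none, H77.smul_sub_co0, H77.smul_add_co0, hg, map_sub, map_add,
    red_U] at h1
  have h2 : ∑ q, mat g p q * red x q =
      5 * (∑ q : Fin 23, (((x : GolayPt → ℤ) (some q) : ℤ) : ZMod 13) *
          red (g • H79.e8 (some q)) p - (((x : GolayPt → ℤ) none : ℤ) : ZMod 13) *
            red (g • H79.e8 (some (0 : Fin 23))) p) := by
    have e : ∀ q, mat g p q * red x q = 5 * ((((x : GolayPt → ℤ) (some q) : ℤ) : ZMod 13) *
          red (g • H79.e8 (some q)) p) - if q = 0 then 5 * ((((x : GolayPt → ℤ) none : ℤ) : ZMod 13) *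
            red (g • H79.e8 (some (0 : Fin 23))) p) else 0 := by
      intro q
      rw [red_apply x, mat]
      split_ifs with h
      · rw [h]; ring
      · ring
    rw [Finset.sum_congr rfl fun q _ => e q, Finset.sum_sub_distrib, ← Finset.mul_sum,
      Finset.sum_ite_eq', if_pos (Finset.mem_univ _), mul_sub]
  rw [h2]
  have h3 : (5 : ZMod 13) * 8 = 1 := by decide
  rw [add_zero, zero_sub, Int.cast_ofNat, mul_neg, Pi.neg_apply, neg_add_eq_sub] at h1
  rw [← one_mul (red (g • x) p), ← h3, mul_assoc, h1]
  rfl

/-- the representation. -/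
noncomputable def rep : H77.St1 H77.vU →* Matrix (Fin 23) (Fin 23) (ZMod 13) where
  toFun g := mat g
  map_one' := by
    ext p q
    rw [mat, OneMemClass.coe_one, one_smul, red_e8, Matrix.one_apply]
    split_ifs <;> decide
  map_mul' g h := by
    ext p q
    rw [mat, Subgroup.coe_mul, mul_smul, red_smul g.2, Matrix.mul_apply, Finset.mul_sum]
    exact Finset.sum_congr rfl fun r _ => by simp only [mat]; ring

theorem rep_injective : Function.Injective rep.toHomUnits := by
  have := H77.simple_co2
  rw [← MonoidHom.ker_eq_bot_iff]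
  refine (Subgroup.Normal.eq_bot_or_eq_top inferInstance).resolve_right fun h => ?_
  have h1 : ∀ g : H77.St1 H77.vU, mat g = 1 := fun g =>
    congrArg Units.val (MonoidHom.mem_ker.1 (h.ge (Subgroup.mem_top g)))
  have h2 : mat H77.co2a.el = 1 := h1 ⟨H77.co2a.el, H77.mem_St1.2 H77.co2a_cU⟩
  have h3 : ∀ p, red (H77.co2a.el • H77.vV) p = red H77.vV p := by
    intro p
    rw [red_smul H77.co2a_cU, h2]
    simp [Matrix.one_apply]
  have hd : H77.isS (H77.co2a.act H77.cV) = true := by decide +kernel
  rw [H77.PM.smul_vecOf H77.co2a_ok H77.cV_isS hd rfl] at h3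
  simp only [red_apply, H77.coe_vecOf (H77.isLc_of_isS hd),
    H77.coe_vecOf (H77.isLc_of_isS H77.cV_isS)] at h3
  revert h3
  decide +kernel

/-- The second Conway group (the stabilizer in the Leech lattice automorphism group of the short vector fixed in the definitions) is isomorphic to a subgroup of the general linear group of degree 23 over the field with 13 elements: there is an injective homomorphism into it. -/
theorem result : ∃ f : ↥Cfsg.Spor.Co2 →* GL (Fin 23) (ZMod 13), Function.Injective f := by
  exact ⟨rep.toHomUnits.comp H77.co2Equiv.symm.toMonoidHom,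
    rep_injective.comp H77.co2Equiv.symm.injective⟩

end Cfsg.Agent.S5546
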