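import Cfsg.Statements.S5594
import Cfsg.Agent.H79.Center

set_option autoImplicit false
open Cfsg

namespace Cfsg.Agent.S5594

/-- The automorphism group of the Leech lattice contains the negation map, and the subgroup of order 2 it generates has no complement: the automorphism group is a non-split extension of its quotient by that subgroup (it is not the direct product of a group of order 2 with the first Conway group). -/
theorem result :
    ∃ n : ↥Cfsg.Co0, (∀ v : ↥Cfsg.leechLattice, ((n • v : ↥Cfsg.leechLattice) : Cfsg.GolayPt → ℤ) = -(v : Cfsg.GolayPt → ℤ)) ∧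
    ∀ K : Subgroup ↥Cfsg.Co0, ¬ (Subgroup.zpowers n).IsComplement' K := by
  refine ⟨H79.negC, fun v => by rw [H79.negC_smul]; rfl, fun K hK => ?_⟩
  have h1 := hK.index_eq_card
  rw [Nat.card_zpowers, H79.orderOf_negC] at h1
  have h2 := hK.disjoint
  rw [Subgroup.disjoint_def] at h2
  exact H79.negC_ne_one (h2 (Subgroup.mem_zpowers _) (H79.negC_mem_of_index_two h1))

end Cfsg.Agent.S5594
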