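import Cfsg.Statements.S5609
import Cfsg.Agent.Base
import Cfsg.Agent.H76.M24Mod

set_option autoImplicit false
open scoped Pointwise
open Cfsg

namespace Cfsg.Agent.S5609

set_option maxRecDepth 100000

open H72 Finset
open scoped Pointwise

/-- the octads disjoint from the standard octad -/
def far : List ℕ := [337856, 628112, 832080, 1161408, 1351424, 1584464, 1903248, 2141072, 2460752, 2702848, 2890176, 3216208, 3421328, 3704512, 4038912, 4202192, 4536592, 4819776, 5024896, 5350928, 5538256, 5780352, 6100032, 6337856, 6656640, 6889680, 7079696, 7409024, 7612992, 7903248]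

theorem exists_far {o o' : Finset GolayPt} (ho : o ∈ octads) (ho' : o' ∈ octads) (i j : ℕ)
    (hc : octL.all (fun m => !Nat.beq (pop (Nat.land oct0 m)) i ||
      far.any (fun e => Nat.beq (pop (Nat.land e m)) j)) = true) (h : (o ∩ o').card = i) :
    ∃ e ∈ octads, Disjoint o e ∧ (e ∩ o').card = j := by
  obtain ⟨g, hg, rfl⟩ := octad_trans ho
  obtain ⟨m, hm, rfl⟩ := exists_oct_smul hg ho'
  rw [card_smul_inter, card_inter_ofMask] at h
  have h1 := List.all_eq_true.1 hc m hm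
  rw [h, Nat.beq_refl, Bool.not_true, Bool.false_or, List.any_eq_true] at h1
  obtain ⟨e, he, h2⟩ := h1
  have h3 : far.all (fun e => isOct e && Nat.beq (pop (Nat.land oct0 e)) 0) = true := by
    decide +kernel
  have h4 := List.all_eq_true.1 h3 e he
  rw [Bool.and_eq_true] at h4
  refine ⟨g • ofMask e, smul_mem_octads hg (ofMask_mem_octads h4.1), ?_, ?_⟩
  · rw [disjoint_iff_inter_eq_empty, ← card_eq_zero, card_smul_inter, card_inter_ofMask]
    exact Nat.eq_of_beq_eq_true h4.2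
  · rw [card_smul_inter, card_inter_ofMask]
    exact Nat.eq_of_beq_eq_true h2

theorem adj_iff (a b : octads) : (blockGraph octads).Adj a b ↔ (a.1 ∩ b.1).card = 0 := by
  rw [blockGraph, SimpleGraph.fromRel_adj, card_eq_zero, ← disjoint_iff_inter_eq_empty]
  refine ⟨fun h => h.2.elim id (fun h => h.symm), fun h => ⟨?_, Or.inl h⟩⟩
  rintro rfl
  rw [disjoint_self_iff_empty, ← card_eq_zero, a.2.2] at h
  omega

theorem walk2 (a b : octads) (h : (a.1 ∩ b.1).card = 4) :
    ∃ p : (blockGraph octads).Walk a b, p.length = 2 := by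
  obtain ⟨e, he, h1, h2⟩ := exists_far a.2 b.2 4 0 (by decide +kernel) h
  exact ⟨.cons ((adj_iff a ⟨e, he⟩).2 (by rwa [card_eq_zero, ← disjoint_iff_inter_eq_empty]))
    (.cons ((adj_iff ⟨e, he⟩ b).2 h2) .nil), rfl⟩

theorem walk3 (a b : octads) (h : (a.1 ∩ b.1).card = 2) :
    ∃ p : (blockGraph octads).Walk a b, p.length = 3 := by
  obtain ⟨e, he, h1, h2⟩ := exists_far a.2 b.2 2 4 (by decide +kernel) h
  obtain ⟨p, hp⟩ := walk2 ⟨e, he⟩ b h2
  exact ⟨.cons ((adj_iff a ⟨e, he⟩).2 (by rwa [card_eq_zero, ← disjoint_iff_inter_eq_empty])) p,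
    by rw [SimpleGraph.Walk.length_cons, hp]⟩

theorem conn : (blockGraph octads).Connected := by
  have : Nonempty octads := ⟨⟨_, oct0_mem⟩⟩
  refine ⟨fun a b => ?_⟩
  by_cases h : a = b
  · rw [h]
  rcases card_inter_octads a.2 b.2 (fun h' => h (Subtype.ext h')) with h | h | h
  · exact ((adj_iff a b).2 h).reachable
  · exact ⟨(walk3 a b h).choose⟩
  · exact ⟨(walk2 a b h).choose⟩

theorem not_two (a b : octads) (h : (a.1 ∩ b.1).card = 2) : (blockGraph octads).dist a b ≠ 2 := by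
  intro h2
  obtain ⟨p, hp⟩ := (conn a b).exists_walk_length_eq_dist
  rw [h2] at hp
  match p, hp with
  | .cons (v := e) h3 (.cons h4 .nil), _ =>
    rw [adj_iff, card_eq_zero, ← disjoint_iff_inter_eq_empty] at h3 h4
    have h5 := card_of_mem_cSets (symmDiff_mem_cSets (symmDiff_mem_cSets a.2.1 b.2.1) e.2.1)
    have h6 := H76.card_symmDiff_add a.1 b.1
    have h7 := H76.card_symmDiff_add (symmDiff a.1 b.1) e.1
    have h8 : (symmDiff a.1 b.1 ∩ e.1).card = 0 := by
      rw [card_eq_zero, ← disjoint_iff_inter_eq_empty]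
      exact (disjoint_union_left.2 ⟨h3, h4.symm⟩).mono_left symmDiff_subset_union
    rw [a.2.2, b.2.2] at h6
    rw [e.2.2] at h7
    omega


/-- In the graph on the 759 octads of the length-24 code in which two octads are adjacent when they are disjoint, the graph is connected (of diameter 3) and two distinct octads are at distance 1, 2 or 3 exactly when they meet in 0, 4 or 2 points respectively. -/
theorem result (o o' : Finset Cfsg.GolayPt) (ho : o ∈ Cfsg.octads) (ho' : o' ∈ Cfsg.octads) (hne : o ≠ o') : (Cfsg.blockGraph Cfsg.octads).Connected ∧ ((Cfsg.blockGraph Cfsg.octads).dist ⟨o, ho⟩ ⟨o', ho'⟩ = 1 ↔ (o ∩ o').card = 0) ∧ ((Cfsg.blockGraph Cfsg.octads).dist ⟨o, ho⟩ ⟨o', ho'⟩ = 2 ↔ (o ∩ o').card = 4) ∧ ((Cfsg.blockGraph Cfsg.octads).dist ⟨o, ho⟩ ⟨o', ho'⟩ = 3 ↔ (o ∩ o').card = 2) := by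
  have h0 : (Cfsg.blockGraph Cfsg.octads).dist ⟨o, ho⟩ ⟨o', ho'⟩ ≠ 0 := fun h =>
    hne (congrArg Subtype.val (conn.dist_eq_zero_iff.1 h))
  have h1 : (Cfsg.blockGraph Cfsg.octads).dist ⟨o, ho⟩ ⟨o', ho'⟩ = 1 ↔ (o ∩ o').card = 0 := by
    rw [SimpleGraph.dist_eq_one_iff_adj, adj_iff]
  refine ⟨conn, h1, ?_⟩
  rcases card_inter_octads ho ho' hne with h | h | h
  · omega
  · obtain ⟨p, hp⟩ := walk3 ⟨o, ho⟩ ⟨o', ho'⟩ h
    have h2 := SimpleGraph.dist_le p
    have h3 := not_two ⟨o, ho⟩ ⟨o', ho'⟩ h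
    omega
  · obtain ⟨p, hp⟩ := walk2 ⟨o, ho⟩ ⟨o', ho'⟩ h
    have h2 := SimpleGraph.dist_le p
    omega

end Cfsg.Agent.S5609
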