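import Cfsg.Agent.Base
import Cfsg.Statements.S5610
import Cfsg.Agent.H72.Stabs

set_option autoImplicit false
open scoped Pointwise
open Cfsg

namespace Cfsg.Agent.S5610

open H72 MulAction
open scoped Pointwise

theorem a0 : (orbit ↥(M24 ⊓ stabilizer P24 (ofMask oct0)) (decT 115589658066991)).ncard = 15 :=
  codT.ncard_orbit Oct_eq (gOct_mem.mono inf_le_left) (by decide +kernel) 15 (by decide +kernel)

theorem a1 : (orbit ↥(M24 ⊓ stabilizer P24 (ofMask oct0)) (decT 35745650135041)).ncard = 420 :=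
  codT.ncard_orbit Oct_eq (gOct_mem.mono inf_le_left) (by decide +kernel) 420 (by decide +kernel)

theorem a2 : (orbit ↥(M24 ⊓ stabilizer P24 (ofMask oct0)) (decT 44536475111425)).ncard = 3360 :=
  codT.ncard_orbit Oct_eq (gOct_mem.mono inf_le_left) (by decide +kernel) 3360 (by decide +kernel)

theorem b0 : (orbit ↥(M24 ⊓ stabilizer P24 (ofMask oct0)) (decX 8388615)).ncard = 35 :=
  codX.ncard_orbit Oct_eq (gOct_mem.mono inf_le_left) (by decide +kernel) 35 (by decide +kernel)

theorem b1 : (orbit ↥(M24 ⊓ stabilizer P24 (ofMask oct0)) (decX 8388689)).ncard = 840 :=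
  codX.ncard_orbit Oct_eq (gOct_mem.mono inf_le_left) (by decide +kernel) 840 (by decide +kernel)

theorem b2 : (orbit ↥(M24 ⊓ stabilizer P24 (ofMask oct0)) (decX 8388627)).ncard = 896 :=
  codX.ncard_orbit Oct_eq (gOct_mem.mono inf_le_left) (by decide +kernel) 896 (by decide +kernel)

/-- The stabiliser of an octad in the group of the length-24 code has exactly three orbits on the 3795 trios, of sizes 15, 420 and 3360, and exactly three orbits on the 1771 sextets, of sizes 35, 840 and 896. -/
theorem result (o : Finset Cfsg.GolayPt) (ho : o ∈ Cfsg.octads) : (∃ X₁ ∈ Cfsg.trios, ∃ X₂ ∈ Cfsg.trios, ∃ X₃ ∈ Cfsg.trios, (MulAction.orbit ↥(MulAction.stabilizer Cfsg.M24 o) X₁).ncard = 15 ∧ (MulAction.orbit ↥(MulAction.stabilizer Cfsg.M24 o) X₂).ncard = 420 ∧ (MulAction.orbit ↥(MulAction.stabilizer Cfsg.M24 o) X₃).ncard = 3360 ∧ Cfsg.trios = MulAction.orbit ↥(MulAction.stabilizer Cfsg.M24 o) X₁ ∪ MulAction.orbit ↥(MulAction.stabilizer Cfsg.M24 o) X₂ ∪ MulAction.orbit ↥(MulAction.stabilizer Cfsg.M24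 o) X₃) ∧ (∃ Y₁ ∈ Cfsg.sextets, ∃ Y₂ ∈ Cfsg.sextets, ∃ Y₃ ∈ Cfsg.sextets, (MulAction.orbit ↥(MulAction.stabilizer Cfsg.M24 o) Y₁).ncard = 35 ∧ (MulAction.orbit ↥(MulAction.stabilizer Cfsg.M24 o) Y₂).ncard = 840 ∧ (MulAction.orbit ↥(MulAction.stabilizer Cfsg.M24 o) Y₃).ncard = 896 ∧ Cfsg.sextets = MulAction.orbit ↥(MulAction.stabilizer Cfsg.M24 o) Y₁ ∪ MulAction.orbit ↥(MulAction.stabilizer Cfsg.M24 o) Y₂ ∪ MulAction.orbit ↥(MulAction.stabilizer Cfsg.M24 o) Y₃) := by
  obtain ⟨g, hg, rfl⟩ := octad_trans ho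
  have ha0 := (ncard_orbit_stab hg _ _).trans a0
  have ha1 := (ncard_orbit_stab hg _ _).trans a1
  have ha2 := (ncard_orbit_stab hg _ _).trans a2
  have hb0 := (ncard_orbit_stab hg _ _).trans b0
  have hb1 := (ncard_orbit_stab hg _ _).trans b1
  have hb2 := (ncard_orbit_stab hg _ _).trans b2
  refine ⟨⟨g • decT 115589658066991, smul_mem_trios hg (decT_mem (by decide +kernel)),
    g • decT 35745650135041, smul_mem_trios hg (decT_mem (by decide +kernel)),
    g • decT 44536475111425, smul_mem_trios hg (decT_mem (by decide +kernel)),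
    ha0, ha1, ha2, ?_⟩, ⟨g • decX 8388615, smul_mem_sextets hg (decX_mem (by decide +kernel)),
    g • decX 8388689, smul_mem_sextets hg (decX_mem (by decide +kernel)),
    g • decX 8388627, smul_mem_sextets hg (decX_mem (by decide +kernel)),
    hb0, hb1, hb2, ?_⟩⟩
  · have hc := cover_of_ncard (G := stabilizer M24 (g • ofMask oct0)) trios (Set.toFinite _)
      (fun h y hy => smul_mem_trios h.1.2 hy) [g • decT 115589658066991, g • decT 35745650135041, g • decT 44536475111425]
      (by
        simp only [List.mem_cons, List.not_mem_nil, or_false, forall_eq_or_imp, forall_eq]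
        exact ⟨smul_mem_trios hg (decT_mem (by decide +kernel)), smul_mem_trios hg (decT_mem (by decide +kernel)), smul_mem_trios hg (decT_mem (by decide +kernel))⟩)
      [15, 420, 3360] (by simp only [List.map_cons, List.map_nil, ha0, ha1, ha2]) (by decide) (by rw [ncard_trios]; rfl)
    refine hc.trans ?_
    ext y
    simp [or_assoc]
  · have hc := cover_of_ncard (G := stabilizer M24 (g • ofMask oct0)) sextets (Set.toFinite _)
      (fun h y hy => smul_mem_sextets h.1.2 hy) [g • decX 8388615, g • decX 8388689, g • decX 8388627]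
      (by
        simp only [List.mem_cons, List.not_mem_nil, or_false, forall_eq_or_imp, forall_eq]
        exact ⟨smul_mem_sextets hg (decX_mem (by decide +kernel)), smul_mem_sextets hg (decX_mem (by decide +kernel)), smul_mem_sextets hg (decX_mem (by decide +kernel))⟩)
      [35, 840, 896] (by simp only [List.map_cons, List.map_nil, hb0, hb1, hb2]) (by decide) (by rw [ncard_sextets]; rfl)
    refine hc.trans ?_
    ext y
    simp [or_assoc]

end Cfsg.Agent.S5610
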