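import Cfsg.Agent.Base
import Cfsg.Statements.S5611
import Cfsg.Agent.H72.Stabs

set_option autoImplicit false
open scoped Pointwise
open Cfsg

namespace Cfsg.Agent.S5611

open H72 MulAction
open scoped Pointwise

theorem a0 : (orbit ↥(M24 ⊓ stabilizer P24 (decX tet0)) (ofMask 12656663)).ncard = 15 :=
  codC.ncard_orbit Sex_eq (gSex_mem.mono inf_le_left) (by decide +kernel) 15 (by decide +kernel)

theorem a1 : (orbit ↥(M24 ⊓ stabilizer P24 (decX tet0)) (ofMask 13062145)).ncard = 360 :=
  codC.ncard_orbit Sex_eq (gSex_mem.mono inf_le_left) (by decide +kernel) 360 (by decide +kernel)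

theorem a2 : (orbit ↥(M24 ⊓ stabilizer P24 (decX tet0)) (ofMask 4845570)).ncard = 384 :=
  codC.ncard_orbit Sex_eq (gSex_mem.mono inf_le_left) (by decide +kernel) 384 (by decide +kernel)

theorem b0 : (orbit ↥(M24 ⊓ stabilizer P24 (decX tet0)) (decT 46458271244311)).ncard = 15 :=
  codT.ncard_orbit Sex_eq (gSex_mem.mono inf_le_left) (by decide +kernel) 15 (by decide +kernel)

theorem b1 : (orbit ↥(M24 ⊓ stabilizer P24 (decX tet0)) (decT 62151411060737)).ncard = 180 :=
  codT.ncard_orbit Sex_eq (gSex_mem.mono inf_le_left) (by decide +kernel) 180 (by decide +kernel)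

theorem b2 : (orbit ↥(M24 ⊓ stabilizer P24 (decX tet0)) (decT 61719632629761)).ncard = 720 :=
  codT.ncard_orbit Sex_eq (gSex_mem.mono inf_le_left) (by decide +kernel) 720 (by decide +kernel)

theorem b3 : (orbit ↥(M24 ⊓ stabilizer P24 (decX tet0)) (decT 44536475111425)).ncard = 2880 :=
  codT.ncard_orbit Sex_eq (gSex_mem.mono inf_le_left) (by decide +kernel) 2880 (by decide +kernel)

/-- The stabiliser of a sextet in the group of the length-24 code has exactly three orbits on the 759 octads, of sizes 15, 360 and 384, and exactly four orbits on the 3795 trios, of sizes 15, 180, 720 and 2880. -/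
theorem result (S : Finset (Finset Cfsg.GolayPt)) (hS : S ∈ Cfsg.sextets) : (∃ X₁ ∈ Cfsg.octads, ∃ X₂ ∈ Cfsg.octads, ∃ X₃ ∈ Cfsg.octads, (MulAction.orbit ↥(MulAction.stabilizer Cfsg.M24 S) X₁).ncard = 15 ∧ (MulAction.orbit ↥(MulAction.stabilizer Cfsg.M24 S) X₂).ncard = 360 ∧ (MulAction.orbit ↥(MulAction.stabilizer Cfsg.M24 S) X₃).ncard = 384 ∧ Cfsg.octads = MulAction.orbit ↥(MulAction.stabilizer Cfsg.M24 S) X₁ ∪ MulAction.orbit ↥(MulAction.stabilizer Cfsg.M24 S) X₂ ∪ MulAction.orbit ↥(MulAction.stabilizer Cfsg.M24 S) X₃) ∧ (∃ Y₁ ∈ Cfsg.trios, ∃ Y₂ ∈ Cfsg.trios, ∃ Y₃ ∈ Cfsg.trios, ∃ Y₄ ∈ Cfsg.trios, (MulAction.orbit ↥(MulAction.stabilizer Cfsg.M24 S) Y₁).ncard = 15 ∧ (MulAction.orbit ↥(MulAction.stabilizer Cfsg.M24 S) Y₂).ncard = 180 ∧ (MulAction.orbit ↥(MulAction.stabilizer Cfsg.M24 S) Y₃).ncard = 720 ∧ (MulAction.orbit ↥(MulAction.stabilizer Cfsg.M24 S) Y₄).ncard = 2880 ∧ Cfsg.trios = MulAction.orbit ↥(MulAction.stabilizer Cfsg.M24 S) Y₁ ∪ MulAction.orbit ↥(MulAction.stabilizer Cfsg.M24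 S) Y₂ ∪ MulAction.orbit ↥(MulAction.stabilizer Cfsg.M24 S) Y₃ ∪ MulAction.orbit ↥(MulAction.stabilizer Cfsg.M24 S) Y₄) := by
  obtain ⟨g, hg, rfl⟩ := sextet_trans hS
  have ha0 := (ncard_orbit_stab hg _ _).trans a0
  have ha1 := (ncard_orbit_stab hg _ _).trans a1
  have ha2 := (ncard_orbit_stab hg _ _).trans a2
  have hb0 := (ncard_orbit_stab hg _ _).trans b0
  have hb1 := (ncard_orbit_stab hg _ _).trans b1
  have hb2 := (ncard_orbit_stab hg _ _).trans b2
  have hb3 := (ncard_orbit_stab hg _ _).trans b3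
  refine ⟨⟨g • ofMask 12656663, smul_mem_octads hg (ofMask_mem_octads (by decide +kernel)),
    g • ofMask 13062145, smul_mem_octads hg (ofMask_mem_octads (by decide +kernel)),
    g • ofMask 4845570, smul_mem_octads hg (ofMask_mem_octads (by decide +kernel)),
    ha0, ha1, ha2, ?_⟩, ⟨g • decT 46458271244311, smul_mem_trios hg (decT_mem (by decide +kernel)),
    g • decT 62151411060737, smul_mem_trios hg (decT_mem (by decide +kernel)),
    g • decT 61719632629761, smul_mem_trios hg (decT_mem (by decide +kernel)),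
    g • decT 44536475111425, smul_mem_trios hg (decT_mem (by decide +kernel)),
    hb0, hb1, hb2, hb3, ?_⟩⟩
  · have hc := cover_of_ncard (G := stabilizer M24 (g • decX tet0)) octads (Set.toFinite _)
      (fun h y hy => smul_mem_octads h.1.2 hy) [g • ofMask 12656663, g • ofMask 13062145, g • ofMask 4845570]
      (by
        simp only [List.mem_cons, List.not_mem_nil, or_false, forall_eq_or_imp, forall_eq]
        exact ⟨smul_mem_octads hg (ofMask_mem_octads (by decide +kernel)), smul_mem_octads hg (ofMask_mem_octads (by decide +kernel)), smul_mem_octads hg (ofMask_mem_octads (by decide +kernel))⟩)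
      [15, 360, 384] (by simp only [List.map_cons, List.map_nil, ha0, ha1, ha2]) (by decide) (by rw [ncard_octads]; rfl)
    refine hc.trans ?_
    ext y
    simp [or_assoc]
  · have hc := cover_of_ncard (G := stabilizer M24 (g • decX tet0)) trios (Set.toFinite _)
      (fun h y hy => smul_mem_trios h.1.2 hy) [g • decT 46458271244311, g • decT 62151411060737, g • decT 61719632629761, g • decT 44536475111425]
      (by
        simp only [List.mem_cons, List.not_mem_nil, or_false, forall_eq_or_imp, forall_eq]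
        exact ⟨smul_mem_trios hg (decT_mem (by decide +kernel)), smul_mem_trios hg (decT_mem (by decide +kernel)), smul_mem_trios hg (decT_mem (by decide +kernel)), smul_mem_trios hg (decT_mem (by decide +kernel))⟩)
      [15, 180, 720, 2880] (by simp only [List.map_cons, List.map_nil, hb0, hb1, hb2, hb3]) (by decide) (by rw [ncard_trios]; rfl)
    refine hc.trans ?_
    ext y
    simp [or_assoc]

end Cfsg.Agent.S5611
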