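import Cfsg.Agent.Base
import Cfsg.Statements.S5612
import Cfsg.Agent.H72.Stabs

set_option autoImplicit false
open scoped Pointwise
open Cfsg

namespace Cfsg.Agent.S5612

open H72 MulAction
open scoped Pointwise

theorem a0 : (orbit ↥(M24 ⊓ stabilizer P24 (decT tri0)) (ofMask 8536111)).ncard = 3 :=
  codC.ncard_orbit Tri_eq (gTri_mem.mono inf_le_left) (by decide +kernel) 3 (by decide +kernel)

theorem a1 : (orbit ↥(M24 ⊓ stabilizer P24 (decT tri0)) (ofMask 11100169)).ncard = 84 :=
  codC.ncard_orbit Tri_eq (gTri_mem.mono inf_le_left) (by decide +kernel) 84 (by decide +kernel)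

theorem a2 : (orbit ↥(M24 ⊓ stabilizer P24 (decT tri0)) (ofMask 13062145)).ncard = 672 :=
  codC.ncard_orbit Tri_eq (gTri_mem.mono inf_le_left) (by decide +kernel) 672 (by decide +kernel)

theorem b0 : (orbit ↥(M24 ⊓ stabilizer P24 (decT tri0)) (decX 8388615)).ncard = 7 :=
  codX.ncard_orbit Tri_eq (gTri_mem.mono inf_le_left) (by decide +kernel) 7 (by decide +kernel)

theorem b1 : (orbit ↥(M24 ⊓ stabilizer P24 (decT tri0)) (decX 8388619)).ncard = 84 :=
  codX.ncard_orbit Tri_eq (gTri_mem.mono inf_le_left) (by decide +kernel) 84 (by decide +kernel)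

theorem b2 : (orbit ↥(M24 ⊓ stabilizer P24 (decT tri0)) (decX 8388689)).ncard = 336 :=
  codX.ncard_orbit Tri_eq (gTri_mem.mono inf_le_left) (by decide +kernel) 336 (by decide +kernel)

theorem b3 : (orbit ↥(M24 ⊓ stabilizer P24 (decT tri0)) (decX 8388627)).ncard = 1344 :=
  codX.ncard_orbit Tri_eq (gTri_mem.mono inf_le_left) (by decide +kernel) 1344 (by decide +kernel)

/-- The stabiliser of a trio in the group of the length-24 code has exactly three orbits on the 759 octads, of sizes 3, 84 and 672, and exactly four orbits on the 1771 sextets, of sizes 7, 84, 336 and 1344. -/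
theorem result (T : Finset (Finset Cfsg.GolayPt)) (hT : T ∈ Cfsg.trios) : (∃ X₁ ∈ Cfsg.octads, ∃ X₂ ∈ Cfsg.octads, ∃ X₃ ∈ Cfsg.octads, (MulAction.orbit ↥(MulAction.stabilizer Cfsg.M24 T) X₁).ncard = 3 ∧ (MulAction.orbit ↥(MulAction.stabilizer Cfsg.M24 T) X₂).ncard = 84 ∧ (MulAction.orbit ↥(MulAction.stabilizer Cfsg.M24 T) X₃).ncard = 672 ∧ Cfsg.octads = MulAction.orbit ↥(MulAction.stabilizer Cfsg.M24 T) X₁ ∪ MulAction.orbit ↥(MulAction.stabilizer Cfsg.M24 T) X₂ ∪ MulAction.orbit ↥(MulAction.stabilizer Cfsg.M24 T) X₃) ∧ (∃ Y₁ ∈ Cfsg.sextets, ∃ Y₂ ∈ Cfsg.sextets, ∃ Y₃ ∈ Cfsg.sextets, ∃ Y₄ ∈ Cfsg.sextets, (MulAction.orbit ↥(MulAction.stabilizer Cfsg.M24 T) Y₁).ncard = 7 ∧ (MulAction.orbit ↥(MulAction.stabilizer Cfsg.M24 T) Y₂).ncard = 84 ∧ (MulAction.orbit ↥(MulAction.stabilizer Cfsg.M24 T) Y₃).ncard = 336 ∧ (MulAction.orbit ↥(MulAction.stabilizer Cfsg.M24 T) Y₄).ncard = 1344 ∧ Cfsg.sextets = MulAction.orbit ↥(MulAction.stabilizer Cfsg.M24 T) Y₁ ∪ MulAction.orbit ↥(MulAction.stabilizer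 Cfsg.M24 T) Y₂ ∪ MulAction.orbit ↥(MulAction.stabilizer Cfsg.M24 T) Y₃ ∪ MulAction.orbit ↥(MulAction.stabilizer Cfsg.M24 T) Y₄) := by
  obtain ⟨g, hg, rfl⟩ := trio_trans hT
  have ha0 := (ncard_orbit_stab hg _ _).trans a0
  have ha1 := (ncard_orbit_stab hg _ _).trans a1
  have ha2 := (ncard_orbit_stab hg _ _).trans a2
  have hb0 := (ncard_orbit_stab hg _ _).trans b0
  have hb1 := (ncard_orbit_stab hg _ _).trans b1
  have hb2 := (ncard_orbit_stab hg _ _).trans b2
  have hb3 := (ncard_orbit_stab hg _ _).trans b3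
  refine ⟨⟨g • ofMask 8536111, smul_mem_octads hg (ofMask_mem_octads (by decide +kernel)),
    g • ofMask 11100169, smul_mem_octads hg (ofMask_mem_octads (by decide +kernel)),
    g • ofMask 13062145, smul_mem_octads hg (ofMask_mem_octads (by decide +kernel)),
    ha0, ha1, ha2, ?_⟩, ⟨g • decX 8388615, smul_mem_sextets hg (decX_mem (by decide +kernel)),
    g • decX 8388619, smul_mem_sextets hg (decX_mem (by decide +kernel)),
    g • decX 8388689, smul_mem_sextets hg (decX_mem (by decide +kernel)),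
    g • decX 8388627, smul_mem_sextets hg (decX_mem (by decide +kernel)),
    hb0, hb1, hb2, hb3, ?_⟩⟩
  · have hc := cover_of_ncard (G := stabilizer M24 (g • decT tri0)) octads (Set.toFinite _)
      (fun h y hy => smul_mem_octads h.1.2 hy) [g • ofMask 8536111, g • ofMask 11100169, g • ofMask 13062145]
      (by
        simp only [List.mem_cons, List.not_mem_nil, or_false, forall_eq_or_imp, forall_eq]
        exact ⟨smul_mem_octads hg (ofMask_mem_octads (by decide +kernel)), smul_mem_octads hg (ofMask_mem_octads (by decide +kernel)), smul_mem_octads hg (ofMask_mem_octads (by decide +kernel))⟩)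
      [3, 84, 672] (by simp only [List.map_cons, List.map_nil, ha0, ha1, ha2]) (by decide) (by rw [ncard_octads]; rfl)
    refine hc.trans ?_
    ext y
    simp [or_assoc]
  · have hc := cover_of_ncard (G := stabilizer M24 (g • decT tri0)) sextets (Set.toFinite _)
      (fun h y hy => smul_mem_sextets h.1.2 hy) [g • decX 8388615, g • decX 8388619, g • decX 8388689, g • decX 8388627]
      (by
        simp only [List.mem_cons, List.not_mem_nil, or_false, forall_eq_or_imp, forall_eq]
        exact ⟨smul_mem_sextets hg (decX_mem (by decide +kernel)), smul_mem_sextets hg (decX_mem (by decide +kernel)), smul_mem_sextets hg (decX_mem (by decide +kernel)), smul_mem_sextets hg (decX_mem (by decide +kernel))⟩)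
      [7, 84, 336, 1344] (by simp only [List.map_cons, List.map_nil, hb0, hb1, hb2, hb3]) (by decide) (by rw [ncard_sextets]; rfl)
    refine hc.trans ?_
    ext y
    simp [or_assoc]

end Cfsg.Agent.S5612
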