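import Cfsg.Statements.S5623
import Cfsg.Agent.Base
import Cfsg.Agent.H76.Code24

set_option autoImplicit false
open Cfsg

namespace Cfsg.Agent.S5623

/-- Let C be a self-dual binary code of length 24 with minimum weight at least 8 (a 12-dimensional subspace of the 24-dimensional space over the field with two elements, any two of whose words have dot product zero, with no non-zero word of weight below 8 — an abstract extended binary Golay code). Then every coset w + C of C in the ambient space contains either exactly one word of weight at most 4, which then has weight at most 3, or exactly six words of weight at most 4, all of weight exactly 4 and with pairwise disjoint supports (a sextet). -/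
theorem result (C : Submodule (ZMod 2) (Fin 24 → ZMod 2)) (hdim : Module.finrank (ZMod 2) C = 12) (horth : ∀ v ∈ C, ∀ w ∈ C, ∑ i, v i * w i = 0) (hmin : ∀ w ∈ C, w ≠ 0 → 8 ≤ hammingNorm w) (w : Fin 24 → ZMod 2) : (∃ u : Fin 24 → ZMod 2, {u : Fin 24 → ZMod 2 | u - w ∈ C ∧ hammingNorm u ≤ 4} = {u} ∧ hammingNorm u ≤ 3) ∨ ({u : Fin 24 → ZMod 2 | u - w ∈ C ∧ hammingNorm u ≤ 4}.ncard = 6 ∧ ∀ u ∈ {u : Fin 24 → ZMod 2 | u - w ∈ C ∧ hammingNorm u ≤ 4}, hammingNorm u = 4 ∧ ∀ u' ∈ {u : Fin 24 → ZMod 2 | u - w ∈ C ∧ hammingNorm u ≤ 4}, u ≠ u' → Disjoint (Finset.univ.filter fun i => u i ≠ 0) (Finset.univ.filter fun i => u' i ≠ 0)) := by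
  have key : ∀ u v : Fin 24 → ZMod 2, u - w ∈ C → v - w ∈ C → hammingNorm u ≤ 4 →
      hammingNorm v ≤ 4 → u ≠ v → hammingNorm u = 4 ∧ hammingNorm v = 4 ∧
        Disjoint (Cfsg.support₂ u) (Cfsg.support₂ v) := by
    intro u v hu hv hu4 hv4 hne
    rw [H76.hammingNorm_eq_card] at hu4 hv4 ⊢
    rw [H76.hammingNorm_eq_card]
    refine H76.coset_small C hmin hu4 hv4 ?_ (fun h => hne (H76.support₂_injective h))
    have := C.sub_mem hu hv
    simpa using this
  rcases H76.coset_dichotomy (by simp) C hdim hmin w with ⟨s, hs, hsC⟩ | h6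
  · left
    refine ⟨H76.ind s, ?_, by rw [H76.hammingNorm_ind]; exact hs⟩
    ext u
    simp only [Set.mem_setOf_eq, Set.mem_singleton_iff]
    constructor
    · rintro ⟨hu, hu4⟩
      by_contra hne
      have := key u _ hu hsC hu4 (by rw [H76.hammingNorm_ind]; omega) hne
      rw [H76.hammingNorm_ind] at this
      omega
    · rintro rfl
      exact ⟨hsC, by rw [H76.hammingNorm_ind]; omega⟩
  · right
    have h4 : ∀ u : Fin 24 → ZMod 2, u - w ∈ C → hammingNorm u ≤ 4 → hammingNorm u = 4 := by
      intro u hu hu4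
      obtain ⟨s, hs, t, ht, hne⟩ := Finset.one_lt_card.1 (show 1 < (H76.cosetTetrads C w).card by omega)
      rw [H76.mem_cosetTetrads] at hs ht
      by_cases h : u = H76.ind s
      · rw [h, H76.hammingNorm_ind, hs.1]
      · exact (key u _ hu hs.2 hu4 (by rw [H76.hammingNorm_ind]; omega) h).1
    constructor
    · rw [← h6, ← Set.ncard_coe_finset,
        ← Set.ncard_image_of_injective _ (H76.support₂_injective (α := Fin 24))]
      congr 1
      ext s
      simp only [Set.mem_image, Set.mem_setOf_eq, Finset.mem_coe, H76.mem_cosetTetrads]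
      constructor
      · rintro ⟨u, ⟨hu, hu4⟩, rfl⟩
        exact ⟨by rw [← H76.hammingNorm_eq_card]; exact h4 u hu hu4, by simpa using hu⟩
      · rintro ⟨hs, hsC⟩
        exact ⟨H76.ind s, ⟨hsC, by rw [H76.hammingNorm_ind]; omega⟩, by simp⟩
    · rintro u ⟨hu, hu4⟩
      refine ⟨h4 u hu hu4, ?_⟩
      rintro v ⟨hv, hv4⟩ hne
      exact (key u v hu hv hu4 hv4 hne).2.2

end Cfsg.Agent.S5623
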