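import Cfsg.Statements.S5627
import Cfsg.Agent.Base
import Cfsg.Agent.H76.Hyperoval

set_option autoImplicit false
open Cfsg

namespace Cfsg.Agent.S5627

/-- In a projective plane of order 4 (a Steiner system S(2, 5, 21)), call a set of points independent when no line meets it in more than two points. There are exactly 2520 independent 4-sets and exactly 168 independent 6-sets (hyperovals), and every independent 4-set lies in exactly one hyperoval. -/
theorem result {α : Type*} [Fintype α] [DecidableEq α] (hα : Fintype.card α = 21) (L : Set (Finset α)) (hL : Cfsg.IsSteinerSystem 2 5 L) : {S : Finset α | (S.card = 4 ∧ ∀ l ∈ L, (l ∩ S).card ≤ 2)}.ncard = 2520 ∧ {H : Finset α | (H.card = 6 ∧ ∀ l ∈ L, (l ∩ H).card ≤ 2)}.ncard = 168 ∧ ∀ S : Finset α, (S.card = 4 ∧ ∀ l ∈ L, (l ∩ S).card ≤ 2) → ∃! H : Finset α, (H.card = 6 ∧ ∀ l ∈ L, (l ∩ H).card ≤ 2) ∧ S ⊆ H := by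
  obtain ⟨x⟩ : Nonempty (Fin 2 ↪ α) := Function.Embedding.nonempty_of_card_le (by simp [hα])
  obtain ⟨e, -, he⟩ := H76.isoP4 hα hL x
  obtain ⟨h1, h2, h3⟩ := H76.std_hyperovals
  refine ⟨by rw [H76.ncard_indep he, h1], by rw [H76.ncard_indep he, h2], fun S hS => ?_⟩
  obtain ⟨H, ⟨g1, g2⟩, g3⟩ := h3 _ ((H76.indep_image he 4 S).2 hS)
  refine ⟨H.image e.symm, ⟨(H76.indep_image (H76.iso_symm he) 6 H).2 g1, ?_⟩, ?_⟩
  · intro p hp
    exact Finset.mem_image.2 ⟨e p, g2 (Finset.mem_image_of_mem _ hp), by simp⟩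
  · rintro K ⟨hK, hSK⟩
    rw [← g3 _ ⟨(H76.indep_image he 6 K).2 hK, Finset.image_subset_image hSK⟩]
    simp [Finset.image_image]

end Cfsg.Agent.S5627
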