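import Cfsg.Statements.S5628
import Cfsg.Agent.Base
import Cfsg.Agent.H76.Hyperoval

set_option autoImplicit false
open Cfsg

namespace Cfsg.Agent.S5628

/-- In a projective plane of order 4 (a Steiner system S(2, 5, 21)), every permutation of the six points of a hyperoval (a 6-set met by no line in more than two points) is the restriction of exactly one automorphism of the plane. In particular the stabiliser of a hyperoval in the automorphism group is isomorphic to the symmetric group of degree 6 acting faithfully on the hyperoval. -/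
theorem result {α : Type*} [Fintype α] [DecidableEq α] (hα : Fintype.card α = 21) (L : Set (Finset α)) (hL : Cfsg.IsSteinerSystem 2 5 L) (H : Finset α) (hH : (H.card = 6 ∧ ∀ l ∈ L, (l ∩ H).card ≤ 2)) (σ : Equiv.Perm ↥H) : ∃! g : Equiv.Perm α, g ∈ Cfsg.setSystemAut L ∧ ∀ p : ↥H, g p = σ p := by
  let u : Fin 6 ≃ H := (H.equivFinOfCardEq hH.1).symm
  have key : ∀ w : Fin 6 ≃ H, ∀ b ∈ L,
      (b ∩ Finset.univ.map (w.toEmbedding.trans (Function.Embedding.subtype _))).card ≤ 2 := by
    intro w b hb
    refine le_trans (Finset.card_le_card (Finset.inter_subset_inter_left ?_)) (hH.2 b hb)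
    intro p hp
    obtain ⟨i, -, rfl⟩ := Finset.mem_map.1 hp
    exact (w i).2
  obtain ⟨e, h1, h2⟩ := H76.isoH4 hα hL _ (key u)
  obtain ⟨e', h1', h2'⟩ := H76.isoH4 hα hL _ (key (u.trans σ))
  have h3 : ∀ p : H, (e.trans e'.symm) p = σ p := by
    intro p
    obtain ⟨i, rfl⟩ := u.surjective p
    rw [Equiv.trans_apply, Equiv.symm_apply_eq]
    exact (h1 i).trans (h1' i).symm
  have h4 := H76.mem_aut_iff.2 (H76.iso_trans h2 (H76.iso_symm h2'))
  refine ⟨e.trans e'.symm, ⟨h4, h3⟩, fun g hg => ?_⟩
  have h5 := H76.hyperoval_fix hα hL hH (Subgroup.mul_mem _ (Subgroup.inv_mem _ h4) hg.1)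
    (fun p hp => by
      rw [Equiv.Perm.mul_apply, hg.2 ⟨p, hp⟩, ← h3 ⟨p, hp⟩]
      exact Equiv.symm_apply_apply _ _)
  exact (inv_mul_eq_one.1 h5).symm

end Cfsg.Agent.S5628
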