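import Cfsg.Statements.S5632
import Cfsg.Agent.Base
import Cfsg.Agent.H57.Parabolic

set_option autoImplicit false
open Cfsg

namespace Cfsg.Agent.S5632

/-- For a finite field F and subspaces 0 < W < U of F^n with dim W + dim U = n, the elements of SL_n(F) stabilising both W and U form a subgroup that is not maximal in SL_n(F): some subgroup lies strictly between it and SL_n(F). -/
theorem result {F : Type*} [Field F] [Fintype F] (n : ℕ) (W U : Submodule F (Fin n → F)) (hW0 : W ≠ ⊥) (hWU : W < U) (hdim : Module.finrank F W + Module.finrank F U = n) : ∃ K : Subgroup (Matrix.GeneralLinearGroup (Fin n) F), Cfsg.Geo.subspaceStabilizer W ⊓ Cfsg.Geo.subspaceStabilizer U ⊓ Cfsg.Geo.specialLinear (Fin n) F < K ∧ K < Cfsg.Geo.specialLinear (Fin n) F := by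
  have hU : U ≠ ⊤ := by
    rintro rfl
    have : 0 < Module.finrank F W := by
      rw [Nat.pos_iff_ne_zero, Ne, Submodule.finrank_eq_zero]; exact hW0
    rw [finrank_top, Module.finrank_fintype_fun_eq_card, Fintype.card_fin] at hdim
    omega
  have hW1 : W ≠ ⊤ := (hWU.trans_le le_top).ne
  refine ⟨_, ?_, (H57.isMaximalIn_stab_sl hW0 hW1).1⟩
  refine lt_of_le_of_ne (inf_le_inf_right _ inf_le_left) fun h => ?_
  obtain ⟨u, hu, huW⟩ := SetLike.exists_of_lt hWU
  obtain ⟨x, hx⟩ : ∃ x, x ∉ U := by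
    by_contra hc; push Not at hc; exact hU (eq_top_iff.2 fun x _ => hc x)
  have : u ∉ W ⊔ Submodule.span F {x} := by
    intro hc
    obtain ⟨y, hy, z, hz, hyz⟩ := Submodule.mem_sup.1 hc
    obtain ⟨c, rfl⟩ := Submodule.mem_span_singleton.1 hz
    have hc : c ≠ 0 := by
      rintro rfl
      apply huW
      rw [← hyz]; simpa using hy
    apply hx
    rw [← U.smul_mem_iff hc, ← U.add_mem_iff_right (hWU.le hy), hyz]
    exact hu
  obtain ⟨φ, h1, h2, h3⟩ := H57.exists_dot_of_notMem_sup this
  exact H57.tv_notMem_stab h2 hx hu h1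
    (h.ge ⟨H57.tv_mem_stab_of_dot h2 h3, H57.toGL_mem_ker_det _⟩).1.2

end Cfsg.Agent.S5632
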