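import Cfsg.Statements.S5633
import Cfsg.Agent.Base
import Cfsg.Agent.H57.Parabolic

set_option autoImplicit false
open Cfsg

namespace Cfsg.Agent.S5633

/-- For a finite field F and complementary non-zero subspaces W ⊕ U = F^n with dim W < dim U, the elements of SL_n(F) stabilising both W and U form a subgroup that is not maximal in SL_n(F): some subgroup lies strictly between it and SL_n(F). -/
theorem result {F : Type*} [Field F] [Fintype F] (n : ℕ) (W U : Submodule F (Fin n → F)) (hW0 : W ≠ ⊥) (hWU : W ⊓ U = ⊥) (hWU' : W ⊔ U = ⊤) (hdim : Module.finrank F W < Module.finrank F U) : ∃ K : Subgroup (Matrix.GeneralLinearGroup (Fin n) F), Cfsg.Geo.subspaceStabilizer W ⊓ Cfsg.Geo.subspaceStabilizer U ⊓ Cfsg.Geo.specialLinear (Fin n) F < K ∧ K < Cfsg.Geo.specialLinear (Fin n) F := by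
  have hU : U ≠ ⊥ := by
    rintro rfl
    simp at hdim
  obtain ⟨u, hu, hu0⟩ := Submodule.exists_mem_ne_zero_of_ne_bot hU
  obtain ⟨w, hw, hw0⟩ := Submodule.exists_mem_ne_zero_of_ne_bot hW0
  have huW : u ∉ W := fun h => hu0 (by rw [← Submodule.mem_bot F, ← hWU]; exact ⟨h, hu⟩)
  have hwU : w ∉ U := fun h => hw0 (by rw [← Submodule.mem_bot F, ← hWU]; exact ⟨hw, h⟩)
  have hW1 : W ≠ ⊤ := by rintro rfl; exact huW trivial
  refine ⟨_, ?_, (H57.isMaximalIn_stab_sl hW0 hW1).1⟩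
  refine lt_of_le_of_ne (inf_le_inf_right _ inf_le_left) fun h => ?_
  obtain ⟨φ, h1, h3⟩ := H57.exists_dot_of_notMem huW
  exact H57.tv_notMem_stab (h3 w hw) hwU hu h1
    (h.ge ⟨H57.tv_mem_stab_of_dot (h3 w hw) h3, H57.toGL_mem_ker_det _⟩).1.2

end Cfsg.Agent.S5633
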