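import Cfsg.Statements.S5635
import Cfsg.Agent.Base
import Cfsg.Agent.H62.NotMax

set_option autoImplicit false
open Cfsg

namespace Cfsg.Agent.S5635

open Cfsg.Geo H62 H62.NM Matrix Module

theorem wt_upd {ι : Type} [Fintype ι] [DecidableEq ι] {F : Type*} [Field F] {t : ℕ}
    {π : Fin t → (ι → F) →ₗ[F] (ι → F)} (I : Finset (Fin t)) {v : ι → F}
    (hv : ∀ i, i ∉ I → π i v = 0) (w : ι → F) :
    wt π (w + v) = wt π w + ∑ i ∈ I, (chi (π i w + π i v) - chi (π i w)) := by
  rw [Finset.sum_subset (Finset.subset_univ I) (fun i _ hi => by rw [hv i hi, add_zero, sub_self])]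
  simp [wt]


/-- For a finite field F with q elements and n ≥ 13, let D be a decomposition of F^n into t ≥ 2 independent subspaces of equal dimension m spanning F^n, where m = 1 and q ≤ 4, or m = 2 and q = 2. Then the elements of SL_n(F) permuting the members of D form a subgroup that is not maximal: some subgroup lies strictly between it and SL_n(F). -/
theorem result {F : Type*} [Field F] [Fintype F] (n : ℕ) (hn : 13 ≤ n) {t : ℕ} (m : ℕ) (D : Fin t → Submodule F (Fin n → F)) (hD : Cfsg.Geo.IsMDecomposition m D) (h : (m = 1 ∧ Fintype.card F ≤ 4) ∨ (m = 2 ∧ Fintype.card F = 2)) : ∃ K : Subgroup (Matrix.GeneralLinearGroup (Fin n) F), Cfsg.Geo.decompositionStabilizer D ⊓ Cfsg.Geo.specialLinear (Fin n) F < K ∧ K < Cfsg.Geo.specialLinear (Fin n) F := by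
  classical
  obtain ⟨π, hp⟩ := exists_isProj hD.indep hD.iSup_eq_top
  have ht := card_dec hD
  simp only [Fintype.card_fin] at ht
  have ht5 : 5 ≤ t := by rcases h with ⟨rfl, -⟩ | ⟨rfl, -⟩ <;> omega
  have hW := hD.finrank_eq
  have ex : ∀ i, ∃ v ∈ D i, v ≠ 0 := fun i => Submodule.exists_mem_ne_zero_of_ne_bot fun h => by
    have := hW i; have := hD.pos; rw [h, finrank_bot] at *; omega
  choose v hv hv0 using ex
  choose ψ hψ using fun i => exists_dual_of_ne_zero (F := F) (hv0 i)
  let i0 : Fin t := ⟨0, by omega⟩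
  let i1 : Fin t := ⟨1, by omega⟩
  let i2 : Fin t := ⟨2, by omega⟩
  let i3 : Fin t := ⟨3, by omega⟩
  let i4 : Fin t := ⟨4, by omega⟩
  have e01 : i0 ≠ i1 := by simp [i0, i1]
  have e02 : i0 ≠ i2 := by simp [i0, i2]
  have e03 : i0 ≠ i3 := by simp [i0, i3]
  have e04 : i0 ≠ i4 := by simp [i0, i4]
  have e12 : i1 ≠ i2 := by simp [i1, i2]
  have e13 : i1 ≠ i3 := by simp [i1, i3]
  have e23 : i2 ≠ i3 := by simp [i2, i3]
  have pv : ∀ i j, π i (v j) = if i = j then v j else 0 := fun i j => by
    split_ifs with e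
    · rw [e]; exact hp.of_mem (hv j)
    · exact hp.of_ne i j e _ (hv j)
  obtain ⟨k, hk, hkd⟩ := exists_rk1' (ψ i0 ∘ₗ π i0) (v i1) (by simp [pv, e01])
  suffices hs : ∃ g ∈ specialLinear (Fin n) F, (∀ w, wt π ((g : Matrix _ _ F) *ᵥ w) = wt π w) ∧
      ∃ x ∈ D i0, π i1 ((g : Matrix _ _ F) *ᵥ x) ≠ 0 ∧ π i2 ((g : Matrix _ _ F) *ᵥ x) ≠ 0 by
    obtain ⟨g, hg, hgw, x, hx, x1, x2⟩ := hs
    refine between (T := preserving (glToMat _ F) fun u _ => wt π u)
      (fun a ha _ u _ => wt_map hp ha u) hg (fun u _ => hgw u) (fun hgM => ?_)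
      (mem_sl_of_det (T := k) (by rw [hkd]; simp [pv, e01])) (fun hT => ?_)
    · obtain ⟨σ, hσ⟩ := dec_mem hgM
      have h4 := hσ i0 x hx
      by_cases e : σ i0 = i1
      · exact x2 (hp.of_ne _ _ (by rw [e]; exact e12.symm) _ h4)
      · exact x1 (hp.of_ne _ _ (Ne.symm e) _ h4)
    · have h6 : wt π ((k : Matrix _ _ F) *ᵥ v i0) = wt π (v i0) := hT (v i0) (v i0)
      rw [hk, wt_upd {i1} (fun i hi => by simp_all)] at h6
      simp [pv, hψ, e01.symm, chi_zero, chi_ne (hv0 _)] at h6
  rcases h with ⟨rfl, hq⟩ | ⟨rfl, hq⟩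
  · let c : Fin t → Dual F (Fin n → F) := fun i => ψ i ∘ₗ π i
    have hc : ∀ i w, π i w = c i w • v i := fun i w => by
      obtain ⟨a, ha⟩ := (finrank_eq_one_iff_of_nonzero' (⟨v i, hv i⟩ : D i)
        (by simpa using hv0 i)).1 (hW i) ⟨π i w, hp.mem i w⟩
      have ha' : a • v i = π i w := congrArg Subtype.val ha
      simp [c, ← ha', hψ]
    have cv : ∀ i j, c i (v j) = if i = j then 1 else 0 := fun i j => by
      simp only [c, LinearMap.comp_apply, pv]
      split_ifs with e
      · rw [e, hψ]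
      · simp
    have hchi : ∀ i (a : F), chi (a • v i) = a ^ (Fintype.card F - 1) := fun i a => by
      by_cases ha : a = 0
      · have := Fintype.one_lt_card (α := F)
        rw [ha, zero_smul, chi_zero, zero_pow (by omega)]
      · rw [chi_ne (smul_ne_zero ha (hv0 i)), FiniteField.pow_card_sub_one_eq_one a ha]
    have cs : c i0 (v i0 + v i1 + v i2 + v i3) + c i1 (v i0 + v i1 + v i2 + v i3) +
        c i2 (v i0 + v i1 + v i2 + v i3) + c i3 (v i0 + v i1 + v i2 + v i3) = 4 := by
      simp [cv, e01, e02, e03, e12, e13, e23, e01.symm, e02.symm, e03.symm, e12.symm, e13.symm,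
        e23.symm]
      norm_num
    have up : ∀ (w : Fin n → F) (s : F), wt π (w + s • (v i0 + v i1 + v i2 + v i3)) = wt π w +
        ∑ i ∈ {i0, i1, i2, i3}, ((c i w + s) ^ (Fintype.card F - 1) - c i w ^ (Fintype.card F - 1)) := by
      intro w s
      rw [wt_upd {i0, i1, i2, i3} (fun i hi => by simp_all)]
      congr 1
      refine Finset.sum_congr rfl fun i hi => ?_
      have : π i (s • (v i0 + v i1 + v i2 + v i3)) = s • v i := by
        simp only [Finset.mem_insert, Finset.mem_singleton] at hi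
        rcases hi with rfl | rfl | rfl | rfl <;>
          simp [pv, e01, e02, e03, e12, e13, e23, e01.symm, e02.symm, e03.symm, e12.symm, e13.symm,
            e23.symm]
      rw [this, hc i w, ← add_smul, hchi, hchi]
    have s4 : ∀ f : Fin t → F, ∑ i ∈ {i0, i1, i2, i3}, f i = f i0 + f i1 + f i2 + f i3 := fun f => by
      rw [Finset.sum_insert (by simp [e01, e02, e03]), Finset.sum_insert (by simp [e12, e13]),
        Finset.sum_pair e23]
      ring
    have h5 : (1 : F) + 4 ≠ 0 := fun h => by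
      have h1 := FiniteField.cast_card_eq_zero F
      have := Fintype.one_lt_card (α := F)
      interval_cases Fintype.card F
      · exact one_ne_zero (α := F) (by push_cast at h1; linear_combination h - 2 * h1)
      · exact one_ne_zero (α := F) (by push_cast at h1; linear_combination 2 * h1 - h)
      · exact one_ne_zero (α := F) (by push_cast at h1; linear_combination h - h1)
    obtain ⟨g, hg, hgd⟩ := exists_rk1' (c i0 + c i1 + c i2 + c i3) (v i0 + v i1 + v i2 + v i3)
      (by simpa only [LinearMap.add_apply, cs] using h5)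
    simp only [LinearMap.add_apply, cs] at hg hgd
    have g1 : π i1 ((g : Matrix _ _ F) *ᵥ v i0) ≠ 0 := by
      rw [hg]
      simpa [pv, cv, e01.symm, e02.symm, e03.symm, e12, e13] using hv0 i1
    have g2 : π i2 ((g : Matrix _ _ F) *ᵥ v i0) ≠ 0 := by
      rw [hg]
      simpa [pv, cv, e01.symm, e02.symm, e03.symm, e12.symm, e23] using hv0 i2
    by_cases h3 : Fintype.card F = 3
    · have t : (3 : F) = 0 := by
        have := FiniteField.cast_card_eq_zero F
        rw [h3] at this
        exact_mod_cast this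
      have t2 : (1 : F) + 1 ≠ 0 := fun h => one_ne_zero (α := F) (by linear_combination t - h)
      obtain ⟨d, hd, hdd⟩ := exists_rk1' (c i4) (v i4) (by simpa [cv] using t2)
      have d0 : (d : Matrix _ _ F) *ᵥ v i0 = v i0 := by rw [hd]; simp [cv, e04.symm]
      refine ⟨g * d, mem_sl_of_det ?_, fun w => ?_, v i0, hv _, ?_, ?_⟩
      · rw [Units.val_mul, det_mul, hgd, hdd, cv, if_pos rfl]
        linear_combination 3 * t
      · rw [Units.val_mul, ← mulVec_mulVec, hg, up, s4, h3]
        have : wt π ((d : Matrix _ _ F) *ᵥ w) = wt π w := by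
          rw [hd, wt_upd {i4} (fun i hi => by simp_all), Finset.sum_singleton, map_smul, pv,
            if_pos rfl, hc i4 w, ← add_smul, hchi, hchi, h3]
          linear_combination (c i4 w ^ 2) * t
        rw [this]
        generalize (d : Matrix (Fin n) (Fin n) F) *ᵥ w = z
        linear_combination (2 * (c i0 z + c i1 z + c i2 z + c i3 z) ^ 2) * t
      · rwa [Units.val_mul, ← mulVec_mulVec, d0]
      · rwa [Units.val_mul, ← mulVec_mulVec, d0]
    · have := Fintype.one_lt_card (α := F)
      have h24 : Fintype.card F = 2 ∨ Fintype.card F = 4 := by omega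
      have t : (2 : F) = 0 := two_eq_zero (by rcases h24 with h | h <;> rw [h] <;> decide)
      refine ⟨g, mem_sl_of_det (by rw [hgd]; linear_combination 2 * t), fun w => ?_, v i0, hv _, g1,
        g2⟩
      rw [hg, up, s4]
      rcases h24 with h | h <;> rw [h]
      · linear_combination (2 * (c i0 w + c i1 w + c i2 w + c i3 w)) * t
      · linear_combination ((c i0 w + c i1 w + c i2 w + c i3 w) * (5 * (c i0 w + c i1 w + c i2 w +
          c i3 w) ^ 2 - 3 * (c i0 w * c i1 w + c i0 w * c i2 w + c i0 w * c i3 w + c i1 w * c i2 w +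
          c i1 w * c i3 w + c i2 w * c i3 w))) * t
  · have t : (2 : F) = 0 := two_eq_zero (by rw [hq]; decide)
    have haa : ∀ x : Fin n → F, x + x = 0 := fun x => by rw [← two_smul F x, t, zero_smul]
    have ex : ∀ i, ∃ (φ : Dual F (Fin n → F)) (u : Fin n → F), u ∈ D i ∧ φ u = 1 ∧ φ (v i) = 0 ∧
        ∀ a ∈ D i, chi (a + v i) = chi a + 1 + φ a := fun i => by
      obtain ⟨u, hu, u0, u1⟩ := exists_mem_ker (W := D i) (hW i).ge (ψ i)
      obtain ⟨χ, hχ⟩ := exists_dual_of_ne_zero (F := F) u0
      have a1 : (χ - χ (v i) • ψ i) u = 1 := by simp [hχ, u1]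
      have a2 : (χ - χ (v i) • ψ i) (v i) = 0 := by simp [hψ]
      have uv : u + v i ≠ 0 := fun h => by simpa [u1, hψ] using congrArg (ψ i) h
      refine ⟨_, u, hu, a1, a2, fun a ha => ?_⟩
      obtain ⟨s, r, rfl⟩ := span_pair (hW i) hu (hv i) u0 (fun c hc => by
        simpa [u1, hψ] using congrArg (ψ i) hc) ha
      rw [map_add, map_smul, map_smul, a1, a2]
      rcases eq_zero_or_one hq s with rfl | rfl <;> rcases eq_zero_or_one hq r with rfl | rfl <;>
        simp only [zero_smul, one_smul, zero_add, add_zero, add_assoc, haa, chi_zero, chi_ne u0,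
          chi_ne (hv0 i), chi_ne uv]
      · linear_combination -t
      · linear_combination -t
      · linear_combination -t
    choose φ u hu u1 u2 u3 using ex
    obtain ⟨g, hg, -⟩ := exists_rk1' (φ i0 ∘ₗ π i0 + φ i1 ∘ₗ π i1 + φ i2 ∘ₗ π i2)
      (v i0 + v i1 + v i2) (by simp [pv, u2, e01, e02, e12, e01.symm, e02.symm, e12.symm])
    simp only [LinearMap.add_apply, LinearMap.comp_apply] at hg
    have gu : (g : Matrix _ _ F) *ᵥ u i0 = u i0 + (v i0 + v i1 + v i2) := by
      rw [hg, hp.of_mem (hu i0), hp.of_ne _ _ e01.symm _ (hu i0), hp.of_ne _ _ e02.symm _ (hu i0), u1]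
      simp
    refine ⟨g, mem_sl_of_det ((eq_zero_or_one hq _).resolve_left (GeneralLinearGroup.det_ne_zero g)),
      fun w => ?_, u i0, hu _, ?_, ?_⟩
    · rw [hg]
      rcases eq_zero_or_one hq (φ i0 (π i0 w) + φ i1 (π i1 w) + φ i2 (π i2 w)) with h0 | h0
      · rw [h0, zero_smul, add_zero]
      · rw [h0, one_smul, wt_upd {i0, i1, i2} (fun i hi => by simp_all),
          Finset.sum_insert (by simp [e01, e02]), Finset.sum_pair e12]
        simp only [map_add, pv, e01, e02, e12, e01.symm, e02.symm, e12.symm, if_true, if_false,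
          add_zero, zero_add, u3 _ _ (hp.mem _ w)]
        linear_combination h0 + 2 * t
    · rw [gu]
      simpa [pv, e01.symm, e12, hp.of_ne _ _ e01.symm _ (hu i0)] using hv0 i1
    · rw [gu]
      simpa [pv, e02.symm, e12.symm, hp.of_ne _ _ e02.symm _ (hu i0)] using hv0 i2

end Cfsg.Agent.S5635
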