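import Cfsg.Statements.S5638
import Cfsg.Agent.Base
import Cfsg.Agent.H62.NotMax3

set_option autoImplicit false
open Cfsg

namespace Cfsg.Agent.S5638

open Cfsg.Geo H62 H62.NM H56 Matrix Module


/-- Over the field with 2 elements, for n = 2 n₂ ≥ 13, the stabiliser in SL_n of a tensor decomposition with factors of dimensions 2 and n₂ (the conjugate by any P of the Kronecker-product subgroup transported along any bijection Fin n ≃ Fin 2 × Fin n₂, intersected with SL_n) is not a maximal subgroup: some subgroup lies strictly between it and SL_n. -/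
theorem result {F : Type*} [Field F] [Fintype F] (n : ℕ) (hn : 13 ≤ n) (hq : Fintype.card F = 2) (n₂ : ℕ) (e : Fin n ≃ Fin 2 × Fin n₂) (P : Matrix.GeneralLinearGroup (Fin n) F) : ∃ K : Subgroup (Matrix.GeneralLinearGroup (Fin n) F), Cfsg.Geo.tensorProductSubgroup 2 n₂ e P ⊓ Cfsg.Geo.specialLinear (Fin n) F < K ∧ K < Cfsg.Geo.specialLinear (Fin n) F := by
  have h2 : (2 : F) = 0 := two_eq_zero (by rw [hq]; decide)
  have e2 : (1 : F) + 1 = 0 := by linear_combination h2
  have h4 := Fintype.card_congr e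
  simp only [Fintype.card_prod, Fintype.card_fin] at h4
  set T := matTen e P with hT
  let j0 : Fin n₂ := ⟨0, by omega⟩
  let j1 : Fin n₂ := ⟨1, by omega⟩
  have e01 : j0 ≠ j1 := by simp [j0, j1]
  let y₀ : Fin n₂ → F := Pi.single j0 1
  let y₁ : Fin n₂ → F := Pi.single j1 1
  let l : Dual F (Fin n → F) := LinearMap.proj j0 ∘ₗ T.cL (LinearMap.proj 1)
  have hl : ∀ x y, l (T.t x y) = x 1 * y j0 := fun x y => by simp [l]
  set J := T.tm (om h2) 1 with hJ
  have hJt : ∀ x y, J (T.t x y) = T.t ![x 1, x 0 + x 1] y := fun x y => T.tm_t _ _ x y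
  obtain ⟨g1, hg1, -⟩ := exists_rk1' l (T.t ![1, 0] y₀) (by simp [hl])
  obtain ⟨g2, hg2, -⟩ := exists_rk1' (l + l ∘ₗ (J : (Fin n → F) →ₗ[F] _)) (J (T.t ![1, 0] y₀))
    (by simp [hl, hJt, y₀, e2])
  obtain ⟨h, hh, -⟩ := exists_rk1' l (T.t ![1, 0] y₁) (by simp [hl])
  have g3 : ∀ w, toLE (g1 * g2) w = w + (l w + l (J w)) • J (T.t ![1, 0] y₀) +
      l (J w) • T.t ![1, 0] y₀ := fun w => by
    rw [map_mul, LinearEquiv.mul_apply, toLE_apply, toLE_apply, hg2, hg1, map_add, map_smul, hJt, hl]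
    simp only [LinearMap.add_apply, LinearMap.comp_apply, LinearEquiv.coe_coe, smul_eq_mul]
    congr 2
    simp [y₀]
    linear_combination l w * h2
  refine ten_two hq h2 T (mem_tensorProductSubgroup_iff e P) (mem_sl_two hq (g1 * g2))
    (mem_sl_two hq h) l _ g3 (x := ![1, 0]) (y := y₀ + y₁) ?_ (p := T.t ![1, 0] y₀)
    (r := T.t ![1, 0] y₁) ?_ ?_ ?_ ?_
  · rw [g3]
    refine ne_t T (LinearMap.proj 0) (LinearMap.proj 1) (LinearMap.proj j0) (LinearMap.proj j1)
      fun h => ?_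
    simp [hJt, hl, y₀, y₁, e01, e01.symm] at h
  · rw [toLE_apply, hh, hl]; simp
  · rw [toLE_apply, hh, ← hJ, hJt, hl]; simp [y₀]
  · simp [Ten.t_eq_zero, y₁]
  · rw [Ne, T.t_right_inj (by simp)]
    intro h
    simpa [y₀, y₁, e01] using congrFun h j0

end Cfsg.Agent.S5638
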