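import Cfsg.Statements.S5642
import Cfsg.Agent.Base
import Cfsg.Agent.H62.SpInSL

set_option autoImplicit false
open Cfsg

namespace Cfsg.Agent.S5642

/-- For a finite field F and n ≥ 13, let f be a non-degenerate symplectic form on F^n (so n is even). Then the elements of SL_n(F) that are similarities of f (f(gu, gv) = c f(u, v) for a non-zero scalar c depending on g) form a maximal subgroup of SL_n(F). -/
theorem result {F : Type*} [Field F] [Fintype F] (n : ℕ) (hn : 13 ≤ n) (f : (Fin n → F) → (Fin n → F) → F) (hf : Cfsg.Geo.IsSymplecticForm f) : Cfsg.Geo.IsMaximalIn (Cfsg.Geo.specialLinear (Fin n) F) (Cfsg.Geo.similarityGroup f ⊓ Cfsg.Geo.specialLinear (Fin n) F) := by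
  have hB := H62.bilinOf_nondegenerate hf.bilinear hf.nondegenerate
  have hA : (H62.bilinOf hf.bilinear).IsAlt := hf.alternating
  refine H62.isMaximalIn_of_toLE
    (fun e => ∃ c : Fˣ, ∀ u v, H62.bilinOf hf.bilinear (e u) (e v) = c * H62.bilinOf hf.bilinear u v)
    (fun e => LinearMap.det (e : (Fin n → F) →ₗ[F] (Fin n → F)) = 1)
    H62.mem_specialLinear_iff (fun g => and_congr Iff.rfl (H62.mem_specialLinear_iff g))
    (H62.exists_det_one_not_sp_sim hB hA (by simp; omega)) fun M hM _ g hg hns e he => ?_
  refine H62.sp_sim_maximal hB hA (fun v c => H62.hasSp_of_forall hA fun k hk => ?_) hg hns e he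
  exact hM k ⟨1, fun u v => by simpa using H62.isom_of_sp hA hk u v⟩ (H62.det_of_sp hA hk)

end Cfsg.Agent.S5642
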