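import Cfsg.Statements.S5648
import Cfsg.Agent.Base
import Cfsg.Agent.H62.NotMax
import Cfsg.Agent.H62.SpStabMat

set_option autoImplicit false
open Cfsg

namespace Cfsg.Agent.S5648

open Cfsg.Geo H62 H62.NM Matrix Module


/-- Over the field with 2 elements and for m ≥ 7, let D be a decomposition of F^(2m) into t pairwise orthogonal non-degenerate 2-dimensional subspaces for the standard alternating form (t = m ≥ 2). Then the elements of Sp_2m(2) permuting the members of D form a subgroup that is not maximal: some subgroup lies strictly between it and Sp_2m(2). -/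
theorem result {F : Type*} [Field F] [Fintype F] (m : ℕ) (hm : 7 ≤ m) (hq : Fintype.card F = 2) {t : ℕ} (D : Fin t → Submodule F (Fin m ⊕ Fin m → F)) (hD : Cfsg.Geo.IsNondegenerateMDecomposition (Cfsg.sympForm m F) 2 D) : ∃ K : Subgroup (Matrix.GeneralLinearGroup (Fin m ⊕ Fin m) F), Cfsg.Geo.decompositionStabilizer D ⊓ Cfsg.spGL m F < K ∧ K < Cfsg.spGL m F := by
  classical
  obtain ⟨π, hp⟩ := exists_isProj hD.decomp.indep hD.decomp.iSup_eq_top
  have ht := card_dec hD.decomp
  simp only [Fintype.card_sum, Fintype.card_fin] at ht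
  set B := spForm m F with hBd
  have hf : ∀ u v, sympForm m F u v = B u v := fun u v => H54.sympForm_eq m u v
  have hA : ∀ v, B v v = 0 := spForm_alt
  have h2 : (2 : F) = 0 := two_eq_zero (by rw [hq]; decide)
  have hsw : ∀ u v, B u v = B v u := fun u v => by
    have := hA (u + v)
    simp only [map_add, LinearMap.add_apply, hA] at this
    linear_combination this - B v u * h2
  have hW := hD.decomp.finrank_eq
  have hn : ∀ i, ∀ w ∈ D i, w ≠ 0 → ∃ x ∈ D i, B w x ≠ 0 := fun i w hw h0 => by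
    simpa only [hf] using (hD.nondegenerate i w hw h0).2
  have ho : ∀ i j, i ≠ j → ∀ u ∈ D i, ∀ v ∈ D j, B u v = 0 := fun i j hij u hu v hv => by
    rw [← hf]; exact hD.orthogonal i j hij u hu v hv
  have hadd := wt_add hq hp hA hW hn ho
  have hz : wt π (0 : Fin m ⊕ Fin m → F) = 0 := by simp [wt, chi_zero]
  have tv : ∀ v, ∃ T ∈ spGL m F, ∀ x, (T : Matrix _ _ F) *ᵥ x = x + B x v • v := by
    intro v
    obtain ⟨T, h1, -⟩ := exists_rk1' (B.flip v) v (by simp [hA])
    refine ⟨T, fun x y => ?_, h1⟩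
    change sympForm m F ((T : Matrix _ _ F) *ᵥ x) ((T : Matrix _ _ F) *ᵥ y) = _
    rw [h1, h1, hf, hf]
    simp only [LinearMap.flip_apply, map_add, map_smul, LinearMap.add_apply, LinearMap.smul_apply,
      smul_eq_mul, hA, hsw v y, LinearMap.BilinForm.flip_apply]
    linear_combination (B x v * B y v) * h2
  have ex : ∀ i, ∃ v ∈ D i, v ≠ 0 := fun i => Submodule.exists_mem_ne_zero_of_ne_bot fun h => by
    have := hW i; rw [h, finrank_bot] at this; omega
  choose v hv hv0 using ex
  let i0 : Fin t := ⟨0, by omega⟩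
  let i1 : Fin t := ⟨1, by omega⟩
  let i2 : Fin t := ⟨2, by omega⟩
  have e01 : i0 ≠ i1 := by simp [i0, i1]
  have e02 : i0 ≠ i2 := by simp [i0, i2]
  have e12 : i1 ≠ i2 := by simp [i1, i2]
  obtain ⟨x, hx, hx1⟩ := hn i0 _ (hv i0) (hv0 i0)
  have hx1' : B x (v i0) = 1 := by rw [hsw]; exact (eq_zero_or_one hq _).resolve_left hx1
  have hx0 : x ≠ 0 := by rintro rfl; simp at hx1
  have w1 : ∀ i, wt π (v i) = 1 := fun i => by rw [wt_of_mem hp (hv i), chi_ne (hv0 i)]
  have o := fun i j hij => ho i j hij _ (hv i) _ (hv j)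
  obtain ⟨g, hg, hgx⟩ := tv (v i0 + v i1 + v i2)
  obtain ⟨h, hh, hhx⟩ := tv (v i0 + v i1)
  refine between (T := preserving (glToMat _ F) fun u _ => wt π u) (fun a ha _ u _ => wt_map hp ha u)
    hg (fun u _ => ?_) (fun hgM => ?_) hh (fun hT => ?_)
  · change wt π ((g : Matrix _ _ F) *ᵥ u) = wt π u
    have h3 : wt π (v i0 + v i1 + v i2) = 1 := by
      rw [hadd, hadd, w1, w1, w1, map_add, LinearMap.add_apply, o _ _ e01, o _ _ e02, o _ _ e12]
      linear_combination h2
    rw [hgx]
    rcases eq_zero_or_one hq (B u (v i0 + v i1 + v i2)) with h0 | h0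
    · rw [h0, zero_smul, add_zero]
    · rw [h0, one_smul, hadd, h3, h0]
      linear_combination h2
  · obtain ⟨σ, hσ⟩ := dec_mem hgM
    have h4 := hσ i0 x hx
    have h5 : B x (v i0 + v i1 + v i2) = 1 := by
      rw [map_add, map_add, hx1', ho _ _ e01 _ hx _ (hv _), ho _ _ e02 _ hx _ (hv _)]; ring
    rw [hgx, h5, one_smul] at h4
    have p1 : π i1 (x + (v i0 + v i1 + v i2)) = v i1 := by
      simp [hp.of_ne _ _ e01.symm _ hx, hp.of_ne _ _ e01.symm _ (hv _), hp.of_mem (hv _),
        hp.of_ne _ _ e12 _ (hv _)]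
    have p2 : π i2 (x + (v i0 + v i1 + v i2)) = v i2 := by
      simp [hp.of_ne _ _ e02.symm _ hx, hp.of_ne _ _ e02.symm _ (hv _), hp.of_mem (hv _),
        hp.of_ne _ _ e12.symm _ (hv _)]
    by_cases e : σ i0 = i1
    · exact hv0 i2 (by rw [← p2]; exact hp.of_ne _ _ (by rw [e]; exact e12.symm) _ h4)
    · exact hv0 i1 (by rw [← p1]; exact hp.of_ne _ _ (Ne.symm e) _ h4)
  · have h6 : wt π ((h : Matrix _ _ F) *ᵥ x) = wt π x := hT x x
    have h5 : B x (v i0 + v i1) = 1 := by
      rw [map_add, hx1', ho _ _ e01 _ hx _ (hv _)]; ring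
    rw [hhx, h5, one_smul, hadd, hadd, w1, w1, o _ _ e01, h5] at h6
    exact one_ne_zero (α := F) (by linear_combination h6 - h2)

end Cfsg.Agent.S5648
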