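import Cfsg.Statements.S5656
import Cfsg.Agent.Base
import Cfsg.Agent.H62.NotMax
import Cfsg.Agent.H62.UDec

set_option autoImplicit false
open Cfsg

namespace Cfsg.Agent.S5656

open Cfsg.Geo H62 H62.NM H59 Matrix Module


/-- Let F be the field with 4 elements (q = 2) and n ≥ 13. Let D be a decomposition of F^n into t pairwise orthogonal 2-dimensional subspaces, each non-degenerate for the standard unitary form Σ u_i v_i². Then the elements of SU_n(2) permuting the members of D form a subgroup that is not maximal: some subgroup lies strictly between it and SU_n(2). -/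
theorem result {F : Type*} [Field F] [Fintype F] (n : ℕ) (hF : Fintype.card F = 4) (hn : 13 ≤ n) {t : ℕ} (D : Fin t → Submodule F (Fin n → F)) (hD : Cfsg.Geo.IsNondegenerateMDecomposition (Cfsg.hermForm n F 2) 2 D) : ∃ K : Subgroup (Matrix.GeneralLinearGroup (Fin n) F), Cfsg.Geo.decompositionStabilizer D ⊓ (Cfsg.GU n F 2 ⊓ Cfsg.Geo.specialLinear (Fin n) F) < K ∧ K < (Cfsg.GU n F 2 ⊓ Cfsg.Geo.specialLinear (Fin n) F) := by
  classical
  have hF' : Fintype.card F = 2 ^ 2 := hF
  have ht := card_dec hD.decomp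
  simp only [Fintype.card_fin] at ht
  set B := uForm hF' n with hBd
  have hH : IsHerm B := isHerm_uForm hF' n
  have hf : ∀ u v, hermForm n F 2 u v = B v u := fun u v => hermForm_eq hF' n u v
  have hσ : ∀ a : F, frob hF' a = a ^ 2 := fun a => frob_apply hF' a
  have h2 : (2 : F) = 0 := two_eq_zero (by rw [hF]; decide)
  have h3 : ∀ a : F, a ≠ 0 → a ^ 2 * a = 1 := fun a ha => by
    have := FiniteField.pow_card_sub_one_eq_one a ha
    rw [hF] at this
    rw [← this]; ring
  have h01 : ∀ v, B v v ≠ 0 → B v v = 1 := fun v hv => by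
    have := hH.symm v v
    rw [hσ] at this
    apply mul_left_cancel₀ hv
    rw [mul_one, ← sq, this]
  have hW := hD.decomp.finrank_eq
  have hn : ∀ i, ∀ w ∈ D i, w ≠ 0 → ∃ x ∈ D i, B w x ≠ 0 := fun i w hw h0 => by
    simpa only [hf] using (hD.nondegenerate i w hw h0).1
  have ho : ∀ i j, i ≠ j → ∀ u ∈ D i, ∀ v ∈ D j, B u v = 0 := fun i j hij u hu v hv => by
    rw [← hf]; exact hD.orthogonal j i hij.symm v hv u hu
  have hs0 : ∀ u v, B u v = 0 → B v u = 0 := fun u v h => by rw [← hH.symm, h, map_zero]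
  have tv : ∀ v, B v v = 0 → ∃ T ∈ GU n F 2 ⊓ specialLinear (Fin n) F,
      ∀ x, (T : Matrix _ _ F) *ᵥ x = x + B v x • v := by
    intro v hv
    obtain ⟨T, h1, hd⟩ := exists_rk1' (B v) v (by simp [hv])
    refine ⟨T, ⟨fun x y => ?_, mem_sl_of_det (by rw [hd, hv, add_zero])⟩, h1⟩
    change hermForm n F 2 ((T : Matrix _ _ F) *ᵥ x) ((T : Matrix _ _ F) *ᵥ y) = _
    rw [h1, h1, hf, hf]
    simp only [map_add, map_smul, LinearMap.add_apply, LinearMap.smul_apply, smul_eq_mul, hv,
      LinearMap.map_smulₛₗ, hH.symm]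
    linear_combination (B v x * B y v) * h2
  have ex : ∀ i, ∃ v ∈ D i, B v v = 1 := fun i => by
    obtain ⟨v, hv, h0⟩ := hH.exists_self_ne_zero_of_disjoint
      (disjoint_perp_of_nondegOn hF' (hD.nondegenerate i)) fun h => by
        have := hW i; rw [h, finrank_bot] at this; omega
    exact ⟨v, hv, h01 v h0⟩
  choose v hv hv1 using ex
  have hv0 : ∀ i, v i ≠ 0 := fun i h => by simpa [h] using hv1 i
  -- two non-isotropic vectors of a member are proportional or orthogonal
  have key : ∀ i, ∀ w ∈ D i, B w w ≠ 0 → B (v i) w = 0 ∨ w = B (v i) w • v i := by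
    intro i w hw hw0
    by_cases ha : B (v i) w = 0
    · exact Or.inl ha
    right
    set a := B (v i) w with had
    have hu : w - a • v i ∈ D i := (D i).sub_mem hw ((D i).smul_mem _ (hv i))
    have u1 : B (v i) (w - a • v i) = 0 := by simp [hv1, had]
    have u2 : B (w - a • v i) (w - a • v i) = 0 := by
      have hwv : B w (v i) = a ^ 2 := by rw [← hH.symm, hσ]
      simp only [map_sub, LinearMap.sub_apply, map_smul, LinearMap.map_smulₛₗ, LinearMap.smul_apply,
        smul_eq_mul, hσ, hwv, hv1, h01 w hw0, ← had]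
      linear_combination -h3 a ha
    by_contra hne
    have hu0 : w - a • v i ≠ 0 := fun h => hne (sub_eq_zero.1 h)
    obtain ⟨x, hx, hx0⟩ := hn i _ hu hu0
    obtain ⟨s, r, rfl⟩ := span_pair (hW i) hu (hv i) hu0 (fun c hc => by
      have := hv1 i
      nth_rewrite 2 [← hc] at this
      rw [map_smul, u1] at this
      simp at this) hx
    rw [map_add, map_smul, map_smul, u2, hs0 _ _ u1] at hx0
    simp at hx0
  let i0 : Fin t := ⟨0, by omega⟩
  let i1 : Fin t := ⟨1, by omega⟩
  let i2 : Fin t := ⟨2, by omega⟩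
  let i3 : Fin t := ⟨3, by omega⟩
  have e01 : i0 ≠ i1 := by simp [i0, i1]
  have e02 : i0 ≠ i2 := by simp [i0, i2]
  have e03 : i0 ≠ i3 := by simp [i0, i3]
  have e12 : i1 ≠ i2 := by simp [i1, i2]
  have e13 : i1 ≠ i3 := by simp [i1, i3]
  have e23 : i2 ≠ i3 := by simp [i2, i3]
  have o := fun i j hij => ho i j hij _ (hv i) _ (hv j)
  have haa : ∀ x : Fin n → F, x + x = 0 := fun x => by rw [← two_smul F x, h2, zero_smul]
  obtain ⟨g, hg, hgx⟩ := tv (v i0 + v i1) (by
    simp only [map_add, LinearMap.add_apply, hv1, o _ _ e01, o _ _ e01.symm]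
    linear_combination h2)
  obtain ⟨h, hh, hhx⟩ := tv (v i0 + v i1 + v i2 + v i3) (by
    simp only [map_add, LinearMap.add_apply, hv1, o _ _ e01, o _ _ e01.symm, o _ _ e02,
      o _ _ e02.symm, o _ _ e03, o _ _ e03.symm, o _ _ e12, o _ _ e12.symm, o _ _ e13,
      o _ _ e13.symm, o _ _ e23, o _ _ e23.symm]
    linear_combination 2 * h2)
  refine between (T := stabilizing (glToMat _ F) {w | (∃ i, w ∈ D i) ∧ B w w ≠ 0})
    (fun a ha ha' => mem_stab_of_mapsTo ?_) hg (mem_stab_of_mapsTo ?_) (fun hgM => ?_) hh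
    (fun hT => ?_)
  · rintro w ⟨⟨i, hi⟩, hw⟩
    obtain ⟨σ, hσ⟩ := dec_mem ha
    refine ⟨⟨σ i, hσ i w hi⟩, ?_⟩
    have := ha'.1 w w
    rw [hf, hf] at this
    exact this ▸ hw
  · rintro w ⟨⟨i, hi⟩, hw⟩
    refine ⟨?_, ?_⟩
    swap
    · have := hg.1 w w
      rw [hf, hf] at this
      exact this ▸ hw
    rw [hgx, map_add, LinearMap.add_apply]
    by_cases c0 : i = i0
    · subst c0
      rw [ho _ _ e01.symm _ (hv _) _ hi, add_zero]
      rcases key _ w hi hw with h0 | h0
      · exact ⟨_, by simpa [h0] using hi⟩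
      · refine ⟨i1, ?_⟩
        rw [smul_add, ← add_assoc, ← h0, haa, zero_add]
        exact (D i1).smul_mem _ (hv _)
    by_cases c1 : i = i1
    · subst c1
      rw [ho _ _ e01 _ (hv _) _ hi, zero_add]
      rcases key _ w hi hw with h0 | h0
      · exact ⟨_, by simpa [h0] using hi⟩
      · refine ⟨i0, ?_⟩
        rw [smul_add, add_left_comm, ← h0, haa, add_zero]
        exact (D i0).smul_mem _ (hv _)
    · rw [ho _ _ (Ne.symm c0) _ (hv _) _ hi, ho _ _ (Ne.symm c1) _ (hv _) _ hi]
      exact ⟨i, by simpa using hi⟩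
  · obtain ⟨σ, hσ⟩ := dec_mem hgM
    obtain ⟨u, hu, hu0, hu1⟩ := exists_mem_ker (W := D i0) (by rw [hW]) (B (v i0))
    have a1 := hσ i0 u hu
    rw [hgx, map_add, LinearMap.add_apply, hu1, ho _ _ e01.symm _ (hv _) _ hu, add_zero, zero_smul,
      add_zero] at a1
    have a2 := hσ i0 _ (hv i0)
    rw [hgx, map_add, LinearMap.add_apply, hv1, o _ _ e01.symm, add_zero, one_smul, ← add_assoc,
      haa, zero_add] at a2
    by_cases e : σ i0 = i0
    · rw [e] at a2
      exact one_ne_zero ((hv1 i1).symm.trans (ho _ _ e01 _ a2 _ (hv _)))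
    · obtain ⟨x, hx, hx0⟩ := hn i0 u hu hu0
      exact hx0 (ho _ _ e _ a1 _ hx)
  · obtain ⟨⟨j, hj⟩, -⟩ := (hT (v i0)).1 ⟨⟨i0, hv _⟩, by simp [hv1]⟩
    change (h : Matrix _ _ F) *ᵥ v i0 ∈ D j at hj
    rw [hhx] at hj
    have b : ∀ k, k ≠ i0 → B (v k) (v i0 + v i1 + v i2 + v i3) = 1 → k = j := fun k hk h1 => by
      by_contra hkj
      have := ho _ _ hkj _ (hv k) _ hj
      simp only [map_add, LinearMap.add_apply, map_smul, hv1, o _ _ e01.symm, o _ _ e02.symm,
        o _ _ e03.symm, o _ _ hk, smul_eq_mul] at this h1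
      exact one_ne_zero (α := F) (by linear_combination this - h1)
    have b1 := b i1 e01.symm (by
      simp only [map_add, hv1, o _ _ e01.symm, o _ _ e12, o _ _ e13]; ring)
    have b2 := b i2 e02.symm (by
      simp only [map_add, hv1, o _ _ e02.symm, o _ _ e12.symm, o _ _ e23]; ring)
    exact e12 (b1.trans b2.symm)

end Cfsg.Agent.S5656
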