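import Cfsg.Statements.S5667
import Cfsg.Agent.Base
import Cfsg.Agent.H62.NotMax2

set_option autoImplicit false
open Cfsg

namespace Cfsg.Agent.S5667

open Cfsg.Geo H62 H62.NM H56 Matrix Module


/-- Over the field with 3 elements and for m ≥ 7, suppose the standard alternating form on F^(2m) is similar, through P and e, to the tensor product of a non-degenerate symplectic form f₁ on F^(n₁) and a non-degenerate symmetric bilinear form f₂ on F^3. Then the elements of Sp_2m(3) in the stabiliser of this tensor decomposition form a subgroup that is not maximal: some subgroup lies strictly between it and Sp_2m(3). -/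
theorem result {F : Type*} [Field F] [Fintype F] (m : ℕ) (hm : 7 ≤ m) (hq : Fintype.card F = 3) (n₁ : ℕ) (e : (Fin m ⊕ Fin m) ≃ Fin n₁ × Fin 3) (P : Matrix.GeneralLinearGroup (Fin m ⊕ Fin m) F) (f₁ : (Fin n₁ → F) → (Fin n₁ → F) → F) (f₂ : (Fin 3 → F) → (Fin 3 → F) → F) (hf₁ : Cfsg.Geo.IsSymplecticForm f₁) (hf₂ : Cfsg.Geo.IsSymmetricForm f₂) (hT : Cfsg.Geo.IsTensorFormStructure id (Cfsg.sympForm m F) f₁ f₂ e P) : ∃ K : Subgroup (Matrix.GeneralLinearGroup (Fin m ⊕ Fin m) F), Cfsg.Geo.tensorProductSubgroup n₁ 3 e P ⊓ Cfsg.spGL m F < K ∧ K < Cfsg.spGL m F := by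
  obtain ⟨c, hc, hT⟩ := hT
  set T := (matTen e P).swap with hTd
  set β := bilinOf hf₂.bilinear with hβ
  set γ := c • bilinOf hf₁.bilinear with hγ
  set B := spForm m F with hB
  have hA : ∀ v, B v v = 0 := spForm_alt
  have hsw : ∀ u v, B u v = - B v u := fun u v => by
    have := hA (u + v)
    simp only [map_add, LinearMap.add_apply, hA] at this
    linear_combination this
  have hf : ∀ x y x' y', B (T.t x y) (T.t x' y') = β x x' * γ y y' := fun x y x' y' => by
    rw [hTd, Ten.swap_t, Ten.swap_t, matTen_t, matTen_t, ← H54.sympForm_eq, hT,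
      formOfGram_kronecker (by simp), formOfGram_bilin hf₁.bilinear, formOfGram_bilin hf₂.bilinear,
      ← mul_assoc, mul_comm]; rfl
  have h1 : 0 < n₁ := Nat.pos_of_ne_zero fun h0 => by
    have := Fintype.card_congr e
    simp [h0] at this; omega
  have : Nontrivial (Fin n₁ → F) := Module.nontrivial_of_finrank_pos (R := F) (by simpa using h1)
  obtain ⟨y₀, hy₀⟩ := exists_ne (0 : Fin n₁ → F)
  obtain ⟨y, hy⟩ := (hf₁.nondegenerate y₀ hy₀).2
  have b2 : γ y₀ y ≠ 0 := by simp [hγ, hc, hy]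
  have b3 : γ y y₀ ≠ 0 := by simp [hγ, hc, hf₁.skew y y₀, hy]
  obtain ⟨x₁, x₂, x₃, d, hx, hfx⟩ := exists_tri hq (β := β) hf₂.symm
    (bilinOf_nondegenerate hf₂.bilinear hf₂.nondegenerate) (by simp)
  have hfx := hfx (by simp)
  have tv : ∀ v, ∃ g ∈ spGL m F, ∀ x, toLE g x = x + B v x • v := by
    intro v
    obtain ⟨g, h1, -⟩ := exists_rk1' (B v) v (by simp [hA])
    refine ⟨g, (mem_spGL_iff g).2 fun x y => ?_, h1⟩
    rw [toLE_apply, toLE_apply, h1, h1]
    change B _ _ = B _ _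
    simp only [map_add, map_smul, LinearMap.add_apply, LinearMap.smul_apply, smul_eq_mul, hA,
      hsw x v]
    ring
  obtain ⟨g, hg, hgx⟩ := tv (T.t x₁ y₀)
  obtain ⟨h, hh, hhx⟩ := tv (T.t (x₁ + x₂) y₀)
  refine ten_tv T (fun g => by rw [hTd, Ten.swap_grp, mem_tensorProductSubgroup_iff]) (Fr3 β)
    (fun g hg a b hab x hx => hx.map (orth_iff T (f := fun u v => B u v) hf ⟨_, _, b2⟩ (B := b)
      fun u v => by rw [← hab]; exact (mem_spGL_iff g).1 hg u v))
    (l := β x₁) (l' := β x₂) (φ := γ y₀) (φ' := γ y) (hx.fr1 hq hfx) (fun x => hx.key hq hfx)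
    (by rw [hx.n1]; exact hx.d0) hx.o12 hx.o21 (by rw [hx.n2]; exact hx.d0)
    (by simp [hγ, hf₁.alternating]) b2 b3 hg hh (fun x y' => by rw [hgx, hf]) ?_
  rw [hhx, hf, map_add β, LinearMap.add_apply, hx.o21, add_zero]

end Cfsg.Agent.S5667
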