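import Cfsg.Statements.S5671
import Cfsg.Agent.Base
import Cfsg.Agent.H62.NotMax2

set_option autoImplicit false
open Cfsg

namespace Cfsg.Agent.S5671

open Cfsg.Geo H62 H62.NM H56 H59 Matrix Module


/-- Let F be the field with 4 elements (q = 2) and n = 2 n₂ ≥ 13. Suppose the standard unitary form Σ u_i v_i² on F^n is similar, through P and e, to the tensor product of non-degenerate unitary forms f₁ on F^2 and f₂ on F^(n₂). Then the elements of SU_n(2) in the stabiliser of this tensor decomposition form a subgroup that is not maximal: some subgroup lies strictly between it and SU_n(2). -/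
theorem result {F : Type*} [Field F] [Fintype F] (n : ℕ) (hF : Fintype.card F = 4) (hn : 13 ≤ n) (n₂ : ℕ) (e : Fin n ≃ Fin 2 × Fin n₂) (P : Matrix.GeneralLinearGroup (Fin n) F) (f₁ : (Fin 2 → F) → (Fin 2 → F) → F) (f₂ : (Fin n₂ → F) → (Fin n₂ → F) → F) (hf₁ : Cfsg.Geo.IsUnitaryFormPow 2 f₁) (hf₂ : Cfsg.Geo.IsUnitaryFormPow 2 f₂) (hT : Cfsg.Geo.IsTensorFormStructure (fun x : F => x ^ 2) (Cfsg.hermForm n F 2) f₁ f₂ e P) : ∃ K : Subgroup (Matrix.GeneralLinearGroup (Fin n) F), Cfsg.Geo.tensorProductSubgroup 2 n₂ e P ⊓ (Cfsg.GU n F 2 ⊓ Cfsg.Geo.specialLinear (Fin n) F) < K ∧ K < (Cfsg.GU n F 2 ⊓ Cfsg.Geo.specialLinear (Fin n) F) := by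
  have hF' : Fintype.card F = 2 ^ 2 := hF
  obtain ⟨c, hc, hT⟩ := hT
  have hE := isHerm_hermOf hF' hf₁
  have hW := isHerm_hermOf hF' hf₂
  have hV := isHerm_uForm hF' n
  set T := matTen e P with hTd
  set β := hermOf hF' hf₁ with hβ
  set γ := c • hermOf hF' hf₂ with hγ
  set B := uForm hF' n with hB
  have hf : ∀ x y x' y', B (T.t x y) (T.t x' y') = β x x' * γ y y' := fun x y x' y' => by
    rw [hTd, matTen_t, matTen_t, ← hermForm_eq, hT, formOfGram_kronecker (fun a b => mul_pow a b 2),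
      formOfGram_herm hF' hf₁, formOfGram_herm hF' hf₂, mul_left_comm]; rfl
  have hσ : ∀ a : F, frob hF' a = a ^ 2 := fun a => frob_apply hF' a
  have h2 : (2 : F) = 0 := two_eq_zero (by rw [hF]; decide)
  have h3 : ∀ a : F, a ≠ 0 → a ^ 2 * a = 1 := fun a ha => by
    have := FiniteField.pow_card_sub_one_eq_one a ha
    rw [hF] at this
    rw [← this]; ring
  have h01 : ∀ v, β v v ≠ 0 → β v v = 1 := fun v hv => by
    have := hE.symm v v
    rw [hσ] at this
    apply mul_left_cancel₀ hv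
    rw [mul_one, ← sq, this]
  have hs0 : ∀ u v, β u v = 0 → β v u = 0 := fun u v h => by rw [← hE.symm, h, map_zero]
  have tv : ∀ v, B v v = 0 → ∃ g ∈ GU n F 2 ⊓ specialLinear (Fin n) F,
      ∀ x, toLE g x = x + B v x • v := by
    intro v hv
    obtain ⟨g, h1, hd⟩ := exists_rk1' (B v) v (by simp [hv])
    refine ⟨g, ⟨fun x y => ?_, mem_sl_of_det (by rw [hd, hv, add_zero])⟩, h1⟩
    change hermForm n F 2 ((g : Matrix _ _ F) *ᵥ x) ((g : Matrix _ _ F) *ᵥ y) = _
    rw [h1, h1, hermForm_eq hF', hermForm_eq hF']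
    change B _ _ = B _ _
    simp only [map_add, map_smul, LinearMap.add_apply, LinearMap.smul_apply, smul_eq_mul, hv,
      LinearMap.map_smulₛₗ, hV.symm]
    linear_combination (B v x * B y v) * h2
  have h4 := Fintype.card_congr e
  simp only [Fintype.card_prod, Fintype.card_fin] at h4
  obtain ⟨x₁, hx₁⟩ := hE.exists_self_ne_zero_top (by simp)
  have n1 := h01 _ hx₁
  have two : finrank F (⊤ : Submodule F (Fin 2 → F)) = 2 := by simp
  -- a vector orthogonal to `x₁` and to itself vanishes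
  have z : ∀ u, β x₁ u = 0 → β u u = 0 → u = 0 := fun u u1 u2 => by
    by_contra hu0
    refine hu0 (hE.nondeg u fun x => ?_)
    obtain ⟨s, r, rfl⟩ := span_pair two (a := u) (b := x₁) trivial trivial hu0 (fun c hc => by
      have := n1
      nth_rewrite 2 [← hc] at this
      rw [map_smul, u1] at this
      simp at this) (x := x) trivial
    rw [map_add, map_smul, map_smul, u2, hs0 _ _ u1]
    simp
  have key : ∀ w, β w w ≠ 0 → β x₁ w = 0 ∨ ∃ c : F, w = c • x₁ := by
    intro w hw0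
    by_cases ha : β x₁ w = 0
    · exact Or.inl ha
    refine Or.inr ⟨β x₁ w, sub_eq_zero.1 (z _ (by simp [n1]) ?_)⟩
    set a := β x₁ w with had
    have hwv : β w x₁ = a ^ 2 := by rw [← hE.symm, hσ]
    simp only [map_sub, LinearMap.sub_apply, map_smul, LinearMap.map_smulₛₗ, LinearMap.smul_apply,
      smul_eq_mul, hσ, hwv, n1, h01 w hw0, ← had]
    linear_combination -h3 a ha
  obtain ⟨x₂, -, x0, o12⟩ := exists_mem_ker (W := ⊤) two.ge (β x₁)
  have n2 := h01 x₂ fun h => x0 (z _ o12 h)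
  have o21 := hs0 _ _ o12
  obtain ⟨y₀, -, y0, hy₀⟩ := hW.exists_isotropic_mem (W := ⊤) (by simp; omega)
  obtain ⟨y, hy⟩ : ∃ y, hermOf hF' hf₂ y₀ y ≠ 0 := by
    by_contra h
    push Not at h
    exact y0 (hW.nondeg _ h)
  have b1 : γ y₀ y₀ = 0 := by simp [hγ, hy₀]
  have b2 : γ y₀ y ≠ 0 := by simp [hγ, hc, hy]
  have b3 : γ y y₀ ≠ 0 := by
    rw [hγ, LinearMap.smul_apply, LinearMap.smul_apply, ← hW.symm]
    simp [hc, hy]
  obtain ⟨g, hg, hgx⟩ := tv (T.t x₁ y₀) (by rw [hf, b1, mul_zero])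
  obtain ⟨h, hh, hhx⟩ := tv (T.t (x₁ + x₂) y₀) (by rw [hf, b1, mul_zero])
  refine ten_tv T (mem_tensorProductSubgroup_iff e P) (fun x => β x x ≠ 0)
    (fun g hg a b hab x hx => (orth_iff T (f := fun u v => B u v) (β := fun u v => β u v)
      (γ := fun u v => γ u v) hf ⟨_, _, b2⟩ (B := b)
      (fun u v => by rw [← hab]; exact ((mem_su_iff hF' g).1 hg).1 u v) x x).not.2 hx)
    (l := β x₁) (l' := β x₂) (φ := γ y₀) (φ' := γ y) hx₁ key hx₁ o12 o21 (by simp [n2])
    b1 b2 b3 hg hh (fun x y' => by rw [hgx, hf]) ?_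
  rw [hhx, hf, map_add β, LinearMap.add_apply, o21, add_zero]

end Cfsg.Agent.S5671
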