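import Cfsg.Statements.S5675
import Cfsg.Agent.Base
import Cfsg.Agent.H60.Types

set_option autoImplicit false
open Cfsg

namespace Cfsg.Agent.S5675

/-- Let F be a finite field of odd order q, m ≥ 6, Q the standard quadratic form on F^(2m+1) and Ω the commutator subgroup of its isometry group. Let W be a non-zero subspace of even dimension on which the polar form of Q is non-degenerate; exclude the case q = 3, dim W = 2 with Q vanishing on some line of W (a plus-type plane). Then the elements of Ω stabilising W (equivalently, stabilising its orthogonal complement, of odd dimension) form a maximal subgroup of Ω. -/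
theorem result {F : Type*} [Field F] [Fintype F] (hodd : Odd (Fintype.card F)) (m : ℕ) (hm : 6 ≤ m) (W : Submodule F (Unit ⊕ (Fin m ⊕ Fin m) → F)) (hW0 : W ≠ ⊥) (hev : Even (Module.finrank F W)) (hW : Cfsg.Geo.IsNondegenerateOn (QuadraticMap.polar (Cfsg.quadFormOdd m F)) W) (hex : ¬ (Fintype.card F = 3 ∧ Module.finrank F W = 2 ∧ Cfsg.Geo.IsPlusTypeOn (Cfsg.quadFormOdd m F) W)) : Cfsg.Geo.IsMaximalIn (Cfsg.Geo.omegaGL (Cfsg.quadFormOdd m F)) (Cfsg.Geo.subspaceStabilizer W ⊓ Cfsg.Geo.omegaGL (Cfsg.quadFormOdd m F)) := by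
  obtain ⟨Q, hQe, hQ⟩ := H60.exists_qOdd hodd m
  rw [← hQe] at hW hex ⊢
  apply H60.isMaximalIn_GL
  rw [H60.comap_subspaceStabilizer]
  have hd := H56.finrank_perp hQ W
  rw [H60.finrank_odd] at hd
  obtain ⟨k, hk⟩ := hev
  refine H60.nondeg_maximal hQ (by rw [H60.finrank_odd]; omega) (H60.nondeg_of_on hW) hW0 ?_ ?_ ?_ ?_
  · rintro rfl
    rw [finrank_top, H60.finrank_odd] at hk
    omega
  · refine fun h => hex ⟨?_, h.2.1, h.isPlusTypeOn⟩
    have h1 : Fintype.card F ≤ 3 := by simpa using h.1
    have h2 : 1 < Fintype.card F := Fintype.one_lt_card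
    obtain ⟨l, hl⟩ := hodd
    omega
  · intro h
    have := h.2.1
    omega
  · intro g hg
    have := H60.finrank_img g W
    rw [hg] at this
    omega

end Cfsg.Agent.S5675
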