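import Cfsg.Statements.S5677
import Cfsg.Agent.Base
import Cfsg.Agent.H60.DecMax3

set_option autoImplicit false
open Cfsg

namespace Cfsg.Agent.S5677

/-- Let F be a finite field of odd order q, m ≥ 6, Q the standard quadratic form on F^(2m+1) and Ω the commutator subgroup of its isometry group. Let D be a decomposition of F^(2m+1) into t ≥ 2 pairwise orthogonal, pairwise Q-isometric subspaces of equal dimension k > 1 on which the polar form is non-degenerate. Unless q = 3 and k = 3, the elements of Ω permuting the members of D form a maximal subgroup of Ω. -/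
theorem result {F : Type*} [Field F] [Fintype F] (hodd : Odd (Fintype.card F)) (m : ℕ) (hm : 6 ≤ m) {t : ℕ} (k : ℕ) (hk : 1 < k) (D : Fin t → Submodule F (Unit ⊕ (Fin m ⊕ Fin m) → F)) (hD : Cfsg.Geo.IsOrthogonalMDecomposition (Cfsg.quadFormOdd m F) k D) (hex : ¬ (Fintype.card F = 3 ∧ k = 3)) : Cfsg.Geo.IsMaximalIn (Cfsg.Geo.omegaGL (Cfsg.quadFormOdd m F)) (Cfsg.Geo.decompositionStabilizer D ⊓ Cfsg.Geo.omegaGL (Cfsg.quadFormOdd m F)) := by
  obtain ⟨Q, hQe, hQ⟩ := H60.exists_qOdd hodd m
  rw [← hQe] at hD ⊢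
  have := H60.nontrivial_of_dec hD
  have h := H60.orthDec_of hQ hD
  have hn := h.finrank_eq
  rw [H60.finrank_odd] at hn
  have hk2 : k ≠ 2 := by rintro rfl; omega
  have h1 : 1 < Fintype.card F := Fintype.one_lt_card
  obtain ⟨r, hr⟩ := id hodd
  refine H60.isMaximalIn_GL ?_
  rw [H60.comap_decompositionStabilizer]
  refine h.maximal_of_three (by omega) (fun h3 => ⟨H58.two_ne_zero_of_odd_card hodd, ?_⟩)
    fun j hs => ?_
  · rw [Nat.card_eq_fintype_card]; omega
  · have := hs.1
    rw [Nat.card_eq_fintype_card] at this; omega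

end Cfsg.Agent.S5677
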