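import Cfsg.Statements.S5680
import Cfsg.Agent.H91.OF3B

set_option autoImplicit false
open Cfsg

namespace Cfsg.Agent.S5680

/-- Let F be a finite field of odd order, m ≥ 6, Q the standard quadratic form on F^(2m+1) and Ω the commutator subgroup of its isometry group. Let K be a subfield of the algebra of (2m+1) × (2m+1) matrices over F containing the scalars, of prime degree r over F with r ≠ 2m + 1, whose elements are self-adjoint for the polar form of Q. Then the elements of Ω normalising K form a maximal subgroup of Ω. -/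
theorem result {F : Type*} [Field F] [Fintype F] (hodd : Odd (Fintype.card F)) (m : ℕ) (hm : 6 ≤ m) (r : ℕ) (hr : r.Prime) (hrn : 2 * m + 1 ≠ r) (K : Subalgebra F (Matrix (Unit ⊕ (Fin m ⊕ Fin m)) (Unit ⊕ (Fin m ⊕ Fin m)) F)) (hK : Cfsg.Geo.IsFieldSubalgebra r K) (hsa : Cfsg.Geo.IsSelfAdjointFor (QuadraticMap.polar (Cfsg.quadFormOdd m F)) K) : Cfsg.Geo.IsMaximalIn (Cfsg.Geo.omegaGL (Cfsg.quadFormOdd m F)) (Cfsg.Geo.subalgebraNormalizer K ⊓ Cfsg.Geo.omegaGL (Cfsg.quadFormOdd m F)) := by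
  obtain ⟨Q, e, hQ⟩ := H60.exists_qOdd hodd m
  rw [← e] at hsa ⊢
  have h2 := H91.two_ne_zero_of_odd hodd
  have hc : Fintype.card (Unit ⊕ (Fin m ⊕ Fin m)) = 2 * m + 1 := by simp; omega
  obtain ⟨K', _, _, _, _, _, h0, -⟩ := H62.exists_field_model hK
  have h1 := Module.finrank_mul_finrank F K' (Unit ⊕ (Fin m ⊕ Fin m) → F)
  rw [h0, H60.finrank_odd] at h1
  generalize Module.finrank K' (Unit ⊕ (Fin m ⊕ Fin m) → F) = d at h1
  by_cases h3 : d = 3
  · subst h3
    exact H91.isMaximalIn_o_field_three hQ h2 hr (by omega) (by omega) hK hsa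
  refine H91.isMaximalIn_o_field hQ h2 hr ?_ hK hsa
  have h4 : 3 < d := by
    by_contra h4
    obtain rfl | rfl | rfl : d = 0 ∨ d = 1 ∨ d = 2 := by omega
    all_goals omega
  have := hr.pos
  rw [hc, ← h1]
  nlinarith

end Cfsg.Agent.S5680
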