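import Cfsg.Statements.S5682
import Cfsg.Agent.Base
import Cfsg.Agent.H62.NotMax2

set_option autoImplicit false
open Cfsg

namespace Cfsg.Agent.S5682

open Cfsg.Geo H62 H62.NM H56 Matrix Module


/-- Let F be the field with 3 elements, m ≥ 6, Q the standard quadratic form on F^(2m+1) and Ω the commutator subgroup of its isometry group. Suppose the polar form of Q is similar, through P and e, to the tensor product of non-degenerate symmetric bilinear forms f₁ on F^3 and f₂ on F^(n₂) with 3 < n₂. Then the elements of Ω in the stabiliser of this tensor decomposition form a subgroup that is not maximal: some subgroup lies strictly between it and Ω. -/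
theorem result {F : Type*} [Field F] [Fintype F] (hq : Fintype.card F = 3) (m : ℕ) (hm : 6 ≤ m) (n₂ : ℕ) (h2 : 3 < n₂) (e : (Unit ⊕ (Fin m ⊕ Fin m)) ≃ Fin 3 × Fin n₂) (P : Matrix.GeneralLinearGroup (Unit ⊕ (Fin m ⊕ Fin m)) F) (f₁ : (Fin 3 → F) → (Fin 3 → F) → F) (f₂ : (Fin n₂ → F) → (Fin n₂ → F) → F) (hf₁ : Cfsg.Geo.IsSymmetricForm f₁) (hf₂ : Cfsg.Geo.IsSymmetricForm f₂) (hT : Cfsg.Geo.IsTensorFormStructure id (QuadraticMap.polar (Cfsg.quadFormOdd m F)) f₁ f₂ e P) : ∃ K : Subgroup (Matrix.GeneralLinearGroup (Unit ⊕ (Fin m ⊕ Fin m)) F), Cfsg.Geo.tensorProductSubgroup 3 n₂ e P ⊓ Cfsg.Geo.omegaGL (Cfsg.quadFormOdd m F) < K ∧ K < Cfsg.Geo.omegaGL (Cfsg.quadFormOdd m F) := by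
  obtain ⟨Q, hQ, hn⟩ := H60.exists_qOdd (F := F) (by rw [hq]; decide) m
  rw [← hQ] at hT ⊢
  obtain ⟨c, hc, hT⟩ := hT
  have nd := bilinOf_nondegenerate hf₁.bilinear hf₁.nondegenerate
  exact orth_ten3 hq hn (by simp; omega) (matTen e P) (mem_tensorProductSubgroup_iff e P)
    (β := c • bilinOf hf₁.bilinear) (γ := bilinOf hf₂.bilinear)
    (fun x y => by simp [hf₁.symm x y])
    ⟨fun x hx => nd.1 x fun y => by simpa [hc] using hx y,
      fun x hx => nd.2 x fun y => by simpa [hc] using hx y⟩ hf₂.symm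
    (bilinOf_nondegenerate hf₂.bilinear hf₂.nondegenerate) (by simp) (by simp; omega)
    fun x y x' y' => by
      rw [matTen_t, matTen_t, hT, formOfGram_kronecker (by simp),
        formOfGram_bilin hf₁.bilinear, formOfGram_bilin hf₂.bilinear, ← mul_assoc]; rfl

end Cfsg.Agent.S5682
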