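import Cfsg.Statements.S5689
import Cfsg.Agent.Base
import Cfsg.Agent.H60.Types

set_option autoImplicit false
open Cfsg

namespace Cfsg.Agent.S5689

/-- Let F be a finite field with q elements, n ≥ 13 even, Q a non-degenerate quadratic form on F^n of minus type (no subspace of dimension n/2 is totally singular), and Ω the commutator subgroup of the isometry group of Q, viewed inside GL_n(F). Let W be a non-zero proper subspace on which the polar form of Q is non-degenerate, not of odd dimension n/2. Exclude the case q ≤ 3 in which W, or its orthogonal complement, is a plane containing a line on which Q vanishes. Then the elements of Ω stabilising W form a maximal subgroup of Ω. -/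
theorem result {F : Type*} [Field F] [Fintype F] {n : ℕ} (hn : 13 ≤ n) (heven : Even n) (Q : (Fin n → F) → F) (hQ : Cfsg.Geo.IsNondegenerateQuadraticForm Q) (hminus : ¬ Cfsg.Geo.IsPlusTypeOn Q ⊤) (W : Submodule F (Fin n → F)) (hW0 : W ≠ ⊥) (hW1 : W ≠ ⊤) (hdim : ¬ (2 * Module.finrank F W = n ∧ Odd (Module.finrank F W))) (hW : Cfsg.Geo.IsNondegenerateOn (QuadraticMap.polar Q) W) (hex : ¬ (Fintype.card F ≤ 3 ∧ (∃ U : Submodule F (Fin n → F), Module.finrank F U = 2 ∧ Cfsg.Geo.IsNondegenerateOn (QuadraticMap.polar Q) U ∧ Cfsg.Geo.IsPlusTypeOn Q U ∧ (U = W ∨ (Cfsg.Geo.AreOrthogonalFor (QuadraticMap.polar Q) U W ∧ Module.finrank F U + Module.finrank F W = n))))) : Cfsg.Geo.IsMaximalIn (Cfsg.Geo.omegaGL Q) (Cfsg.Geo.subspaceStabilizer W ⊓ Cfsg.Geo.omegaGL Q) := by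
  obtain ⟨Q, rfl, hQ'⟩ := H60.exists_quadraticForm hQ
  apply H60.isMaximalIn_GL
  rw [H60.comap_subspaceStabilizer]
  have hd := H56.finrank_perp hQ' W
  have hn' : Module.finrank F (Fin n → F) = n := by simp
  obtain ⟨h1, h2⟩ := H60.not_smallHyp_of hQ' (H60.nondeg_of_on hW) hn' hex
  refine H60.nondeg_maximal hQ' (by omega) (H60.nondeg_of_on hW) hW0 hW1 h1 h2 fun g hg => ?_
  have h3 := H60.finrank_img g W
  rw [hg] at h3
  have hev : Even (Module.finrank F W) := by
    by_contra h
    exact hdim ⟨by omega, Nat.not_even_iff_odd.1 h⟩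
  obtain ⟨U, -, hU, hUd⟩ := H60.exists_ts_of_img_le_perp (H60.nondeg_of_on hW) hev hg.le
  exact hminus ⟨U, le_top, hU, by rw [finrank_top]; omega⟩

end Cfsg.Agent.S5689
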