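import Cfsg.Statements.S5699
import Cfsg.Agent.Base
import Cfsg.Agent.H60.Types

set_option autoImplicit false
open Cfsg

namespace Cfsg.Agent.S5699

/-- Let F be a finite field with q elements, n ≥ 13 even, Q a non-degenerate quadratic form on F^n (of either type), and Ω the commutator subgroup of the isometry group of Q, viewed inside GL_n(F). Let D be a decomposition of F^n into two orthogonal subspaces of odd dimension n/2 on which the polar form is non-degenerate and which are not Q-isometric to each other. Then the elements of Ω permuting (necessarily fixing) the two subspaces form a maximal subgroup of Ω. -/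
theorem result {F : Type*} [Field F] [Fintype F] {n : ℕ} (hn : 13 ≤ n) (heven : Even n) (Q : (Fin n → F) → F) (hQ : Cfsg.Geo.IsNondegenerateQuadraticForm Q) (k : ℕ) (hk : 2 * k = n) (hko : Odd k) (D : Fin 2 → Submodule F (Fin n → F)) (hD : Cfsg.Geo.IsNondegenerateMDecomposition (QuadraticMap.polar Q) k D) (hni : ¬ Cfsg.Geo.AreIsometricFor Q (D 0) (D 1)) : Cfsg.Geo.IsMaximalIn (Cfsg.Geo.omegaGL Q) (Cfsg.Geo.decompositionStabilizer D ⊓ Cfsg.Geo.omegaGL Q) := by
  obtain ⟨Q, rfl, hQ'⟩ := H60.exists_quadraticForm hQ
  apply H60.isMaximalIn_GL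
  have hn' : Module.finrank F (Fin n → F) = n := by simp
  have h0 := hD.decomp.finrank_eq 0
  have h1 := hD.decomp.finrank_eq 1
  have hd := H56.finrank_perp hQ' (D 0)
  have hp : D 1 = H56.perp Q (D 0) := Submodule.eq_of_le_of_finrank_le
    (fun x hx y hy => hD.orthogonal 0 1 (by decide) y hy x hx) (by omega)
  have hni' : ∀ g : H56.O Q, H60.img g (D 0) ≠ D 1 := fun g hg => hni
    ⟨(g.1.submoduleMap (D 0)).trans (LinearEquiv.ofEq _ _ hg), fun w => g.map_Q w⟩
  have hS : (Cfsg.Geo.decompositionStabilizer D).comap (H60.toGL Q) =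
      H60.sstab Q (D 0 : Set (Fin n → F)) := by
    ext g
    rw [H60.mem_comap_decompositionStabilizer, ← H60.img_eq_iff]
    constructor
    · rintro ⟨σ, hσ⟩
      have h := hσ 0
      generalize σ 0 = j at h
      fin_cases j
      · exact h
      · exact absurd h (hni' g)
    · intro h
      refine ⟨1, fun i => ?_⟩
      fin_cases i
      · exact h
      · change H60.img g (D 1) = D 1
        rw [hp, H60.img_perp, h]
  rw [hS]
  obtain ⟨l, hl⟩ := hko
  refine H60.nondeg_maximal hQ' (by omega) (H60.nondeg_of_on (hD.nondegenerate 0)) ?_ ?_ ?_ ?_ ?_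
  · intro h
    rw [h, finrank_bot] at h0
    omega
  · intro h
    rw [h, finrank_top] at h0
    omega
  · intro h
    have := h.2.1
    omega
  · intro h
    have := h.2.1
    omega
  · rw [← hp]; exact hni'

end Cfsg.Agent.S5699
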