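import Cfsg.Statements.S5705
import Cfsg.Agent.Base
import Cfsg.Agent.H62.NotMax3

set_option autoImplicit false
open Cfsg

namespace Cfsg.Agent.S5705

open Cfsg.Geo H62 H62.NM H56 Matrix Module QuadraticMap


/-- Let F be the field with 2 elements, n = 2 n₂ ≥ 13 even, Q a non-degenerate quadratic form on F^n of plus type and Ω the commutator subgroup of its isometry group. Suppose that, through P and e, the polar form of Q is similar to the tensor product of non-degenerate symplectic forms f₁ on F^2 and f₂ on F^(n₂), and Q vanishes on the images of all pure tensors. Then the elements of Ω in the stabiliser of this tensor decomposition form a subgroup that is not maximal: some subgroup lies strictly between it and Ω. -/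
theorem result {F : Type*} [Field F] [Fintype F] {n : ℕ} (hn : 13 ≤ n) (heven : Even n) (Q : (Fin n → F) → F) (hQ : Cfsg.Geo.IsNondegenerateQuadraticForm Q) (hplus : Cfsg.Geo.IsPlusTypeOn Q ⊤) (hq : Fintype.card F = 2) (n₂ : ℕ) (h2 : 2 < n₂) (e : (Fin n) ≃ Fin 2 × Fin n₂) (P : Matrix.GeneralLinearGroup (Fin n) F) (f₁ : (Fin 2 → F) → (Fin 2 → F) → F) (f₂ : (Fin n₂ → F) → (Fin n₂ → F) → F) (hf₁ : Cfsg.Geo.IsSymplecticForm f₁) (hf₂ : Cfsg.Geo.IsSymplecticForm f₂) (hT : Cfsg.Geo.IsTensorFormStructure id (QuadraticMap.polar Q) f₁ f₂ e P) (hpure : (∀ (x₁ : Fin 2 → F) (x₂ : Fin n₂ → F), Q (Matrix.mulVec (P : Matrix (Fin n) (Fin n) F) ((fun a : Fin 2 × Fin n₂ => x₁ a.1 * x₂ a.2) ∘ e)) = 0)) : ∃ K : Subgroup (Matrix.GeneralLinearGroup (Fin n) F), Cfsg.Geo.tensorProductSubgroup 2 n₂ e P ⊓ Cfsg.Geo.omegaGL Q < K ∧ K < Cfsg.Geo.omegaGL Q := by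
  obtain ⟨Q, rfl, hn'⟩ := H60.exists_quadraticForm hQ
  have t2 : (2 : F) = 0 := two_eq_zero (by rw [hq]; decide)
  have e2 : (1 : F) + 1 = 0 := by linear_combination t2
  obtain ⟨c, hc, hT⟩ := hT
  obtain rfl : c = 1 := (eq_zero_or_one hq c).resolve_left hc
  set T := matTen e P with hTd
  set γ := bilinOf hf₂.bilinear with hγ
  have hA : ∀ y, γ y y = 0 := hf₂.alternating
  have hs : ∀ u v, γ u v = γ v u := fun u v => by
    have := hA (u + v)
    simp only [map_add, LinearMap.add_apply, hA] at this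
    linear_combination this - γ v u * t2
  have hβ : ∀ x x', bilinOf hf₁.bilinear x x' = x 0 * x' 1 + x 1 * x' 0 := by
    have ev : ∀ x : Fin 2 → F, x = x 0 • ![1, 0] + x 1 • ![0, 1] := fun x => by
      ext i; fin_cases i <;> simp
    have a : ∀ x, bilinOf hf₁.bilinear x x = 0 := hf₁.alternating
    have s : bilinOf hf₁.bilinear ![0, 1] ![1, 0] = bilinOf hf₁.bilinear ![1, 0] ![0, 1] := by
      have := hf₁.skew ![0, 1] ![1, 0]
      simp only [bilinOf_apply]
      linear_combination this - f₁ ![1, 0] ![0, 1] * t2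
    have o : bilinOf hf₁.bilinear ![1, 0] ![0, 1] = 1 := by
      refine (eq_zero_or_one hq _).resolve_left fun h => ?_
      obtain ⟨x, hx⟩ := (hf₁.nondegenerate ![1, 0] (by simp)).2
      apply hx
      rw [← bilinOf_apply hf₁.bilinear, ev x, map_add, map_smul, map_smul, a, h]
      simp
    intro x x'
    conv_lhs => rw [ev x, ev x']
    simp only [map_add, map_smul, LinearMap.add_apply, LinearMap.smul_apply, a, s, o, smul_eq_mul]
    ring
  have hf : ∀ x y x' y', polar Q (T.t x y) (T.t x' y') = (x 0 * x' 1 + x 1 * x' 0) * γ y y' :=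
    fun x y x' y' => by
      rw [hTd, matTen_t, matTen_t, hT, formOfGram_kronecker (by simp),
        formOfGram_bilin hf₁.bilinear, formOfGram_bilin hf₂.bilinear, one_mul, hβ]
  have hp : ∀ x y, Q (T.t x y) = 0 := fun x y => by rw [hTd, matTen_t]; exact hpure x y
  obtain ⟨y₁, y₂, y₃, y₄, h12, h34, h13, h14, h23, h24⟩ := exists_hyp2 t2 hA
    (bilinOf_nondegenerate hf₂.bilinear hf₂.nondegenerate) (by simp; omega)
  set J := T.tm (om t2) 1 with hJ
  have hJt : ∀ x y, J (T.t x y) = T.t ![x 1, x 0 + x 1] y := fun x y => T.tm_t _ _ x y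
  have mem : ∀ u w, Q u = Q w → H60.toGL Q (refl Q u * refl Q w) ∈ omegaGL ⇑Q := by
    intro u w h
    rw [H60.omegaGL_eq]
    exact Subgroup.mem_map_of_mem _ (H60.refl_mul_refl_mem_commutator hn' (by simp; omega)
      one_ne_zero (by rw [h]; ring))
  have rf : ∀ u : Fin n → F, Q u = 1 → ∀ v, refl Q u v = v + polar Q u v • u := by
    intro u hu v
    rw [refl_apply, hu, sub_eq_add_neg, ← neg_smul]
    congr 2
    linear_combination (-polar Q u v) * t2
  have ap : ∀ (g : O Q) v, toLE (H60.toGL Q g) v = g v := fun g v => H60.toGL_mulVec g v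
  have pa : ∀ a b c, polar Q (a + b) c = polar Q a c + polar Q b c := fun a b c =>
    polar_add_left Q a b c
  have pb : ∀ a b c, polar Q a (b + c) = polar Q a b + polar Q a c := fun a b c =>
    polar_add_right Q a b c
  have pc : ∀ (s : F) a b, polar Q a (s • b) = s * polar Q a b := fun s a b => by
    rw [polar_smul_right, smul_eq_mul]
  set u := T.t ![1, 0] y₁ + T.t ![0, 1] y₂ with hu
  set w := T.t ![1, 0] y₁ + T.t ![0, 1] (y₂ + y₃) with hw
  have q1 : Q u = 1 := by rw [hu, Q_add, hp, hp, hf, h12]; simp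
  have q2 : Q (J u) = 1 := by rw [hu, map_add, hJt, hJt, Q_add, hp, hp, hf, h12]; simp
  have q3 : Q w = 1 := by rw [hw, Q_add, hp, hp, hf, map_add, h12, h13]; simp
  have hl : ∀ v, polar Q (J u) v = polar Q u v + polar Q u (J v) := fun v =>
    T.induction v (by simp) (fun x y => by
      simp only [hu, map_add, hJt, pa, hf]
      simp
      linear_combination (-x 1 * γ y₁ y - x 0 * γ y₂ y) * t2 + (x 0 * γ y₂ y) * t2)
      fun a b ha hb => by simp only [map_add, pb, ha, hb]; ring
  have hl1 : polar Q u (J u) = 1 := by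
    simp only [hu, map_add, hJt, pa, pb, hf, hA, h12, hs y₂ y₁]
    simp
  have g3 : ∀ v, toLE (H60.toGL Q (refl Q u * refl Q (J u))) v = v + (Q.polarBilin u v +
      Q.polarBilin u (J v)) • J u + Q.polarBilin u (J v) • u := fun v => by
    rw [ap, O.mul_apply, rf _ q2, rf _ q1, pb, pc, hl1, hl]
    simp only [polarBilin_apply_apply]
    congr 2
    linear_combination polar Q u v * t2
  obtain ⟨φ, hφ⟩ : ∃ φ : Dual F (Fin n₂ → F), φ = γ y₄ := ⟨_, rfl⟩
  refine ten_two hq t2 T (mem_tensorProductSubgroup_iff e P) (mem u (J u) (q1.trans q2.symm))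
    (mem u w (q1.trans q3.symm)) (Q.polarBilin u) _ g3 (x := ![1, 0]) (y := y₁ + y₃) ?_
    (p := T.t ![0, 1] y₄) (r := w) ?_ ?_ ?_ ?_
  · rw [g3]
    refine ne_t T (LinearMap.proj 0) (LinearMap.proj 1) (γ y₄) (γ y₁) fun h => ?_
    simp only [polarBilin_apply_apply, hu, map_add, hJt, pa, pb, hf, hA, h12, hs y₂ y₁, h13, h23,
      map_smul, Ten.cL_t, hs y₄ y₁, hs y₄ y₂, hs y₄ y₃, h14, h24, h34, LinearMap.add_apply] at h
    simp at h
  · rw [ap, O.mul_apply, refl_apply_of_orth, refl_apply_of_orth]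
    · rw [hw, pa, hf, hf, h14]; simp
    · rw [refl_apply_of_orth (by rw [hw, pa, hf, hf, h14]; simp), hu, pa, hf, hf, h14]; simp
  · have a1 : polar Q w (J (T.t ![0, 1] y₄)) = 1 := by
      rw [hJt, hw, pa, hf, hf, map_add, LinearMap.add_apply, h14, h24, h34]; simp
    have a2 : polar Q u (J (T.t ![0, 1] y₄) + w) = 0 := by
      simp only [hJt, hw, hu, pa, pb, hf, map_add, h14, h24, h12, h13, hA, hs y₂ y₁, h23]
      simp [e2]
    rw [ap, O.mul_apply, ← hJ, rf _ q3, a1, one_smul, refl_apply_of_orth a2]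
  · intro h
    rw [h, map_zero] at q3
    exact zero_ne_one q3
  · intro h
    rw [h, hp] at q3
    exact zero_ne_one q3

end Cfsg.Agent.S5705
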