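import Cfsg.Statements.S5710
import Cfsg.Agent.Base
import Cfsg.Agent.H62.NotMax2

set_option autoImplicit false
open Cfsg

namespace Cfsg.Agent.S5710

open Cfsg.Geo H62 H62.NM H56 Matrix Module


/-- Let F be the field with 3 elements, n = 3 n₂ ≥ 13 even, Q a non-degenerate quadratic form on F^n of minus type and Ω the commutator subgroup of its isometry group. Suppose that, through P and e, the polar form of Q is similar to the tensor product of non-degenerate symmetric bilinear forms f₁ on F^3 and f₂ on F^(n₂), n₂ even and at least 4, of minus type. Then the elements of Ω in the stabiliser of this tensor decomposition form a subgroup that is not maximal: some subgroup lies strictly between it and Ω. -/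
theorem result {F : Type*} [Field F] [Fintype F] {n : ℕ} (hn : 13 ≤ n) (heven : Even n) (Q : (Fin n → F) → F) (hQ : Cfsg.Geo.IsNondegenerateQuadraticForm Q) (hminus : ¬ Cfsg.Geo.IsPlusTypeOn Q ⊤) (hq : Fintype.card F = 3) (n₂ : ℕ) (h2 : 4 ≤ n₂) (h2e : Even n₂) (e : (Fin n) ≃ Fin 3 × Fin n₂) (P : Matrix.GeneralLinearGroup (Fin n) F) (f₁ : (Fin 3 → F) → (Fin 3 → F) → F) (f₂ : (Fin n₂ → F) → (Fin n₂ → F) → F) (hf₁ : Cfsg.Geo.IsSymmetricForm f₁) (hf₂ : Cfsg.Geo.IsSymmetricForm f₂) (hf₂m : ¬ Cfsg.Geo.IsPlusTypeOn (fun v : Fin n₂ → F => f₂ v v) ⊤) (hT : Cfsg.Geo.IsTensorFormStructure id (QuadraticMap.polar Q) f₁ f₂ e P) : ∃ K : Subgroup (Matrix.GeneralLinearGroup (Fin n) F), Cfsg.Geo.tensorProductSubgroup 3 n₂ e P ⊓ Cfsg.Geo.omegaGL Q < K ∧ K < Cfsg.Geo.omegaGL Q := by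
  obtain ⟨Q, rfl, hn'⟩ := H60.exists_quadraticForm hQ
  obtain ⟨c, hc, hT⟩ := hT
  have nd := bilinOf_nondegenerate hf₁.bilinear hf₁.nondegenerate
  exact orth_ten3 hq hn' (by simp; omega) (matTen e P) (mem_tensorProductSubgroup_iff e P)
    (β := c • bilinOf hf₁.bilinear) (γ := bilinOf hf₂.bilinear)
    (fun x y => by simp [hf₁.symm x y])
    ⟨fun x hx => nd.1 x fun y => by simpa [hc] using hx y,
      fun x hx => nd.2 x fun y => by simpa [hc] using hx y⟩ hf₂.symm
    (bilinOf_nondegenerate hf₂.bilinear hf₂.nondegenerate) (by simp) (by simp; omega)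
    fun x y x' y' => by
      rw [matTen_t, matTen_t, hT, formOfGram_kronecker (by simp),
        formOfGram_bilin hf₁.bilinear, formOfGram_bilin hf₂.bilinear, ← mul_assoc]; rfl

end Cfsg.Agent.S5710
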