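import Cfsg.Statements.S5781
import Cfsg.Agent.Base
import Cfsg.Agent.H25.CertFr
import Cfsg.Agent.H19.AschLin

set_option autoImplicit false
open Cfsg

namespace Cfsg.Agent.S5781

set_option synthInstance.maxSize 4000
set_option linter.unusedTactic false
set_option linter.unreachableTactic false
open H25 in

/-- Every maximal subgroup of SL_4(q) is of one of the listed geometric types or lies in the residual class. Let F be a finite field with q elements and H a maximal subgroup of SL_4(F) (inside GL_4(F)). Then H is the intersection with SL_4(F) of one of: the stabiliser of a proper non-zero subspace; for q ≥ 7, the stabiliser of a decomposition into four independent lines; for q ≥ 4, the stabiliser of a decomposition into two independent planes; the normaliser of a degree-2 subfield of the matrix algebra; a subfield group for a subfield F₀ with |F| = |F₀|^r, r prime; for q = p ≡ 1 mod 4 prime, the normaliser of an absolutely irreducible 2-subgroup R of exponent 4 with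 centre of order 4, all of whose characteristic abelian subgroups are cyclic, of order 2^(2+2m) for some m (here |R| = 64), with 4 dividing p − 1; for q odd, the similarity group of a non-degenerate quadratic form; the similarity group of a non-degenerate symplectic form; the similarity group of a non-degenerate unitary form — or else H lies in the residual class of the linear case. -/
theorem result {F : Type*} [Field F] [Fintype F] (H : Subgroup (Matrix.GeneralLinearGroup (Fin 4) F)) (hH : Cfsg.Geo.IsMaximalIn (Cfsg.Geo.specialLinear (Fin 4) F) H) :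
    (∃ W : Submodule F (Fin 4 → F), W ≠ ⊥ ∧ W ≠ ⊤ ∧ H = Cfsg.Geo.subspaceStabilizer W ⊓ Cfsg.Geo.specialLinear (Fin 4) F) ∨
    (7 ≤ Fintype.card F ∧ ∃ D : Fin 4 → Submodule F (Fin 4 → F), Cfsg.Geo.IsMDecomposition 1 D ∧ H = Cfsg.Geo.decompositionStabilizer D ⊓ Cfsg.Geo.specialLinear (Fin 4) F) ∨
    (4 ≤ Fintype.card F ∧ ∃ D : Fin 2 → Submodule F (Fin 4 → F), Cfsg.Geo.IsMDecomposition 2 D ∧ H = Cfsg.Geo.decompositionStabilizer D ⊓ Cfsg.Geo.specialLinear (Fin 4) F) ∨
    (∃ K : Subalgebra F (Matrix (Fin 4) (Fin 4) F), Cfsg.Geo.IsFieldSubalgebra 2 K ∧ H = Cfsg.Geo.subalgebraNormalizer K ⊓ Cfsg.Geo.specialLinear (Fin 4) F) ∨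
    (∃ (F₀ : Subfield F) (r : ℕ) (P : Matrix.GeneralLinearGroup (Fin 4) F), r.Prime ∧ Fintype.card F = Nat.card F₀ ^ r ∧ H = Cfsg.Geo.subfieldSubgroup F₀ P ⊓ Cfsg.Geo.specialLinear (Fin 4) F) ∨
    (∃ (p : ℕ) (R : Subgroup (Matrix.GeneralLinearGroup (Fin 4) F)), p.Prime ∧ Fintype.card F = p ∧ p % 4 = 1 ∧ Cfsg.Geo.IsLinearSymplecticTypeData 2 R ∧ H = Cfsg.Geo.subgroupNormalizer R ⊓ Cfsg.Geo.specialLinear (Fin 4) F) ∨
    (Odd (Fintype.card F) ∧ ∃ Q : (Fin 4 → F) → F, Cfsg.Geo.IsNondegenerateQuadraticForm Q ∧ H = Cfsg.Geo.quadSimilarityGroup Q ⊓ Cfsg.Geo.specialLinear (Fin 4) F) ∨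
    (∃ f : (Fin 4 → F) → (Fin 4 → F) → F, Cfsg.Geo.IsSymplecticForm f ∧ H = Cfsg.Geo.similarityGroup f ⊓ Cfsg.Geo.specialLinear (Fin 4) F) ∨
    (∃ (σ : F ≃+* F) (f : (Fin 4 → F) → (Fin 4 → F) → F), Cfsg.Geo.IsUnitaryForm σ f ∧ H = Cfsg.Geo.similarityGroup f ⊓ Cfsg.Geo.specialLinear (Fin 4) F) ∨
    Cfsg.Geo.InLinearResidualClass H := by
  rcases sl_reduce (by norm_num) (fun H _ => H19.asch_linear (by norm_num) H) hH with h | ⟨t, m, D, h1, h2, h3, h4, hD, h⟩ | ⟨r, K, hr, h1, hK, h⟩ |
    ⟨a, b, e, P, h1, h2, h3, h4, h⟩ | h | ⟨r, k, R, hr, h1, hR, h⟩ | ⟨m, t, e, P, h1, h2, h3, h⟩ | ⟨h1, h⟩ | h | h | h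
  · exact Or.inl h
  · have key : ∀ t < 5, ∀ m < 5, t * m = 4 → 2 ≤ t → (t = 2 ∧ m = 2) ∨ (t = 4 ∧ m = 1) := by decide
    obtain ⟨rfl, rfl⟩ | ⟨rfl, rfl⟩ := key t (lt_succ_of_mul_eq h1 (by norm_num)) m (lt_succ_of_mul_eq' h1 (by norm_num)) h1 h2
    · by_cases h5 : Fintype.card F = 3
      · obtain ⟨f, hf, h6⟩ := blocks_le_symp_three h5 hD
        have h7 := eq_inf_of_max hH (h ▸ h6) (not_SL_le_sim (by simp) (isSes_of_symplectic hf))
        repeat first | exact ⟨f, hf, h7⟩ | exact Or.inl ⟨f, hf, h7⟩ | right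
      · have h7 : 4 ≤ Fintype.card F := by have := h4 rfl; omega
        repeat first | exact ⟨h7, D, hD, h⟩ | exact Or.inl ⟨h7, D, hD, h⟩ | right
    · have h5 : Fintype.card F ≠ 5 := fun h5 => not_max_frame_SL45 h5 hD (h ▸ hH)
      have h6 : Fintype.card F ≠ 6 := fun h6 => by
        have := FiniteField.isPrimePow_card F
        rw [h6] at this
        exact absurd this (by decide)
      have h7 : 7 ≤ Fintype.card F := by have := h3 rfl; omega
      repeat first | exact ⟨h7, D, hD, h⟩ | exact Or.inl ⟨h7, D, hD, h⟩ | right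
  · have : r ≤ 4 := Nat.le_of_dvd (by norm_num) h1
    obtain rfl : r = 2 := by
      clear hK h; interval_cases r <;> first | omega | exact absurd hr (by norm_num)
    · repeat first | exact ⟨K, hK, h⟩ | exact Or.inl ⟨K, hK, h⟩ | right
  · have key : ∀ a < 5, ∀ b < 5, a * b = 4 → 2 ≤ a → a < b → False := by decide
    exact (key a (lt_succ_of_mul_eq h3 (by norm_num)) b (lt_succ_of_mul_eq' h3 (by norm_num)) h3 h1 h2).elim
  · repeat first | exact h | exact Or.inl h | right
  · have key : ∀ r < 5, ∀ k < 5, r ^ k = 4 → r = 2 ∨ r = 4 := by decide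
    obtain rfl | rfl := key r (lt_succ_of_pow_eq h1 (by norm_num)) k (lt_succ_of_pow_eq' h1 hr.one_lt) h1
    · obtain ⟨p, e, hp, hc, hF, hc6⟩ := lin_c6_field (by simp) hR
      obtain ⟨rfl, h4⟩ := lin_c6_two hc6
      repeat first | exact ⟨p, R, hp, by simpa using hF, h4, hR, h⟩ | exact Or.inl ⟨p, R, hp, by simpa using hF, h4, hR, h⟩ | right
    · exact absurd hr (by norm_num)
  · have key : ∀ m < 5, ∀ t < 5, m ^ t = 4 → 3 ≤ m → 2 ≤ t → False := by decide
    exact (key m (lt_succ_of_pow_eq h3 (by norm_num)) t (lt_succ_of_pow_eq' h3 (by omega)) h3 h1 h2).elim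
  · repeat first | exact h | exact Or.inl h | right
  · repeat first | exact h | exact Or.inl h | right
  · repeat first | exact h | exact Or.inl h | right
  · repeat first | exact h | exact Or.inl h | right

end Cfsg.Agent.S5781
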