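import Cfsg.Statements.S5784
import Cfsg.Agent.Base
import Cfsg.Agent.H25.RowTs
import Cfsg.Agent.H25.CertFr

set_option autoImplicit false
open Cfsg

namespace Cfsg.Agent.S5784

set_option synthInstance.maxSize 4000
set_option linter.unusedTactic false
set_option linter.unreachableTactic false

/-- Every maximal subgroup of SU_4(q) is of one of the listed geometric types or lies in the residual class. Let F be the field with q² elements, f the standard unitary form Σ u_i v_i^q on F^4, and H a maximal subgroup of SU_4(q) (inside GL_4(F)). Then H is the intersection with SU_4(q) of one of: the stabiliser of a non-zero subspace on which f vanishes; the stabiliser of a non-degenerate 1-space; for q ≠ 3, the stabiliser of a decomposition into four mutually orthogonal non-degenerate 1-spaces; for q ≥ 3, of a decomposition into two orthogonal non-degenerate 2-spaces; for q ≥ 4, of a decomposition into two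 totally isotropic 2-spaces; a subfield group of odd prime index whose F₀-structure carries f; a subfield group of index 2 whose F₀-structure carries ζ f, vanishing on pairs (u, u), for some non-zero ζ with ζ + ζ^q = 0; for q odd, a subfield group of index 2 whose F₀-structure carries f; for q = p ≡ 3 mod 4 prime, the normaliser of an absolutely irreducible symplectic-type 2-group of exponent 4, order 64 and centre of order 4 inside the similarity group of f — or else H lies in the residual class of the unitary case. -/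
theorem result {F : Type*} [Field F] [Fintype F] (q : ℕ) (hF : Fintype.card F = q ^ 2) (H : Subgroup (Matrix.GeneralLinearGroup (Fin 4) F)) (hH : Cfsg.Geo.IsMaximalIn (Cfsg.GU 4 F q ⊓ Cfsg.Geo.specialLinear (Fin 4) F) H) :
    (∃ W : Submodule F (Fin 4 → F), W ≠ ⊥ ∧ Cfsg.Geo.IsTotallySingularFor (Cfsg.hermForm 4 F q) W ∧ H = Cfsg.Geo.subspaceStabilizer W ⊓ (Cfsg.GU 4 F q ⊓ Cfsg.Geo.specialLinear (Fin 4) F)) ∨
    (∃ W : Submodule F (Fin 4 → F), W ≠ ⊥ ∧ Cfsg.Geo.IsNondegenerateOn (Cfsg.hermForm 4 F q) W ∧ 2 * Module.finrank F W < 4 ∧ H = Cfsg.Geo.subspaceStabilizer W ⊓ (Cfsg.GU 4 F q ⊓ Cfsg.Geo.specialLinear (Fin 4) F)) ∨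
    (q ≠ 3 ∧ ∃ D : Fin 4 → Submodule F (Fin 4 → F), Cfsg.Geo.IsNondegenerateMDecomposition (Cfsg.hermForm 4 F q) 1 D ∧ H = Cfsg.Geo.decompositionStabilizer D ⊓ (Cfsg.GU 4 F q ⊓ Cfsg.Geo.specialLinear (Fin 4) F)) ∨
    (3 ≤ q ∧ ∃ D : Fin 2 → Submodule F (Fin 4 → F), Cfsg.Geo.IsNondegenerateMDecomposition (Cfsg.hermForm 4 F q) 2 D ∧ H = Cfsg.Geo.decompositionStabilizer D ⊓ (Cfsg.GU 4 F q ⊓ Cfsg.Geo.specialLinear (Fin 4) F)) ∨
    (4 ≤ q ∧ ∃ D : Fin 2 → Submodule F (Fin 4 → F), Cfsg.Geo.IsMDecomposition 2 D ∧ (∀ i, Cfsg.Geo.IsTotallySingularFor (Cfsg.hermForm 4 F q) (D i)) ∧ H = Cfsg.Geo.decompositionStabilizer D ⊓ (Cfsg.GU 4 F q ⊓ Cfsg.Geo.specialLinear (Fin 4) F)) ∨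
    (∃ (F₀ : Subfield F) (r : ℕ) (P : Matrix.GeneralLinearGroup (Fin 4) F), r.Prime ∧ Odd r ∧ Fintype.card F = Nat.card F₀ ^ r ∧ Cfsg.Geo.IsFormRationalStructure (Cfsg.hermForm 4 F q) F₀ 1 P ∧ H = Cfsg.Geo.subfieldSubgroup F₀ P ⊓ (Cfsg.GU 4 F q ⊓ Cfsg.Geo.specialLinear (Fin 4) F)) ∨
    (∃ (F₀ : Subfield F) (P : Matrix.GeneralLinearGroup (Fin 4) F) (ζ : F), Fintype.card F = Nat.card F₀ ^ 2 ∧ ζ ≠ 0 ∧ ζ + ζ ^ q = 0 ∧ Cfsg.Geo.IsFormRationalStructure (Cfsg.hermForm 4 F q) F₀ ζ P ∧ (∀ u : Fin 4 → F, (∀ i, u i ∈ F₀) → (Cfsg.hermForm 4 F q) (Matrix.mulVec (P : Matrix (Fin 4) (Fin 4) F) u) (Matrix.mulVec (P : Matrix (Fin 4) (Fin 4) F) u) = 0) ∧ H = Cfsg.Geo.subfieldSubgroup F₀ P ⊓ (Cfsg.GU 4 F q ⊓ Cfsg.Geo.specialLinear (Fin 4) F)) ∨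
    (Odd q ∧ ∃ (F₀ : Subfield F) (P : Matrix.GeneralLinearGroup (Fin 4) F), Fintype.card F = Nat.card F₀ ^ 2 ∧ Cfsg.Geo.IsFormRationalStructure (Cfsg.hermForm 4 F q) F₀ 1 P ∧ H = Cfsg.Geo.subfieldSubgroup F₀ P ⊓ (Cfsg.GU 4 F q ⊓ Cfsg.Geo.specialLinear (Fin 4) F)) ∨
    (∃ (p : ℕ) (R : Subgroup (Matrix.GeneralLinearGroup (Fin 4) F)), p.Prime ∧ q = p ∧ p % 4 = 3 ∧ Cfsg.Geo.IsSymplecticTypeGroup 2 R ∧ Cfsg.Geo.ActsAbsolutelyIrreducibly (Cfsg.Geo.matrixSet R) ∧ R ≤ Cfsg.Geo.similarityGroup (Cfsg.hermForm 4 F q) ∧ Nat.card R = 64 ∧ Nat.card (Subgroup.center R) = 4 ∧ H = Cfsg.Geo.subgroupNormalizer R ⊓ (Cfsg.GU 4 F q ⊓ Cfsg.Geo.specialLinear (Fin 4) F)) ∨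
    Cfsg.Geo.InUnitaryResidualClass H := by
  rcases H25.su_reduce hF (Or.inl (by norm_num)) hH with h | h | ⟨t, m, D, h1, h2, h3, hD, h⟩ | ⟨k, D, h1, h⟩ |
    ⟨r, K, hr, h0, h1, h⟩ | ⟨a, b, e, P, f₁, f₂, h1, h2, h3, h4, h⟩ | h | ⟨h1, h⟩ | h |
    ⟨r, k, p, j, R, h1, hr, hp, hc, hj, h2, hR, h3, h4, h⟩ | ⟨k, t, e, P, f₁, h1, h2, h3, h4, h5, h6, h⟩ | h
  · exact Or.inl h
  · exact Or.inr (Or.inl h)
  · have key : ∀ t < 5, ∀ m < 5, t * m = 4 → 2 ≤ t → (t = 2 ∧ m = 2) ∨ (t = 4 ∧ m = 1) := by decide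
    obtain ⟨rfl, rfl⟩ | ⟨rfl, rfl⟩ := key t (H25.lt_succ_of_mul_eq h1 (by norm_num)) m (H25.lt_succ_of_mul_eq' h1 (by norm_num)) h1 h2
    · repeat first | exact ⟨h3 rfl, D, hD, h⟩ | exact Or.inl ⟨h3 rfl, D, hD, h⟩ | right
    · have hq : q ≠ 3 := by
        rintro rfl
        exact H25.not_max_frame_SU43 hF (H25.isSes_hermForm hF 4) (fun _ => Iff.rfl) hD (h ▸ hH)
      repeat first | exact ⟨hq, D, hD, h⟩ | exact Or.inl ⟨hq, D, hD, h⟩ | right
  · obtain rfl : k = 2 := by omega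
    have hq : 4 ≤ q := by
      by_contra hq
      exact H25.not_max_ts_SU4 hF (by omega) (H25.isSes_hermForm hF 4) (fun _ => Iff.rfl) h.1 h.2.1
        (h.2.2 ▸ hH)
    repeat first | exact ⟨hq, D, h⟩ | exact Or.inl ⟨hq, D, h⟩ | right
  · have : r ≤ 4 := Nat.le_of_dvd (by norm_num) h1
    exfalso; clear h; interval_cases r <;> first | omega | exact absurd hr (by norm_num)
  · have key : ∀ a < 5, ∀ b < 5, a * b = 4 → 2 ≤ a → a < b → False := by decide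
    exact (key a (H25.lt_succ_of_mul_eq h1 (by norm_num)) b (H25.lt_succ_of_mul_eq' h1 (by norm_num)) h1 h2 h3).elim
  · repeat first | exact h | exact Or.inl h | right
  · repeat first | exact h | exact Or.inl h | right
  · repeat first | exact h | exact Or.inl h | right
  · have key : ∀ r < 5, ∀ k < 5, r ^ k = 4 → r = 2 ∨ r = 4 := by decide
    obtain rfl | rfl := key r (H25.lt_succ_of_pow_eq h1 (by norm_num)) k (H25.lt_succ_of_pow_eq' h1 hr.one_lt) h1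
    · obtain ⟨rfl, a1, a2, a3⟩ := h2.two
      repeat first | exact ⟨p, R, hp, by simpa using hj, a1, hR, h3, h4, a2, a3, h⟩ | exact Or.inl ⟨p, R, hp, by simpa using hj, a1, hR, h3, h4, a2, a3, h⟩ | right
    · exact absurd hr (by norm_num)
  · have key : ∀ k < 5, ∀ t < 5, k ^ t = 4 → 3 ≤ k → 2 ≤ t → False := by decide
    exact (key k (H25.lt_succ_of_pow_eq h1 (by norm_num)) t (H25.lt_succ_of_pow_eq' h1 (by omega)) h1 h2 h3).elim
  · repeat first | exact h | exact Or.inl h | right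

end Cfsg.Agent.S5784
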