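import Cfsg.Statements.S5787
import Cfsg.Agent.Base
import Cfsg.Agent.H25.Sp43
import Cfsg.Agent.H25.RowSL3

set_option autoImplicit false
open Cfsg

namespace Cfsg.Agent.S5787

set_option synthInstance.maxSize 4000
set_option linter.unusedTactic false
set_option linter.unreachableTactic false

/-- Every maximal subgroup of Sp_4(q), q odd, is of one of the listed geometric types or lies in the residual class. Let F be a finite field of odd order q, f the standard alternating form on F^4 (coordinates Fin 2 ⊕ Fin 2), and H a maximal subgroup of the isometry group Sp_4(F) (inside GL_4(F)). Then H is the intersection with Sp_4(F) of one of: the stabiliser of a non-zero totally isotropic subspace; the stabiliser of a decomposition into two orthogonal non-degenerate 2-spaces; for q ≥ 5, of a decomposition into two totally isotropic 2-spaces; the normaliser of a degree-2 subfield K of the matrix algebra, self-adjoint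 with f(k v, v) = 0; for q ≥ 5, the normaliser of a degree-2 subfield closed under adjoints but not self-adjoint; a subfield group whose F₀-structure carries a non-zero multiple of f, |F| = |F₀|^r with r prime; for q = p prime, the normaliser of an absolutely irreducible symplectic-type 2-group of exponent 4, order 32, centre of order 2 and minus type inside the similarity group of f — or else H lies in the residual class of the symplectic case. -/
theorem result {F : Type*} [Field F] [Fintype F] (hodd : Odd (Fintype.card F)) (H : Subgroup (Matrix.GeneralLinearGroup (Fin 2 ⊕ Fin 2) F)) (hH : Cfsg.Geo.IsMaximalIn (Cfsg.spGL 2 F) H) :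
    (∃ W : Submodule F (Fin 2 ⊕ Fin 2 → F), W ≠ ⊥ ∧ Cfsg.Geo.IsTotallySingularFor (Cfsg.sympForm 2 F) W ∧ H = Cfsg.Geo.subspaceStabilizer W ⊓ Cfsg.spGL 2 F) ∨
    (∃ D : Fin 2 → Submodule F (Fin 2 ⊕ Fin 2 → F), Cfsg.Geo.IsNondegenerateMDecomposition (Cfsg.sympForm 2 F) 2 D ∧ H = Cfsg.Geo.decompositionStabilizer D ⊓ Cfsg.spGL 2 F) ∨
    (5 ≤ Fintype.card F ∧ ∃ D : Fin 2 → Submodule F (Fin 2 ⊕ Fin 2 → F), Cfsg.Geo.IsMDecomposition 2 D ∧ (∀ i, Cfsg.Geo.IsTotallySingularFor (Cfsg.sympForm 2 F) (D i)) ∧ H = Cfsg.Geo.decompositionStabilizer D ⊓ Cfsg.spGL 2 F) ∨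
    (∃ K : Subalgebra F (Matrix (Fin 2 ⊕ Fin 2) (Fin 2 ⊕ Fin 2) F), Cfsg.Geo.IsFieldSubalgebra 2 K ∧ Cfsg.Geo.IsSelfAdjointFor (Cfsg.sympForm 2 F) K ∧ (∀ k ∈ K, ∀ v : (Fin 2 ⊕ Fin 2 → F), (Cfsg.sympForm 2 F) (Matrix.mulVec k v) v = 0) ∧ H = Cfsg.Geo.subalgebraNormalizer K ⊓ Cfsg.spGL 2 F) ∨
    (5 ≤ Fintype.card F ∧ ∃ K : Subalgebra F (Matrix (Fin 2 ⊕ Fin 2) (Fin 2 ⊕ Fin 2) F), Cfsg.Geo.IsFieldSubalgebra 2 K ∧ Cfsg.Geo.IsAdjointClosedFor (Cfsg.sympForm 2 F) K ∧ ¬ Cfsg.Geo.IsSelfAdjointFor (Cfsg.sympForm 2 F) K ∧ H = Cfsg.Geo.subalgebraNormalizer K ⊓ Cfsg.spGL 2 F) ∨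
    (∃ (F₀ : Subfield F) (r : ℕ) (P : Matrix.GeneralLinearGroup (Fin 2 ⊕ Fin 2) F) (ζ : F), r.Prime ∧ Fintype.card F = Nat.card F₀ ^ r ∧ ζ ≠ 0 ∧ Cfsg.Geo.IsFormRationalStructure (Cfsg.sympForm 2 F) F₀ ζ P ∧ H = Cfsg.Geo.subfieldSubgroup F₀ P ⊓ Cfsg.spGL 2 F) ∨
    (∃ (p : ℕ) (R : Subgroup (Matrix.GeneralLinearGroup (Fin 2 ⊕ Fin 2) F)), p.Prime ∧ Fintype.card F = p ∧ Cfsg.Geo.IsSymplecticTypeGroup 2 R ∧ Cfsg.Geo.ActsAbsolutelyIrreducibly (Cfsg.Geo.matrixSet R) ∧ R ≤ Cfsg.Geo.similarityGroup (Cfsg.sympForm 2 F) ∧ Nat.card R = 32 ∧ Nat.card (Subgroup.center R) = 2 ∧ Cfsg.Geo.IsOfMinusType 2 R ∧ H = Cfsg.Geo.subgroupNormalizer R ⊓ Cfsg.spGL 2 F) ∨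
    Cfsg.Geo.InSymplecticResidualClass H := by
  have h5 : Fintype.card F ≠ 3 → 5 ≤ Fintype.card F := fun h => by
    have := Fintype.one_lt_card (α := F)
    rw [Nat.odd_iff] at hodd
    omega
  rcases H25.sp_reduce (by norm_num) hH with h | ⟨h1, h⟩ | ⟨t, k, D, h1, h2, h3, hD, h⟩ | h |
    ⟨r, K, hr, h1, h⟩ | h | ⟨a, b, e, P, f₁, f₂, h1, h2, h3, h4, h5, h⟩ | h |
    ⟨k, p, R, h1, h⟩ | ⟨k, t, e, P, f₁, h1, h2, h3, h4, h5, h6, h⟩ | h | h
  · exact Or.inl h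
  · omega
  · have key : ∀ t < 3, ∀ k < 3, t * k = 2 → 2 ≤ t → (t = 2 ∧ k = 1) := by decide
    obtain ⟨rfl, rfl⟩ := key t (H25.lt_succ_of_mul_eq h1 (by norm_num)) k (H25.lt_succ_of_mul_eq' h1 (by norm_num)) h1 h2
    · repeat first | exact ⟨D, hD, h⟩ | exact Or.inl ⟨D, hD, h⟩ | right
  · obtain ⟨-, D, hD, ht, h⟩ := h
    by_cases h3 : Fintype.card F = 3
    · have hsf := H19.isSymplecticForm_sympForm 2 F
      have hf := H25.isSes_of_symplectic hsf
      obtain ⟨D', h1, h2⟩ := H25.ts_le_decomp_Sp43 h3 hf hD ht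
      exact Or.inr (Or.inl ⟨D', h1, H25.eq_inf_of_max hH (fun g hg => h2 g (h ▸ hg).1 (h ▸ hg).2)
        ((H25.tvGrp_alt hf hsf.alternating fun g hg => hg).not_le_decomp h1.decomp le_rfl)⟩)
    · exact Or.inr (Or.inr (Or.inl ⟨h5 h3, D, hD, ht, h⟩))
  · have : r ≤ 2 := Nat.le_of_dvd (by norm_num) h1
    obtain rfl : r = 2 := by
      clear h; interval_cases r <;> first | omega | exact absurd hr (by norm_num)
    · repeat first | exact ⟨K, h⟩ | exact Or.inl ⟨K, h⟩ | right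
  · obtain ⟨-, K, h1, h2, h3, h⟩ := h
    by_cases h4 : Fintype.card F = 3
    · exact absurd (h ▸ hH) (H25.not_max_gu_Sp43 h4 h1 h2 h3)
    · exact Or.inr (Or.inr (Or.inr (Or.inr (Or.inl ⟨h5 h4, K, h1, h2, h3, h⟩))))
  · have key : ∀ a < 5, ∀ b < 5, a * b = 4 → a % 2 = 0 → 3 ≤ b → False := by decide
    exact (key a (H25.lt_succ_of_mul_eq h1 (by norm_num)) b (H25.lt_succ_of_mul_eq' h1 (by norm_num)) h1 h2 h3).elim
  · repeat first | exact h | exact Or.inl h | right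
  · have key : ∀ k < 5, 2 ^ k = 4 → k = 2 := by decide
    obtain rfl := key k (H25.lt_succ_of_pow_eq' h1 (by norm_num)) h1
    repeat first | exact ⟨p, R, h.1, h.2.2⟩ | exact Or.inl ⟨p, R, h.1, h.2.2⟩ | right
  · have key : ∀ k < 5, ∀ t < 5, k ^ t = 4 → 2 ≤ k → 3 ≤ t → t % 2 = 1 → False := by decide
    exact (key k (H25.lt_succ_of_pow_eq h1 (by norm_num)) t (H25.lt_succ_of_pow_eq' h1 (by omega)) h1 h2 h3 h4).elim
  · exact absurd hodd h.1
  · repeat first | exact h | exact Or.inl h | right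

end Cfsg.Agent.S5787
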