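import Cfsg.Statements.S5802
import Cfsg.Agent.Base
import Cfsg.Agent.H25.SU62
import Cfsg.Agent.H25.CertFr

set_option autoImplicit false
open Cfsg

namespace Cfsg.Agent.S5802

set_option synthInstance.maxSize 4000
set_option linter.unusedTactic false
set_option linter.unreachableTactic false

/-- Every maximal subgroup of SU_6(q) is of one of the listed geometric types or lies in the residual class. Let F be the field with q² elements, f the standard unitary form Σ u_i v_i^q on F^6, and H a maximal subgroup of SU_6(q) (inside GL_6(F)). Then H is the intersection with SU_6(q) of one of: the stabiliser of a non-zero totally isotropic subspace; the stabiliser of a non-degenerate 1- or 2-space; for q ≥ 3, the stabiliser of a decomposition into six mutually orthogonal non-degenerate 1-spaces; for q ≥ 3, of a decomposition into three mutually orthogonal non-degenerate 2-spaces; of a decomposition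 into two orthogonal non-degenerate 3-spaces; of a decomposition into two totally isotropic 3-spaces; for q ≥ 3, the normaliser of an adjoint-closed degree-3 subfield of the matrix algebra; for q ≥ 3, the stabiliser of a tensor decomposition of f into unitary forms on F^2 and F^3; a subfield group of odd prime index whose F₀-structure carries f; a subfield group of index 2 and symplectic type; for q odd, a subfield group of index 2 and orthogonal type — or else H lies in the residual class of the unitary case. -/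
theorem result {F : Type*} [Field F] [Fintype F] (q : ℕ) (hF : Fintype.card F = q ^ 2) (H : Subgroup (Matrix.GeneralLinearGroup (Fin 6) F)) (hH : Cfsg.Geo.IsMaximalIn (Cfsg.GU 6 F q ⊓ Cfsg.Geo.specialLinear (Fin 6) F) H) :
    (∃ W : Submodule F (Fin 6 → F), W ≠ ⊥ ∧ Cfsg.Geo.IsTotallySingularFor (Cfsg.hermForm 6 F q) W ∧ H = Cfsg.Geo.subspaceStabilizer W ⊓ (Cfsg.GU 6 F q ⊓ Cfsg.Geo.specialLinear (Fin 6) F)) ∨
    (∃ W : Submodule F (Fin 6 → F), W ≠ ⊥ ∧ Cfsg.Geo.IsNondegenerateOn (Cfsg.hermForm 6 F q) W ∧ 2 * Module.finrank F W < 6 ∧ H = Cfsg.Geo.subspaceStabilizer W ⊓ (Cfsg.GU 6 F q ⊓ Cfsg.Geo.specialLinear (Fin 6) F)) ∨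
    (3 ≤ q ∧ ∃ D : Fin 6 → Submodule F (Fin 6 → F), Cfsg.Geo.IsNondegenerateMDecomposition (Cfsg.hermForm 6 F q) 1 D ∧ H = Cfsg.Geo.decompositionStabilizer D ⊓ (Cfsg.GU 6 F q ⊓ Cfsg.Geo.specialLinear (Fin 6) F)) ∨
    (3 ≤ q ∧ ∃ D : Fin 3 → Submodule F (Fin 6 → F), Cfsg.Geo.IsNondegenerateMDecomposition (Cfsg.hermForm 6 F q) 2 D ∧ H = Cfsg.Geo.decompositionStabilizer D ⊓ (Cfsg.GU 6 F q ⊓ Cfsg.Geo.specialLinear (Fin 6) F)) ∨
    (∃ D : Fin 2 → Submodule F (Fin 6 → F), Cfsg.Geo.IsNondegenerateMDecomposition (Cfsg.hermForm 6 F q) 3 D ∧ H = Cfsg.Geo.decompositionStabilizer D ⊓ (Cfsg.GU 6 F q ⊓ Cfsg.Geo.specialLinear (Fin 6) F)) ∨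
    (∃ D : Fin 2 → Submodule F (Fin 6 → F), Cfsg.Geo.IsMDecomposition 3 D ∧ (∀ i, Cfsg.Geo.IsTotallySingularFor (Cfsg.hermForm 6 F q) (D i)) ∧ H = Cfsg.Geo.decompositionStabilizer D ⊓ (Cfsg.GU 6 F q ⊓ Cfsg.Geo.specialLinear (Fin 6) F)) ∨
    (3 ≤ q ∧ ∃ K : Subalgebra F (Matrix (Fin 6) (Fin 6) F), Cfsg.Geo.IsFieldSubalgebra 3 K ∧ Cfsg.Geo.IsAdjointClosedFor (Cfsg.hermForm 6 F q) K ∧ H = Cfsg.Geo.subalgebraNormalizer K ⊓ (Cfsg.GU 6 F q ⊓ Cfsg.Geo.specialLinear (Fin 6) F)) ∨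
    (3 ≤ q ∧ ∃ (e : Fin 6 ≃ Fin 2 × Fin 3) (P : Matrix.GeneralLinearGroup (Fin 6) F) (f₁ : (Fin 2 → F) → (Fin 2 → F) → F) (f₂ : (Fin 3 → F) → (Fin 3 → F) → F), Cfsg.Geo.IsUnitaryFormPow q f₁ ∧ Cfsg.Geo.IsUnitaryFormPow q f₂ ∧ Cfsg.Geo.IsTensorFormStructure (fun x : F => x ^ q) (Cfsg.hermForm 6 F q) f₁ f₂ e P ∧ H = Cfsg.Geo.tensorProductSubgroup 2 3 e P ⊓ (Cfsg.GU 6 F q ⊓ Cfsg.Geo.specialLinear (Fin 6) F)) ∨
    (∃ (F₀ : Subfield F) (r : ℕ) (P : Matrix.GeneralLinearGroup (Fin 6) F), r.Prime ∧ Odd r ∧ Fintype.card F = Nat.card F₀ ^ r ∧ Cfsg.Geo.IsFormRationalStructure (Cfsg.hermForm 6 F q) F₀ 1 P ∧ H = Cfsg.Geo.subfieldSubgroup F₀ P ⊓ (Cfsg.GU 6 F q ⊓ Cfsg.Geo.specialLinear (Fin 6) F)) ∨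
    (∃ (F₀ : Subfield F) (P : Matrix.GeneralLinearGroup (Fin 6) F) (ζ : F), Fintype.card F = Nat.card F₀ ^ 2 ∧ ζ ≠ 0 ∧ ζ + ζ ^ q = 0 ∧ Cfsg.Geo.IsFormRationalStructure (Cfsg.hermForm 6 F q) F₀ ζ P ∧ (∀ u : Fin 6 → F, (∀ i, u i ∈ F₀) → (Cfsg.hermForm 6 F q) (Matrix.mulVec (P : Matrix (Fin 6) (Fin 6) F) u) (Matrix.mulVec (P : Matrix (Fin 6) (Fin 6) F) u) = 0) ∧ H = Cfsg.Geo.subfieldSubgroup F₀ P ⊓ (Cfsg.GU 6 F q ⊓ Cfsg.Geo.specialLinear (Fin 6) F)) ∨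
    (Odd q ∧ ∃ (F₀ : Subfield F) (P : Matrix.GeneralLinearGroup (Fin 6) F), Fintype.card F = Nat.card F₀ ^ 2 ∧ Cfsg.Geo.IsFormRationalStructure (Cfsg.hermForm 6 F q) F₀ 1 P ∧ H = Cfsg.Geo.subfieldSubgroup F₀ P ⊓ (Cfsg.GU 6 F q ⊓ Cfsg.Geo.specialLinear (Fin 6) F)) ∨
    Cfsg.Geo.InUnitaryResidualClass H := by
  rcases H25.su_reduce hF (Or.inl (by norm_num)) hH with h | h | ⟨t, m, D, h1, h2, h3, hD, h⟩ | ⟨k, D, h1, h⟩ |
    ⟨r, K, hr, h0, h1, h⟩ | ⟨a, b, e, P, f₁, f₂, h1, h2, h3, h4, h⟩ | h | ⟨h1, h⟩ | h |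
    ⟨r, k, p, j, R, h1, hr, hp, hc, hj, h2, hR, h3, h4, h⟩ | ⟨k, t, e, P, f₁, h1, h2, h3, h4, h5, h6, h⟩ | h
  · exact Or.inl h
  · exact Or.inr (Or.inl h)
  · have key : ∀ t < 7, ∀ m < 7, t * m = 6 → 2 ≤ t → (t = 2 ∧ m = 3) ∨ (t = 3 ∧ m = 2) ∨ (t = 6 ∧ m = 1) := by decide
    obtain ⟨rfl, rfl⟩ | ⟨rfl, rfl⟩ | ⟨rfl, rfl⟩ := key t (H25.lt_succ_of_mul_eq h1 (by norm_num)) m (H25.lt_succ_of_mul_eq' h1 (by norm_num)) h1 h2
    · repeat first | exact ⟨D, hD, h⟩ | exact Or.inl ⟨D, hD, h⟩ | right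
    · repeat first | exact ⟨h3 rfl, D, hD, h⟩ | exact Or.inl ⟨h3 rfl, D, hD, h⟩ | right
    · have hq : 3 ≤ q := by
        by_contra hq
        obtain rfl : q = 2 := by have := H59.two_le_q hF; omega
        exact H25.not_max_frame_SU62 hF (H25.isSes_hermForm hF 6) (fun _ => Iff.rfl) hD (h ▸ hH)
      repeat first | exact ⟨hq, D, hD, h⟩ | exact Or.inl ⟨hq, D, hD, h⟩ | right
  · obtain rfl : k = 3 := by omega
    repeat first | exact ⟨D, h⟩ | exact Or.inl ⟨D, h⟩ | right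
  · have : r ≤ 6 := Nat.le_of_dvd (by norm_num) h1
    obtain rfl : r = 3 := by
      clear h; interval_cases r <;> first | omega | exact absurd hr (by norm_num)
    · have hq : 3 ≤ q := by
        by_contra hq
        obtain rfl : q = 2 := by have := H59.two_le_q hF; omega
        exact H25.not_max_field_SU62 hF (by simp) (H25.isSes_hermForm hF 6) (fun _ => Iff.rfl) h.1 h.2.1
          (h.2.2 ▸ hH)
      repeat first | exact ⟨hq, K, h⟩ | exact Or.inl ⟨hq, K, h⟩ | right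
  · have key : ∀ a < 7, ∀ b < 7, a * b = 6 → 2 ≤ a → a < b → (a = 2 ∧ b = 3) := by decide
    obtain ⟨rfl, rfl⟩ := key a (H25.lt_succ_of_mul_eq h1 (by norm_num)) b (H25.lt_succ_of_mul_eq' h1 (by norm_num)) h1 h2 h3
    · repeat first | exact ⟨h4 rfl, e, P, f₁, f₂, h⟩ | exact Or.inl ⟨h4 rfl, e, P, f₁, f₂, h⟩ | right
  · repeat first | exact h | exact Or.inl h | right
  · repeat first | exact h | exact Or.inl h | right
  · repeat first | exact h | exact Or.inl h | right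
  · have key : ∀ r < 7, ∀ k < 7, r ^ k = 6 → r = 6 := by decide
    obtain rfl := key r (H25.lt_succ_of_pow_eq h1 (by norm_num)) k (H25.lt_succ_of_pow_eq' h1 hr.one_lt) h1
    · exact absurd hr (by norm_num)
  · have key : ∀ k < 7, ∀ t < 7, k ^ t = 6 → 3 ≤ k → 2 ≤ t → False := by decide
    exact (key k (H25.lt_succ_of_pow_eq h1 (by norm_num)) t (H25.lt_succ_of_pow_eq' h1 (by omega)) h1 h2 h3).elim
  · repeat first | exact h | exact Or.inl h | right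

end Cfsg.Agent.S5802
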