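import Cfsg.Statements.S5811
import Cfsg.Agent.Base
import Cfsg.Agent.H25.RowSU

set_option autoImplicit false
open Cfsg

namespace Cfsg.Agent.S5811

set_option synthInstance.maxSize 4000
set_option linter.unusedTactic false
set_option linter.unreachableTactic false

/-- Every maximal subgroup of SU_7(q) is of one of the listed geometric types or lies in the residual class. Let F be the field with q² elements (characteristic p), f the standard unitary form Σ u_i v_i^q on F^7, and H a maximal subgroup of SU_7(q) (inside GL_7(F)). Then H is the intersection with SU_7(q) of one of: the stabiliser of a non-zero totally isotropic subspace; the stabiliser of a non-degenerate 1-, 2- or 3-space; the stabiliser of a decomposition into seven mutually orthogonal non-degenerate 1-spaces; the normaliser of an adjoint-closed degree-7 subfield of the matrix algebra; a subfield group of odd prime index whose F₀-structure carries f;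 for q odd, a subfield group of index 2 whose F₀-structure carries f; for q = p prime with p ≡ 6 mod 7, or q = p³ with p ≡ 3 or 5 mod 7, the normaliser of an absolutely irreducible 7-group R of exponent 7, order 343 and centre of order 7, all of whose characteristic abelian subgroups are cyclic, contained in the similarity group of f — or else H lies in the residual class of the unitary case (modulo scalars H is almost simple, with absolutely irreducible perfect socle preimage realisable over no proper subfield and fixing no non-degenerate quadratic or symplectic form). -/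
theorem result {F : Type*} [Field F] [Fintype F] (q : ℕ) (hF : Fintype.card F = q ^ 2) (H : Subgroup (Matrix.GeneralLinearGroup (Fin 7) F)) (hH : Cfsg.Geo.IsMaximalIn (Cfsg.GU 7 F q ⊓ Cfsg.Geo.specialLinear (Fin 7) F) H) :
    (∃ W : Submodule F (Fin 7 → F), W ≠ ⊥ ∧ Cfsg.Geo.IsTotallySingularFor (Cfsg.hermForm 7 F q) W ∧ H = Cfsg.Geo.subspaceStabilizer W ⊓ (Cfsg.GU 7 F q ⊓ Cfsg.Geo.specialLinear (Fin 7) F)) ∨
    (∃ W : Submodule F (Fin 7 → F), W ≠ ⊥ ∧ Cfsg.Geo.IsNondegenerateOn (Cfsg.hermForm 7 F q) W ∧ 2 * Module.finrank F W < 7 ∧ H = Cfsg.Geo.subspaceStabilizer W ⊓ (Cfsg.GU 7 F q ⊓ Cfsg.Geo.specialLinear (Fin 7) F)) ∨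
    (∃ D : Fin 7 → Submodule F (Fin 7 → F), Cfsg.Geo.IsNondegenerateMDecomposition (Cfsg.hermForm 7 F q) 1 D ∧ H = Cfsg.Geo.decompositionStabilizer D ⊓ (Cfsg.GU 7 F q ⊓ Cfsg.Geo.specialLinear (Fin 7) F)) ∨
    (∃ K : Subalgebra F (Matrix (Fin 7) (Fin 7) F), Cfsg.Geo.IsFieldSubalgebra 7 K ∧ Cfsg.Geo.IsAdjointClosedFor (Cfsg.hermForm 7 F q) K ∧ H = Cfsg.Geo.subalgebraNormalizer K ⊓ (Cfsg.GU 7 F q ⊓ Cfsg.Geo.specialLinear (Fin 7) F)) ∨
    (∃ (F₀ : Subfield F) (r : ℕ) (P : Matrix.GeneralLinearGroup (Fin 7) F), r.Prime ∧ Odd r ∧ Fintype.card F = Nat.card F₀ ^ r ∧ Cfsg.Geo.IsFormRationalStructure (Cfsg.hermForm 7 F q) F₀ 1 P ∧ H = Cfsg.Geo.subfieldSubgroup F₀ P ⊓ (Cfsg.GU 7 F q ⊓ Cfsg.Geo.specialLinear (Fin 7) F)) ∨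
    (Odd q ∧ ∃ (F₀ : Subfield F) (P : Matrix.GeneralLinearGroup (Fin 7) F), Fintype.card F = Nat.card F₀ ^ 2 ∧ Cfsg.Geo.IsFormRationalStructure (Cfsg.hermForm 7 F q) F₀ 1 P ∧ H = Cfsg.Geo.subfieldSubgroup F₀ P ⊓ (Cfsg.GU 7 F q ⊓ Cfsg.Geo.specialLinear (Fin 7) F)) ∨
    (∃ (p : ℕ) (R : Subgroup (Matrix.GeneralLinearGroup (Fin 7) F)), p.Prime ∧ CharP F p ∧ ((q = p ∧ p % 7 = 6) ∨ (q = p ^ 3 ∧ (p % 7 = 3 ∨ p % 7 = 5))) ∧ Cfsg.Geo.IsSymplecticTypeGroup 7 R ∧ Cfsg.Geo.ActsAbsolutelyIrreducibly (Cfsg.Geo.matrixSet R) ∧ R ≤ Cfsg.Geo.similarityGroup (Cfsg.hermForm 7 F q) ∧ Nat.card R = 343 ∧ Nat.card (Subgroup.center R) = 7 ∧ H = Cfsg.Geo.subgroupNormalizer R ⊓ (Cfsg.GU 7 F q ⊓ Cfsg.Geo.specialLinear (Fin 7) F)) ∨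
    Cfsg.Geo.InUnitaryResidualClass H := by
  rcases H25.su_reduce hF (Or.inl (by norm_num)) hH with h | h | ⟨t, m, D, h1, h2, h3, hD, h⟩ | ⟨k, D, h1, h⟩ |
    ⟨r, K, hr, h0, h1, h⟩ | ⟨a, b, e, P, f₁, f₂, h1, h2, h3, h4, h⟩ | h | ⟨h1, h⟩ | h |
    ⟨r, k, p, j, R, h1, hr, hp, hc, hj, h2, hR, h3, h4, h⟩ | ⟨k, t, e, P, f₁, h1, h2, h3, h4, h5, h6, h⟩ | h
  · exact Or.inl h
  · exact Or.inr (Or.inl h)
  · have key : ∀ t < 8, ∀ m < 8, t * m = 7 → 2 ≤ t → (t = 7 ∧ m = 1) := by decide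
    obtain ⟨rfl, rfl⟩ := key t (H25.lt_succ_of_mul_eq h1 (by norm_num)) m (H25.lt_succ_of_mul_eq' h1 (by norm_num)) h1 h2
    · repeat first | exact ⟨D, hD, h⟩ | exact Or.inl ⟨D, hD, h⟩ | right
  · omega
  · have : r ≤ 7 := Nat.le_of_dvd (by norm_num) h1
    obtain rfl : r = 7 := by
      clear h; interval_cases r <;> first | omega | exact absurd hr (by norm_num)
    · repeat first | exact ⟨K, h⟩ | exact Or.inl ⟨K, h⟩ | right
  · have key : ∀ a < 8, ∀ b < 8, a * b = 7 → 2 ≤ a → a < b → False := by decide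
    exact (key a (H25.lt_succ_of_mul_eq h1 (by norm_num)) b (H25.lt_succ_of_mul_eq' h1 (by norm_num)) h1 h2 h3).elim
  · repeat first | exact h | exact Or.inl h | right
  · exact absurd h1 (by decide)
  · repeat first | exact h | exact Or.inl h | right
  · have key : ∀ r < 8, ∀ k < 8, r ^ k = 7 → r = 7 := by decide
    obtain rfl := key r (H25.lt_succ_of_pow_eq h1 (by norm_num)) k (H25.lt_succ_of_pow_eq' h1 hr.one_lt) h1
    · have key2 : ∀ j < 7, ∀ a < 7, 2 * j < 7 → 0 < j → a ^ (2 * j) % 7 = 1 → (∀ d < 2 * j, 0 < d → a ^ d % 7 ≠ 1) → (j = 1 ∧ (a = 6)) ∨ (j = 3 ∧ (a = 3 ∨ a = 5)) := by decide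
      obtain ⟨a1, a2, a3, a4, a5, a6, a7⟩ := h2.odd (by norm_num)
      obtain ⟨rfl, a8⟩ | ⟨rfl, a8⟩ := key2 j (by omega) _ a2 a1 a5 a3 a4
      · repeat first | exact ⟨p, R, hp, hc, Or.inl ⟨by simpa using hj, a8⟩, hR, h3, h4, a6, a7, h⟩ | exact Or.inl ⟨p, R, hp, hc, Or.inl ⟨by simpa using hj, a8⟩, hR, h3, h4, a6, a7, h⟩ | right
      · repeat first | exact ⟨p, R, hp, hc, Or.inr ⟨hj, a8⟩, hR, h3, h4, a6, a7, h⟩ | exact Or.inl ⟨p, R, hp, hc, Or.inr ⟨hj, a8⟩, hR, h3, h4, a6, a7, h⟩ | right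
  · have key : ∀ k < 8, ∀ t < 8, k ^ t = 7 → 3 ≤ k → 2 ≤ t → False := by decide
    exact (key k (H25.lt_succ_of_pow_eq h1 (by norm_num)) t (H25.lt_succ_of_pow_eq' h1 (by omega)) h1 h2 h3).elim
  · repeat first | exact h | exact Or.inl h | right

end Cfsg.Agent.S5811
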