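import Cfsg.Statements.S5813
import Cfsg.Agent.H91.FrMax
import Cfsg.Agent.H91.ND4
import Cfsg.Agent.H60.SubfMat

set_option autoImplicit false
open Cfsg

namespace Cfsg.Agent.S5813

/-- Maximal subgroups of Ω_7(q) of geometric type, q odd. Let F be a finite field of odd order q, Q the standard quadratic form x₀² + Σ x_i y_i on F^7 (coordinates Unit ⊕ (Fin 3 ⊕ Fin 3)), and Ω = Ω_7(q) the commutator subgroup of its isometry group, inside GL_7(F). Each of the following, intersected with Ω, is a maximal subgroup of Ω: (1) the stabiliser of any non-zero subspace on which Q vanishes identically (totally singular 1-, 2- and 3-spaces); (2) the stabiliser of any non-zero even-dimensional subspace W on which the polar form of Q is non-degenerate (equivalently of its odd-dimensional orthogonal complement), except when q = 3 and W is a 2-space containing a non-zero singular vector (a plus-type plane); (3) for q = p prime, the stabiliser of any decomposition of F^7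 into seven pairwise orthogonal, pairwise Q-isometric non-degenerate 1-spaces; (4) every subfield group for a subfield F₀ with |F| = |F₀|^r, r prime, whose F₀-structure carries Q. -/
theorem result {F : Type*} [Field F] [Fintype F] (hodd : Odd (Fintype.card F)) :
    (∀ W : Submodule F (Unit ⊕ (Fin 3 ⊕ Fin 3) → F), W ≠ ⊥ → Cfsg.Geo.IsTotallySingularQuad (Cfsg.quadFormOdd 3 F) W → Cfsg.Geo.IsMaximalIn (Cfsg.Geo.omegaGL (Cfsg.quadFormOdd 3 F)) (Cfsg.Geo.subspaceStabilizer W ⊓ Cfsg.Geo.omegaGL (Cfsg.quadFormOdd 3 F))) ∧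
    (∀ W : Submodule F (Unit ⊕ (Fin 3 ⊕ Fin 3) → F), W ≠ ⊥ → Even (Module.finrank F W) → Cfsg.Geo.IsNondegenerateOn (QuadraticMap.polar (Cfsg.quadFormOdd 3 F)) W → ¬ (Fintype.card F = 3 ∧ Module.finrank F W = 2 ∧ Cfsg.Geo.IsPlusTypeOn (Cfsg.quadFormOdd 3 F) W) → Cfsg.Geo.IsMaximalIn (Cfsg.Geo.omegaGL (Cfsg.quadFormOdd 3 F)) (Cfsg.Geo.subspaceStabilizer W ⊓ Cfsg.Geo.omegaGL (Cfsg.quadFormOdd 3 F))) ∧
    ((Fintype.card F).Prime → ∀ D : Fin 7 → Submodule F (Unit ⊕ (Fin 3 ⊕ Fin 3) → F), Cfsg.Geo.IsOrthogonalMDecomposition (Cfsg.quadFormOdd 3 F) 1 D → Cfsg.Geo.IsMaximalIn (Cfsg.Geo.omegaGL (Cfsg.quadFormOdd 3 F)) (Cfsg.Geo.decompositionStabilizer D ⊓ Cfsg.Geo.omegaGL (Cfsg.quadFormOdd 3 F))) ∧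
    (∀ (F₀ : Subfield F) (r : ℕ) (P : Matrix.GeneralLinearGroup (Unit ⊕ (Fin 3 ⊕ Fin 3)) F), r.Prime → Fintype.card F = Nat.card F₀ ^ r → Cfsg.Geo.IsQuadFormRationalStructure (Cfsg.quadFormOdd 3 F) F₀ P → Cfsg.Geo.IsMaximalIn (Cfsg.Geo.omegaGL (Cfsg.quadFormOdd 3 F)) (Cfsg.Geo.subfieldSubgroup F₀ P ⊓ Cfsg.Geo.omegaGL (Cfsg.quadFormOdd 3 F))) := by
  obtain ⟨Q, hQe, hQ⟩ := H60.exists_qOdd hodd 3
  rw [← hQe]
  have hn := H60.finrank_odd (F := F) 3
  refine ⟨fun W hW0 hW => ?_, fun W hW0 hev hW hex => ?_, fun hp D hD => ?_, fun F₀ r P hr hc hP => ?_⟩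
  · apply H60.isMaximalIn_GL
    rw [H60.comap_subspaceStabilizer]
    exact H60.parabolic_maximal hQ (by omega) hW0 hW (Or.inl (by omega))
  · apply H60.isMaximalIn_GL
    rw [H60.comap_subspaceStabilizer]
    have hd := H56.finrank_perp hQ W
    obtain ⟨k, hk⟩ := hev
    by_cases h4 : Module.finrank F W = 4
    · exact H91.nondeg_four_seven hQ (H58.two_ne_zero_of_odd_card hodd) hn (H60.nondeg_of_on hW) h4
    refine H91.nondeg_maximal_ne hQ (H60.nondeg_of_on hW) hW0 ?_ ?_ ?_ (by omega) (by omega)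
    · rintro rfl
      rw [finrank_top] at hk
      omega
    · refine fun h => hex ⟨?_, h.2.1, h.isPlusTypeOn⟩
      have h1 : Fintype.card F ≤ 3 := by simpa using h.1
      have h2 : 1 < Fintype.card F := Fintype.one_lt_card
      obtain ⟨l, hl⟩ := hodd
      omega
    · intro h
      have := h.2.1
      omega
  · exact H91.frame_maximal_GL hQ hp hodd (by simp) (by simp) hD
  · exact H60.subfield_maximal_GL hQ (by simp) hr hc one_ne_zero (by simpa using hP)

end Cfsg.Agent.S5813
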