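import Cfsg.Statements.S5826
import Cfsg.Agent.H19.ORowRed

set_option autoImplicit false
open Cfsg

namespace Cfsg.Agent.S5826

/-- Every maximal subgroup of Ω_8^-(q) is of one of the listed geometric types or lies in the residual class. Let F be a finite field with q elements, Q a non-degenerate quadratic form on F^8 of minus type (no totally singular 4-space), Ω the commutator subgroup of its isometry group, and H a maximal subgroup of Ω (inside GL_8(F)). Then H is the intersection with Ω of one of: the stabiliser of a non-zero totally singular subspace; for q odd, the stabiliser of a non-degenerate subspace of odd dimension; the stabiliser of a non-degenerate 2-space of minus type; for q ≥ 4, the stabiliser of a non-degenerate 2-space of plus type; the stabiliser of a non-degenerate 4-space; for q even, the stabiliser of the span of a non-singular vector; the normaliser of a degree-2 subfield of the matrix algebra;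 a subfield group of odd prime index whose F₀-structure carries a non-zero multiple of Q — or else H lies in the residual class of the orthogonal case (modulo scalars H is almost simple, with absolutely irreducible perfect socle preimage realisable over no proper subfield and fixing no non-degenerate unitary form). -/
theorem result {F : Type*} [Field F] [Fintype F] (Q : (Fin 8 → F) → F) (hQ : Cfsg.Geo.IsNondegenerateQuadraticForm Q) (hminus : ¬ Cfsg.Geo.IsPlusTypeOn Q ⊤) (H : Subgroup (Matrix.GeneralLinearGroup (Fin 8) F)) (hH : Cfsg.Geo.IsMaximalIn (Cfsg.Geo.omegaGL Q) H) :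
    (∃ W : Submodule F (Fin 8 → F), W ≠ ⊥ ∧ Cfsg.Geo.IsTotallySingularQuad Q W ∧ H = Cfsg.Geo.subspaceStabilizer W ⊓ Cfsg.Geo.omegaGL Q) ∨
    (Odd (Fintype.card F) ∧ ∃ W : Submodule F (Fin 8 → F), W ≠ ⊥ ∧ W ≠ ⊤ ∧ Odd (Module.finrank F W) ∧ Cfsg.Geo.IsNondegenerateOn (QuadraticMap.polar Q) W ∧ H = Cfsg.Geo.subspaceStabilizer W ⊓ Cfsg.Geo.omegaGL Q) ∨
    (∃ W : Submodule F (Fin 8 → F), Module.finrank F W = 2 ∧ Cfsg.Geo.IsNondegenerateOn (QuadraticMap.polar Q) W ∧ ¬ Cfsg.Geo.IsPlusTypeOn Q W ∧ H = Cfsg.Geo.subspaceStabilizer W ⊓ Cfsg.Geo.omegaGL Q) ∨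
    (4 ≤ Fintype.card F ∧ ∃ W : Submodule F (Fin 8 → F), Module.finrank F W = 2 ∧ Cfsg.Geo.IsNondegenerateOn (QuadraticMap.polar Q) W ∧ Cfsg.Geo.IsPlusTypeOn Q W ∧ H = Cfsg.Geo.subspaceStabilizer W ⊓ Cfsg.Geo.omegaGL Q) ∨
    (∃ W : Submodule F (Fin 8 → F), Module.finrank F W = 4 ∧ Cfsg.Geo.IsNondegenerateOn (QuadraticMap.polar Q) W ∧ H = Cfsg.Geo.subspaceStabilizer W ⊓ Cfsg.Geo.omegaGL Q) ∨
    (¬ Odd (Fintype.card F) ∧ ∃ v : (Fin 8 → F), Q v ≠ 0 ∧ H = Cfsg.Geo.subspaceStabilizer (Submodule.span F {v}) ⊓ Cfsg.Geo.omegaGL Q) ∨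
    (∃ K : Subalgebra F (Matrix (Fin 8) (Fin 8) F), Cfsg.Geo.IsFieldSubalgebra 2 K ∧ H = Cfsg.Geo.subalgebraNormalizer K ⊓ Cfsg.Geo.omegaGL Q) ∨
    (∃ (F₀ : Subfield F) (r : ℕ) (P : Matrix.GeneralLinearGroup (Fin 8) F) (ζ : F), r.Prime ∧ Odd r ∧ Fintype.card F = Nat.card F₀ ^ r ∧ ζ ≠ 0 ∧ Cfsg.Geo.IsQuadFormRationalStructure (fun v : Fin 8 → F => ζ * Q v) F₀ P ∧ H = Cfsg.Geo.subfieldSubgroup F₀ P ⊓ Cfsg.Geo.omegaGL Q) ∨
    Cfsg.Geo.InOrthogonalResidualClass H := by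
  obtain ⟨Q, rfl, hQ'⟩ := H60.exists_quadraticForm hQ
  have hc : Fintype.card (Fin 8) = 8 := Fintype.card_fin _
  have he : Even (Fintype.card (Fin 8)) := by rw [hc]; decide
  rcases H19.orth_reduce hQ' (by omega) (fun _ => hminus) hH (by omega) with ⟨M, hM, hH⟩ | h
  swap
  · exact .inr (.inr (.inr (.inr (.inr (.inr (.inr (.inr h)))))))
  rcases hM with ⟨W, a1, a2, a3, rfl⟩ | ⟨W, a1, a2, a3, a4, a5, -, a6, rfl⟩ | ⟨a1, v, a2, rfl⟩ |
    ⟨t, k, D, a1, a2, a3, a4, a5, a6, a7, a8, b1, b2, b3, rfl⟩ |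
    ⟨k, D, a1, a2, a3, a4, a5, a6, rfl⟩ | ⟨k, D, a1, a2, a3, a4, a5, rfl⟩ |
    ⟨r, K, a1, a2, a3, a4, a5, a6, a7, rfl⟩ | ⟨K, -, a1, a2, a3, a4, a5, rfl⟩ |
    ⟨a1, a2, a3, e, P, f₁, f₂, a4, a5, a6, a7, rfl⟩ | ⟨a1, a2, e, P, f₁, f₂, a3, a4, a5, a6, rfl⟩ |
    ⟨F₀, r, P, ζ, a1, a2, a3, a4, a5, rfl⟩ | ⟨-, -, e, -⟩
  · exact .inl ⟨W, a1, a2, hH⟩
  · have h1 := a6 he
    have h2 := (Submodule.one_le_finrank_iff (R := F)).2 a1
    rcases Nat.even_or_odd' (Module.finrank F W) with ⟨m, hm | hm⟩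
    swap
    · exact .inr (.inl ⟨a4 ⟨m, hm⟩, W, a1, a2, ⟨m, hm⟩, a3, hH⟩)
    by_cases h3 : Module.finrank F W = 2
    · by_cases h4 : Cfsg.Geo.IsPlusTypeOn Q W
      · exact .inr (.inr (.inr (.inl ⟨by_contra fun h => a5 ⟨by omega, h3, h4⟩, W, h3, a3, h4, hH⟩)))
      · exact .inr (.inr (.inl ⟨W, h3, a3, h4, hH⟩))
    · exact .inr (.inr (.inr (.inr (.inl ⟨W, by omega, a3, hH⟩))))
  · exact .inr (.inr (.inr (.inr (.inr (.inl ⟨a1, v, a2, hH⟩)))))
  · have h1 : k < 7 := by nlinarith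
    obtain ⟨rfl, rfl⟩ | ⟨rfl, rfl⟩ | ⟨rfl, rfl⟩ :
        k = 1 ∧ t = 8 ∨ k = 2 ∧ t = 4 ∨ k = 4 ∧ t = 2 := by
      interval_cases k <;> omega
    · exact (hminus ((b3 odd_one 4 rfl).2 fun h => absurd h.2 (by decide))).elim
    · exact (hminus (b1 even_two (by decide))).elim
    · exact (hminus (b1 (by decide) even_two)).elim
  · obtain ⟨m, hm⟩ := a1
    omega
  · exact (hminus a3).elim
  · have h1 := Nat.le_of_dvd (by omega) a2
    rw [hc] at h1 a2 a3 a4 a5
    obtain rfl : r = 2 := by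
      interval_cases r <;> simp_all (decide := true)
    · exact .inr (.inr (.inr (.inr (.inr (.inr (.inl ⟨K, a6, hH⟩))))))
  · exact .inr (.inr (.inr (.inr (.inr (.inr (.inl ⟨K, a2, hH⟩))))))
  · have := Fintype.card_congr e
    simp at this
  · have := Fintype.card_congr e
    simp at this
  · exact .inr (.inr (.inr (.inr (.inr (.inr (.inr (.inl ⟨F₀, r, P, ζ, a1, by_contra fun h => hminus (a2 h he), a3, a4, a5, hH⟩)))))))
  · have := Fintype.card_congr e
    simp at this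

end Cfsg.Agent.S5826
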