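import Cfsg.Statements.S5835
import Cfsg.Agent.H19.ORowRed

set_option autoImplicit false
open Cfsg

namespace Cfsg.Agent.S5835

/-- Every maximal subgroup of Ω_9(q), q odd, is of one of the listed geometric types or lies in the residual class. Let F be a finite field of odd order q, Q the standard quadratic form x₀² + Σ x_i y_i on F^9 (coordinates Unit ⊕ (Fin 4 ⊕ Fin 4)), Ω the commutator subgroup of its isometry group, and H a maximal subgroup of Ω (inside GL_9(F)). Then H is the intersection with Ω of one of: the stabiliser of a non-zero totally singular subspace; the stabiliser of a non-zero non-degenerate subspace of even dimension (not a plus-type plane when q = 3); for q prime, the stabiliser of a decomposition into nine pairwise orthogonal, pairwise isometric non-degenerate 1-spaces; for q ≥ 5, the stabiliser of a decomposition into three pairwise orthogonal, pairwise isometric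 non-degenerate 3-spaces; the normaliser of a degree-3 subfield of the matrix algebra, self-adjoint for the polar form; a subfield group (|F| = |F₀|^r, r prime) whose F₀-structure carries Q; for q ≥ 5, the stabiliser of a tensor decomposition of the polar form as a tensor square of a symmetric form on F^3 — or else H lies in the residual class of the orthogonal case (modulo scalars H is almost simple, with absolutely irreducible perfect socle preimage realisable over no proper subfield and fixing no non-degenerate unitary form). -/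
theorem result {F : Type*} [Field F] [Fintype F] (hodd : Odd (Fintype.card F)) (H : Subgroup (Matrix.GeneralLinearGroup (Unit ⊕ (Fin 4 ⊕ Fin 4)) F)) (hH : Cfsg.Geo.IsMaximalIn (Cfsg.Geo.omegaGL (Cfsg.quadFormOdd 4 F)) H) :
    (∃ W : Submodule F (Unit ⊕ (Fin 4 ⊕ Fin 4) → F), W ≠ ⊥ ∧ Cfsg.Geo.IsTotallySingularQuad (Cfsg.quadFormOdd 4 F) W ∧ H = Cfsg.Geo.subspaceStabilizer W ⊓ Cfsg.Geo.omegaGL (Cfsg.quadFormOdd 4 F)) ∨
    (∃ W : Submodule F (Unit ⊕ (Fin 4 ⊕ Fin 4) → F), W ≠ ⊥ ∧ Even (Module.finrank F W) ∧ Cfsg.Geo.IsNondegenerateOn (QuadraticMap.polar (Cfsg.quadFormOdd 4 F)) W ∧ ¬ (Fintype.card F = 3 ∧ Module.finrank F W = 2 ∧ Cfsg.Geo.IsPlusTypeOn (Cfsg.quadFormOdd 4 F) W) ∧ H = Cfsg.Geo.subspaceStabilizer W ⊓ Cfsg.Geo.omegaGL (Cfsg.quadFormOdd 4 F)) ∨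
    ((Fintype.card F).Prime ∧ ∃ D : Fin 9 → Submodule F (Unit ⊕ (Fin 4 ⊕ Fin 4) → F), Cfsg.Geo.IsOrthogonalMDecomposition (Cfsg.quadFormOdd 4 F) 1 D ∧ H = Cfsg.Geo.decompositionStabilizer D ⊓ Cfsg.Geo.omegaGL (Cfsg.quadFormOdd 4 F)) ∨
    (5 ≤ Fintype.card F ∧ ∃ D : Fin 3 → Submodule F (Unit ⊕ (Fin 4 ⊕ Fin 4) → F), Cfsg.Geo.IsOrthogonalMDecomposition (Cfsg.quadFormOdd 4 F) 3 D ∧ H = Cfsg.Geo.decompositionStabilizer D ⊓ Cfsg.Geo.omegaGL (Cfsg.quadFormOdd 4 F)) ∨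
    (∃ K : Subalgebra F (Matrix (Unit ⊕ (Fin 4 ⊕ Fin 4)) (Unit ⊕ (Fin 4 ⊕ Fin 4)) F), Cfsg.Geo.IsFieldSubalgebra 3 K ∧ Cfsg.Geo.IsSelfAdjointFor (QuadraticMap.polar (Cfsg.quadFormOdd 4 F)) K ∧ H = Cfsg.Geo.subalgebraNormalizer K ⊓ Cfsg.Geo.omegaGL (Cfsg.quadFormOdd 4 F)) ∨
    (∃ (F₀ : Subfield F) (r : ℕ) (P : Matrix.GeneralLinearGroup (Unit ⊕ (Fin 4 ⊕ Fin 4)) F), r.Prime ∧ Fintype.card F = Nat.card F₀ ^ r ∧ Cfsg.Geo.IsQuadFormRationalStructure (Cfsg.quadFormOdd 4 F) F₀ P ∧ H = Cfsg.Geo.subfieldSubgroup F₀ P ⊓ Cfsg.Geo.omegaGL (Cfsg.quadFormOdd 4 F)) ∨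
    (5 ≤ Fintype.card F ∧ ∃ (e : (Unit ⊕ (Fin 4 ⊕ Fin 4)) ≃ (Fin 2 → Fin 3)) (P : Matrix.GeneralLinearGroup (Unit ⊕ (Fin 4 ⊕ Fin 4)) F) (f₁ : (Fin 3 → F) → (Fin 3 → F) → F), Cfsg.Geo.IsSymmetricForm f₁ ∧ Cfsg.Geo.IsTensorPowerFormStructure id (QuadraticMap.polar (Cfsg.quadFormOdd 4 F)) f₁ e P ∧ H = Cfsg.Geo.tensorWreathSubgroup 3 2 e P ⊓ Cfsg.Geo.omegaGL (Cfsg.quadFormOdd 4 F)) ∨
    Cfsg.Geo.InOrthogonalResidualClass H := by
  obtain ⟨Q, hq, hQ⟩ := H60.exists_qOdd hodd 4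
  have h0 : ∀ (F₀ : Subfield F) (u : Unit ⊕ (Fin 4 ⊕ Fin 4) → F), (∀ i, u i ∈ F₀) → Q u ∈ F₀ :=
    fun F₀ u hu => hq ▸ add_mem (pow_mem (hu _) 2) (sum_mem fun i _ => mul_mem (hu _) (hu _))
  rw [← hq] at hH ⊢
  have hc : Fintype.card (Unit ⊕ (Fin 4 ⊕ Fin 4)) = 9 := by simp
  have ho : Odd (Fintype.card (Unit ⊕ (Fin 4 ⊕ Fin 4))) := by rw [hc]; decide
  rcases H19.orth_reduce hQ (by omega) (by omega) hH (by omega) with ⟨M, hM, hH⟩ | h
  swap
  · exact .inr (.inr (.inr (.inr (.inr (.inr (.inr h))))))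
  rcases hM with ⟨W, a1, a2, -, rfl⟩ | ⟨W, a1, -, a2, -, a3, a4, -, rfl⟩ | ⟨a1, -⟩ |
    ⟨t, k, D, a1, a2, a3, a4, -, -, a5, -, -, -, -, rfl⟩ | ⟨k, -, -, -, a1, -⟩ | ⟨k, -, -, a1, -⟩ |
    ⟨r, K, a1, a2, a3, -, -, a4, a5, rfl⟩ | ⟨-, a1, -⟩ | ⟨-, -, -, e, -⟩ | ⟨-, -, e, -⟩ |
    ⟨F₀, r, P, ζ, a1, -, a2, a3, a4, rfl⟩ | ⟨-, a1, e, P, f₁, a2, a3, rfl⟩
  · exact .inl ⟨W, a1, a2, hH⟩
  · exact .inr (.inl ⟨W, a1, a4 ho, a2, fun h => a3 ⟨h.1.le, h.2⟩, hH⟩)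
  · exact (a1 hodd).elim
  · have : k < 6 := by nlinarith
    obtain rfl | rfl : k = 1 ∨ k = 3 := by interval_cases k <;> omega
    · obtain rfl : t = 9 := by omega
      exact .inr (.inr (.inl ⟨a4 rfl, D, a1, hH⟩))
    · obtain rfl : t = 3 := by omega
      exact .inr (.inr (.inr (.inl ⟨a5 rfl, D, a1, hH⟩)))
  · omega
  · omega
  · rw [hc] at a2
    obtain rfl : r = 3 := (Nat.prime_dvd_prime_iff_eq a1 (by decide)).1
      (a1.dvd_of_dvd_pow (n := 2) a2)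
    exact .inr (.inr (.inr (.inr (.inl ⟨K, a4, a5, hH⟩))))
  · omega
  · have := Fintype.card_congr e
    simp at this
  · have := Fintype.card_congr e
    simp at this
  · obtain ⟨c, hc⟩ := H19.rational_of_odd (H19.isNondegenerateQuadraticForm_coe hQ) ho (h0 F₀) a3 a4
    exact .inr (.inr (.inr (.inr (.inr (.inl ⟨F₀, r, _, a1, a2, hc, by
      rwa [H19.subfieldSubgroup_mul_scal]⟩)))))
  · exact .inr (.inr (.inr (.inr (.inr (.inr (.inl ⟨a1, e, P, f₁, a2, a3, hH⟩))))))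

end Cfsg.Agent.S5835
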