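import Cfsg.Statements.S5876
import Cfsg.Agent.Base
import Cfsg.Agent.H2.MinNormal

set_option autoImplicit false
open Cfsg

namespace Cfsg.Agent.S5876

open Subgroup
open scoped commutatorElement

theorem comm_ab {G : Type*} [Group G] [Finite G] {h : G} (hF : h ∈ fittingSubgroup G) :
    ∃ U : Subgroup G, U.Normal ∧ (∀ a ∈ U, ∀ b ∈ U, a * b = b * a) ∧
      (h ∈ U ∨ ∃ x, ⁅h, x⁆ ∈ U ∧ ⁅h, x⁆ ≠ 1) := by
  obtain ⟨U, ⟨hn, hc⟩, hmax⟩ := H2.exists_maximal_subgroup
    (fun U : Subgroup G => U.Normal ∧ ∀ a ∈ U, ∀ b ∈ U, a * b = b * a)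
    ⟨⊥, inferInstance, fun a ha b _ => by rw [mem_bot.1 ha, one_mul, mul_one]⟩
  refine ⟨U, hn, hc, or_iff_not_imp_left.2 fun hU => by_contra fun hx => ?_⟩
  push Not at hx
  have := H2.fitting_normal G
  let A := fittingSubgroup G ⊓ centralizer (U : Set G)
  have hA : Group.IsNilpotent A := H2.isNilpotent_of_le_fitting inf_le_left
  let X : Set G := {x | x ∈ A ∧ ∀ a ∈ A, ⁅a, x⁆ ∈ U}
  have hX : ∀ g, ∀ x ∈ X, g * x * g⁻¹ ∈ X := fun g x hx =>
    ⟨Normal.conj_mem inferInstance x hx.1 g, fun a ha => by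
      have := hn.conj_mem _ (hx.2 _ (Normal.conj_mem inferInstance a ha g⁻¹)) g
      convert this using 1
      simp only [commutatorElement_def]; group⟩
  have hB : (centralizer X).Normal := ⟨fun b hb g x hx => by
    have := hb _ (hX g⁻¹ x hx)
    rw [show x * (g * b * g⁻¹) = g * (g⁻¹ * x * g⁻¹⁻¹ * b) * g⁻¹ by group, this]; group⟩
  have hhA : h ∈ A := ⟨hF, fun u hu => (commutatorElement_eq_one_iff_mul_comm.1 (hx u (by
    rw [commutatorElement_def]; exact mul_mem (hn.conj_mem u hu h) (inv_mem hu)))).symm⟩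
  obtain ⟨M, ⟨hM, hMA, hMU⟩, hmin⟩ := H2.exists_minimal_subgroup
    (fun M : Subgroup G => M.Normal ∧ M ≤ A ⊓ centralizer X ∧ ¬ M ≤ U)
    ⟨_, inferInstance, le_rfl, fun e => hU (e ⟨hhA, fun x hx' =>
      (commutatorElement_eq_one_iff_mul_comm.1 (hx x (hx'.2 h hhA))).symm⟩)⟩
  have hlt := H2.commutator_lt_of_isNilpotent (hMA.trans inf_le_left : M ≤ A)
    le_normalizer_of_normal (fun e => hMU (e ▸ bot_le))
  have hle : ⁅M, A⁆ ≤ U := by_contra fun e =>
    hlt.ne (hmin _ ⟨inferInstance, hlt.le.trans hMA, e⟩ hlt.le)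
  have hMX : ∀ m ∈ M, m ∈ X := fun m hm => ⟨(hMA hm).1, fun a ha =>
    hle (commutator_comm M A ▸ commutator_mem_commutator ha hm)⟩
  refine hMU (le_sup_right.trans (hmax (U ⊔ M) ⟨inferInstance, fun a ha b hb => ?_⟩ le_sup_left).le)
  rw [← SetLike.mem_coe, mul_normal] at ha hb
  obtain ⟨a, ha, m, hm, rfl⟩ := ha
  obtain ⟨b, hb, k, hk, rfl⟩ := hb
  have e1 : Commute a b := hc a ha b hb
  have e2 : Commute a k := (hMA hk).1.2 a ha
  have e3 : Commute b m := (hMA hm).1.2 b hb
  have e4 : Commute m k := (hMA hk).2 m (hMX m hm)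
  exact (e1.mul_right e2).mul_left (e3.symm.mul_right e4)

variable {F V G : Type*} [Field F] [AddCommGroup V] [Module F V] [Group G]
  (ρ : G →* Module.End F V)

def fx (S : Subgroup G) : Submodule F V where
  carrier := {v | ∀ s ∈ S, ρ s v = v}
  zero_mem' := fun _ _ => map_zero _
  add_mem' := fun ha hb s hs => by rw [map_add, ha s hs, hb s hs]
  smul_mem' := fun c v hv s hs => by rw [map_smul, hv s hs]

def st (v : V) : Subgroup G where
  carrier := {g | ρ g v = v}
  one_mem' := by simp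
  mul_mem' := fun {a b} ha hb => by
    change ρ (a * b) v = v
    rw [map_mul, Module.End.mul_apply, show ρ b v = v from hb, show ρ a v = v from ha]
  inv_mem' := fun {a} ha => by
    change ρ a⁻¹ v = v
    nth_rewrite 1 [← show ρ a v = v from ha]
    rw [← Module.End.mul_apply, ← map_mul, inv_mul_cancel, map_one, Module.End.one_apply]

theorem rho_rho (a b : G) (v : V) : ρ a (ρ b v) = ρ (a * b) v := by
  rw [map_mul, Module.End.mul_apply]

theorem map_fx (S : Subgroup G) (g : G) :
    (fx ρ S).map (ρ g) = fx ρ (S.map (MulAut.conj g).toMonoidHom) := by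
  ext v
  constructor
  · rintro ⟨v, hv, rfl⟩ _ ⟨s, hs, rfl⟩
    change ρ (g * s * g⁻¹) _ = _
    rw [rho_rho, inv_mul_cancel_right, ← rho_rho, hv s hs]
  · refine fun hv => ⟨ρ g⁻¹ v, fun s hs => ?_, by simp [rho_rho]⟩
    nth_rewrite 2 [← hv _ (mem_map_of_mem _ hs)]
    change _ = ρ g⁻¹ (ρ (g * s * g⁻¹) _)
    rw [rho_rho, rho_rho]
    congr 2
    group

theorem fpf [Finite G] [FiniteDimensional F V] (hρ : Function.Injective ρ)
    (hirr : ∀ W : Submodule F V, (∀ g, W.map (ρ g) ≤ W) → W = ⊥ ∨ W = ⊤)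
    (hprim : ∀ (m t : ℕ) (D : Fin t → Submodule F V), 2 ≤ t → 0 < m →
      (∀ i, Module.finrank F (D i) = m) → iSupIndep D → iSup D = ⊤ →
      ¬ ∀ g, ∃ σ : Equiv.Perm (Fin t), ∀ i, (D i).map (ρ g) = D (σ i))
    {U : Subgroup G} (hn : U.Normal) (hc : ∀ a ∈ U, ∀ b ∈ U, a * b = b * a) {u : G} (hu : u ∈ U)
    {v : V} (hv : ρ u v = v) (h1 : u ≠ 1) : v = 0 := by
  classical
  by_contra h0
  let P := fun S : Subgroup G => S ≤ U ∧ fx ρ S ≠ ⊥
  have hP : ∀ w ≠ 0, P (U ⊓ st ρ w) := fun w hw =>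
    ⟨inf_le_left, (Submodule.ne_bot_iff _).2 ⟨w, fun s hs => hs.2, hw⟩⟩
  obtain ⟨S, ⟨hS, huS⟩, hmax⟩ := H2.exists_maximal_subgroup (fun S => P S ∧ u ∈ S)
    ⟨_, hP v h0, hu, hv⟩
  let c := fun (g : G) (S : Subgroup G) => S.map (MulAut.conj g).toMonoidHom
  have hcc : ∀ a b S, c a (c b S) = c (a * b) S := fun a b S => by
    simp only [c, map_map]
    congr 1
    ext x
    simp [mul_assoc]
  have hc1 : ∀ S, c 1 S = S := fun S => by ext x; simp [c]
  have hinj : ∀ g, Function.Injective (ρ g) := fun g =>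
    Function.LeftInverse.injective (g := ρ g⁻¹) fun x => by simp [rho_rho]
  have hPc : ∀ g S, P S → P (c g S) := fun g S h => ⟨by
    rintro _ ⟨s, hs, rfl⟩
    exact hn.conj_mem s (h.1 hs) g, fun e => h.2 (by
      rw [← map_fx, ← Submodule.map_bot (ρ g)] at e
      exact Submodule.map_injective_of_injective (hinj g) e)⟩
  have hM : ∀ g K, P K → c g S ≤ K → K = c g S := fun g K hK hle => by
    have h2 : S ≤ c g⁻¹ K := by
      have := map_mono (f := (MulAut.conj g⁻¹).toMonoidHom) hle
      change c _ _ ≤ _ at this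
      rwa [hcc, inv_mul_cancel, hc1] at this
    rw [← hmax _ ⟨hPc _ _ hK, h2 huS⟩ h2, hcc, mul_inv_cancel, hc1]
  let D := fun g => fx ρ (c g S)
  have hD : ∀ a b, (D b).map (ρ a) = D (a * b) := fun a b => by
    simp only [D]
    rw [map_fx, ← hcc]
  let T := Set.range D
  have hT : Finite T := Set.finite_range D
  have hind : iSupIndep (fun W : T => (W : Submodule F V)) := by
    rw [iSupIndep_iff_finsetSum_eq_zero_imp_eq_zero]
    intro s
    induction s using Finset.induction_on with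
    | empty => simp
    | insert a s ha ih =>
      intro x hx e
      rw [Finset.sum_insert ha] at e
      have hs : ∀ j ∈ s, x j = 0 := fun j hj => by_contra fun hj0 => by
        obtain ⟨ga, hga⟩ := a.2
        obtain ⟨gj, hgj⟩ := j.2
        have hle : c ga S ≤ U ⊓ st ρ (x j) := fun y hy => ⟨(hPc ga S hS).1 hy, by
          have hyU := (hPc ga S hS).1 hy
          refine sub_eq_zero.1 (ih (fun i => ρ y (x i) - x i) (fun i hi => ?_) ?_ j hj)
          · have hxi := hx i (Finset.mem_insert_of_mem hi)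
            obtain ⟨gi, hgi⟩ := i.2
            refine sub_mem ?_ hxi
            rw [← hgi] at hxi ⊢
            intro z hz
            rw [rho_rho, hc z ((hPc gi S hS).1 hz) y hyU, ← rho_rho, hxi z hz]
          · have hxa := hx a (Finset.mem_insert_self _ _)
            rw [← hga] at hxa
            rw [Finset.sum_sub_distrib, ← map_sum, eq_neg_of_add_eq_zero_right e, map_neg,
              hxa y hy, sub_self]⟩
        have hxj := hx j (Finset.mem_insert_of_mem hj)
        rw [← hgj] at hxj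
        have e1 := hM ga _ (hP _ hj0) hle
        have e2 := hM gj _ (hP _ hj0) fun y hy => ⟨(hPc gj S hS).1 hy, hxj y hy⟩
        refine ha ((Subtype.ext ?_ : j = a) ▸ hj)
        rw [← hga, ← hgj]
        simp only [D]
        rw [← e1, ← e2]
      intro i hi
      rcases Finset.mem_insert.1 hi with rfl | hi
      · rwa [Finset.sum_eq_zero hs, add_zero] at e
      · exact hs i hi
  have hD1 : D 1 = fx ρ S := by simp only [D, hc1]
  have htop : ⨆ W : T, (W : Submodule F V) = ⊤ := (hirr _ fun g => by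
    rw [Submodule.map_iSup]
    refine iSup_le fun W => ?_
    obtain ⟨_, k, rfl⟩ := W
    exact le_iSup_of_le ⟨_, g * k, rfl⟩ (hD g k).le).resolve_left fun e =>
      hS.2 (eq_bot_iff.2 (e ▸ le_iSup_of_le ⟨_, 1, rfl⟩ hD1.ge))
  let e := Finite.equivFin T
  by_cases ht : 2 ≤ Nat.card T
  · refine hprim (Module.finrank F (fx ρ S)) _ (fun i => (e.symm i : Submodule F V)) ht
      (Nat.pos_of_ne_zero fun e => hS.2 (Submodule.finrank_eq_zero.1 e)) (fun i => ?_) (hind.comp e.symm.injective)
      ((e.symm.iSup_comp (g := fun W : T => (W : Submodule F V))).trans htop) fun g => ?_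
    · obtain ⟨k, hk⟩ := (e.symm i).2
      rw [← hk, ← mul_one k, ← hD, hD1]
      exact (Submodule.equivMapOfInjective _ (hinj k) _).finrank_eq.symm
    · let f : T → T := fun W => ⟨W.1.map (ρ g), by
        obtain ⟨_, k, rfl⟩ := W
        exact ⟨g * k, (hD g k).symm⟩⟩
      have hf : Function.Injective f := fun a b h =>
        Subtype.ext (Submodule.map_injective_of_injective (hinj g) (congrArg Subtype.val h))
      exact ⟨(e.symm.trans (Equiv.ofBijective f (Finite.injective_iff_bijective.1 hf))).trans e,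
        fun i => by
          rw [Equiv.trans_apply, e.symm_apply_apply]; rfl⟩
  · have : Subsingleton T := Finite.card_le_one_iff_subsingleton.1 (by omega)
    refine h1 (hρ (LinearMap.ext fun w => ?_))
    have hw : w ∈ fx ρ S := by
      rw [← hD1]
      exact (htop.ge.trans (iSup_le fun W => (congrArg Subtype.val
        (Subsingleton.elim W ⟨_, 1, rfl⟩)).le)) trivial
    rw [hw u huS, map_one, Module.End.one_apply]

theorem two_fix [FiniteDimensional F V] (g x : G) :
    2 * Module.finrank F (fx ρ (zpowers g)) ≤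
      Module.finrank F V + Module.finrank F (fx ρ (zpowers ⁅g, x⁆)) := by
  have h1 := Submodule.finrank_sup_add_finrank_inf_eq (fx ρ (zpowers g))
    ((fx ρ (zpowers g)).map (ρ x))
  have hinj : Function.Injective (ρ x) :=
    Function.LeftInverse.injective (g := ρ x⁻¹) fun x => by simp [rho_rho]
  rw [← (Submodule.equivMapOfInjective _ hinj _).finrank_eq] at h1
  have h2 := Submodule.finrank_le (fx ρ (zpowers g) ⊔ (fx ρ (zpowers g)).map (ρ x))
  have h3 : fx ρ (zpowers g) ⊓ (fx ρ (zpowers g)).map (ρ x) ≤ fx ρ (zpowers ⁅g, x⁆) := by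
    rintro v ⟨hv, w, hw, rfl⟩
    refine (zpowers_le (H := st ρ _)).2 ?_
    change ρ _ _ = _
    rw [rho_rho, commutatorElement_def, inv_mul_cancel_right, mul_assoc, ← rho_rho, ← rho_rho,
      hw _ (inv_mem (mem_zpowers g)), hv _ (mem_zpowers g)]
  have := Submodule.finrank_mono h3
  omega

theorem main [Finite G] [Group.IsSolvable G] [FiniteDimensional F V]
    (h : ∀ U : Subgroup G, U.Normal → (∀ a ∈ U, ∀ b ∈ U, a * b = b * a) → ∀ u ∈ U, ∀ v,
      ρ u v = v → u ≠ 1 → v = 0) {g : G} (hg : g ≠ 1) :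
    4 * Module.finrank F (fx ρ (zpowers g)) ≤ 3 * Module.finrank F V := by
  have hF : ∀ g ∈ fittingSubgroup G, g ≠ 1 →
      2 * Module.finrank F (fx ρ (zpowers g)) ≤ Module.finrank F V := fun g hg h1 => by
    obtain ⟨U, hn, hc, hU⟩ := comm_ab hg
    have h0 : ∀ u ∈ U, u ≠ 1 → Module.finrank F (fx ρ (zpowers u)) = 0 := fun u hu h1 => by
      exact Submodule.finrank_eq_zero.2
        (eq_bot_iff.2 fun v hv => h U hn hc u hu v (hv u (mem_zpowers u)) h1)
    rcases hU with hU | ⟨x, hx, hx1⟩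
    · rw [h0 g hU h1]; omega
    · have := two_fix ρ g x
      rwa [h0 _ hx hx1] at this
  by_cases hC : g ∈ centralizer (fittingSubgroup G : Set G)
  · have := hF g (H2.centralizer_fitting_le G hC) hg
    omega
  · rw [mem_centralizer_iff] at hC
    push Not at hC
    obtain ⟨x, hx, hne⟩ := hC
    have h1 := two_fix ρ g x
    have h2 := hF ⁅g, x⁆ (mul_mem ((H2.fitting_normal G).conj_mem x hx g) (inv_mem hx))
      fun e => hne (commutatorElement_eq_one_iff_mul_comm.1 e).symm
    omega

/-- Fixed-point spaces in primitive soluble linear groups. Let F be a finite field and G a soluble subgroup of GL_n(F) that acts irreducibly on F^n and primitively (G preserves no decomposition of F^n into two or more independent subspaces of equal dimension). Then every non-identity element g of G has fixed-point space {v : g v = v} of dimension at most 3n/4. -/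
theorem result {F : Type*} [Field F] [Fintype F] {n : ℕ} (G : Subgroup (Matrix.GeneralLinearGroup (Fin n) F)) (hsol : IsSolvable G) (hirr : Cfsg.Geo.ActsIrreducibly (Cfsg.Geo.matrixSet G)) (hprim : ∀ (m t : ℕ) (D : Fin t → Submodule F (Fin n → F)), 2 ≤ t → Cfsg.Geo.IsMDecomposition m D → ¬ G ≤ Cfsg.Geo.decompositionStabilizer D) (g : Matrix.GeneralLinearGroup (Fin n) F) (hg : g ∈ G) (hg1 : g ≠ 1) :
    4 * Module.finrank F (Module.End.eigenspace (Matrix.toLin' (g : Matrix (Fin n) (Fin n) F)) 1) ≤ 3 * n := by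
  let ρ : G →* Module.End F (Fin n → F) :=
    ((Matrix.toLinAlgEquiv' (R := F) (n := Fin n)).toMonoidHom.comp (Units.coeHom _)).comp G.subtype
  have hρ : Function.Injective ρ := fun a b e =>
    Subtype.ext (Units.ext (Matrix.toLinAlgEquiv'.injective e))
  have : Finite (Matrix.GeneralLinearGroup (Fin n) F) := Finite.of_injective _ Units.val_injective
  have : Group.IsSolvable G := hsol
  have := main ρ (fun U hn hc u hu v => fpf ρ hρ
    (fun W hW => hirr W (by rintro _ ⟨s, hs, rfl⟩; exact hW ⟨s, hs⟩))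
    (fun m t D h1 h2 h3 h4 h5 h6 => hprim m t D h1 ⟨h1, h2, h3, h4, h5⟩ fun s hs => h6 ⟨s, hs⟩)
    hn hc hu) (g := ⟨g, hg⟩) fun e => hg1 (congrArg Subtype.val e)
  rw [Module.finrank_fin_fun] at this
  have e : Module.End.eigenspace (Matrix.toLin' (g : Matrix (Fin n) (Fin n) F)) 1 =
      fx ρ (zpowers ⟨g, hg⟩) := by
    ext v
    rw [Module.End.mem_eigenspace_iff, one_smul]
    exact ⟨fun h => (zpowers_le (H := st ρ v)).2 h, fun h => h _ (mem_zpowers _)⟩
  rwa [e]

end Cfsg.Agent.S5876
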