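import Cfsg.Statements.S5877
import Cfsg.Agent.H18.ExtEig

set_option autoImplicit false
open Cfsg

namespace Cfsg.Agent.S5877

/-- Eigenspaces of elements normalising an absolutely irreducible extraspecial group. Let F be a finite field, r a prime, and R ≤ GL_n(F) an absolutely irreducible extraspecial r-group (an r-group whose centre equals its derived subgroup and has order r) of exponent r or 4. Let g ∈ GL_n(F) normalise the product of R with the scalar matrices, have prime order ϖ and not be scalar, and let W be the eigenspace of g for any c ∈ F (W may be the zero subspace). Then dim W ≤ 3n/4 if ϖ = 2, dim W ≤ 2n/3 if ϖ = 3, and dim W ≤ n/2 if ϖ > 3; moreover if ϖ = 3 and 3 does not divide n then dim W ≤ n/2. -/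
theorem result {F : Type*} [Field F] [Fintype F] {n r ϖ : ℕ} (R : Subgroup (Matrix.GeneralLinearGroup (Fin n) F)) (hr : r.Prime) (hR : IsPGroup r R) (hZ : Nat.card (Subgroup.center R) = r) (hext : commutator R = Subgroup.center R) (hexp : Monoid.exponent R = r ∨ Monoid.exponent R = 4) (hirr : Cfsg.Geo.ActsAbsolutelyIrreducibly (Cfsg.Geo.matrixSet R)) (g : Matrix.GeneralLinearGroup (Fin n) F) (hg : g ∈ Cfsg.Geo.subgroupNormalizer (R ⊔ Cfsg.Geo.scalars (Fin n) F)) (hϖ : ϖ.Prime) (hord : orderOf g = ϖ) (hns : g ∉ Cfsg.Geo.scalars (Fin n) F) (c : F) :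
    (ϖ = 2 → 4 * Module.finrank F (Module.End.eigenspace (Matrix.toLin' (g : Matrix (Fin n) (Fin n) F)) c) ≤ 3 * n) ∧
    (ϖ = 3 → 3 * Module.finrank F (Module.End.eigenspace (Matrix.toLin' (g : Matrix (Fin n) (Fin n) F)) c) ≤ 2 * n) ∧
    (3 < ϖ → 2 * Module.finrank F (Module.End.eigenspace (Matrix.toLin' (g : Matrix (Fin n) (Fin n) F)) c) ≤ n) ∧
    (ϖ = 3 → ¬ 3 ∣ n → 2 * Module.finrank F (Module.End.eigenspace (Matrix.toLin' (g : Matrix (Fin n) (Fin n) F)) c) ≤ n) := by
  classical
  have c1 : ∀ (u : Fˣ) (x : Matrix.GeneralLinearGroup (Fin n) F),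
      Units.map (Matrix.scalar (Fin n) : F →+* Matrix (Fin n) (Fin n) F).toMonoidHom u * x =
        x * Units.map (Matrix.scalar (Fin n) : F →+* Matrix (Fin n) (Fin n) F).toMonoidHom u :=
    fun u x => Units.ext (Matrix.scalar_commute (u : F) (fun _ => Commute.all _ _) x.1).eq
  have c2 : ∀ x : Matrix.GeneralLinearGroup (Fin n) F, (∀ y ∈ R, x * y = y * x) →
      x ∈ Cfsg.Geo.scalars (Fin n) F := fun x hx => by
    obtain ⟨a, ha⟩ := hirr.2 x (by rintro _ ⟨y, hy, rfl⟩; exact congrArg Units.val (hx y hy))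
    by_cases a0 : a = 0
    · have : Subsingleton (Matrix (Fin n) (Fin n) F) := subsingleton_of_zero_eq_one (by
        rw [← x.mul_inv, ha, a0, zero_smul, zero_mul])
      exact (Subsingleton.elim 1 x) ▸ one_mem _
    · exact (Cfsg.Geo.mem_scalars_iff x).2 ⟨Units.mk0 a a0, ha⟩
  have : Nonempty (Fin n) := by
    by_contra h
    rw [not_nonempty_iff] at h
    exact hns ((Subsingleton.elim 1 g) ▸ one_mem _)
  have c3 : Function.Injective
      (Units.map (Matrix.scalar (Fin n) : F →+* Matrix (Fin n) (Fin n) F).toMonoidHom) :=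
    Units.map_injective (Matrix.scalar (Fin n) : F →+* Matrix (Fin n) (Fin n) F).injective
  have S : H18.XE.Sit ((Matrix.toLinAlgEquiv' (R := F) (n := Fin n)).toMonoidHom.comp (Units.coeHom _))
      (Units.map (Matrix.scalar (Fin n) : F →+* Matrix (Fin n) (Fin n) F).toMonoidHom)
      (R ⊔ Cfsg.Geo.scalars (Fin n) F) r :=
    ⟨hr, fun u => by
      change Matrix.toLinAlgEquiv' (Matrix.scalar (Fin n) (u : F)) = _
      rw [Matrix.scalar_apply, ← Matrix.smul_one_eq_diagonal, map_smul, map_one], c1, c3,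
    fun x hx y hy => by
      obtain ⟨a, ha, _, ⟨u, rfl⟩, rfl⟩ := Subgroup.mem_sup_of_normal_right.1 hx
      obtain ⟨b, hb, _, ⟨v, rfl⟩, rfl⟩ := Subgroup.mem_sup_of_normal_right.1 hy
      have h1 : (⟨a, ha⟩ * ⟨b, hb⟩ * ⟨a, ha⟩⁻¹ * ⟨b, hb⟩⁻¹ : R) ∈ Subgroup.center R :=
        hext ▸ Subgroup.commutator_mem_commutator (Subgroup.mem_top _) (Subgroup.mem_top _)
      obtain ⟨w, hw⟩ := c2 (a * b * a⁻¹ * b⁻¹) fun y hy =>
        (congrArg Subtype.val (Subgroup.mem_center_iff.1 h1 ⟨y, hy⟩)).symm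
      have h2 : (a * b * a⁻¹ * b⁻¹) ^ r = 1 := by
        have := pow_card_eq_one' (x := (⟨_, h1⟩ : Subgroup.center R))
        rw [hZ] at this
        exact congrArg (fun z : Subgroup.center R => ((z : R) : Matrix.GeneralLinearGroup (Fin n) F)) this
      refine ⟨w, c3 (by rw [map_pow, hw, h2, map_one]), ?_⟩
      have k1 := c1 u
      have k2 := c1 v
      rw [hw]
      generalize Units.map (Matrix.scalar (Fin n) : F →+* Matrix (Fin n) (Fin n) F).toMonoidHom u = u'
        at k1 ⊢
      generalize Units.map (Matrix.scalar (Fin n) : F →+* Matrix (Fin n) (Fin n) F).toMonoidHom v = v'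
        at k2 ⊢
      rw [show a * u' * (b * v') = a * (u' * b) * v' by group,
        show b * v' * (a * u') = b * (v' * (a * u')) by group, k1, k2]
      group,
    fun x hx => c2 x fun y hy => hx y (Subgroup.mem_sup_left hy)⟩
  have key := S.main hg hns hϖ (hord ▸ pow_orderOf_eq_one g) c
  rw [Module.finrank_fin_fun] at key
  change 2 * Module.finrank F (Module.End.eigenspace (Matrix.toLin' (g : Matrix (Fin n) (Fin n) F)) c) ≤ n ∨
    _ ∧ _ ∧ 2 * r * Module.finrank F (Module.End.eigenspace (Matrix.toLin' (g : Matrix (Fin n) (Fin n) F)) c) ≤ _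
    at key
  generalize Module.finrank F (Module.End.eigenspace (Matrix.toLin' (g : Matrix (Fin n) (Fin n) F)) c) = d
    at key ⊢
  rcases key with key | ⟨rfl | ⟨rfl, rfl⟩, k1, k2⟩
  · omega
  · have := hr.two_le
    refine ⟨fun _ => le_of_mul_le_mul_left (a := r) ?_ hr.pos, by omega, by omega, by omega⟩
    nlinarith
  · omega

end Cfsg.Agent.S5877
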