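import Cfsg.Statements.S5944
import Cfsg.Agent.H56.SymIdx

set_option autoImplicit false
open Cfsg

namespace Cfsg.Agent.S5944

/-- For n ≠ 4, every proper subgroup of the symmetric group S_n other than the alternating group A_n has index at least n. -/
theorem result (n : ℕ) (hn : n ≠ 4) (H : Subgroup (Equiv.Perm (Fin n))) (hH : H ≠ ⊤) (hA : H ≠ alternatingGroup (Fin n)) : n ≤ H.index := by
  by_cases h5 : 5 ≤ n
  · have : Nontrivial (Fin n) := Fin.nontrivial_iff_two_le.2 (by omega)
    refine (Fintype.card_fin n).symm.trans_le (H56.Sym.card_le_index (by simpa using h5) fun h => ?_)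
    have h1 := H56.Sym.index_le_two h
    have h2 : H.index ≠ 0 := Subgroup.index_ne_zero_of_finite
    have h3 : H.index ≠ 1 := fun e => hH (Subgroup.index_eq_one.1 e)
    exact hA (Equiv.Perm.eq_alternatingGroup_of_index_eq_two (by omega))
  · have h2 : H.index ≠ 0 := Subgroup.index_ne_zero_of_finite
    have h3 : H.index ≠ 1 := fun e => hH (Subgroup.index_eq_one.1 e)
    have h4 : H.index ≠ 2 := fun e => hA (Equiv.Perm.eq_alternatingGroup_of_index_eq_two e)
    omega

end Cfsg.Agent.S5944
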