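import Cfsg.Statements.S5945
import Cfsg.Agent.H56.SymIdx

set_option autoImplicit false
open Cfsg

namespace Cfsg.Agent.S5945

/-- The symmetric group S_6 has exactly 12 subgroups of index 6; each of them is isomorphic to S_5, and at least one of them is not the stabilizer of any point. -/
theorem result : Nat.card {H : Subgroup (Equiv.Perm (Fin 6)) // H.index = 6} = 12 ∧ (∀ H : Subgroup (Equiv.Perm (Fin 6)), H.index = 6 → Nonempty (H ≃* Equiv.Perm (Fin 5))) ∧ ∃ H : Subgroup (Equiv.Perm (Fin 6)), H.index = 6 ∧ ∀ a : Fin 6, H ≠ MulAction.stabilizer (Equiv.Perm (Fin 6)) a := by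
  have h6 : Fintype.card (Fin 6) = 6 := Fintype.card_fin 6
  obtain ⟨ψ, hψ⟩ := H56.Sym.exists_outer h6
  refine ⟨?_, fun H hH => H56.Sym.equiv_five h6 hH, H56.Sym.K ψ 0, (H56.Sym.index_K ψ 0).trans h6,
    H56.Sym.K_ne h6 hψ 0⟩
  let f : Fin 6 ⊕ Fin 6 → {H : Subgroup (Equiv.Perm (Fin 6)) // H.index = 6} :=
    Sum.elim (fun a => ⟨_, (H56.Sym.index_stab a).trans h6⟩)
      fun a => ⟨_, (H56.Sym.index_K ψ a).trans h6⟩
  have hf : Function.Bijective f := by
    refine ⟨?_, fun ⟨H, hH⟩ => ?_⟩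
    · rintro (a | a) (b | b) e <;> replace e := congrArg Subtype.val e
      · rw [H56.Sym.stab_inj (by simp) e]
      · exact absurd e.symm (H56.Sym.K_ne h6 hψ _ _)
      · exact absurd e (H56.Sym.K_ne h6 hψ _ _)
      · rw [H56.Sym.stab_inj (by simp) (Subgroup.comap_injective ψ.symm.surjective e)]
    · obtain ⟨x, rfl | rfl⟩ := H56.Sym.six_cases h6 hψ hH
      exacts [⟨Sum.inl x, rfl⟩, ⟨Sum.inr x, rfl⟩]
  rw [← Nat.card_eq_of_bijective f hf]; simp

end Cfsg.Agent.S5945
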