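import Cfsg.Statements.S5950
import Cfsg.Agent.H58.ElUni

set_option autoImplicit false
open scoped MatrixGroups
open Cfsg

namespace Cfsg.Agent.S5950

/-- Elements of prime order of PSL_n(q) fixing no decomposition `F^n = U ⊕ W` with `dim U = m`. Here `T = PSL_n(F)` for a field `F` with `q = p^f` elements (`n ≥ 2`, `(n, q) ≠ (2, 2), (2, 3)`); an element of `T` of prime order `r` is represented by a matrix `x` of determinant 1 with `x^r` scalar and `x` not scalar; `i` denotes the multiplicative order of `q` modulo `r` (when `r ≠ p`), and `(a)_r` the `r`-part of `a`. Let `n ≥ 3`, `1 ≤ m < n/2`, and let `r` be a prime dividing the number of such decompositions (unordered pairs `{U, W}` of complementary subspaces with `dim U = m`; since `m ≠ n − m` these are the ordered pairs with `dim U = m`). Then every element of `T` of order `r` fixes such a pair (fixes both `U` and `W` for some complementary `U, W` with `dim U = m`) if and only if one of: (i) `r = p > 2` and every partition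 of `n` into parts of size at most `p` contains, as a sub-multiset, a partition of `m`; (ii) `r = p = 2` and `n` is odd or `m` is even; (iii) `r ≠ p`, `i = 1`, and `r ∣ m` or `(q−1)_r ≥ (n)_r` (with `q ≡ 1 (mod 4)` required when `r = 2` and `n` is even); (iv) `r ≠ p`, `2 ≤ i ≤ m` and `n mod i ≥ m mod i`. -/
theorem result {F : Type*} [Field F] [Fintype F] {p : ℕ} [Fact p.Prime] [CharP F p] {q : ℕ} (hq : Fintype.card F = q)
    (n m : ℕ) (hn : 3 ≤ n) (hm : 1 ≤ m) (hmn : 2 * m < n)
    (r : ℕ) [Fact r.Prime]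
    (hrΩ : r ∣ Nat.card {P : Submodule F (Fin n → F) × Submodule F (Fin n → F) // IsCompl P.1 P.2 ∧ Module.finrank F ↥P.1 = m}) :
    (∀ x : Matrix.SpecialLinearGroup (Fin n) F,
      (∃ c : F, ((x ^ r : Matrix.SpecialLinearGroup (Fin n) F) : Matrix (Fin n) (Fin n) F) = c • (1 : Matrix (Fin n) (Fin n) F)) →
      (∀ c : F, (x : Matrix (Fin n) (Fin n) F) ≠ c • (1 : Matrix (Fin n) (Fin n) F)) →
      ∃ U W : Submodule F (Fin n → F), IsCompl U W ∧ Module.finrank F ↥U = m ∧
        U.map (Matrix.toLin' (x : Matrix (Fin n) (Fin n) F)) ≤ U ∧ W.map (Matrix.toLin' (x : Matrix (Fin n) (Fin n) F)) ≤ W) ↔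
    ((r = p ∧ 2 < p ∧ (∀ μ : Multiset ℕ, (∀ a ∈ μ, 0 < a ∧ a ≤ p) → μ.sum = n → ∃ ν : Multiset ℕ, ν ≤ μ ∧ ν.sum = m)) ∨
     (r = p ∧ p = 2 ∧ (Odd n ∨ Even m)) ∨
     (r ≠ p ∧
      ((orderOf (q : ZMod r) = 1 ∧ (r ∣ m ∨ (padicValNat r n ≤ padicValNat r (q - 1) ∧ (r = 2 → Even n → q % 4 = 1)))) ∨
       (2 ≤ orderOf (q : ZMod r) ∧ orderOf (q : ZMod r) ≤ m ∧ m % orderOf (q : ZMod r) ≤ n % orderOf (q : ZMod r))))) := by
  have hq' : Nat.card F = q := by rw [Nat.card_eq_fintype_card, hq]
  have : Nonempty (Fin n) := ⟨⟨0, by omega⟩⟩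
  by_cases hrp : r = p
  · subst hrp
    have key : (∀ x : Matrix.SpecialLinearGroup (Fin n) F,
      (∃ c : F, ((x ^ r : Matrix.SpecialLinearGroup (Fin n) F) : Matrix (Fin n) (Fin n) F) = c • (1 : Matrix (Fin n) (Fin n) F)) →
      (∀ c : F, (x : Matrix (Fin n) (Fin n) F) ≠ c • (1 : Matrix (Fin n) (Fin n) F)) →
      ∃ U W : Submodule F (Fin n → F), IsCompl U W ∧ Module.finrank F ↥U = m ∧
        U.map (Matrix.toLin' (x : Matrix (Fin n) (Fin n) F)) ≤ U ∧ W.map (Matrix.toLin' (x : Matrix (Fin n) (Fin n) F)) ≤ W) ↔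
        (∀ μ : Multiset ℕ, (∀ a ∈ μ, 0 < a ∧ a ≤ r) → μ.sum = n → ∃ ν : Multiset ℕ, ν ≤ μ ∧ ν.sum = m) := by
      simp only [← H58.st_iff_map]
      constructor
      · intro h μ h1 h2
        rcases H58.eq_replicate_one_or (fun k hk => (h1 k hk).1) with h3 | h3
        · rw [h3]
          exact (H58.exists_le_replicate_sum_iff one_pos (by omega)).2 (one_dvd _)
        · obtain ⟨x, h4, h5, rfl⟩ := H58.exists_sl_mjt (F := F) (n := Fin n) r h1 (by simpa using h2) h3
          exact (H58.exists_compl_iff_jt _ m).1 (h x ⟨1, by rw [one_smul]; exact h4⟩ h5)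
      · rintro h x ⟨c, hc⟩ -
        obtain ⟨b, h1, -, h2⟩ := H58.exists_scale_char r (H53.isUnit_sl x) hc
        have := (H58.exists_compl_iff_jt _ m).2 (h _ (H58.le_of_pow_char r h2) (by simp [H53.sum_jt]))
        simpa only [H58.st_smul_iff (inv_ne_zero h1)] using this
    rw [key]
    rcases (Fact.out : r.Prime).two_le.eq_or_lt with rfl | h2
    · simp [H58.two_parts_iff (show m ≤ n by omega)]
    · simp [h2, h2.ne']
  · have hD := H58.exists_dvd_of_dvd_card_isCompl (by simp; omega) (Fact.out : r.Prime)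
      (H58.not_dvd_card p Fact.out hrp) hrΩ
    rw [Module.finrank_fintype_fun_eq_card] at hD
    have := H58.lin_sum_iff (H53.natCast_ne_zero_of_prime_ne p Fact.out hrp) (by simp; omega) hD
      (fun S => ∃ U W : Submodule F (Fin n → F), IsCompl U W ∧ Module.finrank F U = m ∧ S U ∧ S W)
      fun f _ => H58.exists_compl_iff_jt f m
    simpa only [hq', Fintype.card_fin, H58.st_iff_map, hrp, ne_eq, not_false_eq_true, true_and,
      false_and, false_or] using this

end Cfsg.Agent.S5950
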