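import Cfsg.Statements.S5951
import Cfsg.Agent.H58.ElLin

set_option autoImplicit false
open scoped MatrixGroups
open Cfsg

namespace Cfsg.Agent.S5951

/-- Elements of prime order of PSL_n(q) fixing no pair of subspaces `U < W` with `dim U = m`, `dim W = n − m`. Here `T = PSL_n(F)` for a field `F` with `q = p^f` elements (`n ≥ 2`, `(n, q) ≠ (2, 2), (2, 3)`); an element of `T` of prime order `r` is represented by a matrix `x` of determinant 1 with `x^r` scalar and `x` not scalar; `i` denotes the multiplicative order of `q` modulo `r` (when `r ≠ p`), and `(a)_r` the `r`-part of `a`. Let `1 ≤ m < n/2` and let `r` be a prime dividing the number of such pairs. Then every element of `T` of order `r` fixes such a pair (both `U` and `W`) if and only if `r ≠ p` and either (i) `i = 1` and (`r ∣ m`, or `(q−1)_r ≥ (n)_r` with `q ≡ 1 (mod 4)` required when `r = 2` and `n` is even), or (ii) `2 ≤ i ≤ m` and `n mod i ≥ 2 (m mod i)`. -/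
theorem result {F : Type*} [Field F] [Fintype F] {p : ℕ} [Fact p.Prime] [CharP F p] {q : ℕ} (hq : Fintype.card F = q)
    (n m : ℕ) (hn : 2 ≤ n) (hT : (n, q) ≠ (2, 2) ∧ (n, q) ≠ (2, 3)) (hm : 1 ≤ m) (hmn : 2 * m < n)
    (r : ℕ) [Fact r.Prime]
    (hrΩ : r ∣ Nat.card {P : Submodule F (Fin n → F) × Submodule F (Fin n → F) //
        P.1 ≤ P.2 ∧ Module.finrank F ↥P.1 = m ∧ Module.finrank F ↥P.2 = n - m}) :
    (∀ x : Matrix.SpecialLinearGroup (Fin n) F,
      (∃ c : F, ((x ^ r : Matrix.SpecialLinearGroup (Fin n) F) : Matrix (Fin n) (Fin n) F) = c • (1 : Matrix (Fin n) (Fin n) F)) →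
      (∀ c : F, (x : Matrix (Fin n) (Fin n) F) ≠ c • (1 : Matrix (Fin n) (Fin n) F)) →
      ∃ U W : Submodule F (Fin n → F), U ≤ W ∧ Module.finrank F ↥U = m ∧ Module.finrank F ↥W = n - m ∧
        U.map (Matrix.toLin' (x : Matrix (Fin n) (Fin n) F)) ≤ U ∧ W.map (Matrix.toLin' (x : Matrix (Fin n) (Fin n) F)) ≤ W) ↔
    (r ≠ p ∧
      ((orderOf (q : ZMod r) = 1 ∧ (r ∣ m ∨ (padicValNat r n ≤ padicValNat r (q - 1) ∧ (r = 2 → Even n → q % 4 = 1)))) ∨
       (2 ≤ orderOf (q : ZMod r) ∧ orderOf (q : ZMod r) ≤ m ∧ 2 * (m % orderOf (q : ZMod r)) ≤ n % orderOf (q : ZMod r)))) := by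
  have hq' : Nat.card F = q := by rw [Nat.card_eq_fintype_card, hq]
  have : Nonempty (Fin n) := ⟨⟨0, by omega⟩⟩
  have hr : r.Prime := Fact.out
  have hV : Module.finrank F (Fin n → F) = n := by simp
  have hD := H58.exists_dvd_of_dvd_card_flag hr (by omega) hrΩ
  rw [hV] at hD
  replace hD : ∃ j < 2 * m, r ∣ Nat.card F ^ (n - j) - 1 := by
    rcases hD with ⟨j, h1, h2⟩ | ⟨j, h1, h2⟩
    · exact ⟨j, by omega, h2⟩
    · exact ⟨m + j, by omega, by rwa [← Nat.sub_sub]⟩
  have hrp : r ≠ p := by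
    rintro rfl
    obtain ⟨j, h1, h2⟩ := hD
    exact H58.not_dvd_pow_sub_one Fact.out (H58.char_dvd_card r) Nat.card_pos (by omega) h2
  have h0 : (r : F) ≠ 0 := H53.natCast_ne_zero_of_prime_ne p Fact.out hrp
  have key : ∀ k r, 0 < r → 2 * m ≤ k * r → ((∃ μ ν, μ + ν ≤ Multiset.replicate k r ∧ μ.sum = m ∧
      ν.sum = m) ↔ r ∣ m) := fun k r h1 h2 => by
    constructor
    · rintro ⟨μ, ν, h3, h4, -⟩
      exact (H58.exists_le_replicate_sum_iff h1 (by omega)).1
        ⟨μ, (Multiset.le_add_right _ _).trans h3, h4⟩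
    · rintro ⟨b, rfl⟩
      refine ⟨Multiset.replicate b r, Multiset.replicate b r, ?_, by simp [mul_comm], by simp [mul_comm]⟩
      rw [← Multiset.replicate_add, Multiset.replicate_le_replicate]
      exact Nat.le_of_mul_le_mul_right (by linarith) h1
  have := H58.lin_forall_iff (n := Fin n) hr h0
    (fun S => ∃ U W : Submodule F (Fin n → F), U ≤ W ∧ Module.finrank F U = m ∧
      Module.finrank F W = n - m ∧ S U ∧ S W)
    (fun δ => ∃ μ ν, μ + ν ≤ δ ∧ μ.sum = m ∧ ν.sum = m)
    (fun f hf => by simpa only [hV] using H58.exists_flag_iff_jt hf m (by omega))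
    ((key _ _ one_pos (by simp; omega)).2 (one_dvd _))
  simp only [H58.st_iff_map] at this
  rw [this, ← hq', Fintype.card_fin]
  simp only [hrp, ne_eq, not_false_eq_true, true_and]
  refine or_congr (and_congr_right fun h1 => ?_) (and_congr_right fun h1 => ?_)
  · rw [← H58.not_exLin_iff ((H58.orderOf_eq_one_iff_dvd Nat.card_pos).1 h1) (by omega),
      or_comm, ← imp_iff_not_or]
    refine imp_congr_right fun ⟨k, _, hk, _⟩ => key _ _ hr.pos ?_
    rw [hk, Nat.mul_div_cancel _ hr.pos]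
    omega
  · rw [← H58.arith_all_two (by omega) hmn.le (H58.lt_of_exists_dvd Nat.card_pos hD)]
    generalize orderOf (Nat.card F : ZMod r) = i at h1 ⊢
    refine forall₂_congr fun a N => imp_congr_right fun _ => imp_congr_right fun _ => ?_
    constructor
    · rintro ⟨μ, ν, h3, h4, h5⟩
      obtain ⟨b₁, -, j₁, -, rfl⟩ := H58.le_replicate_add_iff.1 ((Multiset.le_add_right _ _).trans h3)
      obtain ⟨b₂, -, j₂, -, rfl⟩ := H58.le_replicate_add_iff.1 ((Multiset.le_add_left _ _).trans h3)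
      rw [add_add_add_comm, ← Multiset.replicate_add, ← Multiset.replicate_add] at h3
      have hne : i ≠ 1 := by omega
      refine ⟨b₁, b₂, j₁, j₂, ?_, ?_, by simpa using h4.symm, by simpa using h5.symm⟩
      · simpa [Multiset.count_replicate, hne.symm] using
          Multiset.count_le_of_le i h3
      · simpa [Multiset.count_replicate, hne] using Multiset.count_le_of_le 1 h3
    · rintro ⟨b₁, b₂, j₁, j₂, h3, h4, h5, h6⟩
      refine ⟨Multiset.replicate b₁ _ + Multiset.replicate j₁ 1,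
        Multiset.replicate b₂ _ + Multiset.replicate j₂ 1, ?_, by simpa using h5.symm,
        by simpa using h6.symm⟩
      rw [add_add_add_comm, ← Multiset.replicate_add, ← Multiset.replicate_add]
      exact H58.le_replicate_add_iff.2 ⟨_, h3, _, h4, rfl⟩

end Cfsg.Agent.S5951
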