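import Cfsg.Statements.S5952
import Cfsg.Agent.H58.ElBasic

set_option autoImplicit false
open Cfsg

namespace Cfsg.Agent.S5952

/-- Which dimensions of invariant subspaces a semisimple linear map has. Let `V` be a finite-dimensional vector space over a field `F` and `f` an invertible semisimple linear map of `V`. Suppose `V` is the internal direct sum of the fixed space `C_V(f)` (the eigenspace for 1) and subspaces `U_1, …, U_s`, each `f`-invariant of dimension `a ≥ 1` on which `f` acts irreducibly (no `f`-invariant subspaces other than 0 and `U_j`). Let `0 < m < dim V` and `ℓ = m mod a`. Then `f` leaves some `m`-dimensional subspace invariant if and only if `dim C_V(f) ≥ m`, or `a ≤ m` and `dim C_V(f) ≥ ℓ`. -/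
theorem result {F V : Type*} [Field F] [AddCommGroup V] [Module F V]
    [FiniteDimensional F V] (f : V →ₗ[F] V) (hf : Function.Bijective f) (hss : Module.End.IsSemisimple f)
    {s a : ℕ} (ha : 1 ≤ a) (U : Fin s → Submodule F V)
    (hUinv : ∀ j, (U j).map f ≤ U j) (hUdim : ∀ j, Module.finrank F ↥(U j) = a)
    (hUirr : ∀ j, ∀ W : Submodule F V, W ≤ U j → W.map f ≤ W → W = ⊥ ∨ W = U j)
    (hdec : DirectSum.IsInternal (fun o : Option (Fin s) => o.elim (Module.End.eigenspace f 1) U))
    (m : ℕ) (hm : 0 < m) (hmV : m < Module.finrank F V) :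
    (∃ W : Submodule F V, Module.finrank F ↥W = m ∧ W.map f ≤ W) ↔
    (m ≤ Module.finrank F ↥(Module.End.eigenspace f 1) ∨
      (a ≤ m ∧ m % a ≤ Module.finrank F ↥(Module.End.eigenspace f 1))) := by
  classical
  set E := Module.End.eigenspace f 1 with hE
  have hEs : H58.St f E := fun v hv => by
    rw [hE, Module.End.mem_eigenspace_iff] at hv ⊢
    rw [hv, one_smul, hv, one_smul]
  have hUs : ∀ j, H58.St f (U j) := fun j => H58.st_iff_map.2 (hUinv j)
  have h1 : ∀ j, ∃ P, H58.edOn f (U j) = {P} := fun j =>
    H58.card_edOn_eq_one (hUs j) (fun h => by have := hUdim j; rw [h, finrank_bot] at this; omega)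
      fun W h1 h2 => hUirr j W h1 (H58.st_iff_map.1 h2)
  choose P hP using h1
  have hd : ∀ j, (P j).natDegree = a := fun j => by
    rw [← H58.dg_singleton, ← hP, H58.dg_edOn (hUs j), hUdim]
  have hed : H53.ed f = Finset.univ.val.map P +
      Multiset.replicate (Module.finrank F E) (Polynomial.X - Polynomial.C 1) := by
    rw [H58.ed_eq_sum_edOn (A := fun o : Option (Fin s) => o.elim E U) (by rintro (_ | j); exacts [hEs, hUs j])
      hdec.submodule_iSupIndep hdec.submodule_iSup_eq_top, Fintype.sum_option, add_comm]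
    congr 1
    · simp only [Option.elim, hP]; exact H58.sum_singleton_eq_map _ _
    · exact H58.edOn_eq_replicate hEs fun v hv => Module.End.mem_eigenspace_iff.1 hv
  have hdeg : ∀ w : Multiset (Polynomial F), w ≤ Finset.univ.val.map P → ∀ j,
      H58.dgs (w + Multiset.replicate j (Polynomial.X - Polynomial.C 1)) = w.card * a + j := by
    intro w hw j
    rw [H58.dg_add, H58.dg_replicate, Polynomial.natDegree_X_sub_C, mul_one, H58.dg_of_const]
    intro Q hQ
    obtain ⟨j, -, rfl⟩ := Multiset.mem_map.1 (Multiset.mem_of_le hw hQ)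
    exact hd j
  have hV : Module.finrank F V = s * a + Module.finrank F E := by
    rw [← H58.dg_ed f, hed, hdeg _ le_rfl]; simp
  rw [← H58.arith_blocks (s := s) (by omega)]
  simp only [← H58.st_iff_map]
  rw [H58.exists_st_iff hss, hed]
  constructor
  · rintro ⟨w, hw, rfl⟩
    obtain ⟨b, j, h1, h2, rfl⟩ := H58.exists_of_le_add_replicate hw
    exact ⟨b.card, by simpa using Multiset.card_le_card h1, j, h2, hdeg b h1 j⟩
  · rintro ⟨b, hb, j, hj, rfl⟩
    obtain ⟨w, h1, rfl⟩ := H58.exists_le_card_eq (Finset.univ.val.map P) (b := b) (by simpa using hb)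
    exact ⟨_, add_le_add h1 ((Multiset.replicate_le_replicate _).2 hj), hdeg w h1 j⟩

end Cfsg.Agent.S5952
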