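import Cfsg.Statements.S5954
import Cfsg.Agent.H58.ElU2

set_option autoImplicit false
open scoped MatrixGroups
open Cfsg

namespace Cfsg.Agent.S5954

/-- Elements of prime order of PSU_n(q) with no fixed nondegenerate `m`-space. Here `T = PSU_n(q)` (`n ≥ 3`, `(n, q) ≠ (3, 2)`), realised through the matrices of determinant 1 over the field `F` with `q²` elements preserving the Hermitian form `h(u, v) = Σ u_i v_i^q`; an element of `T` of prime order `r` is such a matrix `x` with `x^r` scalar and `x` not scalar. For `r ≠ p` let `i` be the multiplicative order of `q` modulo `r`, `b = i/2` for `i` even and `b = i` for `i` odd, `c = i, i/2, 2i` according as `i ≡ 0, 2 (mod 4)` or `i` odd, and write `k = n mod c`, `ℓ = m mod b`, `ℓ' = m mod c`, `n' = ⌊n/b⌋`, `m' = ⌊m/b⌋`, `s = (r−1)/b`; `(a)_r` is the `r`-part of `a`. Let `1 ≤ m < n/2` and let `r` be a prime dividing the number of nondegenerate `m`-spaces. Then every element of `T`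 of order `r` fixes a nondegenerate `m`-space if and only if one of: (i) `r = p > 2` and every partition of `n` into parts of size at most `p` contains (as a sub-multiset) a partition of `m`; (ii) `r = p = 2` and (`n` is odd or `m` is even); (iii) `r = 2 ≠ p` and (`n` is odd, or `m` is even, or `(q+1)_2 ≥ (n)_2` and `q ≡ 3 (mod 4)`); (iv) `r ≠ p`, `r > 2`, and either `i ≠ 2`, `c ≤ m` and `k ≥ ℓ'`, or `i = 2` and (`r ∣ m` or `(q+1)_r ≥ (n)_r`). -/
theorem result {F : Type*} [Field F] [Fintype F] {p : ℕ} [Fact p.Prime] [CharP F p] {q : ℕ} (hq : Fintype.card F = q ^ 2)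
    (n m : ℕ) (hn : 3 ≤ n) (hT : (n, q) ≠ (3, 2)) (hm : 1 ≤ m) (hmn : 2 * m < n)
    (r : ℕ) [Fact r.Prime]
    (hrΩ : r ∣ Nat.card {W : Submodule F (Fin n → F) // Module.finrank F ↥W = m ∧ (∀ u ∈ W, u ≠ 0 → ∃ v ∈ W, Cfsg.hermForm n F q u v ≠ 0)})
    (i b c : ℕ) (hi : i = orderOf (q : ZMod r)) (hb : b = if Even i then i / 2 else i)
    (hc : c = if i % 4 = 0 then i else if i % 4 = 2 then i / 2 else 2 * i) :
    (∀ x : Matrix.SpecialLinearGroup (Fin n) F, x ∈ Cfsg.SU n F q →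
      (∃ z : F, ((x ^ r : Matrix.SpecialLinearGroup (Fin n) F) : Matrix (Fin n) (Fin n) F) = z • (1 : Matrix (Fin n) (Fin n) F)) →
      (∀ z : F, (x : Matrix (Fin n) (Fin n) F) ≠ z • (1 : Matrix (Fin n) (Fin n) F)) →
      ∃ W : Submodule F (Fin n → F), Module.finrank F ↥W = m ∧ (∀ u ∈ W, u ≠ 0 → ∃ v ∈ W, Cfsg.hermForm n F q u v ≠ 0) ∧
        W.map (Matrix.toLin' (x : Matrix (Fin n) (Fin n) F)) ≤ W) ↔
    ((r = p ∧ 2 < p ∧ (∀ μ : Multiset ℕ, (∀ a ∈ μ, 0 < a ∧ a ≤ p) → μ.sum = n → ∃ ν : Multiset ℕ, ν ≤ μ ∧ ν.sum = m)) ∨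
     (r = p ∧ p = 2 ∧ (Odd n ∨ Even m)) ∨
     (r = 2 ∧ p ≠ 2 ∧ (Odd n ∨ Even m ∨ (padicValNat 2 n ≤ padicValNat 2 (q + 1) ∧ q % 4 = 3))) ∨
     (r ≠ p ∧ 2 < r ∧ ((i ≠ 2 ∧ c ≤ m ∧ m % c ≤ n % c) ∨ (i = 2 ∧ (r ∣ m ∨ padicValNat r n ≤ padicValNat r (q + 1)))))) := by
  have hr : r.Prime := Fact.out
  have hB := H53.isSF_uForm hq n
  have hn' : Module.finrank F (Fin n → F) = n := by simp
  have : Nontrivial (Fin n → F) := Module.nontrivial_of_finrank_pos (R := F) (by omega)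
  have h1 : ∀ u v, Cfsg.hermForm n F q u v = 0 ↔ H59.uForm hq n u v = 0 := fun u v => by
    rw [H59.hermForm_eq hq, hB.eq_zero_comm]
  simp only [ne_eq (Cfsg.hermForm n F q _ _), h1] at hrΩ ⊢
  simp only [← ne_eq (H59.uForm hq n _ _), ← H58.nd_iff hB] at hrΩ ⊢
  simp only [← H58.st_iff_map, ← and_assoc (a := Module.finrank F _ = m)]
  rw [H58.su_forall_iff hq fun f => ∃ W : Submodule F _, (Module.finrank F W = m ∧ H58.ND _ W) ∧ H58.St f W]
  by_cases hrp : r = p
  · subst hrp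
    have h2 : r ∣ q := hr.dvd_of_dvd_pow (H58.natCard_sq hq ▸ H58.char_dvd_card r)
    refine ((H58.su_all hB hr (fun e => hr.not_dvd_one ((Nat.dvd_add_right h2).1 e)) _
      (H58.st_of_smul _)).trans (H58.herm_nd_char hB r (by omega))).trans ?_
    rw [hn']
    by_cases h2 : r = 2
    · subst h2
      rw [H58.two_parts_iff (by omega)]
      simp
    · simp [h2, lt_of_le_of_ne hr.two_le (Ne.symm h2)]
  have h0 := H53.natCast_ne_zero_of_prime_ne (F := F) p hr hrp
  by_cases h2 : r = 2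
  · subst h2
    refine (H58.su_nd_two hB (by simpa using h0) (by omega)).trans ?_
    simp [hrp, Ne.symm hrp, hn']
  have h3 := lt_of_le_of_ne hr.two_le (Ne.symm h2)
  have h5 := H58.dvd_succ_iff hr h2 hi (hi ▸ H53.orderOf_q_pos hq h0)
  by_cases h6 : i = 2
  · refine (H58.su_nd_mu hB h2 h0 (h5.2 h6) (by omega)).trans ?_
    simp [h2, hrp, h3, h6, hn']
  · refine ((H58.su_all hB hr (h5.not.2 h6) _ (H58.st_of_smul _)).trans
      (H58.herm_nd_odd hB hr h2 h0 (by omega) hrΩ hi hb hc)).trans ?_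
    simp [h2, hrp, h3, h6, hn']

end Cfsg.Agent.S5954
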