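import Cfsg.Statements.S5955
import Cfsg.Agent.H58.ElTwo

set_option autoImplicit false
open scoped MatrixGroups
open Cfsg

namespace Cfsg.Agent.S5955

/-- Elements of prime order of PSp_n(q) with no fixed totally isotropic `m`-space. Here `T = PSp_n(q)` with `n = 2d ≥ 4`, `(n, q) ≠ (4, 2)`, realised through the symplectic matrices over the field `F` with `q` elements (preserving the standard alternating form); an element of `T` of prime order `r` is such a matrix `x` with `x^r` scalar and `x` not scalar. For `r ≠ p` let `i` be the multiplicative order of `q` modulo `r`, `c = i` for `i` even and `c = 2i` for `i` odd, and write `k = n mod c`, `ℓ = m mod i`, `ℓ' = m mod c`, `n' = ⌊n/i⌋`, `m' = ⌊m/i⌋`, `t = (r−1)/i`. Let `1 ≤ m ≤ n/2` and let `r` be a prime dividing the number of totally isotropic `m`-spaces. Then every element of `T` of order `r` fixes a totally isotropic `m`-space if and only if either (i) `r = 2 ≠ p`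 and (`m` is even or `q ≡ 1 (mod 4)`); or (ii) `r ≠ p`, `r > 2`, `i ≤ m`, `k ≥ 2ℓ`, and (`i` is odd or `n' − 2m' ≥ t`). -/
theorem result {F : Type*} [Field F] [Fintype F] {p : ℕ} [Fact p.Prime] [CharP F p] {q : ℕ} (hq : Fintype.card F = q)
    (d m : ℕ) (hd : 2 ≤ d) (hT : (d, q) ≠ (2, 2)) (hm : 1 ≤ m) (hmd : m ≤ d)
    (r : ℕ) [Fact r.Prime]
    (hrΩ : r ∣ Nat.card {W : Submodule F (Fin d ⊕ Fin d → F) // Module.finrank F ↥W = m ∧ (∀ u ∈ W, ∀ v ∈ W, Cfsg.sympForm d F u v = 0)})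
    (i c : ℕ) (hi : i = orderOf (q : ZMod r)) (hc : c = if Even i then i else 2 * i) :
    (∀ x : ↥(Matrix.symplecticGroup (Fin d) F),
      (∃ z : F, ((x ^ r : ↥(Matrix.symplecticGroup (Fin d) F)) : Matrix (Fin d ⊕ Fin d) (Fin d ⊕ Fin d) F) = z • (1 : Matrix (Fin d ⊕ Fin d) (Fin d ⊕ Fin d) F)) →
      (∀ z : F, (x : Matrix (Fin d ⊕ Fin d) (Fin d ⊕ Fin d) F) ≠ z • (1 : Matrix (Fin d ⊕ Fin d) (Fin d ⊕ Fin d) F)) →
      ∃ W : Submodule F (Fin d ⊕ Fin d → F), Module.finrank F ↥W = m ∧ (∀ u ∈ W, ∀ v ∈ W, Cfsg.sympForm d F u v = 0) ∧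
        W.map (Matrix.toLin' (x : Matrix (Fin d ⊕ Fin d) (Fin d ⊕ Fin d) F)) ≤ W) ↔
    ((r = 2 ∧ p ≠ 2 ∧ (Even m ∨ q % 4 = 1)) ∨
     (r ≠ p ∧ 2 < r ∧ i ≤ m ∧ 2 * (m % i) ≤ (2 * d) % c ∧ (Odd i ∨ (r - 1) / i + 2 * (m / i) ≤ (2 * d) / i))) := by
  have hq' : Nat.card F = q := by rw [Nat.card_eq_fintype_card, hq]
  have hr : r.Prime := Fact.out
  have hB := H53.isSF_spB (Fin d) F
  have ha : ∀ x, H54.spB (Fin d) F x x = 0 := H54.spB_isAlt
  have hn : Module.finrank F (Fin d ⊕ Fin d → F) = 2 * d := by simp [two_mul]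
  have : Nontrivial (Fin d ⊕ Fin d → F) := Module.nontrivial_of_finrank_pos (R := F) (by omega)
  simp only [H54.sympForm_eq, ← H58.ti_iff] at hrΩ ⊢
  have hD := H58.exists_dvd_ti_alt hB ha hr hrΩ
  have hrp : r ≠ p := by
    rintro rfl
    obtain ⟨j, h1, h2⟩ := hD
    exact H58.not_dvd_pow_sub_one hr (H58.char_dvd_card r) Nat.card_pos (by omega) h2
  have h0 := H53.natCast_ne_zero_of_prime_ne (F := F) p hr hrp
  simp only [← H58.st_iff_map, ← and_assoc]
  rw [H58.sp_forall_iff fun f => ∃ W : Submodule F _, (Module.finrank F W = m ∧ H58.TI _ W) ∧ H58.St f W]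
  by_cases h2 : r = 2
  · subst h2
    rw [H58.sp_ti_two hB ha (by simpa using h0) (by omega), hq']
    simp [hrp.symm]
  · rw [H58.forall_odd_iff hB (hr.odd_of_ne_two h2) _ _ (fun _ => id) (fun _ => H58.Inv.neg')
      fun f ⟨W, h1, h3⟩ => ⟨W, h1, H58.st_neg_iff.1 h3⟩,
      H58.sp_ti_odd hB ha hr h2 h0 (by omega) hD (hq' ▸ hi) hc, hn]
    simp [h2, hrp, lt_of_le_of_ne hr.two_le (Ne.symm h2), and_assoc]

end Cfsg.Agent.S5955
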