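import Cfsg.Statements.S5956
import Cfsg.Agent.H58.ElSpU
import Cfsg.Agent.H58.ElCh3

set_option autoImplicit false
open scoped MatrixGroups
open Cfsg

namespace Cfsg.Agent.S5956

/-- Elements of prime order of PSp_n(q) with no fixed nondegenerate `m`-space. Here `T = PSp_n(q)` with `n = 2d ≥ 4`, `(n, q) ≠ (4, 2)`, realised through the symplectic matrices over the field `F` with `q` elements (preserving the standard alternating form); an element of `T` of prime order `r` is such a matrix `x` with `x^r` scalar and `x` not scalar. For `r ≠ p` let `i` be the multiplicative order of `q` modulo `r`, `c = i` for `i` even and `c = 2i` for `i` odd, and write `k = n mod c`, `ℓ = m mod i`, `ℓ' = m mod c`, `n' = ⌊n/i⌋`, `m' = ⌊m/i⌋`, `t = (r−1)/i`. Let `m` be even with `2 ≤ m < n/2` and let `r` be a prime dividing the number of nondegenerate `m`-spaces. Then every element of `T` of order `r` fixes a nondegenerate `m`-space if and only if one of: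 (i) `r = p > 2` and every partition of `n` into parts of size at most `p` in which every odd part has even multiplicity contains (as a sub-multiset) a partition of `m` in which every odd part has even multiplicity; (ii) `r = p = 2` and (`n ≡ 2 (mod 4)` or `m ≡ 0 (mod 4)`); (iii) `r = 2 ≠ p`; (iv) `r ≠ p`, `r > 2`, `c ≤ m` and `k ≥ ℓ'`. -/
theorem result {F : Type*} [Field F] [Fintype F] {p : ℕ} [Fact p.Prime] [CharP F p] {q : ℕ} (hq : Fintype.card F = q)
    (d m : ℕ) (hd : 2 ≤ d) (hT : (d, q) ≠ (2, 2)) (hm : 2 ≤ m) (hme : Even m) (hmd : m < d)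
    (r : ℕ) [Fact r.Prime]
    (hrΩ : r ∣ Nat.card {W : Submodule F (Fin d ⊕ Fin d → F) // Module.finrank F ↥W = m ∧ (∀ u ∈ W, u ≠ 0 → ∃ v ∈ W, Cfsg.sympForm d F u v ≠ 0)})
    (i c : ℕ) (hi : i = orderOf (q : ZMod r)) (hc : c = if Even i then i else 2 * i) :
    (∀ x : ↥(Matrix.symplecticGroup (Fin d) F),
      (∃ z : F, ((x ^ r : ↥(Matrix.symplecticGroup (Fin d) F)) : Matrix (Fin d ⊕ Fin d) (Fin d ⊕ Fin d) F) = z • (1 : Matrix (Fin d ⊕ Fin d) (Fin d ⊕ Fin d) F)) →
      (∀ z : F, (x : Matrix (Fin d ⊕ Fin d) (Fin d ⊕ Fin d) F) ≠ z • (1 : Matrix (Fin d ⊕ Fin d) (Fin d ⊕ Fin d) F)) →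
      ∃ W : Submodule F (Fin d ⊕ Fin d → F), Module.finrank F ↥W = m ∧ (∀ u ∈ W, u ≠ 0 → ∃ v ∈ W, Cfsg.sympForm d F u v ≠ 0) ∧
        W.map (Matrix.toLin' (x : Matrix (Fin d ⊕ Fin d) (Fin d ⊕ Fin d) F)) ≤ W) ↔
    ((r = p ∧ 2 < p ∧ (∀ μ : Multiset ℕ, (∀ a ∈ μ, 0 < a ∧ a ≤ p) → (∀ a : ℕ, Odd a → Even (μ.count a)) → μ.sum = 2 * d →
        ∃ ν : Multiset ℕ, ν ≤ μ ∧ ν.sum = m ∧ ∀ a : ℕ, Odd a → Even (ν.count a))) ∨
     (r = p ∧ p = 2 ∧ ((2 * d) % 4 = 2 ∨ m % 4 = 0)) ∨
     (r = 2 ∧ p ≠ 2) ∨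
     (r ≠ p ∧ 2 < r ∧ c ≤ m ∧ m % c ≤ (2 * d) % c)) := by
  have hq' : Nat.card F = q := by rw [Nat.card_eq_fintype_card, hq]
  have hr : r.Prime := Fact.out
  have hB := H53.isSF_spB (Fin d) F
  have ha : ∀ x, H54.spB (Fin d) F x x = 0 := H54.spB_isAlt
  have hn : Module.finrank F (Fin d ⊕ Fin d → F) = 2 * d := by simp [two_mul]
  have : Nontrivial (Fin d ⊕ Fin d → F) := Module.nontrivial_of_finrank_pos (R := F) (by omega)
  simp only [H54.sympForm_eq, ← H58.nd_iff hB] at hrΩ ⊢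
  simp only [← H58.st_iff_map, ← and_assoc (a := Module.finrank F _ = m)]
  rw [H58.sp_forall_iff fun f => ∃ W : Submodule F _, (Module.finrank F W = m ∧ H58.ND _ W) ∧ H58.St f W]
  by_cases h2 : r = 2
  · subst h2
    by_cases hp : p = 2
    · subst hp
      have h2 : (2 : F) = 0 := CharTwo.two_eq_zero
      refine Iff.trans ⟨fun H f h1 h3 h4 => H f h1 ⟨1, by rw [h3, one_smul]⟩ ?_,
        fun H f h1 ⟨z, h3⟩ h4 => H f h1 (H58.sq_eq_one_of_char_two hB h2 h1 h3)
          (by simpa using h4 1)⟩ ((H58.sp_nd_char_two h2 hB ha hn (by omega) (by omega) hme).trans ?_)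
      · rintro z rfl
        exact h4 (by rw [H58.eq_one_of_mul_self_two h2 (H58.mul_eq_one_of_inv_smul hB h1), one_smul])
      · simp only [Nat.odd_iff, lt_irrefl, false_and, true_and, ne_eq, not_true, or_false, false_or]
        omega
    · have h0 := H53.natCast_ne_zero_of_prime_ne (F := F) p hr (Ne.symm hp)
      exact iff_of_true (H58.sp_nd_two hB ha (by simpa using h0) (by omega) hme) (by simp [hp])
  rw [H58.forall_odd_iff hB (hr.odd_of_ne_two h2) _ _ (fun _ => id) (fun _ => H58.Inv.neg')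
    fun f ⟨W, h1, h3⟩ => ⟨W, h1, H58.st_neg_iff.1 h3⟩]
  have h3 := lt_of_le_of_ne hr.two_le (Ne.symm h2)
  by_cases hrp : r = p
  · subst hrp
    rw [H58.sp_nd_char r (by simpa using H53.natCast_ne_zero_of_prime_ne (F := F) r Nat.prime_two (Ne.symm h2))
      hB ha (by omega) hme, hn]
    simp [h2, h3]
  · rw [H58.sp_nd_odd hB ha hr h2 (H53.natCast_ne_zero_of_prime_ne (F := F) p hr hrp) (by omega) hme
      hrΩ (hq' ▸ hi) hc, hn]
    simp [h2, h3, hrp]

end Cfsg.Agent.S5956
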