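import Cfsg.Statements.S5958
import Cfsg.Agent.H58.ElImp2

set_option autoImplicit false
open scoped MatrixGroups
open Cfsg

namespace Cfsg.Agent.S5958

/-- Elements of odd prime order of PSL_n(q) and imprimitive subgroups. Here `T = PSL_n(F)` for a field `F` with `q = p^f` elements (`n ≥ 2`, `(n, q) ≠ (2, 2), (2, 3)`), `n = a·t` with `t ≥ 2`, and Ω is the set of direct-sum decompositions of `F^n` into `t` subspaces of dimension `a` (unordered; their number is the number of ordered ones divided by `t!`), whose stabilizers are the imprimitive subgroups of type GL_a(q) ≀ S_t (maximal except in some small cases; maximality is not assumed); an element of `T` of prime order `r` (a matrix `x` of determinant 1 with `x^r` scalar, `x` not scalar) fixes a point of Ω when it permutes the summands of some such decomposition. Let `r ≠ p` be an odd prime dividing the number of such decompositions, let `c` be the multiplicative order of `q` modulo `r`, and write `k = n mod c`, `ℓ = a mod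 c`. Then every element of `T` of order `r` stabilizes such a decomposition if and only if either `a = 1`, `c = r − 1 > 1` and `n ≤ k·r`, or `c ≤ a` and `k = t·ℓ`. -/
theorem result {F : Type*} [Field F] [Fintype F] {p : ℕ} [Fact p.Prime] [CharP F p] {q : ℕ} (hq : Fintype.card F = q)
    (n a t : ℕ) (hn : 2 ≤ n) (hT : (n, q) ≠ (2, 2) ∧ (n, q) ≠ (2, 3)) (hat : n = a * t) (ha : 1 ≤ a) (ht : 2 ≤ t)
    (r : ℕ) [Fact r.Prime] (hr2 : r ≠ 2) (hrp : r ≠ p) (hΩ : r ∣ Nat.card {D : Fin t → Submodule F (Fin n → F) // Cfsg.Geo.IsMDecomposition a D} / Nat.factorial t)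
    (c : ℕ) (hc : c = orderOf (q : ZMod r)) :
    (∀ x : Matrix.SpecialLinearGroup (Fin n) F,
      (∃ z : F, ((x ^ r : Matrix.SpecialLinearGroup (Fin n) F) : Matrix (Fin n) (Fin n) F) = z • (1 : Matrix (Fin n) (Fin n) F)) →
      (∀ z : F, (x : Matrix (Fin n) (Fin n) F) ≠ z • (1 : Matrix (Fin n) (Fin n) F)) →
      ∃ D : Fin t → Submodule F (Fin n → F), Cfsg.Geo.IsMDecomposition a D ∧
        ∃ σ : Equiv.Perm (Fin t), ∀ j, (D j).map (Matrix.toLin' (x : Matrix (Fin n) (Fin n) F)) = D (σ j)) ↔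
    ((a = 1 ∧ 1 < c ∧ c = r - 1 ∧ n ≤ (n % c) * r) ∨ (c ≤ a ∧ n % c = t * (a % c))) := by
  have hr : r.Prime := Fact.out
  have : NeZero n := ⟨by omega⟩
  have hq' : Nat.card F = q := Nat.card_eq_fintype_card.trans hq
  have h0 : (r : F) ≠ 0 := fun e => hrp ((Nat.prime_dvd_prime_iff_eq Fact.out hr).1
    ((CharP.cast_eq_zero_iff F p r).1 e)).symm
  have hV : Module.finrank F (Fin n → F) = n := by simp
  rw [← hq'] at hc
  have hc0 : 0 < c := hc ▸ H53.orderOf_card_pos h0
  refine ⟨fun H => ?_, fun H x ⟨z, hz⟩ _ => ?_⟩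
  · by_cases h1 : c = 1
    · exact Or.inr (by simpa [h1, Nat.mod_one] using ha)
    obtain ⟨D, hD, -⟩ := (H58.ldec_bins (f := 1) (h := 0) (c := 1) (N := n) (u := t) (a := a)
      Function.injective_id (H58.st_top _) (by
        rw [H58.edOn_eq_replicate (c := 1) (H58.st_top _) (by simp)]; simp [← Polynomial.C_1, -map_one])
      (by rw [hat]; ring) (Nat.zero_le _)).exists_mdec Function.injective_id ha (hV.trans hat)
    simp only [H58.isMDec_iff ht ha] at hΩ H
    obtain ⟨g, -, h2, h3⟩ := H58.exists_elt_of_dvd hr (H58.dvd_card_isom ha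
      (fun U W _ _ e => ⟨LinearEquiv.ofFinrankEq U W e, fun _ _ => rfl⟩) (fun _ _ _ _ => trivial) hD hΩ)
    obtain ⟨s, N, h4, h5⟩ := H58.exists_ed_of_pow_eq_one hr h0 h2
    have h6 := Multiset.card_pos.2 ((H58.ne_one_iff_of_ed hr.ne_one h0 h4 h5).1 h3)
    have h7 := H58.dg_ed (g : Module.End F (Fin n → F))
    rw [h5, H58.dg_cyc h0 h4, ← hc, hV] at h7
    obtain ⟨φ, hφ⟩ := Finset.card_pos.1 (H58.card_cycF_pos h0)
    have h8 := H58.card_cycF_eq_div hr h0
    rcases H58.arith_imp (m := (H53.cycF F r).card) one_pos hc0 (by nlinarith) hat (fun h h9 h10 => by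
      have h11 : ∀ P ∈ Multiset.replicate h φ, P ∈ H53.cycF F r := fun P hP =>
        Multiset.eq_of_mem_replicate hP ▸ hφ
      obtain ⟨x, h12, h13, h14⟩ := H58.exists_sl_cyc (n := Fin n) (N := n - h * c) hr h0 (hc ▸ h1) h11
        (by simpa [← Multiset.card_pos] using h9)
        (by rw [← hc, Multiset.card_replicate, Fintype.card_fin, Nat.add_sub_cancel' h10])
      obtain ⟨D, hD, π, hπ⟩ := H x ⟨1, h12⟩ h13
      simpa using hD.count_cyc ha hr h0 h11 h14 hπ (e := 1) (c := c) (by rw [one_mul, hc])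
        fun _ _ _ _ _ _ _ => one_dvd _) with h9 | ⟨⟨k, h9⟩, l, h10, h11⟩
    · exact Or.inr h9
    obtain ⟨h12, h13⟩ := mul_eq_one.1 h9
    obtain rfl : a = 1 := (mul_eq_one.1 h12).2
    have h14 : c = r - 1 := by
      have h15 : c ∣ r - 1 := hc ▸ ZMod.orderOf_dvd_card_sub_one fun e =>
        H58.not_dvd_card_of_ne_zero hr h0 ((ZMod.natCast_eq_zero_iff _ _).1 e)
      rw [← Nat.div_mul_cancel h15, hc, ← h8, h13, one_mul]
    refine Or.inl ⟨rfl, by omega, h14, ?_⟩
    have h15 := Nat.div_add_mod n c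
    have h16 := Nat.mul_le_mul_left c (show n / c ≤ n % c by rw [h13] at h10; omega)
    rw [show r = c + 1 by omega]
    lia
  · have h1 : z ≠ 0 := H58.ne_zero_of_pow_eq_smul (r := r)
      ((Matrix.isUnit_iff_isUnit_det _).2 (by simp)) hz
    have h2 := H58.toLin'_pow_eq (r := r) hz
    obtain ⟨D, hD, h⟩ := (H58.ldec_odd hr h0 h2 h1 (hV.trans hat) hc (by
      rw [hV]; exact H.imp (fun h => ⟨h.1, h.2.2⟩) And.right)).exists_mdec
      (H58.injective_of_pow hr.ne_zero h2 h1) ha (hV.trans hat)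
    exact ⟨D, (H58.isMDec_iff ht ha).2 hD, h⟩

end Cfsg.Agent.S5958
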