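import Cfsg.Statements.S5959
import Cfsg.Agent.H58.ElImp2

set_option autoImplicit false
open scoped MatrixGroups
open Cfsg

namespace Cfsg.Agent.S5959

/-- Elements of order `p` of PSL_n(q) and imprimitive subgroups: a necessary condition. Here `T = PSL_n(F)` for a field `F` with `q = p^f` elements (`n ≥ 2`, `(n, q) ≠ (2, 2), (2, 3)`), `n = a·t` with `t ≥ 2`, and Ω is the set of direct-sum decompositions of `F^n` into `t` subspaces of dimension `a` (unordered; their number is the number of ordered ones divided by `t!`), whose stabilizers are the imprimitive subgroups of type GL_a(q) ≀ S_t (maximal except in some small cases; maximality is not assumed); an element of `T` of prime order `r` (a matrix `x` of determinant 1 with `x^r` scalar, `x` not scalar) fixes a point of Ω when it permutes the summands of some such decomposition. Suppose `p > 2` divides the number of such decompositions. If every element of `T` of order `p` stabilizes such a decomposition, then every partition of `n` into parts of size at most `p`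 in which the part `p` occurs fewer than `a` times contains (as a sub-multiset) a partition of `a`. -/
theorem result {F : Type*} [Field F] [Fintype F] {p : ℕ} [Fact p.Prime] [CharP F p] {q : ℕ} (hq : Fintype.card F = q)
    (n a t : ℕ) (hn : 2 ≤ n) (hT : (n, q) ≠ (2, 2) ∧ (n, q) ≠ (2, 3)) (hat : n = a * t) (ha : 1 ≤ a) (ht : 2 ≤ t)
    (hp : 2 < p) (hΩ : p ∣ Nat.card {D : Fin t → Submodule F (Fin n → F) // Cfsg.Geo.IsMDecomposition a D} / Nat.factorial t)
    (h : ∀ x : Matrix.SpecialLinearGroup (Fin n) F,
      (∃ z : F, ((x ^ p : Matrix.SpecialLinearGroup (Fin n) F) : Matrix (Fin n) (Fin n) F) = z • (1 : Matrix (Fin n) (Fin n) F)) →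
      (∀ z : F, (x : Matrix (Fin n) (Fin n) F) ≠ z • (1 : Matrix (Fin n) (Fin n) F)) →
      ∃ D : Fin t → Submodule F (Fin n → F), Cfsg.Geo.IsMDecomposition a D ∧
        ∃ σ : Equiv.Perm (Fin t), ∀ j, (D j).map (Matrix.toLin' (x : Matrix (Fin n) (Fin n) F)) = D (σ j)) :
    (∀ μ : Multiset ℕ, (∀ b ∈ μ, 0 < b ∧ b ≤ p) → μ.sum = n → μ.count p < a → ∃ ν : Multiset ℕ, ν ≤ μ ∧ ν.sum = a) := by
  classical
  intro μ h1 h2 h3
  rcases H58.eq_replicate_one_or (fun k hk => (h1 k hk).1) with e | e
  · exact ⟨Multiset.replicate a 1, e ▸ (Multiset.replicate_le_replicate 1).2 (by nlinarith), by simp⟩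
  obtain ⟨x, h4, h5, h6⟩ := H58.exists_sl_mjt (F := F) p h1 (h2.trans (Fintype.card_fin n).symm) e
  obtain ⟨D, hD, π, hπ⟩ := h x ⟨1, by simpa using h4⟩ h5
  have hD' := (H58.isMDec_iff ht ha).1 hD
  obtain ⟨k, S, h7, h8, h9⟩ := hD'.ed_eq ha (Fact.out : p.Prime)
    (H58.toLin'_pow_eq (c := 1) (by simpa using h4)) one_ne_zero hπ
  have h10 : (Polynomial.X ^ p - Polynomial.C 1 : Polynomial F) = (Polynomial.X - 1) ^ p := by
    rw [sub_pow_char, one_pow, Polynomial.C_1]
  rw [h10, H58.reg_of_isPP ⟨_, p, H53.monic_X_sub_one, H53.irreducible_X_sub_one, by omega, rfl⟩,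
    Multiset.nsmul_singleton] at h9
  rw [H53.mjt, H53.jt, h9, Multiset.map_add, Multiset.map_replicate, ← h10,
    Polynomial.natDegree_X_pow_sub_C] at h6
  obtain rfl : k = 0 := by
    rw [← h6, Multiset.count_add, Multiset.count_replicate_self] at h3
    by_contra h11
    have := Nat.le_mul_of_pos_left a (Nat.pos_of_ne_zero h11)
    omega
  obtain ⟨j, hj⟩ : S.Nonempty := Finset.card_pos.1 (by simp at h7; omega)
  refine ⟨(H58.edOn _ (D j)).map Polynomial.natDegree, ?_, (H58.dg_edOn (h8 j hj)).trans (hD'.dim j)⟩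
  rw [← h6]
  exact le_add_left (Multiset.map_le_map (Finset.single_le_sum
    (f := fun j => H58.edOn _ (D j)) (fun _ _ => Multiset.zero_le _) hj))

end Cfsg.Agent.S5959
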