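import Cfsg.Statements.S5960
import Cfsg.Agent.H58.ElImp3

set_option autoImplicit false
open scoped MatrixGroups
open Cfsg

namespace Cfsg.Agent.S5960

/-- Involutions of PSp_n(q) and imprimitive subgroups. Here `T = PSp_n(q)`, `n = 2d ≥ 4`, `(n, q) ≠ (4, 2)`, realised through the symplectic matrices over the field `F` with `q` elements and the standard alternating form; `n = a·t` with `a` even and `t ≥ 2`, and Ω is the (nonempty) set of orthogonal decompositions of `F^n` into `t` nondegenerate subspaces of dimension `a` (unordered; counted as ordered ones divided by `t!`), whose stabilizers are the imprimitive subgroups of type Sp_a(q) ≀ S_t (maximality is not assumed); an element of `T` of prime order `r` (a symplectic matrix `x` with `x^r` scalar, `x` not scalar) fixes a point of Ω when it permutes the summands of some such decomposition. If the number of such decompositions is even, then every involution of `T` stabilizes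 one of them (the action is 2-elusive). -/
theorem result {F : Type*} [Field F] [Fintype F] {p : ℕ} [Fact p.Prime] [CharP F p] {q : ℕ} (hq : Fintype.card F = q)
    (d : ℕ) (hd : 2 ≤ d) (hT : (d, q) ≠ (2, 2))
    (a t : ℕ) (hat : 2 * d = a * t) (ha : 2 ≤ a) (hae : Even a) (ht : 2 ≤ t) (hΩ : 2 ∣ Nat.card {D : Fin t → Submodule F (Fin d ⊕ Fin d → F) // (Cfsg.Geo.IsMDecomposition a D ∧ (∀ j, ∀ u ∈ D j, u ≠ 0 → ∃ v ∈ D j, Cfsg.sympForm d F u v ≠ 0) ∧
          (∀ j j', j ≠ j' → ∀ u ∈ D j, ∀ v ∈ D j', Cfsg.sympForm d F u v = 0))} / Nat.factorial t)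
    (x : ↥(Matrix.symplecticGroup (Fin d) F))
    (hx1 : ∃ z : F, ((x ^ 2 : ↥(Matrix.symplecticGroup (Fin d) F)) : Matrix (Fin d ⊕ Fin d) (Fin d ⊕ Fin d) F) = z • (1 : Matrix (Fin d ⊕ Fin d) (Fin d ⊕ Fin d) F))
    (hx2 : ∀ z : F, (x : Matrix (Fin d ⊕ Fin d) (Fin d ⊕ Fin d) F) ≠ z • (1 : Matrix (Fin d ⊕ Fin d) (Fin d ⊕ Fin d) F)) :
    ∃ D : Fin t → Submodule F (Fin d ⊕ Fin d → F), (Cfsg.Geo.IsMDecomposition a D ∧ (∀ j, ∀ u ∈ D j, u ≠ 0 → ∃ v ∈ D j, Cfsg.sympForm d F u v ≠ 0) ∧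
          (∀ j j', j ≠ j' → ∀ u ∈ D j, ∀ v ∈ D j', Cfsg.sympForm d F u v = 0)) ∧
        ∃ σ : Equiv.Perm (Fin t), ∀ j, (D j).map (Matrix.toLin' (x : Matrix (Fin d ⊕ Fin d) (Fin d ⊕ Fin d) F)) = D (σ j) := by
  obtain ⟨z, hz⟩ := hx1
  have : NeZero d := ⟨by omega⟩
  have hB := H53.isSF_spB (Fin d) F
  have ha' : ∀ x, H54.spB (Fin d) F x x = 0 := H54.spB_isAlt
  have hn : Module.finrank F (Fin d ⊕ Fin d → F) = 2 * d := by simp [two_mul]
  have : Nontrivial (Fin d ⊕ Fin d → F) := Module.nontrivial_of_finrank_pos (R := F) (by omega)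
  rw [hat] at hn
  simp only [H54.sympForm_eq, ← H58.nd_iff hB]
  refine (H58.sp_forall_iff (r := 2) fun f => ∃ D : Fin t → Submodule F _,
    (Cfsg.Geo.IsMDecomposition a D ∧ (∀ j, H58.ND (H54.spB (Fin d) F) (D j)) ∧
      ∀ j j', j ≠ j' → ∀ u ∈ D j, ∀ v ∈ D j', H54.spB (Fin d) F u v = 0) ∧
      ∃ σ : Equiv.Perm (Fin t), ∀ j, (D j).map f = D (σ j)).2 ?_ x ⟨z, hz⟩ hx2
  rintro f hf ⟨z, h⟩ -
  have h0 : z ≠ 0 := left_ne_zero_of_mul_eq_one (H58.mul_eq_one_of_inv_smul hB (h ▸ hf.pow 2))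
  obtain ⟨D, hD, h1⟩ := (H58.sp_dec_two hB ha' hf h h0 (by omega) hae t ⊤
    (H58.st_top f) (H58.nd_top hB) (by rw [finrank_top, hn, mul_comm])).exists_mdec
    (hf.injective hB) (by omega) hn
  exact ⟨D, ⟨⟨ht, by omega, hD.dim, hD.indep, hD.top⟩, hD.prop, hD.orth⟩, h1⟩

end Cfsg.Agent.S5960
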