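import Cfsg.Statements.S5961
import Cfsg.Agent.H58.ElImp3
import Cfsg.Agent.H58.ElRed

set_option autoImplicit false
open scoped MatrixGroups
open Cfsg

namespace Cfsg.Agent.S5961

/-- Elements of odd prime order of PSp_n(q) and imprimitive subgroups. Here `T = PSp_n(q)`, `n = 2d ≥ 4`, `(n, q) ≠ (4, 2)`, realised through the symplectic matrices over the field `F` with `q` elements and the standard alternating form; `n = a·t` with `a` even and `t ≥ 2`, and Ω is the (nonempty) set of orthogonal decompositions of `F^n` into `t` nondegenerate subspaces of dimension `a` (unordered; counted as ordered ones divided by `t!`), whose stabilizers are the imprimitive subgroups of type Sp_a(q) ≀ S_t (maximality is not assumed); an element of `T` of prime order `r` (a symplectic matrix `x` with `x^r` scalar, `x` not scalar) fixes a point of Ω when it permutes the summands of some such decomposition. Let `r ≠ p` be an odd prime dividing the number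 of such decompositions, let `i` be the multiplicative order of `q` modulo `r`, `c = i` if `i` is even and `c = 2i` if `i` is odd, and write `k = n mod c`, `ℓ = a mod c`. Then every element of `T` of order `r` stabilizes such a decomposition if and only if `c ≤ a` and `k = t·ℓ`. -/
theorem result {F : Type*} [Field F] [Fintype F] {p : ℕ} [Fact p.Prime] [CharP F p] {q : ℕ} (hq : Fintype.card F = q)
    (d : ℕ) (hd : 2 ≤ d) (hT : (d, q) ≠ (2, 2))
    (a t : ℕ) (hat : 2 * d = a * t) (ha : 2 ≤ a) (hae : Even a) (ht : 2 ≤ t)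
    (r : ℕ) [Fact r.Prime] (hr2 : r ≠ 2) (hrp : r ≠ p) (hΩ : r ∣ Nat.card {D : Fin t → Submodule F (Fin d ⊕ Fin d → F) // (Cfsg.Geo.IsMDecomposition a D ∧ (∀ j, ∀ u ∈ D j, u ≠ 0 → ∃ v ∈ D j, Cfsg.sympForm d F u v ≠ 0) ∧
          (∀ j j', j ≠ j' → ∀ u ∈ D j, ∀ v ∈ D j', Cfsg.sympForm d F u v = 0))} / Nat.factorial t)
    (i c : ℕ) (hi : i = orderOf (q : ZMod r)) (hc : c = if Even i then i else 2 * i) :
    (∀ x : ↥(Matrix.symplecticGroup (Fin d) F),
      (∃ z : F, ((x ^ r : ↥(Matrix.symplecticGroup (Fin d) F)) : Matrix (Fin d ⊕ Fin d) (Fin d ⊕ Fin d) F) = z • (1 : Matrix (Fin d ⊕ Fin d) (Fin d ⊕ Fin d) F)) →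
      (∀ z : F, (x : Matrix (Fin d ⊕ Fin d) (Fin d ⊕ Fin d) F) ≠ z • (1 : Matrix (Fin d ⊕ Fin d) (Fin d ⊕ Fin d) F)) →
      ∃ D : Fin t → Submodule F (Fin d ⊕ Fin d → F), (Cfsg.Geo.IsMDecomposition a D ∧ (∀ j, ∀ u ∈ D j, u ≠ 0 → ∃ v ∈ D j, Cfsg.sympForm d F u v ≠ 0) ∧
          (∀ j j', j ≠ j' → ∀ u ∈ D j, ∀ v ∈ D j', Cfsg.sympForm d F u v = 0)) ∧
        ∃ σ : Equiv.Perm (Fin t), ∀ j, (D j).map (Matrix.toLin' (x : Matrix (Fin d ⊕ Fin d) (Fin d ⊕ Fin d) F)) = D (σ j)) ↔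
    (c ≤ a ∧ (2 * d) % c = t * (a % c)) := by
  classical
  have hq' : Nat.card F = q := by rw [Nat.card_eq_fintype_card, hq]
  have hr : r.Prime := Fact.out
  have h3 : 2 < r := lt_of_le_of_ne hr.two_le hr2.symm
  have hB := H53.isSF_spB (Fin d) F
  have ha' : ∀ x, H54.spB (Fin d) F x x = 0 := H54.spB_isAlt
  have hn : Module.finrank F (Fin d ⊕ Fin d → F) = 2 * d := by simp [two_mul]
  have : Nontrivial (Fin d ⊕ Fin d → F) := Module.nontrivial_of_finrank_pos (R := F) (by omega)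
  have h0 := H53.natCast_ne_zero_of_prime_ne (F := F) p hr hrp
  rw [← hq'] at hi
  have hi0 : 0 < i := hi ▸ H53.orderOf_card_pos h0
  have hc0 : 0 < c := by rw [hc]; split_ifs <;> omega
  have hD := hi ▸ H58.dich_id hr hr2 h0
  have hm : ∀ D : Fin t → Submodule F (Fin d ⊕ Fin d → F), (Cfsg.Geo.IsMDecomposition a D ∧
      (∀ j, H58.ND (H54.spB (Fin d) F) (D j)) ∧
      ∀ j j', j ≠ j' → ∀ u ∈ D j, ∀ v ∈ D j', H54.spB (Fin d) F u v = 0) ↔
      H58.MDec (H54.spB (Fin d) F) (H58.ND (H54.spB (Fin d) F)) a D := fun D =>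
    ⟨fun h => ⟨h.1.3, h.1.4, h.1.5, h.2.1, h.2.2⟩,
      fun h => ⟨⟨ht, by omega, h.dim, h.indep, h.top⟩, h.prop, h.orth⟩⟩
  simp only [H54.sympForm_eq, ← H58.nd_iff hB] at hΩ ⊢
  simp only [hm] at hΩ ⊢
  rw [H58.sp_forall_iff fun f => ∃ D : Fin t → Submodule F _,
      H58.MDec (H54.spB (Fin d) F) (H58.ND (H54.spB (Fin d) F)) a D ∧
        ∃ σ : Equiv.Perm (Fin t), ∀ j, (D j).map f = D (σ j),
    H58.forall_odd_iff hB (hr.odd_of_ne_two hr2) _ _ (fun _ => id) (fun _ => H58.Inv.neg')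
      fun f ⟨D, h1, σ, h2⟩ => ⟨D, h1, σ, fun j => by rw [← h2, Submodule.map_neg]⟩]
  have key : ∀ f, H53.Inv (H54.spB (Fin d) F) f → f ^ r = 1 → ∃ s N h, (∀ P ∈ s, P ∈ H53.cycF F r) ∧
      H53.ed f = s + Multiset.replicate N (Polynomial.X - 1) ∧
      s.card = h * (if Even i then 1 else 2) ∧ h * c + N = 2 * d := fun f hf h1 => by
    obtain ⟨s, N, h4, h5⟩ := H58.exists_ed_of_pow_eq_one hr h0 h1
    obtain ⟨h, h6, -⟩ := hD.exists_blk h4 (H53.map_pstar_add_replicate_iff.1 (h5 ▸ hf.map_pstar_ed hB))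
    have h7 := H58.dg_ed f
    rw [h5, H58.dg_cyc h0 h4, ← hi, hn, h6, H58.blk_mul hc] at h7
    exact ⟨s, N, h, h4, h5, h6, h7⟩
  refine ⟨fun H => ?_, fun H f hf h1 _ => ?_⟩
  · obtain ⟨D, hD', -⟩ := (H58.sp_dec_two hB ha' (f := 1) (z := 1) (fun _ _ => rfl) (by simp) one_ne_zero
      (by omega) hae t ⊤ (H58.st_top _) (H58.nd_top hB) (by rw [finrank_top, hn, hat, mul_comm])).exists_mdec
      Function.injective_id (by omega) (hn.trans hat)
    obtain ⟨g, hg, h1, h2⟩ := H58.exists_elt_of_dvd hr (H58.dvd_card_isom (by omega)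
      (fun U W hU hW e => H54.exists_isometry_of_finrank_eq (hB.restrict hU).nondegenerate (fun x => ha' x)
        (hB.restrict hW).nondegenerate (fun x => ha' x) e) (fun g hg U hU => H58.ND.map hB hg hU) hD' hΩ)
    obtain ⟨s, N, h, h4, h5, h6, h7⟩ := key g hg h1
    have h8 := Multiset.card_pos.2 ((H58.ne_one_iff_of_ed hr.ne_one h0 h4 h5).1 h2)
    have h9 := Nat.le_mul_of_pos_left c (Nat.pos_of_mul_pos_right (h6 ▸ h8))
    rcases H58.arith_imp (m := (H53.cycF F r).card) (e := if Even i then 1 else 2)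
      (by split_ifs <;> omega) hc0 (by omega) hat (fun h h9 h10 => by
      obtain ⟨s, h11, h12, h13⟩ := hD.blk_exists h
      obtain ⟨f, hf, h14⟩ := H58.exists_inv_alt_cyc hB ha' h3 h0 h11 h12 (N := 2 * d - h * c)
        (by rw [h13, ← hi, H58.blk_mul hc, hn, Nat.add_sub_cancel' h10])
      obtain ⟨D, hD'', π, hπ⟩ := H f hf (H58.pow_eq_one_of_ed h0 h11 h14)
        ((H58.ne_one_iff_of_ed hr.ne_one h0 h11 h14).2 (Multiset.card_pos.1 (by
          rw [h13]; split_ifs <;> omega)))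
      refine h13 ▸ hD''.count_cyc (by omega) hr h0 h11 h14 hπ (by rw [hc, ← hi]; split_ifs <;> omega)
        fun U w n h15 h16 h17 h18 => ?_
      obtain ⟨b, h19, -⟩ := hD.exists_blk h17
        (H53.map_pstar_add_replicate_iff.1 (h18 ▸ H58.map_pstar_edOn hB hf h16 h15))
      exact h19 ▸ dvd_mul_left _ _) with h10 | ⟨⟨k, h10⟩, -⟩
    · exact h10
    obtain ⟨φ, hφ⟩ := hD.ne
    have h11 := Finset.card_pos.2 hD.ne
    have h12 : k ≠ 0 := by rintro rfl; split_ifs at h10 <;> omega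
    have h13 := Nat.mul_le_mul (Nat.pos_of_ne_zero h12) ha
    split_ifs at h10 with h14
    · nlinarith
    · have := Finset.one_lt_card.2 ⟨_, hD.mem φ hφ, φ, hφ, mt (hD.iff φ hφ).1 h14⟩
      nlinarith
  · obtain ⟨s, N, h, h4, h5, h6, h7⟩ := key f hf h1
    exact (H58.sp_dec_blk hB ha' hf hr hr2 h0 hi hc hae h4 h5 h6 (by rw [h7, hat, mul_comm])
      (((Nat.le_div_iff_mul_le hc0).2 (by omega)).trans
        ((H58.le_mul_div_iff hc0 hat).2 H.2))).exists_mdec (hf.injective hB) (by omega) (hn.trans hat)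

end Cfsg.Agent.S5961
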