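import Cfsg.Statements.S5963
import Cfsg.Agent.H58.ElImp3

set_option autoImplicit false
open scoped MatrixGroups
open Cfsg

namespace Cfsg.Agent.S5963

/-- Derangements of odd prime order of PSp_n(q), q odd, on pairs of complementary totally isotropic subspaces. Here `T = PSp_n(q)`, `n = 2d ≥ 4`, `q` odd, realised through the symplectic matrices over the field `F` with `q` elements; Ω is the set of unordered pairs `{U, W}` of complementary totally isotropic `d`-spaces (`F^n = U ⊕ W`), whose stabilizers are the subgroups of type GL_d(q).2 (maximal except in some small cases; maximality is not assumed); an element of `T` of prime order `r` (a symplectic matrix `x` with `x^r` scalar, `x` not scalar) fixes such a pair when it fixes or interchanges `U` and `W`. For every odd prime `r ≠ p` dividing the number of such pairs, some element of `T` of order `r` fixes no such pair (the action is never `r`-elusive for odd `r ≠ p`). -/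
theorem result {F : Type*} [Field F] [Fintype F] {p : ℕ} [Fact p.Prime] [CharP F p] {q : ℕ} (hq : Fintype.card F = q)
    (d : ℕ) (hd : 2 ≤ d) (hT : (d, q) ≠ (2, 2)) (hodd : Odd q)
    (r : ℕ) [Fact r.Prime] (hr2 : r ≠ 2) (hrp : r ≠ p) (hΩ : r ∣ Nat.card {P : Submodule F (Fin d ⊕ Fin d → F) × Submodule F (Fin d ⊕ Fin d → F) // IsCompl P.1 P.2 ∧ (∀ u ∈ P.1, ∀ v ∈ P.1, Cfsg.sympForm d F u v = 0) ∧ (∀ u ∈ P.2, ∀ v ∈ P.2, Cfsg.sympForm d F u v = 0)} / 2) :
    ∃ x : ↥(Matrix.symplecticGroup (Fin d) F),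
      (∃ z : F, ((x ^ r : ↥(Matrix.symplecticGroup (Fin d) F)) : Matrix (Fin d ⊕ Fin d) (Fin d ⊕ Fin d) F) = z • (1 : Matrix (Fin d ⊕ Fin d) (Fin d ⊕ Fin d) F)) ∧
      (∀ z : F, (x : Matrix (Fin d ⊕ Fin d) (Fin d ⊕ Fin d) F) ≠ z • (1 : Matrix (Fin d ⊕ Fin d) (Fin d ⊕ Fin d) F)) ∧
      ¬ (∃ U W : Submodule F (Fin d ⊕ Fin d → F), IsCompl U W ∧ (∀ u ∈ U, ∀ v ∈ U, Cfsg.sympForm d F u v = 0) ∧ (∀ u ∈ W, ∀ v ∈ W, Cfsg.sympForm d F u v = 0) ∧
        ((U.map (Matrix.toLin' (x : Matrix (Fin d ⊕ Fin d) (Fin d ⊕ Fin d) F)) = U ∧ W.map (Matrix.toLin' (x : Matrix (Fin d ⊕ Fin d) (Fin d ⊕ Fin d) F)) = W) ∨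
         (U.map (Matrix.toLin' (x : Matrix (Fin d ⊕ Fin d) (Fin d ⊕ Fin d) F)) = W ∧ W.map (Matrix.toLin' (x : Matrix (Fin d ⊕ Fin d) (Fin d ⊕ Fin d) F)) = U))) := by
  classical
  have : NeZero d := ⟨by omega⟩
  have hr : r.Prime := Fact.out
  have h3 : 2 < r := lt_of_le_of_ne hr.two_le hr2.symm
  have hB := H53.isSF_spB (Fin d) F
  have ha : ∀ x, H54.spB (Fin d) F x x = 0 := H54.spB_isAlt
  have hn : Module.finrank F (Fin d ⊕ Fin d → F) = 2 * d := by simp [two_mul]
  have : Nontrivial (Fin d ⊕ Fin d → F) := Module.nontrivial_of_finrank_pos (R := F) (by omega)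
  have h0 := H53.natCast_ne_zero_of_prime_ne (F := F) p hr hrp
  simp only [H54.sympForm_eq, ← H58.ti_iff] at hΩ ⊢
  by_contra! H
  have H' := (H58.sp_forall_iff (r := r) fun f => ∃ U W : Submodule F _, IsCompl U W ∧
    H58.TI (H54.spB (Fin d) F) U ∧ H58.TI (H54.spB (Fin d) F) W ∧
      (U.map f = U ∧ W.map f = W ∨ U.map f = W ∧ W.map f = U)).1 H
  have h1 : 2 ∣ Nat.card {P : Submodule F (Fin d ⊕ Fin d → F) × Submodule F (Fin d ⊕ Fin d → F) //
      IsCompl P.1 P.2 ∧ H58.TI (H54.spB (Fin d) F) P.1 ∧ H58.TI (H54.spB (Fin d) F) P.2} := by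
    have := Fintype.ofFinite {P : Submodule F (Fin d ⊕ Fin d → F) × Submodule F (Fin d ⊕ Fin d → F) //
      IsCompl P.1 P.2 ∧ H58.TI (H54.spB (Fin d) F) P.1 ∧ H58.TI (H54.spB (Fin d) F) P.2}
    rw [Nat.card_eq_fintype_card, ← Nat.modEq_zero_iff_dvd]
    refine (Equiv.Perm.card_fixedPoints_modEq (p := 2) (n := 1)
      (f := fun P => ⟨P.1.swap, P.2.1.symm, P.2.2.2, P.2.2.1⟩) rfl).trans ?_
    rw [Fintype.card_eq_zero_iff.2 ⟨?_⟩]
    rintro ⟨⟨⟨U, W⟩, hc, hU, hW⟩, e⟩
    obtain rfl : W = U := congrArg (fun P => P.1.1) e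
    have := (H58.finrank_of_pair hB hc hU hU).1
    rw [disjoint_self.1 hc.1, finrank_bot] at this
    omega
  obtain ⟨j, h4, h5⟩ := H58.exists_dvd_pair hB ha hn hr h0 (hΩ.trans (Nat.div_dvd_of_dvd h1))
  have hi := H53.orderOf_card_pos h0
  obtain ⟨b, h6, h7, h8⟩ := H58.blk_of_dvd_add hr hr2 rfl hi h5
  have h9 : Even (orderOf (Nat.card F : ZMod r)) := by tauto
  rw [if_pos h9] at h7
  obtain ⟨φ, hφ⟩ := Finset.card_pos.1 (H58.card_cycF_pos h0)
  have h10 := ((H58.dich_id hr hr2 h0).iff φ hφ).2 h9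
  have h11 : ∀ P ∈ ({φ} : Multiset _), P ∈ H53.cycF F r := fun P hP => Multiset.mem_singleton.1 hP ▸ hφ
  have h12 := Nat.le_mul_of_pos_left (orderOf (Nat.card F : ZMod r)) h6
  obtain ⟨f, hf, he⟩ := H58.exists_inv_alt_cyc hB ha h3 h0 h11 (by simpa using h10)
    (N := 2 * d - orderOf (Nat.card F : ZMod r)) (by rw [Multiset.card_singleton]; omega)
  have h13 := H58.pow_eq_one_of_ed h0 h11 he
  have h14 := H58.ss_of_pow_eq_one h0 h13
  have h15 : φ ≠ Polynomial.X - 1 := fun e => H53.irreducible_X_sub_one.not_isUnit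
    (isCoprime_self.1 (e ▸ H58.isCoprime_sub_one_of_mem_cycF hr.ne_one h0 hφ))
  have h16 : (H53.ed f).count φ = 1 := by simp [he, Multiset.count_replicate, h15.symm]
  obtain ⟨U, W, hc, hU, hW, ⟨h17, h18⟩ | ⟨h17, h18⟩⟩ := H' f hf ⟨1, by simpa using h13⟩ fun z e =>
    H58.ne_smul_of_mem_jt (k := φ.natDegree) (Multiset.mem_map_of_mem _
      (Multiset.count_pos.1 (by omega))) (by
        rw [H53.natDegree_of_mem_cycF h0 hφ]; obtain ⟨k, hk⟩ := h9; omega) z e
  · have key : ∀ X, H58.TI (H54.spB (Fin d) F) X → X.map f = X → (H58.edOn f X).count φ = 0 :=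
      fun X h1 h2 => by
        have := Multiset.count_le_of_le φ
          (H58.add_map_pstar_le hB hf h14 (H58.st_iff_map.2 h2.le) h1)
        rw [Multiset.count_add, H58.count_map_pstar hB.invol (fun P hP =>
          (H58.edOn_isPP _ _ P hP).monic) ((H53.mem_cycF h0).1 hφ).1, h10] at this
        omega
    rw [H58.ed_eq_edOn_add (H58.st_iff_map.2 h17.le) (H58.st_iff_map.2 h18.le) hc, Multiset.count_add,
      key U hU h17, key W hW h18] at h16
    omega
  · obtain ⟨k, hk⟩ := hr.odd_of_ne_two hr2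
    have h19 : ∀ k, U.map (f ^ (2 * k + 1)) = W := fun k => by
      induction k with
      | zero => simpa using h17
      | succ k ih => rw [show 2 * (k + 1) + 1 = 2 * k + 1 + 1 + 1 by ring, ← H58.map_pow_succ,
          ← H58.map_pow_succ, ih, h18, h17]
    have h20 := h19 k
    rw [← hk, h13, Module.End.one_eq_id, Submodule.map_id] at h20
    subst h20
    have := (H58.finrank_of_pair hB hc hU hU).1
    rw [disjoint_self.1 hc.1, finrank_bot] at this
    omega

end Cfsg.Agent.S5963
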