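import Cfsg.Statements.S5972
import Cfsg.Agent.H58.ElTwo

set_option autoImplicit false
open scoped MatrixGroups
open Cfsg

namespace Cfsg.Agent.S5972

/-- Elements of prime order of Ω_n(q), n = 2d+1 ≥ 7, q odd, with no fixed totally singular `m`-space. Here `T = Ω_n(q)` is realised as the commutator subgroup of the isometry group of the quadratic form `x₀² + Σ xᵢyᵢ` over the field `F` with `q` elements (it has trivial centre, so its elements of prime order `r` are used directly); let `1 ≤ m ≤ d` and let `r` be a prime dividing the number of totally singular `m`-spaces. For `r ≠ p` let `i` be the multiplicative order of `q` modulo `r`, `c = i` for `i` even and `c = 2i` for `i` odd, and write `k = n mod c`, `ℓ = m mod i`, `n' = ⌊n/i⌋`, `m' = ⌊m/i⌋`, `t = (r−1)/i`. Then every element of `T` of order `r` fixes some totally singular `m`-space if and only if either (i) `r = 2` and (`m < (n−1)/2` or `q ≡ 1 (mod 4)`); or (ii) `r ≠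 p` is odd, `i ≤ m`, `k > 2ℓ`, and (`i` is odd or `n' − 2m' ≥ t`). -/
theorem result {F : Type*} [Field F] [Fintype F] {p : ℕ} [Fact p.Prime] [CharP F p] {q : ℕ} (hq : Fintype.card F = q) (hqodd : Odd q)
    (d m : ℕ) (hd : 3 ≤ d) (hm : 1 ≤ m) (hmd : m ≤ d)
    (r : ℕ) [Fact r.Prime]
    (hrΩ : r ∣ Nat.card {W : Submodule F (Unit ⊕ (Fin d ⊕ Fin d) → F) // Module.finrank F ↥W = m ∧ (∀ w ∈ W, Cfsg.quadFormOdd d F w = 0)})
    (i c : ℕ) (hi : i = orderOf (q : ZMod r)) (hc : c = if Even i then i else 2 * i) :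
    (∀ x : GL (Unit ⊕ (Fin d ⊕ Fin d)) F, x ∈ Cfsg.Geo.omegaGL (Cfsg.quadFormOdd d F) → orderOf x = r →
      ∃ W : Submodule F (Unit ⊕ (Fin d ⊕ Fin d) → F), Module.finrank F ↥W = m ∧ (∀ w ∈ W, Cfsg.quadFormOdd d F w = 0) ∧
        W.map (Matrix.toLin' (x : Matrix (Unit ⊕ (Fin d ⊕ Fin d)) (Unit ⊕ (Fin d ⊕ Fin d)) F)) ≤ W) ↔
    ((r = 2 ∧ (m < d ∨ q % 4 = 1)) ∨
     (r ≠ p ∧ 2 < r ∧ i ≤ m ∧ 2 * (m % i) < (2 * d + 1) % c ∧ (Odd i ∨ (r - 1) / i + 2 * (m / i) ≤ (2 * d + 1) / i))) := by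
  have hq' : Nat.card F = q := by rw [Nat.card_eq_fintype_card, hq]
  have hr : r.Prime := Fact.out
  have h2 : (2 : F) ≠ 0 := H58.two_ne_zero_of_odd_card (hq ▸ hqodd)
  have hQ := H58.qOdd_nondeg d h2
  have hn : Module.finrank F (Unit ⊕ (Fin d ⊕ Fin d) → F) = 2 * d + 1 := by simp; omega
  have ho : Odd (Module.finrank F (Unit ⊕ (Fin d ⊕ Fin d) → F)) := hn ▸ odd_two_mul_add_one d
  simp only [← H58.st_iff_map, ← and_assoc]
  rw [H58.omega_order_iff (H58.coe_qOdd d F) hr fun f => ∃ W : Submodule F _, (Module.finrank F W = m ∧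
    ∀ w ∈ W, Cfsg.quadFormOdd d F w = 0) ∧ H58.St f W]
  simp only [← H58.coe_qOdd] at hrΩ ⊢
  have hD := H58.exists_dvd_ts hQ hr hrΩ
  have hrp : r ≠ p := by
    rintro rfl
    obtain ⟨j, h1, h2⟩ := hD
    exact H58.not_dvd_numSing hr (H58.char_dvd_card r) Nat.card_pos (by omega) h2
  have h0 := H53.natCast_ne_zero_of_prime_ne (F := F) p hr hrp
  by_cases h3 : r = 2
  · subst h3
    rw [H58.forall_inOm_iff fun f => f ^ 2 = 1 → f ≠ 1 → ∃ W : Submodule F _, (Module.finrank F W = m ∧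
      H58.TS _ W) ∧ H58.St f W, H58.o_ts_two_odd hQ hn (by omega) hmd, hq']
    simp
  · rw [H58.omega_odd_iff hQ (H56.not_isExc_of_two_ne h2) (hr.odd_of_ne_two h3)
      fun f => ∃ W : Submodule F _, (Module.finrank F W = m ∧ H58.TS _ W) ∧ H58.St f W,
      H58.o_ts_odd_dim hQ ho hr h3 h0 (by omega) hD (hq' ▸ hi) hc, hn]
    have h4 : 2 ∣ c := by
      rw [hc]
      split_ifs with h
      exacts [h.two_dvd, dvd_mul_right _ _]
    have h5 := Nat.mod_mod_of_dvd (2 * d + 1) h4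
    have h6 : 2 * (m % i) ≤ (2 * d + 1) % c ↔ 2 * (m % i) < (2 * d + 1) % c := by omega
    simp [h3, hrp, lt_of_le_of_ne hr.two_le (Ne.symm h3), and_assoc, h6]

end Cfsg.Agent.S5972
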