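import Cfsg.Statements.S5973
import Cfsg.Agent.H58.ElTwo

set_option autoImplicit false
open scoped MatrixGroups
open Cfsg

namespace Cfsg.Agent.S5973

/-- Elements of prime order of PΩ⁺_n(q), n = 2d ≥ 8, with no fixed totally singular `m`-space, `m < n/2`. Here `T = PΩ⁺_n(q)` is realised through `Ω⁺_n(q)`, the commutator subgroup of the isometry group of the quadratic form `Σ xᵢyᵢ` over the field `F` with `q` elements; an element of `T` of prime order `r` is an element `x` of `Ω⁺_n(q)` with `x^r` scalar and `x` not scalar. Let `1 ≤ m < d` and let `r` be a prime dividing the number of totally singular `m`-spaces. For `r ≠ p` let `i` be the multiplicative order of `q` modulo `r`, `c = i` for `i` even and `c = 2i` for `i` odd, and write `k = n mod c`, `ℓ = m mod i`, `n' = ⌊n/i⌋`, `m' = ⌊m/i⌋`, `t = (r−1)/i`. Then every element of `T` of order `r` fixes some totally singular `m`-space if and only if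 one of: (i) `r = 2 ≠ p` and either `q ≡ 1 (mod 4)`, or `q ≡ 3 (mod 4)`, `m ≤ n/2 − 2` and (`m` even or `n ≡ 2 (mod 4)`); (ii) `r ≠ p` odd, `i` odd, `i ≤ m` and `k ≥ 2ℓ`; (iii) `r ≠ p` odd, `i` even, `i ≤ m`, `n' − 2m' ≥ t`, and one of: `i ≥ 2ℓ`, `k = 0`, `n/i` odd and `n' − 2m' > t`; or `k ≥ 2ℓ` and `n'` even; or `k > 2ℓ` and `n'` odd. -/
theorem result {F : Type*} [Field F] [Fintype F] {p : ℕ} [Fact p.Prime] [CharP F p] {q : ℕ} (hq : Fintype.card F = q)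
    (d m : ℕ) (hd : 4 ≤ d) (hm : 1 ≤ m) (hmd : m < d)
    (r : ℕ) [Fact r.Prime]
    (hrΩ : r ∣ Nat.card {W : Submodule F (Fin d ⊕ Fin d → F) // Module.finrank F ↥W = m ∧ (∀ w ∈ W, Cfsg.quadFormPlus d F w = 0)})
    (i c : ℕ) (hi : i = orderOf (q : ZMod r)) (hc : c = if Even i then i else 2 * i) :
    (∀ x : GL (Fin d ⊕ Fin d) F, x ∈ Cfsg.Geo.omegaGL (Cfsg.quadFormPlus d F) →
      (∃ z : F, ((x ^ r : GL (Fin d ⊕ Fin d) F) : Matrix (Fin d ⊕ Fin d) (Fin d ⊕ Fin d) F) = z • (1 : Matrix (Fin d ⊕ Fin d) (Fin d ⊕ Fin d) F)) →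
      (∀ z : F, (x : Matrix (Fin d ⊕ Fin d) (Fin d ⊕ Fin d) F) ≠ z • (1 : Matrix (Fin d ⊕ Fin d) (Fin d ⊕ Fin d) F)) →
      ∃ W : Submodule F (Fin d ⊕ Fin d → F), Module.finrank F ↥W = m ∧ (∀ w ∈ W, Cfsg.quadFormPlus d F w = 0) ∧
        W.map (Matrix.toLin' (x : Matrix (Fin d ⊕ Fin d) (Fin d ⊕ Fin d) F)) ≤ W) ↔
    ((r = 2 ∧ p ≠ 2 ∧ (q % 4 = 1 ∨ (q % 4 = 3 ∧ m + 2 ≤ d ∧ (Even m ∨ (2 * d) % 4 = 2)))) ∨
     (r ≠ p ∧ 2 < r ∧ Odd i ∧ i ≤ m ∧ 2 * (m % i) ≤ (2 * d) % c) ∨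
     (r ≠ p ∧ 2 < r ∧ Even i ∧ i ≤ m ∧ (r - 1) / i + 2 * (m / i) ≤ (2 * d) / i ∧
       ((2 * (m % i) ≤ i ∧ (2 * d) % c = 0 ∧ Odd ((2 * d) / i) ∧ (r - 1) / i + 2 * (m / i) < (2 * d) / i) ∨
        (2 * (m % i) ≤ (2 * d) % c ∧ Even ((2 * d) / i)) ∨
        (2 * (m % i) < (2 * d) % c ∧ Odd ((2 * d) / i))))) := by
  have hq' : Nat.card F = q := by rw [Nat.card_eq_fintype_card, hq]
  have hr : r.Prime := Fact.out
  have hQ := H58.qPlus_nondeg d F
  have hn : Module.finrank F (Fin d ⊕ Fin d → F) = 2 * d := by simp [two_mul]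
  have : Nontrivial (Fin d ⊕ Fin d → F) := Module.nontrivial_of_finrank_pos (R := F) (by omega)
  have hP := H58.isPlus_qPlus (F := F) d
  simp only [← H58.st_iff_map, ← and_assoc]
  rw [H58.pomega_forall_iff (H58.coe_qPlus d F) fun f => ∃ W : Submodule F _, (Module.finrank F W = m ∧
    ∀ w ∈ W, Cfsg.quadFormPlus d F w = 0) ∧ H58.St f W]
  simp only [← H58.coe_qPlus] at hrΩ ⊢
  have hD := H58.exists_dvd_ts hQ hr hrΩ
  have hrp : r ≠ p := by
    rintro rfl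
    obtain ⟨j, h1, h2⟩ := hD
    exact H58.not_dvd_numSing hr (H58.char_dvd_card r) Nat.card_pos (by omega) h2
  have h0 := H53.natCast_ne_zero_of_prime_ne (F := F) p hr hrp
  by_cases h3 : r = 2
  · subst h3
    have h2 : (2 : F) ≠ 0 := by simpa using h0
    have h4 := H58.card_mod_four h2
    rw [H58.forall_inOm_iff fun f => (∃ z : F, f ^ 2 = z • 1) → (∀ z : F, f ≠ z • 1) →
      ∃ W : Submodule F _, (Module.finrank F W = m ∧ H58.TS _ W) ∧ H58.St f W,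
      H58.o_ts_two_even h2 hQ hn (by omega) hmd]
    simp only [hq', hP, hrp.symm, Nat.even_iff, true_iff, forall_const, ne_eq, not_false_eq_true,
      true_and, lt_irrefl, and_false, false_and, or_false] at h4 ⊢
    omega
  · rw [H58.pomega_odd_iff hQ (H56.not_isExc_of_finrank (by omega)) (hr.odd_of_ne_two h3)
      (fun f => ∃ W : Submodule F _, (Module.finrank F W = m ∧ H58.TS _ W) ∧ H58.St f W)
      fun f ⟨W, h1, h3⟩ => ⟨W, h1, H58.st_neg_iff.1 h3⟩,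
      H58.o_ts_even_dim hQ hn hr h3 h0 hmd hD (hq' ▸ hi)]
    by_cases h4 : Even i <;>
      simp [h3, hrp, lt_of_le_of_ne hr.two_le (Ne.symm h3), and_assoc, hc, h4, hP,
        ← Nat.not_even_iff_odd]

end Cfsg.Agent.S5973
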