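import Cfsg.Statements.S5976
import Cfsg.Agent.Base
import Cfsg.Agent.H62.ElK3

set_option autoImplicit false
open scoped MatrixGroups
open Cfsg

namespace Cfsg.Agent.S5976

/-- Elements of prime order of PSp_n(q), q odd, and the subgroups of type GU_{n/2}(q). Here `T = PSp_{2d}(F)` for a field `F` with `q` elements, `q` odd, `d ≥ 2`, realised through the matrices preserving the standard alternating form `f`; `K` is a subalgebra of the `2d × 2d` matrices that is a field of degree 2 over `F`, closed under taking adjoints for `f` but not consisting of self-adjoint elements (so `F^{2d}` becomes a `d`-dimensional space over `K ≅ F_{q²}` on which `f` is the trace of a multiple of a non-degenerate hermitian form); `H` is the subgroup of `T` normalizing `K` — the symplectic maps that are `K`-linear or `K`-semilinear, a subgroup of type GU_d(q) (maximality is not assumed). Ω is the set of cosets of `H` in `T`, so an element of `T` of prime order `r` (`x ∈ T` with `x^r` scalar,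 `x` not scalar) fixes a point of Ω exactly when some `T`-conjugate of `x` normalizes `K`. Let `r` be a prime dividing the index of `H`. Then every element of `T` of order `r` fixes a point of Ω if and only if `r = 2`. -/
theorem result {F : Type*} [Field F] [Fintype F] {p : ℕ} [Fact p.Prime] [CharP F p] {q : ℕ} (hq : Fintype.card F = q)
    (hodd : Odd q) (d : ℕ) (hd : 2 ≤ d)
    (K : Subalgebra F (Matrix (Fin d ⊕ Fin d) (Fin d ⊕ Fin d) F)) (hK : Cfsg.Geo.IsFieldSubalgebra 2 K)
    (hKf : Cfsg.Geo.IsAdjointClosedFor (Cfsg.sympForm d F) K) (hKns : ¬ Cfsg.Geo.IsSelfAdjointFor (Cfsg.sympForm d F) K)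
    (r : ℕ) [Fact r.Prime]
    (hΩ : r ∣ (Cfsg.Geo.subalgebraNormalizer K).relIndex (Cfsg.spGL d F)) :
    (∀ x ∈ Cfsg.spGL d F, (∃ z : F, ((x ^ r : GL (Fin d ⊕ Fin d) F) : Matrix (Fin d ⊕ Fin d) (Fin d ⊕ Fin d) F) = z • (1 : Matrix (Fin d ⊕ Fin d) (Fin d ⊕ Fin d) F)) →
      (∀ z : F, (x : Matrix (Fin d ⊕ Fin d) (Fin d ⊕ Fin d) F) ≠ z • (1 : Matrix (Fin d ⊕ Fin d) (Fin d ⊕ Fin d) F)) →
      ∃ g ∈ Cfsg.spGL d F, g⁻¹ * x * g ∈ Cfsg.Geo.subalgebraNormalizer K) ↔ r = 2 := by
  subst hq
  have : Nonempty (Fin d) := ⟨⟨0, by omega⟩⟩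
  obtain ⟨K', _, _, _, _, _, h0, h1, h2⟩ := H62.exists_field_model hK
  have hH : ∀ g : GL (Fin d ⊕ Fin d) F, g ∈ Geo.subalgebraNormalizer K ↔
      H71.El.NK K' (Matrix.toLin' (g : Matrix (Fin d ⊕ Fin d) (Fin d ⊕ Fin d) F)) :=
    H62.mem_subalgebraNormalizer_iff h1 h2
  rw [H62.El.gl_iff H62.El.mem_spGL (fun f hf => hf.isUnit (H53.isSF_spB _ F)) fun g _ => hH g,
    H62.El.sp_unit (H53.isSF_spB _ F) H54.spB_isAlt (H62.two_ne_zero_of_odd hodd) h0 (fun k => by
      obtain ⟨A, hA, hx⟩ := h2 k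
      obtain ⟨A', hA', h3⟩ := hKf A hA
      obtain ⟨k', hk'⟩ := (h1 A').1 hA'
      exact ⟨k', by simpa only [← hx, ← hk', ← H54.sympForm_eq] using h3⟩) (fun h => hKns fun A hA u v => by
      obtain ⟨k, hk⟩ := (h1 A).1 hA
      simpa only [hk, H54.sympForm_eq] using h k u v) (by simp [two_mul]) hd Fact.out hΩ
      (H62.El.relIndex_c3 H62.El.mem_spGL hH fun _ => Iff.rfl)]

end Cfsg.Agent.S5976
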