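import Cfsg.Statements.S5980
import Cfsg.Agent.Base
import Cfsg.Agent.H62.ElK2

set_option autoImplicit false
open scoped MatrixGroups
open Cfsg

namespace Cfsg.Agent.S5980

/-- Elements of prime order of PSp_n(q), q odd, and the stabilizers of tensor decompositions Sp_a(q) ⊗ O_b(q). Here `T = PSp_{2d}(F)` for a field `F` with `q` elements, `q` odd, `d ≥ 2`, realised through the matrices preserving the standard alternating form `f`; `2d = a·b` with `a` even, `b ≥ 3`, and the bijection `e` and change of basis `P` exhibit `f` as a non-zero scalar multiple of the tensor product of a non-degenerate alternating form `f₁` on `F^a` and a non-degenerate symmetric bilinear form `f₂` on `F^b`; `H` is the subgroup of `T` stabilizing this tensor decomposition (the elements of `T` in the conjugate by `P` of the group of Kronecker products) — a subgroup of type Sp_a(q) ⊗ O^ε_b(q) (maximality is not assumed). Ω is the set of cosets of `H` in `T`, so an element of `T` of prime order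 `r` (`x ∈ T` with `x^r` scalar, `x` not scalar) fixes a point of Ω exactly when some `T`-conjugate of `x` lies in `H`. Let `r` be a prime dividing the index of `H`. Then every element of `T` of order `r` fixes a point of Ω if and only if `r = 2` and `a = 2`. -/
theorem result {F : Type*} [Field F] [Fintype F] {p : ℕ} [Fact p.Prime] [CharP F p] {q : ℕ} (hq : Fintype.card F = q)
    (hodd : Odd q) (d : ℕ) (hd : 2 ≤ d) (a b : ℕ) (hab : 2 * d = a * b) (ha : Even a) (ha2 : 2 ≤ a) (hb : 3 ≤ b)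
    (e : (Fin d ⊕ Fin d) ≃ Fin a × Fin b) (P : GL (Fin d ⊕ Fin d) F)
    (f₁ : (Fin a → F) → (Fin a → F) → F) (f₂ : (Fin b → F) → (Fin b → F) → F)
    (hf₁ : Cfsg.Geo.IsSymplecticForm f₁) (hf₂ : Cfsg.Geo.IsSymmetricForm f₂)
    (hS : Cfsg.Geo.IsTensorFormStructure id (Cfsg.sympForm d F) f₁ f₂ e P)
    (r : ℕ) [Fact r.Prime]
    (hΩ : r ∣ (Cfsg.Geo.tensorProductSubgroup a b e P).relIndex (Cfsg.spGL d F)) :
    (∀ x ∈ Cfsg.spGL d F, (∃ z : F, ((x ^ r : GL (Fin d ⊕ Fin d) F) : Matrix (Fin d ⊕ Fin d) (Fin d ⊕ Fin d) F) = z • (1 : Matrix (Fin d ⊕ Fin d) (Fin d ⊕ Fin d) F)) →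
      (∀ z : F, (x : Matrix (Fin d ⊕ Fin d) (Fin d ⊕ Fin d) F) ≠ z • (1 : Matrix (Fin d ⊕ Fin d) (Fin d ⊕ Fin d) F)) →
      ∃ g ∈ Cfsg.spGL d F, g⁻¹ * x * g ∈ Cfsg.Geo.tensorProductSubgroup a b e P) ↔ (r = 2 ∧ a = 2) := by
  subst hq
  obtain ⟨c, hc, hT⟩ := hS
  have nd := H62.bilinOf_nondegenerate hf₁.bilinear hf₁.nondegenerate
  have h : H62.SpO (H56.matTen e P) (c • H62.bilinOf hf₁.bilinear) (H62.bilinOf hf₂.bilinear)
      (H54.spB (Fin d) F) :=
    ⟨H62.two_ne_zero_of_odd hodd, ⟨fun x hx => nd.1 x fun y => by simpa [hc] using hx y,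
      fun x hx => nd.2 x fun y => by simpa [hc] using hx y⟩,
      fun x => by rw [LinearMap.smul_apply, LinearMap.smul_apply,
        show H62.bilinOf hf₁.bilinear x x = 0 from hf₁.alternating x, smul_zero],
      H62.bilinOf_nondegenerate hf₂.bilinear hf₂.nondegenerate, hf₂.symm, H54.spB_nondegenerate,
      H54.spB_isAlt, fun x x' y y' => by
        rw [H56.matTen_t, H56.matTen_t, ← H54.sympForm_eq, hT, H62.formOfGram_kronecker (by simp),
          H62.formOfGram_bilin hf₁.bilinear, H62.formOfGram_bilin hf₂.bilinear, ← mul_assoc]; rfl⟩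
  have hH : ∀ g ∈ spGL d F, g ∈ Geo.tensorProductSubgroup a b e P ↔
      H62.El.TP (H56.matTen e P) (Matrix.toLin' (g : Matrix (Fin d ⊕ Fin d) (Fin d ⊕ Fin d) F)) :=
    fun g _ => (H56.mem_tensorProductSubgroup_iff e P g).trans ⟨fun h => ⟨_, h, H62.toLE_coe g⟩,
      fun ⟨k, h1, h2⟩ => (LinearEquiv.toLinearMap_injective (h2.trans (H62.toLE_coe g).symm) ▸ h1 :)⟩
  rw [H62.El.gl_iff H62.El.mem_spGL (fun f hf => hf.isUnit (H53.isSF_spB _ F)) hH,
    H62.El.ten_main h (by simpa using ha2) (by simpa using hb) Fact.out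
      (hΩ.trans ((dvd_mul_right _ _).trans (H62.El.relIndex_mul_dvd H62.El.mem_spGL hH
        (T' := H59.isom _) (fun _ => Iff.rfl) (1 : Unit →* _) (fun _ _ _ => rfl)
        fun _ => ⟨H53.Inv.one, 1, one_mem _, rfl⟩)))]
  simp

end Cfsg.Agent.S5980
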