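import Cfsg.Statements.S5983
import Cfsg.Agent.Base
import Cfsg.Agent.H62.ElK0

set_option autoImplicit false
open scoped MatrixGroups
open Cfsg

namespace Cfsg.Agent.S5983

/-- Elements of prime order of PSp_n(q), q even, and the subgroups of orthogonal type. Here `T = Sp_{2d}(F)` for a field `F` of characteristic 2 with `q` elements (`d ≥ 2`, `(d, q) ≠ (2, 2)`), realised as the invertible matrices preserving the standard alternating form; `Q` is a non-degenerate quadratic form on `F^{2d}` whose polar form is that alternating form, and `H` is the subgroup of `T` preserving `Q` up to a scalar (equivalently preserving `Q`) — a subgroup of type O^±_{2d}(q) (maximality is not assumed); `Q` is of plus type when `F^{2d}` contains a `d`-dimensional subspace on which `Q` vanishes, of minus type otherwise. Ω is the set of cosets of `H` in `T`, so an element of `T` of prime order `r` (`x ∈ T` with `x^r` scalar, `x` not scalar) fixes a point of Ω exactly when some `T`-conjugate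 of `x` preserves `Q`. Let `r` be a prime dividing the index of `H`. Then every element of `T` of order `r` fixes a point of Ω if and only if `r = 2` and either `Q` is of plus type or `d` is odd. -/
theorem result {F : Type*} [Field F] [Fintype F] {p : ℕ} [Fact p.Prime] [CharP F p] {q : ℕ} (hq : Fintype.card F = q)
    (hp : p = 2) (d : ℕ) (hd : 2 ≤ d) (hT : (d, q) ≠ (2, 2)) (Q : (Fin d ⊕ Fin d → F) → F) (hQ : Cfsg.Geo.IsNondegenerateQuadraticForm Q)
    (hQf : ∀ u v, QuadraticMap.polar Q u v = Cfsg.sympForm d F u v)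
    (r : ℕ) [Fact r.Prime]
    (hΩ : r ∣ (Cfsg.Geo.quadSimilarityGroup Q).relIndex (Cfsg.spGL d F)) :
    (∀ x ∈ Cfsg.spGL d F, (∃ z : F, ((x ^ r : GL (Fin d ⊕ Fin d) F) : Matrix (Fin d ⊕ Fin d) (Fin d ⊕ Fin d) F) = z • (1 : Matrix (Fin d ⊕ Fin d) (Fin d ⊕ Fin d) F)) →
      (∀ z : F, (x : Matrix (Fin d ⊕ Fin d) (Fin d ⊕ Fin d) F) ≠ z • (1 : Matrix (Fin d ⊕ Fin d) (Fin d ⊕ Fin d) F)) →
      ∃ g ∈ Cfsg.spGL d F, g⁻¹ * x * g ∈ Cfsg.Geo.quadSimilarityGroup Q) ↔
    (r = 2 ∧ (Cfsg.Geo.IsPlusTypeOn Q ⊤ ∨ Odd d)) := by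
  have hr : r.Prime := Fact.out
  subst hp
  have h2 : (2 : F) = 0 := CharTwo.two_eq_zero
  obtain ⟨Q, rfl, hN⟩ := H60.exists_quadraticForm hQ
  have hB : H54.spB (Fin d) F = Q.polarBilin := by
    refine LinearMap.ext₂ fun u v => ?_
    rw [← H54.sympForm_eq, ← hQf]; rfl
  have hn : Module.finrank F (Fin d ⊕ Fin d → F) = 2 * d := by simp [two_mul]
  have : Nontrivial (Fin d ⊕ Fin d → F) := Module.nontrivial_of_finrank_pos (R := F) (by omega)
  have h1 := fun g => hB ▸ H62.El.mem_spGL (F := F) (d := d) g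
  have h3 : ∀ g ∈ spGL d F, g ∈ Geo.quadSimilarityGroup Q ↔
      H53.QInv Q (Matrix.toLin' (g : Matrix (Fin d ⊕ Fin d) (Fin d ⊕ Fin d) F)) := by
    refine fun g hg => ⟨fun ⟨c, hc⟩ v => ?_, fun h => ⟨1, fun v => by simpa using h v⟩⟩
    obtain ⟨x, hx⟩ := exists_ne (0 : Fin d ⊕ Fin d → F)
    obtain ⟨y, hy⟩ := not_forall.1 fun h => hx (hN.1 x h)
    have := (h1 g).1 hg x y
    simp only [QuadraticMap.polarBilin_apply_apply, QuadraticMap.polar, Matrix.toLin'_apply,
      ← Matrix.mulVec_add, hc, ← mul_sub] at this hy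
    rw [Matrix.toLin'_apply, hc, mul_right_cancel₀ hy (this.trans (one_mul _).symm), one_mul]
  rw [H62.El.gl_iff h1 (fun f hf => hf.isUnit (H53.isSF_polar hN)) h3, H58.plusOn_iff, H58.pl_top]
  by_cases h4 : r = 2
  · subst h4
    rw [H62.El.quad_two h2 hN hn (by omega)]
    simp
  · obtain ⟨d, rfl⟩ : ∃ e, d = e + 1 := ⟨d - 1, by omega⟩
    refine iff_of_false (H62.El.quad_odd h2 hN hn hr h4 hΩ ?_) (by simp [h4])
    rw [← H62.El.card_isom_spB, hB]
    exact H62.El.relIndex_mul_dvd h1 h3 (fun _ => Iff.rfl) (H56.OG Q).subtype Subtype.val_injective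
      fun g => ⟨H53.QInv.inv g.2, g.2⟩

end Cfsg.Agent.S5983
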