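import Cfsg.Statements.S5984
import Cfsg.Agent.Base
import Cfsg.Agent.H62.ElK1

set_option autoImplicit false
open scoped MatrixGroups
open Cfsg

namespace Cfsg.Agent.S5984

/-- Elements of prime order of PSU_n(q) and the stabilizers of pairs of complementary totally singular subspaces. Here `T = PSU_n(q)` is realised through `SU_n(q)`, the matrices of determinant 1 over the field `F` with `q²` elements preserving the hermitian form `Σ uᵢ vᵢ^q`, with `n ≥ 4` even; `D` is a pair of complementary subspaces of dimension `n/2` on each of which the form vanishes identically, and `H` is the subgroup of `SU_n(q)` fixing or interchanging the two members — a subgroup of type GL_{n/2}(q²).2 (maximality is not assumed). Ω is the set of cosets of `H`, so an element of `T` of prime order `r` (`x ∈ SU_n(q)` with `x^r` scalar, `x` not scalar) fixes a point of Ω exactly when some `SU_n(q)`-conjugate of `x` lies in `H`. Let `r` be a prime dividing the index of `H`. Then every element of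 `T` of order `r` fixes a point of Ω if and only if `r = 2`, `q` is odd and `(q + 1)_2 ≤ (n)_2` (2-parts). -/
theorem result {F : Type*} [Field F] [Fintype F] {p : ℕ} [Fact p.Prime] [CharP F p] {q : ℕ} (hq : Fintype.card F = q ^ 2)
    (n : ℕ) (hn : 4 ≤ n) (he : Even n) (D : Fin 2 → Submodule F (Fin n → F)) (hD : Cfsg.Geo.IsMDecomposition (n / 2) D)
    (hDs : ∀ i, Cfsg.Geo.IsTotallySingularFor (Cfsg.hermForm n F q) (D i))
    (r : ℕ) [Fact r.Prime]
    (hΩ : r ∣ (Cfsg.Geo.decompositionStabilizer D).relIndex (Cfsg.GU n F q ⊓ Cfsg.Geo.specialLinear (Fin n) F)) :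
    (∀ x ∈ Cfsg.GU n F q ⊓ Cfsg.Geo.specialLinear (Fin n) F, (∃ z : F, ((x ^ r : GL (Fin n) F) : Matrix (Fin n) (Fin n) F) = z • (1 : Matrix (Fin n) (Fin n) F)) →
      (∀ z : F, (x : Matrix (Fin n) (Fin n) F) ≠ z • (1 : Matrix (Fin n) (Fin n) F)) →
      ∃ g ∈ Cfsg.GU n F q ⊓ Cfsg.Geo.specialLinear (Fin n) F, g⁻¹ * x * g ∈ Cfsg.Geo.decompositionStabilizer D) ↔
    (r = 2 ∧ Odd q ∧ padicValNat 2 (q + 1) ≤ padicValNat 2 n) := by
  have hr : r.Prime := Fact.out
  have hB := H53.isSF_uForm hq n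
  have hP : H62.El.Pr (H59.uForm hq n) (D 0) (D 1) := by
    refine ⟨⟨hD.indep.pairwiseDisjoint Fin.zero_ne_one, codisjoint_iff.2 ?_⟩, H58.ti_iff.2 fun u hu v hv => ?_,
      H58.ti_iff.2 fun u hu v hv => ?_⟩
    · exact top_le_iff.1 (hD.iSup_eq_top.ge.trans
        (iSup_le (Fin.forall_fin_two.2 ⟨le_sup_left, le_sup_right⟩)))
    · rw [← H59.hermForm_eq]; exact hDs 0 v hv u hu
    · rw [← H59.hermForm_eq]; exact hDs 1 v hv u hu
  have h2 : 2 ≤ Module.finrank F (D 0) := by rw [hD.finrank_eq]; omega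
  have hH : ∀ g : GL (Fin n) F, g ∈ Geo.decompositionStabilizer D ↔
      H62.El.SP (D 0) (D 1) (Matrix.toLin' (g : Matrix (Fin n) (Fin n) F)) := fun g => by
    constructor
    · rintro ⟨s, hs⟩
      have h1 := hs 0
      have h3 := hs 1
      have h4 : ∀ s : Equiv.Perm (Fin 2), (s 0 = 0 ∧ s 1 = 1) ∨ (s 0 = 1 ∧ s 1 = 0) := by decide
      rcases h4 s with h | h <;> rw [h.1] at h1 <;> rw [h.2] at h3
      exacts [.inl ⟨h1, h3⟩, .inr ⟨h1, h3⟩]
    · rintro (h | h)
      · exact ⟨1, Fin.forall_fin_two.2 h⟩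
      · exact ⟨Equiv.swap 0 1, Fin.forall_fin_two.2 h⟩
  rw [H62.El.gl_iff (I := H62.El.SU (H59.uForm hq n)) (fun g => and_congr (H53.mem_GU_iff_inv hq g)
    (by rw [LinearMap.det_toLin']; exact Units.ext_iff)) (fun f hf => hf.1.isUnit hB) fun g _ => hH g]
  by_cases h0 : r = p
  · subst h0
    refine iff_of_false (H62.El.u_pair_char r hB hP h2) ?_
    rintro ⟨rfl, h3, -⟩
    have := FiniteField.even_card_of_char_two (ringChar.eq F 2)
    have := Nat.odd_iff.1 (h3.pow (n := 2))
    omega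
  have h1 := H53.natCast_ne_zero_of_prime_ne (F := F) p hr h0
  by_cases h3 : r = 2
  · subst h3
    rw [H62.El.u_pair_two hB hP h2 h1]
    simp [H58.odd_of_two_ne hq h1]
  · have : (Geo.specialLinear (Fin n) F).Normal := MonoidHom.normal_ker _
    refine iff_of_false (H62.El.u_pair_odd hB hP h2 hr h3 h1
      (hΩ.trans (H62.El.relIndex_inf_dvd _ _ _)) ?_) (by simp [h3])
    exact H62.El.relIndex_mul_dvd (H53.mem_GU_iff_inv hq) (fun g _ => hH g) (fun _ => Iff.rfl)
      (Subgroup.subtype _) Subtype.val_injective fun g =>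
        ⟨g.2.1, .inl ⟨congrArg Prod.fst g.2.2, congrArg Prod.snd g.2.2⟩⟩

end Cfsg.Agent.S5984
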