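import Cfsg.Statements.S5985
import Cfsg.Agent.H58.ElCh3

set_option autoImplicit false
open scoped MatrixGroups
open Cfsg

namespace Cfsg.Agent.S5985

/-- Elements of prime order of Ω⁺_n(q), q even, with no fixed nonsingular 1-space. Here `T = PΩ⁺_n(F)`, `n = 2d ≥ 8`, realised through `Ω⁺_n(q)`, the commutator subgroup of the isometry group of `Q = Σ xᵢyᵢ` over the field `F` with `q` elements; an element of `T` of prime order `r` is an element `x` of `Ω⁺_n(q)` with `x^r` scalar and `x` not scalar; `q` is even (so the centre is trivial). Let Ω be the set of 1-dimensional subspaces spanned by a vector `v` with `Q(v) ≠ 0`, and let `r` be a prime dividing their number. Then every element of `T` of order `r` fixes some nonsingular 1-space if and only if `r = 2` and `n ≡ 2 (mod 4)` (that is, `d` is odd). -/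
theorem result {F : Type*} [Field F] [Fintype F] {p : ℕ} [Fact p.Prime] [CharP F p] {q : ℕ} (hq : Fintype.card F = q)
    (hp : p = 2) (d : ℕ) (hd : 4 ≤ d) (r : ℕ) [Fact r.Prime]
    (hrΩ : r ∣ Nat.card {W : Submodule F (Fin d ⊕ Fin d → F) // Module.finrank F ↥W = 1 ∧ ∃ v ∈ W, Cfsg.quadFormPlus d F v ≠ 0}) :
    (∀ x : GL (Fin d ⊕ Fin d) F, x ∈ Cfsg.Geo.omegaGL (Cfsg.quadFormPlus d F) →
      (∃ z : F, ((x ^ r : GL (Fin d ⊕ Fin d) F) : Matrix (Fin d ⊕ Fin d) (Fin d ⊕ Fin d) F) = z • (1 : Matrix (Fin d ⊕ Fin d) (Fin d ⊕ Fin d) F)) →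
      (∀ z : F, (x : Matrix (Fin d ⊕ Fin d) (Fin d ⊕ Fin d) F) ≠ z • (1 : Matrix (Fin d ⊕ Fin d) (Fin d ⊕ Fin d) F)) →
      ∃ W : Submodule F (Fin d ⊕ Fin d → F), (Module.finrank F ↥W = 1 ∧ ∃ v ∈ W, Cfsg.quadFormPlus d F v ≠ 0) ∧ W.map (Matrix.toLin' (x : Matrix (Fin d ⊕ Fin d) (Fin d ⊕ Fin d) F)) ≤ W) ↔ (r = 2 ∧ Odd d) := by
  have hr : r.Prime := Fact.out
  subst hp
  have h2 : (2 : F) = 0 := CharTwo.two_eq_zero
  have hQ := H58.qPlus_nondeg d F
  have hn : Module.finrank F (Fin d ⊕ Fin d → F) = 2 * d := by simp [two_mul]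
  have : Nontrivial (Fin d ⊕ Fin d → F) := Module.nontrivial_of_finrank_pos (R := F) (by omega)
  have hP := H58.isPlus_qPlus (F := F) d
  have hE : ¬ H56.IsExc (H58.qPlus d F) := H56.not_isExc_of_finrank (by omega)
  simp only [← H58.st_iff_map]
  rw [H58.pomega_forall_iff (H58.coe_qPlus d F) fun f => ∃ W : Submodule F _,
    (Module.finrank F W = 1 ∧ ∃ v ∈ W, quadFormPlus d F v ≠ 0) ∧ H58.St f W]
  simp only [← H58.coe_qPlus] at hrΩ ⊢
  by_cases h3 : r = 2
  · subst h3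
    rw [H58.forall_inOm_iff fun f => (∃ z : F, f ^ 2 = z • 1) → (∀ z : F, f ≠ z • 1) →
      ∃ W : Submodule F _, (Module.finrank F W = 1 ∧ ∃ v ∈ W, H58.qPlus d F v ≠ 0) ∧ H58.St f W,
      H58.nonsing_char_two h2 hQ hE hn (by omega)]
    simp [hP]
  · rw [H58.pomega_odd_iff hQ hE (hr.odd_of_ne_two h3) (fun f => ∃ W : Submodule F _,
      (Module.finrank F W = 1 ∧ ∃ v ∈ W, H58.qPlus d F v ≠ 0) ∧ H58.St f W)
      fun f ⟨W, h1, h3⟩ => ⟨W, h1, H58.st_neg_iff.1 h3⟩]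
    exact iff_of_false (H58.nonsing_odd h2 hQ hr h3 (d := d - 1) (by omega) hrΩ) (by simp [h3])

end Cfsg.Agent.S5985
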