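import Cfsg.Statements.S5988
import Cfsg.Agent.H58.ElBr

set_option autoImplicit false
open scoped MatrixGroups
open Cfsg

namespace Cfsg.Agent.S5988

/-- Elements of prime order of PΩ⁺_n(q) with no fixed elliptic `m`-space. Here `T = PΩ⁺_n(F)`, `n = 2d ≥ 8`, realised through `Ω⁺_n(q)`, the commutator subgroup of the isometry group of `Q = Σ xᵢyᵢ` over the field `F` with `q` elements; an element of `T` of prime order `r` is an element `x` of `Ω⁺_n(q)` with `x^r` scalar and `x` not scalar; a nondegenerate `m`-space (even `m`) is a subspace on which the polar form of `Q` is nondegenerate; it is hyperbolic if it contains an `m/2`-dimensional subspace on which `Q` vanishes, elliptic otherwise. Let `m` be even with `2 ≤ m < n/2` and let `r` be a prime dividing the number of elliptic `m`-spaces; for `r ≠ p` let `i` be the multiplicative order of `q` modulo `r`, `c = i` for `i` even and `c = 2i` for `i` odd, and write `k = n mod c`, `ℓ =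 m mod i`, `ℓ' = m mod c`, `n' = ⌊n/i⌋`, `m' = ⌊m/i⌋`, `t = (r−1)/i`. Then every element of `T` of order `r` fixes some elliptic `m`-space if and only if one of: (i) `r = 2 ≠ p` and either `n ≡ 0 (mod 4)`, `q ≡ 3 (mod 4)` and `m ≡ 2 (mod 4)`, or `n ≡ 2 (mod 4)` and `q ≢ 1 (mod 8)`; (ii) `r ≠ p` odd, `i` odd, `c ≤ m` and `k > ℓ' > 0`; (iii) `r ≠ p` odd, `i` even, and either `k = 0` and (`n/i` odd, or `ℓ' = 0` and `m/i` odd), or `i ≤ m` and (`k > ℓ' > 0`, or `k = ℓ' > 0` and `(n + m − 2k)/i` odd, or `k > ℓ' = 0` and `m/i` odd). (For `r = p` there is always an element of order `p` fixing no elliptic `m`-space.) -/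
theorem result {F : Type*} [Field F] [Fintype F] {p : ℕ} [Fact p.Prime] [CharP F p] {q : ℕ} (hq : Fintype.card F = q)
    (d m : ℕ) (hd : 4 ≤ d) (hm : 2 ≤ m) (hme : Even m) (hmd : m < d)
    (r : ℕ) [Fact r.Prime]
    (hrΩ : r ∣ Nat.card {W : Submodule F (Fin d ⊕ Fin d → F) // Module.finrank F ↥W = m ∧ Cfsg.Geo.IsNondegenerateOn (QuadraticMap.polar (Cfsg.quadFormPlus d F)) W ∧ ¬ Cfsg.Geo.IsPlusTypeOn (Cfsg.quadFormPlus d F) W})
    (i c : ℕ) (hi : i = orderOf (q : ZMod r)) (hc : c = if Even i then i else 2 * i) :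
    (∀ x : GL (Fin d ⊕ Fin d) F, x ∈ Cfsg.Geo.omegaGL (Cfsg.quadFormPlus d F) →
      (∃ z : F, ((x ^ r : GL (Fin d ⊕ Fin d) F) : Matrix (Fin d ⊕ Fin d) (Fin d ⊕ Fin d) F) = z • (1 : Matrix (Fin d ⊕ Fin d) (Fin d ⊕ Fin d) F)) →
      (∀ z : F, (x : Matrix (Fin d ⊕ Fin d) (Fin d ⊕ Fin d) F) ≠ z • (1 : Matrix (Fin d ⊕ Fin d) (Fin d ⊕ Fin d) F)) →
      ∃ W : Submodule F (Fin d ⊕ Fin d → F), (Module.finrank F ↥W = m ∧ Cfsg.Geo.IsNondegenerateOn (QuadraticMap.polar (Cfsg.quadFormPlus d F)) W ∧ ¬ Cfsg.Geo.IsPlusTypeOn (Cfsg.quadFormPlus d F) W) ∧ W.map (Matrix.toLin' (x : Matrix (Fin d ⊕ Fin d) (Fin d ⊕ Fin d) F)) ≤ W) ↔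
    ((r = 2 ∧ p ≠ 2 ∧ ((Even d ∧ q % 4 = 3 ∧ m % 4 = 2) ∨ (Odd d ∧ q % 8 ≠ 1))) ∨
     (r ≠ p ∧ 2 < r ∧ Odd i ∧ c ≤ m ∧ 0 < m % c ∧ m % c < (2 * d) % c) ∨
     (r ≠ p ∧ 2 < r ∧ Even i ∧
       (((2 * d) % c = 0 ∧ (Odd ((2 * d) / i) ∨ (m % c = 0 ∧ Odd (m / i)))) ∨
        (i ≤ m ∧ ((0 < m % c ∧ m % c < (2 * d) % c) ∨
                  (0 < m % c ∧ m % c = (2 * d) % c ∧ Odd ((2 * d + m - 2 * ((2 * d) % c)) / i)) ∨
                  (m % c = 0 ∧ 0 < (2 * d) % c ∧ Odd (m / i))))))) := by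
  have hq' : Nat.card F = q := by rw [Nat.card_eq_fintype_card, hq]
  have hr : r.Prime := Fact.out
  have hQ := H58.qPlus_nondeg d F
  have hn : Module.finrank F (Fin d ⊕ Fin d → F) = 2 * d := by simp [two_mul]
  have : Nontrivial (Fin d ⊕ Fin d → F) := Module.nontrivial_of_finrank_pos (R := F) (by omega)
  have hP := H58.isPlus_qPlus (F := F) d
  have hE : ¬ H56.IsExc (H58.qPlus d F) := H56.not_isExc_of_finrank (by omega)
  obtain ⟨A, hA, hm', hη, hiff⟩ := H58.exists_model_minus hQ (m := m) (by omega) (by omega) hme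
  simp only [← H58.st_iff_map]
  rw [H58.pomega_forall_iff (H58.coe_qPlus d F) fun f => ∃ W : Submodule F _,
    (Module.finrank F W = m ∧ Geo.IsNondegenerateOn (QuadraticMap.polar (quadFormPlus d F)) W ∧
      ¬ Geo.IsPlusTypeOn (quadFormPlus d F) W) ∧ H58.St f W]
  simp only [← H58.coe_qPlus, H58.nondegOn_iff hQ, H58.plusOn_iff, hiff] at hrΩ ⊢
  by_cases hrp : r = p
  · subst hrp
    refine iff_of_false (fun H => ?_) (by simp +contextual)
    obtain ⟨W, h1, a, b, h2, ⟨h3, h4⟩, h5, h6⟩ := (H58.allFix_of_pomega H).atype r hQ hE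
      (fun W h => h.nd hQ hA) (k := d / 2) (by omega) (by omega) fun _ => hP
    obtain ⟨h7, h8, h9⟩ := (hiff W).2 h1
    have h10 := (H53.isSF_polar hQ).finrank_add_finrank_perp W
    have h11 := (H58.isPlus_iff_perp hQ h8 (h7 ▸ hme) (hn ▸ even_two_mul d)).1 hP
    rw [Nat.even_iff] at hme
    have h12 := mt h4 h9
    exact h9 (h11.2 (h6 (by omega)))
  have h0 := H53.natCast_ne_zero_of_prime_ne (F := F) p hr hrp
  by_cases h3 : r = 2
  · subst h3
    have h2 : (2 : F) ≠ 0 := by simpa using h0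
    have h4 := H58.card_mod_four h2
    rw [H58.forall_inOm_iff fun f => (∃ z : F, f ^ 2 = z • 1) → (∀ z : F, f ≠ z • 1) →
      ∃ W, H58.QIsom _ W A ∧ H58.St f W, H58.o_nd_two_even h2 hQ hA hm' (by omega) hn (by omega)]
    simp only [hq', hP, hη, Ne.symm hrp, Nat.even_iff, Nat.odd_iff, ne_eq, not_false_iff,
      true_iff, false_iff, false_and, lt_irrefl, and_false, or_false, true_and] at h4 hme ⊢
    omega
  · rw [H58.pomega_odd_iff hQ hE (hr.odd_of_ne_two h3)
      (fun f => ∃ W, H58.QIsom _ W A ∧ H58.St f W)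
      fun f ⟨W, h1, h3⟩ => ⟨W, h1, H58.st_neg_iff.1 h3⟩,
      H58.o_nd_even_odd hQ hA hm' (by omega) (by omega) hme hr h3 h0 hrΩ (hq' ▸ hi) hc, hn]
    have h6 : 2 < r := lt_of_le_of_ne hr.two_le (Ne.symm h3)
    have h8 := H58.blk_pos (hi ▸ hq' ▸ H53.orderOf_card_pos h0) hc
    by_cases h7 : Even i
    · rw [if_pos h7] at hc
      subst hc
      have h9 := H58.even_add_div_iff (n := 2 * d) (m := m) h8
      have h10 := Nat.div_add_mod m c
      have h11 : m % c = 0 → c ≤ m := fun h => Nat.le_of_dvd (by omega) (Nat.dvd_of_mod_eq_zero h)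
      simp only [hη, hP, h7, h3, h6, hrp, ← Nat.not_even_iff_odd, forall_const, false_iff, true_iff,
        not_true, false_and, false_or, true_and, ne_eq, not_false_iff]
      simp only [Nat.even_iff] at h9 ⊢
      omega
    · simp only [hη, hP, h7, h3, h6, hrp, ← Nat.not_even_iff_odd, false_imp_iff, false_iff,
        not_false_iff, false_and, false_or, true_and, or_false, not_true, ne_eq, imp_false,
        iff_self, and_false]
      omega

end Cfsg.Agent.S5988
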