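import Cfsg.Statements.S5989
import Cfsg.Agent.H58.ElBr

set_option autoImplicit false
open scoped MatrixGroups
open Cfsg

namespace Cfsg.Agent.S5989

/-- Elements of prime order of PΩ⁺_n(q), q odd, with no fixed nondegenerate `m`-space of odd dimension. Here `T = PΩ⁺_n(F)`, `n = 2d ≥ 8`, realised through `Ω⁺_n(q)`, the commutator subgroup of the isometry group of `Q = Σ xᵢyᵢ` over the field `F` with `q` elements; an element of `T` of prime order `r` is an element `x` of `Ω⁺_n(q)` with `x^r` scalar and `x` not scalar; `q` and `m` are odd, `1 ≤ m < n/2`. The nondegenerate `m`-spaces (subspaces on which the polar form is nondegenerate) fall into two isometry classes, each an orbit of `T`, and the two actions are equivalent; fix one such space `W₀` and let Ω be the set of nondegenerate `m`-spaces isometric to `W₀` (some linear isomorphism preserves `Q`). Let `r` be a prime dividing the size of Ω; for `r ≠ p` let `i` be the multiplicative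 order of `q` modulo `r`, `c = i` for `i` even and `c = 2i` for `i` odd, and write `k = n mod c`, `ℓ = m mod i`, `ℓ' = m mod c`, `n' = ⌊n/i⌋`, `m' = ⌊m/i⌋`, `t = (r−1)/i`. Then every element of `T` of order `r` fixes a member of Ω if and only if one of: (i) `r = 2`, `n ≡ 2 (mod 4)` and `q ≢ 1 (mod 8)`; (ii) `r ≠ p` odd, `i` odd, `c ≤ m` and `k > ℓ' > 0`; (iii) `r ≠ p` odd, `i` even, and either `k = 0` and `n/i` odd, or `i ≤ m` and `k > ℓ' > 0`. (For `r = p` there is always an element of order `p` fixing no member of Ω.) -/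
theorem result {F : Type*} [Field F] [Fintype F] {p : ℕ} [Fact p.Prime] [CharP F p] {q : ℕ} (hq : Fintype.card F = q)
    (hodd : Odd q) (d m : ℕ) (hd : 4 ≤ d) (hm : Odd m) (hmd : m < d)
    (W₀ : Submodule F (Fin d ⊕ Fin d → F)) (hW₀ : Module.finrank F ↥W₀ = m ∧ Cfsg.Geo.IsNondegenerateOn (QuadraticMap.polar (Cfsg.quadFormPlus d F)) W₀)
    (r : ℕ) [Fact r.Prime]
    (hrΩ : r ∣ Nat.card {W : Submodule F (Fin d ⊕ Fin d → F) // Module.finrank F ↥W = m ∧ Cfsg.Geo.IsNondegenerateOn (QuadraticMap.polar (Cfsg.quadFormPlus d F)) W ∧ Cfsg.Geo.AreIsometricFor (Cfsg.quadFormPlus d F) W W₀})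
    (i c : ℕ) (hi : i = orderOf (q : ZMod r)) (hc : c = if Even i then i else 2 * i) :
    (∀ x : GL (Fin d ⊕ Fin d) F, x ∈ Cfsg.Geo.omegaGL (Cfsg.quadFormPlus d F) →
      (∃ z : F, ((x ^ r : GL (Fin d ⊕ Fin d) F) : Matrix (Fin d ⊕ Fin d) (Fin d ⊕ Fin d) F) = z • (1 : Matrix (Fin d ⊕ Fin d) (Fin d ⊕ Fin d) F)) →
      (∀ z : F, (x : Matrix (Fin d ⊕ Fin d) (Fin d ⊕ Fin d) F) ≠ z • (1 : Matrix (Fin d ⊕ Fin d) (Fin d ⊕ Fin d) F)) →
      ∃ W : Submodule F (Fin d ⊕ Fin d → F), (Module.finrank F ↥W = m ∧ Cfsg.Geo.IsNondegenerateOn (QuadraticMap.polar (Cfsg.quadFormPlus d F)) W ∧ Cfsg.Geo.AreIsometricFor (Cfsg.quadFormPlus d F) W W₀) ∧ W.map (Matrix.toLin' (x : Matrix (Fin d ⊕ Fin d) (Fin d ⊕ Fin d) F)) ≤ W) ↔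
    ((r = 2 ∧ Odd d ∧ q % 8 ≠ 1) ∨
     (r ≠ p ∧ 2 < r ∧ Odd i ∧ c ≤ m ∧ 0 < m % c ∧ m % c < (2 * d) % c) ∨
     (r ≠ p ∧ 2 < r ∧ Even i ∧ (((2 * d) % c = 0 ∧ Odd ((2 * d) / i)) ∨ (i ≤ m ∧ 0 < m % c ∧ m % c < (2 * d) % c)))) := by
  have hq' : Nat.card F = q := by rw [Nat.card_eq_fintype_card, hq]
  have hr : r.Prime := Fact.out
  have h2 : (2 : F) ≠ 0 := H58.two_ne_zero_of_odd_card (hq ▸ hodd)
  have hQ := H58.qPlus_nondeg d F
  have hn : Module.finrank F (Fin d ⊕ Fin d → F) = 2 * d := by simp [two_mul]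
  have : Nontrivial (Fin d ⊕ Fin d → F) := Module.nontrivial_of_finrank_pos (R := F) (by omega)
  have hP := H58.isPlus_qPlus (F := F) d
  simp only [← H58.st_iff_map]
  rw [H58.pomega_forall_iff (H58.coe_qPlus d F) fun f => ∃ W : Submodule F _,
    (Module.finrank F W = m ∧ Geo.IsNondegenerateOn (QuadraticMap.polar (quadFormPlus d F)) W ∧
      Geo.AreIsometricFor (quadFormPlus d F) W W₀) ∧ H58.St f W]
  simp only [← H58.coe_qPlus, H58.nondegOn_iff hQ, H58.isomFor_iff] at hrΩ hW₀ ⊢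
  obtain ⟨hm', hA⟩ := hW₀
  simp only [H58.qisom_and_iff hQ hA hm'] at hrΩ ⊢
  by_cases hrp : r = p
  · subst hrp
    have := H58.three_le_char r h2
    exact iff_of_false (fun H => (H58.allFix_of_pomega H).not_qisom r h2 hQ hA hn (by omega)
      (hm' ▸ hm)) (by simp; omega)
  have h0 := H53.natCast_ne_zero_of_prime_ne (F := F) p hr hrp
  by_cases h3 : r = 2
  · subst h3
    have h4 := H58.card_mod_four h2
    rw [H58.forall_inOm_iff fun f => (∃ z : F, f ^ 2 = z • 1) → (∀ z : F, f ≠ z • 1) →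
      ∃ W, H58.QIsom _ W W₀ ∧ H58.St f W, H58.o_nd_two_even h2 hQ hA hm' hm.pos hn (by omega)]
    simp only [hq', hP, Nat.not_even_iff_odd.2 hm, Nat.even_iff (n := d), Nat.odd_iff (n := d),
      true_iff, false_and, lt_irrefl, and_false, or_false, true_and, imp_false] at h4 ⊢
    omega
  · rw [H58.pomega_odd_iff hQ (H56.not_isExc_of_two_ne h2) (hr.odd_of_ne_two h3)
      (fun f => ∃ W, H58.QIsom _ W W₀ ∧ H58.St f W)
      fun f ⟨W, h1, h3⟩ => ⟨W, h1, H58.st_neg_iff.1 h3⟩,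
      H58.o_nd_odd_odd hQ hA hm' (by omega) hm (hn ▸ even_two_mul d) hr h3 h0 hrΩ (hq' ▸ hi) hc, hn]
    by_cases h4 : Even i <;>
      simp [h3, hrp, lt_of_le_of_ne hr.two_le (Ne.symm h3), hc, h4, hP, ← Nat.not_even_iff_odd]

end Cfsg.Agent.S5989
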