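import Cfsg.Statements.S5990
import Cfsg.Agent.H58.ElCh3

set_option autoImplicit false
open scoped MatrixGroups
open Cfsg

namespace Cfsg.Agent.S5990

/-- Elements of prime order of PΩ⁻_n(q) with no fixed elliptic `m`-space. Here `T = PΩ⁻_n(F)`, `n = 2d ≥ 8`, realised through `Ω⁻_n(q)`, the commutator subgroup of the isometry group of `Q = Σ_{i<d−1} xᵢyᵢ + z₁² + a z₁z₂ + b z₂²` with `z₁² + a z₁z₂ + b z₂²` anisotropic, over the field `F` with `q` elements; an element of `T` of prime order `r` is an element `x` of `Ω⁻_n(q)` with `x^r` scalar and `x` not scalar; a nondegenerate `m`-space (even `m`) is a subspace on which the polar form of `Q` is nondegenerate; it is hyperbolic if it contains an `m/2`-dimensional subspace on which `Q` vanishes, elliptic otherwise. Let `m` be even with `2 ≤ m ≤ n − 2` (no restriction `m < n/2`: fixing an elliptic `m`-space is the same as fixing its hyperbolic orthogonal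 complement) and let `r` be a prime dividing the number of elliptic `m`-spaces, with `r = 2` or `r ≠ p`; for `r ≠ p` let `i` be the multiplicative order of `q` modulo `r`, `c = i` for `i` even and `c = 2i` for `i` odd, and write `k = n mod c`, `ℓ = m mod i`, `ℓ' = m mod c`, `n' = ⌊n/i⌋`, `m' = ⌊m/i⌋`, `t = (r−1)/i`. Then every element of `T` of order `r` fixes some elliptic `m`-space if and only if one of: (i) `r = p = 2` and (`n ≡ 0 (mod 4)` or `m ≡ 2 (mod 4)`); (ii) `r = 2 ≠ p` and (`n ≡ 0 (mod 4)`, or `q ≢ 7 (mod 8)`, or `m ≡ 2 (mod 4)`); (iii) `r ≠ p` odd, `i` odd, and `k = 0` or (`c ≤ m` and `k ≥ ℓ' > 0`); (iv) `r ≠ p` odd, `i` even, and either `k = 0` and (`n/i` even, or `ℓ' = 0` and `m/i` odd), or `k > 0`, `i ≤ m` and (`k > ℓ' > 0`, or `ℓ' = 0` and `m/i` odd, or `k = ℓ'` and `(n + m − 2k)/i` even). (Odd `r = p` is not covered by this statement.) -/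
theorem result {F : Type*} [Field F] [Fintype F] {p : ℕ} [Fact p.Prime] [CharP F p] {q : ℕ} (hq : Fintype.card F = q)
    (d m : ℕ) (hd : 4 ≤ d) (hm : 2 ≤ m) (hme : Even m) (hmn : m + 2 ≤ 2 * d) (a b : F) (hab : ∀ x y : F, x ^ 2 + a * x * y + b * y ^ 2 = 0 → x = 0 ∧ y = 0)
    (r : ℕ) [Fact r.Prime] (hr : r = 2 ∨ r ≠ p)
    (hrΩ : r ∣ Nat.card {W : Submodule F ((Fin (d - 1) ⊕ Fin (d - 1)) ⊕ Fin 2 → F) // Module.finrank F ↥W = m ∧ Cfsg.Geo.IsNondegenerateOn (QuadraticMap.polar (Cfsg.quadFormMinus (d - 1) F a b)) W ∧ ¬ Cfsg.Geo.IsPlusTypeOn (Cfsg.quadFormMinus (d - 1) F a b) W})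
    (i c : ℕ) (hi : i = orderOf (q : ZMod r)) (hc : c = if Even i then i else 2 * i) :
    (∀ x : GL ((Fin (d - 1) ⊕ Fin (d - 1)) ⊕ Fin 2) F, x ∈ Cfsg.Geo.omegaGL (Cfsg.quadFormMinus (d - 1) F a b) →
      (∃ z : F, ((x ^ r : GL ((Fin (d - 1) ⊕ Fin (d - 1)) ⊕ Fin 2) F) : Matrix ((Fin (d - 1) ⊕ Fin (d - 1)) ⊕ Fin 2) ((Fin (d - 1) ⊕ Fin (d - 1)) ⊕ Fin 2) F) = z • (1 : Matrix ((Fin (d - 1) ⊕ Fin (d - 1)) ⊕ Fin 2) ((Fin (d - 1) ⊕ Fin (d - 1)) ⊕ Fin 2) F)) →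
      (∀ z : F, (x : Matrix ((Fin (d - 1) ⊕ Fin (d - 1)) ⊕ Fin 2) ((Fin (d - 1) ⊕ Fin (d - 1)) ⊕ Fin 2) F) ≠ z • (1 : Matrix ((Fin (d - 1) ⊕ Fin (d - 1)) ⊕ Fin 2) ((Fin (d - 1) ⊕ Fin (d - 1)) ⊕ Fin 2) F)) →
      ∃ W : Submodule F ((Fin (d - 1) ⊕ Fin (d - 1)) ⊕ Fin 2 → F), (Module.finrank F ↥W = m ∧ Cfsg.Geo.IsNondegenerateOn (QuadraticMap.polar (Cfsg.quadFormMinus (d - 1) F a b)) W ∧ ¬ Cfsg.Geo.IsPlusTypeOn (Cfsg.quadFormMinus (d - 1) F a b) W) ∧ W.map (Matrix.toLin' (x : Matrix ((Fin (d - 1) ⊕ Fin (d - 1)) ⊕ Fin 2) ((Fin (d - 1) ⊕ Fin (d - 1)) ⊕ Fin 2) F)) ≤ W) ↔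
    ((r = 2 ∧ p = 2 ∧ (Even d ∨ m % 4 = 2)) ∨
     (r = 2 ∧ p ≠ 2 ∧ (Even d ∨ q % 8 ≠ 7 ∨ m % 4 = 2)) ∨
     (r ≠ p ∧ 2 < r ∧ Odd i ∧ ((2 * d) % c = 0 ∨ (c ≤ m ∧ 0 < m % c ∧ m % c ≤ (2 * d) % c))) ∨
     (r ≠ p ∧ 2 < r ∧ Even i ∧
       (((2 * d) % c = 0 ∧ (Even ((2 * d) / i) ∨ (m % c = 0 ∧ Odd (m / i)))) ∨
        (0 < (2 * d) % c ∧ i ≤ m ∧ ((0 < m % c ∧ m % c < (2 * d) % c) ∨ (m % c = 0 ∧ Odd (m / i)) ∨
                                    (m % c = (2 * d) % c ∧ Even ((2 * d + m - 2 * ((2 * d) % c)) / i))))))) := by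
  have hq' : Nat.card F = q := by rw [Nat.card_eq_fintype_card, hq]
  have hr' : r.Prime := Fact.out
  have hQ := H58.qMinus_nondeg (d - 1) hab
  have hn : Module.finrank F ((Fin (d - 1) ⊕ Fin (d - 1)) ⊕ Fin 2 → F) = 2 * d := by simp; omega
  have : Nontrivial ((Fin (d - 1) ⊕ Fin (d - 1)) ⊕ Fin 2 → F) :=
    Module.nontrivial_of_finrank_pos (R := F) (by omega)
  have hP := H58.not_isPlus_qMinus (d - 1) hab
  have hE : ¬ H56.IsExc (H58.qMinus (d - 1) F a b) := H56.not_isExc_of_finrank (by omega)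
  obtain ⟨A, hA, hm', hη, hiff⟩ := H58.exists_model_minus hQ (m := m) (by omega) (by omega) hme
  simp only [← H58.st_iff_map]
  rw [H58.pomega_forall_iff (H58.coe_qMinus (d - 1) F a b) fun f => ∃ W : Submodule F _,
    (Module.finrank F W = m ∧
      Geo.IsNondegenerateOn (QuadraticMap.polar (quadFormMinus (d - 1) F a b)) W ∧
      ¬ Geo.IsPlusTypeOn (quadFormMinus (d - 1) F a b) W) ∧ H58.St f W]
  simp only [← H58.coe_qMinus, H58.nondegOn_iff hQ, H58.plusOn_iff] at hrΩ ⊢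
  by_cases hrp : r = p
  · subst hrp
    obtain rfl : r = 2 := by simpa using hr
    rw [H58.forall_inOm_iff fun f => (∃ z : F, f ^ 2 = z • 1) → (∀ z : F, f ≠ z • 1) →
      ∃ W : Submodule F _, (Module.finrank F W = m ∧ H58.ND _ W ∧ ¬ H58.Pl _ W) ∧ H58.St f W,
      H58.o_npl_char_two CharTwo.two_eq_zero hQ hE hP hn (by omega) hme hm (by omega)]
    simp
  simp only [hiff] at hrΩ ⊢
  have h0 := H53.natCast_ne_zero_of_prime_ne (F := F) p hr' hrp
  by_cases h3 : r = 2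
  · subst h3
    have h2 : (2 : F) ≠ 0 := by simpa using h0
    have h4 := H58.card_mod_four h2
    rw [H58.forall_inOm_iff fun f => (∃ z : F, f ^ 2 = z • 1) → (∀ z : F, f ≠ z • 1) →
      ∃ W, H58.QIsom _ W A ∧ H58.St f W, H58.o_nd_two_even h2 hQ hA hm' (by omega) hn (by omega)]
    simp only [hq', hP, hη, Ne.symm hrp, Nat.even_iff, ne_eq, not_false_iff,
      false_iff, false_and, lt_irrefl, and_false, or_false, true_and, false_or] at h4 hme ⊢
    omega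
  · rw [H58.pomega_odd_iff hQ hE (hr'.odd_of_ne_two h3)
      (fun f => ∃ W, H58.QIsom _ W A ∧ H58.St f W)
      fun f ⟨W, h1, h3⟩ => ⟨W, h1, H58.st_neg_iff.1 h3⟩,
      H58.o_nd_even_odd hQ hA hm' (by omega) (by omega) hme hr' h3 h0 hrΩ (hq' ▸ hi) hc, hn]
    have h6 : 2 < r := lt_of_le_of_ne hr'.two_le (Ne.symm h3)
    have h8 := H58.blk_pos (hi ▸ hq' ▸ H53.orderOf_card_pos h0) hc
    by_cases h7 : Even i
    · rw [if_pos h7] at hc
      subst hc
      have h9 := H58.even_add_div_iff (n := 2 * d) (m := m) h8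
      have h10 := Nat.div_add_mod m c
      have h11 : m % c = 0 → c ≤ m := fun h => Nat.le_of_dvd (by omega) (Nat.dvd_of_mod_eq_zero h)
      simp only [hη, hP, h7, h3, h6, hrp, ← Nat.not_even_iff_odd, forall_const, false_iff,
        not_true, false_and, false_or, true_and, ne_eq, not_false_iff]
      simp only [Nat.even_iff] at h9 ⊢
      omega
    · simp only [hη, hP, h7, h3, h6, hrp, ← Nat.not_even_iff_odd, false_imp_iff, false_iff,
        not_false_iff, false_and, false_or, true_and, or_false, not_true, ne_eq, imp_false,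
        iff_self, and_true, true_iff, implies_true]
      omega

end Cfsg.Agent.S5990
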