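import Cfsg.Statements.S5993
import Cfsg.Agent.H58.ElBr

set_option autoImplicit false
open scoped MatrixGroups
open Cfsg

namespace Cfsg.Agent.S5993

/-- Elements of prime order of Ω_n(q), nq odd, with no fixed elliptic `m`-space. Here `T = Ω_n(F)`, `n = 2d+1 ≥ 7`, `q` odd, realised as the commutator subgroup of the isometry group of `Q = x₀² + Σ xᵢyᵢ` over the field `F` with `q` elements (trivial centre, so its elements of prime order `r` are used directly); a nondegenerate `m`-space (even `m`) is a subspace on which the polar form of `Q` is nondegenerate; it is hyperbolic if it contains an `m/2`-dimensional subspace on which `Q` vanishes, elliptic otherwise. Let `m` be even with `2 ≤ m ≤ n − 1` (no restriction `m < n/2`) and let `r` be a prime dividing the number of elliptic `m`-spaces; for `r ≠ p` let `i` be the multiplicative order of `q` modulo `r`, `c = i` for `i` even and `c = 2i` for `i` odd, and write `k = n mod c`, `ℓ' = m mod c`. Then every element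 of `T` of order `r` fixes some elliptic `m`-space if and only if `r = 2`, or `r ≠ p` is odd and one of: (i) `i` odd, `c ≤ m` and `k > ℓ' > 0`; (ii) `i` even, `i ≤ m`, `k > ℓ'`, and `m/i` odd whenever `ℓ' = 0`. (For `r = p` there is always an element of order `p` fixing no elliptic `m`-space.) -/
theorem result {F : Type*} [Field F] [Fintype F] {p : ℕ} [Fact p.Prime] [CharP F p] {q : ℕ} (hq : Fintype.card F = q) (hqodd : Odd q)
    (d m : ℕ) (hd : 3 ≤ d) (hm : 2 ≤ m) (hme : Even m) (hmn : m ≤ 2 * d)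
    (r : ℕ) [Fact r.Prime]
    (hrΩ : r ∣ Nat.card {W : Submodule F (Unit ⊕ (Fin d ⊕ Fin d) → F) // Module.finrank F ↥W = m ∧ Cfsg.Geo.IsNondegenerateOn (QuadraticMap.polar (Cfsg.quadFormOdd d F)) W ∧ ¬ Cfsg.Geo.IsPlusTypeOn (Cfsg.quadFormOdd d F) W})
    (i c : ℕ) (hi : i = orderOf (q : ZMod r)) (hc : c = if Even i then i else 2 * i) :
    (∀ x : GL (Unit ⊕ (Fin d ⊕ Fin d)) F, x ∈ Cfsg.Geo.omegaGL (Cfsg.quadFormOdd d F) → orderOf x = r →
      ∃ W : Submodule F (Unit ⊕ (Fin d ⊕ Fin d) → F), (Module.finrank F ↥W = m ∧ Cfsg.Geo.IsNondegenerateOn (QuadraticMap.polar (Cfsg.quadFormOdd d F)) W ∧ ¬ Cfsg.Geo.IsPlusTypeOn (Cfsg.quadFormOdd d F) W) ∧ W.map (Matrix.toLin' (x : Matrix (Unit ⊕ (Fin d ⊕ Fin d)) (Unit ⊕ (Fin d ⊕ Fin d)) F)) ≤ W) ↔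
    (r = 2 ∨
     (r ≠ p ∧ 2 < r ∧ Odd i ∧ c ≤ m ∧ 0 < m % c ∧ m % c < (2 * d + 1) % c) ∨
     (r ≠ p ∧ 2 < r ∧ Even i ∧ i ≤ m ∧ m % c < (2 * d + 1) % c ∧ (0 < m % c ∨ Odd (m / i)))) := by
  have hq' : Nat.card F = q := by rw [Nat.card_eq_fintype_card, hq]
  have hr : r.Prime := Fact.out
  have h2 : (2 : F) ≠ 0 := H58.two_ne_zero_of_odd_card (hq ▸ hqodd)
  have hQ := H58.qOdd_nondeg d h2
  have hn : Module.finrank F (Unit ⊕ (Fin d ⊕ Fin d) → F) = 2 * d + 1 := by simp; omega
  have ho : Odd (Module.finrank F (Unit ⊕ (Fin d ⊕ Fin d) → F)) := hn ▸ odd_two_mul_add_one d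
  obtain ⟨A, hA, hm', hη, hiff⟩ := H58.exists_model_minus hQ (m := m) (by omega) (by omega) hme
  simp only [← H58.st_iff_map]
  rw [H58.omega_order_iff (H58.coe_qOdd d F) hr fun f => ∃ W : Submodule F _,
    (Module.finrank F W = m ∧ Geo.IsNondegenerateOn (QuadraticMap.polar (quadFormOdd d F)) W ∧
      ¬ Geo.IsPlusTypeOn (quadFormOdd d F) W) ∧ H58.St f W]
  simp only [← H58.coe_qOdd, H58.nondegOn_iff hQ, H58.plusOn_iff, hiff] at hrΩ ⊢
  by_cases hrp : r = p
  · subst hrp
    have := H58.three_le_char r h2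
    refine iff_of_false (fun H => ?_) (by simp; omega)
    obtain ⟨W, h3, h4, -⟩ := (H58.allFix_of_omega H).exists_pl_of_odd hQ hn (by omega)
      fun W h => ⟨((hiff W).2 h).1 ▸ hme, ((hiff W).2 h).2.1⟩
    exact ((hiff W).2 h3).2.2 h4
  have h0 := H53.natCast_ne_zero_of_prime_ne (F := F) p hr hrp
  by_cases h3 : r = 2
  · subst h3
    refine iff_of_true (fun g h4 h5 h6 => ?_) (Or.inl rfl)
    have h7 : H58.InOm _ g.lin := ⟨g, h4, rfl⟩
    exact H58.o_nd_invol h2 hQ hA (by omega) (by omega) _ h7 h5 h6 (h7.ne_neg_one hQ ho)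
  · rw [H58.omega_odd_iff hQ (H56.not_isExc_of_two_ne h2) (hr.odd_of_ne_two h3)
      fun f => ∃ W, H58.QIsom _ W A ∧ H58.St f W,
      H58.o_nd_even_odd hQ hA hm' (by omega) (by omega) hme hr h3 h0 hrΩ (hq' ▸ hi) hc, hn]
    have h4 := Nat.mod_mod_of_dvd (2 * d + 1) (H58.even_blk hc).two_dvd
    have h5 := Nat.mod_mod_of_dvd m (H58.even_blk hc).two_dvd
    have h6 : 2 < r := lt_of_le_of_ne hr.two_le (Ne.symm h3)
    rw [Nat.even_iff] at hme
    by_cases h7 : Even i
    · rw [if_pos h7] at hc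
      subst hc
      simp only [hη, h7, h3, h6, hrp, ← Nat.not_even_iff_odd, Nat.even_iff (n := m / c),
        forall_const, false_iff, not_true, false_and, false_or, true_and, ne_eq, not_false_iff]
      constructor
      · rintro (h | ⟨h8, h9, h10, -⟩) <;> omega
      · exact fun h => Or.inr ⟨h.1, by omega, by omega, by omega⟩
    · simp only [hη, h7, h3, h6, hrp, ← Nat.not_even_iff_odd, false_imp_iff, false_iff,
        not_false_iff, false_and, false_or, true_and, or_false, not_true, ne_eq, imp_false]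
      constructor
      · rintro (h | ⟨h8, h9, h10, -⟩) <;> omega
      · exact fun h => Or.inr ⟨h.1, by omega, by omega, by omega⟩

end Cfsg.Agent.S5993
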