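import Cfsg.Statements.S5994
import Cfsg.Agent.H58.ElBr

set_option autoImplicit false
open scoped MatrixGroups
open Cfsg

namespace Cfsg.Agent.S5994

/-- A necessary condition for every element of order p of PΩ⁻_n(q), q odd, to fix an elliptic `m`-space. Here `T = PΩ⁻_n(F)`, `n = 2d ≥ 8`, realised through `Ω⁻_n(q)`, the commutator subgroup of the isometry group of `Q = Σ_{i<d−1} xᵢyᵢ + z₁² + a z₁z₂ + b z₂²` with `z₁² + a z₁z₂ + b z₂²` anisotropic, over the field `F` with `q` elements; an element of `T` of prime order `r` is an element `x` of `Ω⁻_n(q)` with `x^r` scalar and `x` not scalar; `q` is odd; a nondegenerate `m`-space (even `m`) is a subspace on which the polar form of `Q` is nondegenerate; it is hyperbolic if it contains an `m/2`-dimensional subspace on which `Q` vanishes, elliptic otherwise. Let `m` be even with `2 ≤ m ≤ n − 2` and suppose `p` divides the number of elliptic `m`-spaces. If every element of `T` of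 order `p` fixes some elliptic `m`-space, then `n ≡ m (mod 4)` and every partition of `n` into parts of size at most `p` in which every even part has even multiplicity contains (as a sub-multiset) a partition of `m` in which every even part has even multiplicity. -/
theorem result {F : Type*} [Field F] [Fintype F] {p : ℕ} [Fact p.Prime] [CharP F p] {q : ℕ} (hq : Fintype.card F = q) (hqodd : Odd q)
    (d m : ℕ) (hd : 4 ≤ d) (hm : 2 ≤ m) (hme : Even m) (hmn : m + 2 ≤ 2 * d) (a b : F) (hab : ∀ x y : F, x ^ 2 + a * x * y + b * y ^ 2 = 0 → x = 0 ∧ y = 0)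
    (hpΩ : p ∣ Nat.card {W : Submodule F ((Fin (d - 1) ⊕ Fin (d - 1)) ⊕ Fin 2 → F) // Module.finrank F ↥W = m ∧ Cfsg.Geo.IsNondegenerateOn (QuadraticMap.polar (Cfsg.quadFormMinus (d - 1) F a b)) W ∧ ¬ Cfsg.Geo.IsPlusTypeOn (Cfsg.quadFormMinus (d - 1) F a b) W}) :
    (∀ x : GL ((Fin (d - 1) ⊕ Fin (d - 1)) ⊕ Fin 2) F, x ∈ Cfsg.Geo.omegaGL (Cfsg.quadFormMinus (d - 1) F a b) →
      (∃ z : F, ((x ^ p : GL ((Fin (d - 1) ⊕ Fin (d - 1)) ⊕ Fin 2) F) : Matrix ((Fin (d - 1) ⊕ Fin (d - 1)) ⊕ Fin 2) ((Fin (d - 1) ⊕ Fin (d - 1)) ⊕ Fin 2) F) = z • (1 : Matrix ((Fin (d - 1) ⊕ Fin (d - 1)) ⊕ Fin 2) ((Fin (d - 1) ⊕ Fin (d - 1)) ⊕ Fin 2) F)) →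
      (∀ z : F, (x : Matrix ((Fin (d - 1) ⊕ Fin (d - 1)) ⊕ Fin 2) ((Fin (d - 1) ⊕ Fin (d - 1)) ⊕ Fin 2) F) ≠ z • (1 : Matrix ((Fin (d - 1) ⊕ Fin (d - 1)) ⊕ Fin 2) ((Fin (d - 1) ⊕ Fin (d - 1)) ⊕ Fin 2) F)) →
      ∃ W : Submodule F ((Fin (d - 1) ⊕ Fin (d - 1)) ⊕ Fin 2 → F), (Module.finrank F ↥W = m ∧ Cfsg.Geo.IsNondegenerateOn (QuadraticMap.polar (Cfsg.quadFormMinus (d - 1) F a b)) W ∧ ¬ Cfsg.Geo.IsPlusTypeOn (Cfsg.quadFormMinus (d - 1) F a b) W) ∧ W.map (Matrix.toLin' (x : Matrix ((Fin (d - 1) ⊕ Fin (d - 1)) ⊕ Fin 2) ((Fin (d - 1) ⊕ Fin (d - 1)) ⊕ Fin 2) F)) ≤ W) →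
    ((2 * d) % 4 = m % 4 ∧ (∀ μ : Multiset ℕ, (∀ e ∈ μ, 0 < e ∧ e ≤ p) → (∀ e : ℕ, Even e → Even (μ.count e)) → μ.sum = 2 * d →
        ∃ ν : Multiset ℕ, ν ≤ μ ∧ ν.sum = m ∧ ∀ e : ℕ, Even e → Even (ν.count e))) := by
  have h2 : (2 : F) ≠ 0 := H58.two_ne_zero_of_odd_card (hq ▸ hqodd)
  have hQ := H58.qMinus_nondeg (d - 1) hab
  have hn : Module.finrank F ((Fin (d - 1) ⊕ Fin (d - 1)) ⊕ Fin 2 → F) = 2 * d := by simp; omega
  have hp := H58.odd_char' p h2
  simp only [← H58.st_iff_map]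
  rw [H58.pomega_forall_iff (H58.coe_qMinus (d - 1) F a b) fun f => ∃ W : Submodule F _,
    (Module.finrank F W = m ∧
      Geo.IsNondegenerateOn (QuadraticMap.polar (quadFormMinus (d - 1) F a b)) W ∧
      ¬ Geo.IsPlusTypeOn (quadFormMinus (d - 1) F a b) W) ∧ H58.St f W]
  simp only [← H58.coe_qMinus, H58.nondegOn_iff hQ, H58.plusOn_iff]
  intro H
  replace H := H58.allFix_of_pomega H
  have key := fun μ => H.exists_le p h2 hQ (μ := μ) (fun W h => ⟨h.1, h.2.1⟩) (by omega)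
  rw [hn] at key
  refine ⟨?_, fun μ h3 h4 h5 => ?_⟩
  · rw [Nat.even_iff] at hme
    rcases d.even_or_odd' with ⟨e, he | he⟩
    · obtain ⟨x, h3, y, -, z, h4, h5⟩ := H.three_parts p h2 hQ (fun W h => ⟨h.1, h.2.1⟩)
        (by omega) 1 (e - 1) 1 (by omega) (Or.inr two_pos)
      rcases (by omega : z = 0 ∨ z = 1) with rfl | rfl <;> omega
    · obtain ⟨W, ⟨h1, h3, h4⟩, x, y, h5, ⟨h6, h7⟩, h8, -⟩ := H.atype p hQ
        (H56.not_isExc_of_two_ne h2) (fun W h => h.2.1) (k := e) (by omega) (by omega) (by omega)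
      have h10 := (H53.isSF_polar hQ).finrank_add_finrank_perp W
      have h12 := mt h7 h4
      omega
  by_cases h6 : ∃ k ∈ μ, Odd k
  · exact key μ h3 h4 h5 (Or.inr (Or.inr h6))
  have h7 : ∀ k ∈ μ, k % 2 = 0 := fun k hk => Nat.even_iff.1
    (Nat.not_odd_iff_even.1 fun h => h6 ⟨k, hk, h⟩)
  obtain ⟨k, hk⟩ := Multiset.exists_mem_of_ne_zero (s := μ) (by rintro rfl; simp at h5; omega)
  obtain ⟨ρ, rfl⟩ := Multiset.le_iff_exists_add.1 (show Multiset.replicate 2 k ≤ μ from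
    Multiset.le_count_iff_replicate_le.1 (by
      have := Nat.even_iff.1 (h4 k (Nat.even_iff.2 (h7 k hk)))
      have := Multiset.count_pos.2 hk
      omega))
  have h8 := h7 k hk
  have h9 := h3 k hk
  rw [Nat.odd_iff] at hp
  have h10 : ∀ j ∈ ρ, j % 2 = 0 := fun j hj => h7 j (Multiset.mem_add.2 (Or.inr hj))
  obtain ⟨ν, h11, h12, h13⟩ := key (ρ + Multiset.replicate 1 (k + 1) + Multiset.replicate 1 (k - 1))
    (fun j hj => by
      simp only [Multiset.mem_add, Multiset.mem_replicate] at hj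
      rcases hj with (hj | hj) | hj
      exacts [h3 j (Multiset.mem_add.2 (Or.inr hj)), by omega, by omega])
    (fun j hj => by
      have := h4 j hj
      rw [Nat.even_iff] at hj this ⊢
      simp only [Multiset.count_add, Multiset.count_replicate] at this ⊢
      split_ifs at this ⊢ <;> omega)
    (by simp at h5 ⊢; omega) (Or.inr (Or.inr ⟨k + 1, by simp, Nat.odd_iff.2 (by omega)⟩))
  obtain ⟨w, y, h14, h15, rfl⟩ := H58.exists_of_le_add_replicate h11
  obtain ⟨u, x, h16, h17, rfl⟩ := H58.exists_of_le_add_replicate h14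
  have h18 : u.sum % 2 = 0 := Nat.mod_eq_zero_of_dvd (Multiset.dvd_sum fun j hj =>
    Nat.dvd_of_mod_eq_zero (h10 j (Multiset.mem_of_le h16 hj)))
  rw [Nat.even_iff] at hme
  have h19 : ∀ j, Even j → Even (u.count j) := fun j hj => by
    have := h13 j hj
    rw [Nat.even_iff] at hj this ⊢
    simp only [Multiset.count_add, Multiset.count_replicate] at this ⊢
    split_ifs at this <;> omega
  simp only [Multiset.sum_add, Multiset.sum_replicate, smul_eq_mul] at h12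
  obtain ⟨rfl, rfl⟩ | ⟨rfl, rfl⟩ : x = 0 ∧ y = 0 ∨ x = 1 ∧ y = 1 := by
    interval_cases x <;> interval_cases y <;> omega
  · exact ⟨u, h16.trans (Multiset.le_add_left _ _), by omega, h19⟩
  · refine ⟨Multiset.replicate 2 k + u, add_le_add_right h16 _, by simp; omega, fun j hj => ?_⟩
    rw [Multiset.count_add, Multiset.count_replicate]
    refine Even.add ?_ (h19 j hj)
    split_ifs <;> simp

end Cfsg.Agent.S5994
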